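import Cfsg.Agent.H97.SympElements
import Cfsg.Agent.H2.Decomp

/-! Nondegenerate invariant subspaces of symplectic elements of odd prime order. -/

namespace Cfsg.Agent.H97

open Module Polynomial

variable {F V : Type*} [Field F] [Finite F] [AddCommGroup V] [Module F V] [FiniteDimensional F V]

omit [Finite F] [FiniteDimensional F V] in
/-- Nondegenerate subspaces carry nondegenerate forms. -/
theorem NondegOn.restrict {B : LinearMap.BilinForm F V} (hA : B.IsAlt) {W : Submodule F V} (hW : NondegOn B W) :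
    (B.restrict W).Nondegenerate :=
  H2.restrict_nondegenerate B hA hW

omit [Finite F] in
/-- Nondegenerate subspaces of an alternating space have even dimension. -/
theorem NondegOn.even_finrank {B : LinearMap.BilinForm F V} (hA : B.IsAlt) {W : Submodule F V}
    (hW : NondegOn B W) : Even (finrank F W) := by
  obtain ⟨m, -, hm, -⟩ := H2.exists_equiv_std (B.restrict W) (hW.restrict hA) fun v => hA (v : V)
  exact ⟨m, by rw [hm, two_mul]⟩

omit [Finite F] in
/-- Splitting a nondegenerate invariant subspace along a nondegenerate invariant piece. -/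
theorem nondegOn_split_inv {B : LinearMap.BilinForm F V} (hB : B.IsRefl) {x : End F V}
    (hxB : ∀ u v, B (x u) (x v) = B u v) (hinj : Function.Injective x)
    {P T : Submodule F V} (hTP : T ≤ P) (hPx : P.map x ≤ P) (hTx : T.map x ≤ T)
    (hP : NondegOn B P) (hT : NondegOn B T) :
    ∃ Q : Submodule F V, Q ≤ P ∧ Q.map x ≤ Q ∧ NondegOn B Q ∧ Disjoint T Q ∧ T ⊔ Q = P ∧
      ∀ t ∈ T, ∀ q ∈ Q, B t q = 0 := by
  have hd : Disjoint T (B.orthogonal T) := by
    rw [Submodule.disjoint_def]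
    exact fun v hv ho => hT v hv fun w hw => hB _ _ (ho w hw)
  have hc := (B.isCompl_orthogonal_iff_disjoint hB).2 hd
  have hsum : T ⊔ (P ⊓ B.orthogonal T) = P := by
    rw [inf_comm, ← sup_inf_assoc_of_le _ hTP, hc.sup_eq_top, top_inf_eq]
  have hTeq : T.map x = T := Submodule.eq_of_le_of_finrank_eq hTx
    (Submodule.equivMapOfInjective x hinj T).finrank_eq.symm
  refine ⟨P ⊓ B.orthogonal T, inf_le_left, ?_, ?_, hd.mono_right inf_le_right, hsum,
    fun t ht q hq => hq.2 t ht⟩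
  · rintro _ ⟨v, ⟨h1, h2⟩, rfl⟩
    refine ⟨hPx ⟨v, h1, rfl⟩, fun t ht => ?_⟩
    rw [← hTeq] at ht
    obtain ⟨t', ht', rfl⟩ := ht
    rw [hxB]
    exact h2 t' ht'
  · rintro v ⟨h1, h2⟩ hv
    refine hP v h1 fun w hw => ?_
    rw [← hsum] at hw
    obtain ⟨t, ht, q, hq, rfl⟩ := Submodule.mem_sup.1 hw
    rw [map_add, hB _ _ (h2 t ht), hv q hq, add_zero]

omit [Finite F] in
/-- Perpendicular nondegenerate subspaces add. -/
theorem NondegOn.sup {B : LinearMap.BilinForm F V} (hB : B.IsRefl) {T Q : Submodule F V} (hT : NondegOn B T)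
    (hQ : NondegOn B Q) (ho : ∀ t ∈ T, ∀ q ∈ Q, B t q = 0) :
    NondegOn B (T ⊔ Q) ∧ finrank F ↥(T ⊔ Q) = finrank F T + finrank F Q := by
  refine ⟨fun v hv h0 => ?_, ?_⟩
  · obtain ⟨t, ht, q, hq, rfl⟩ := Submodule.mem_sup.1 hv
    have h1 : t = 0 := hT t ht fun w hw => by
      have := h0 w (Submodule.mem_sup_left hw)
      rwa [map_add, LinearMap.add_apply, hB _ _ (ho w hw q hq), add_zero] at this
    have h2 : q = 0 := hQ q hq fun w hw => by
      have := h0 w (Submodule.mem_sup_right hw)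
      rwa [map_add, LinearMap.add_apply, ho t ht w hw, zero_add] at this
    rw [h1, h2, add_zero]
  · have hd : Disjoint T Q := by
      rw [Submodule.disjoint_def]
      exact fun v hv hv' => hT v hv fun w hw => hB _ _ (ho w hw v hv')
    have h1 := Submodule.finrank_sup_add_finrank_inf_eq T Q
    rwa [hd.eq_bot, finrank_bot, add_zero] at h1

omit [Finite F] in
/-- Nondegenerate invariant subspaces of all multiples of `c`, given pieces of dimension `c`. -/
theorem exists_nondeg_mul {B : LinearMap.BilinForm F V} (hB : B.IsRefl) {x : End F V}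
    (hxB : ∀ u v, B (x u) (x v) = B u v) (hinj : Function.Injective x) {c : ℕ} {P : Submodule F V}
    (hPx : P.map x ≤ P) (hP : NondegOn B P)
    (hstep : ∀ Q : Submodule F V, Q ≤ P → Q.map x ≤ Q → NondegOn B Q → Q ≠ ⊥ →
      ∃ T, T ≤ Q ∧ T.map x ≤ T ∧ NondegOn B T ∧ finrank F T = c)
    (l : ℕ) (hl : c * l ≤ finrank F P) :
    ∃ T, T ≤ P ∧ T.map x ≤ T ∧ NondegOn B T ∧ finrank F T = c * l := by
  induction l generalizing P with
  | zero => exact ⟨⊥, bot_le, by simp, fun v hv _ => (Submodule.mem_bot F).1 hv, by simp⟩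
  | succ l ih =>
    rcases Nat.eq_zero_or_pos c with rfl | hc
    · exact ⟨⊥, bot_le, by simp, fun v hv _ => (Submodule.mem_bot F).1 hv, by simp⟩
    have hP0 : P ≠ ⊥ := fun h => by
      rw [h, finrank_bot] at hl; have := Nat.mul_pos hc (show 0 < l + 1 by omega); omega
    obtain ⟨T, hTP, hTx, hT, hTd⟩ := hstep P le_rfl hPx hP hP0
    obtain ⟨Q, hQP, hQx, hQ, hd, hsum, ho⟩ := nondegOn_split_inv hB hxB hinj hTP hPx hTx hP hT
    have hdim := (hT.sup hB hQ ho).2
    rw [hsum, hTd] at hdim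
    obtain ⟨S, hSQ, hSx, hS, hSd⟩ := ih hQx hQ (fun R hR => hstep R (hR.trans hQP))
      (by rw [Nat.mul_succ] at hl; omega)
    obtain ⟨h1, h2⟩ := hT.sup hB hS fun t ht q hq => ho t ht q (hSQ hq)
    exact ⟨T ⊔ S, sup_le hTP (hSQ.trans hQP), map_sup_le hTx hSx, h1, by rw [h2, hTd, hSd, Nat.mul_succ, add_comm]⟩

omit [Finite F] in
/-- Hyperbolic planes in the fixed space. -/
theorem exists_nondeg_fixed {B : LinearMap.BilinForm F V} (hA : B.IsAlt) {x : End F V}
    (hxB : ∀ u v, B (x u) (x v) = B u v) (hinj : Function.Injective x) {P : Submodule F V}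
    (hPfix : P ≤ fixedSpace x) (hP : NondegOn B P) (e : ℕ) (he : 2 * e ≤ finrank F P) :
    ∃ T, T ≤ P ∧ T.map x ≤ T ∧ NondegOn B T ∧ finrank F T = 2 * e := by
  have hfixinv : ∀ Q : Submodule F V, Q ≤ fixedSpace x → Q.map x ≤ Q := by
    rintro Q hQ _ ⟨v, hv, rfl⟩
    rwa [mem_fixedSpace.1 (hQ hv)]
  refine exists_nondeg_mul hA.isRefl hxB hinj (hfixinv P hPfix) hP (fun Q hQP _ hQ hQ0 => ?_) e he
  obtain ⟨u, hu, hu0⟩ := (Submodule.ne_bot_iff Q).1 hQ0
  obtain ⟨w, hw, hne⟩ : ∃ w ∈ Q, B u w ≠ 0 := by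
    by_contra h; push Not at h; exact hu0 (hQ u hu h)
  have hle : Submodule.span F {u, w} ≤ Q :=
    Submodule.span_le.2 (Set.insert_subset hu (Set.singleton_subset_iff.2 hw))
  refine ⟨_, hle, hfixinv _ (hle.trans (hQP.trans hPfix)), fun y hy h0 => ?_, ?_⟩
  · obtain ⟨a, b, rfl⟩ := mem_span_pair'.1 hy
    have g1 := h0 u (Submodule.mem_span_of_mem (by simp))
    have g2 := h0 w (Submodule.mem_span_of_mem (by simp))
    simp only [map_add, map_smul, LinearMap.add_apply, LinearMap.smul_apply, smul_eq_mul, hA u, hA w,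
      ← hA.neg_eq u w, mul_zero, zero_add, add_zero, mul_neg, neg_eq_zero, mul_eq_zero, hne, or_false] at g1 g2
    simp [g1, g2]
  · have hw0 : w ≠ 0 := fun h => by simp [h] at hne
    have hnotin : u ∉ Submodule.span F {w} := fun h => by
      obtain ⟨a, rfl⟩ := Submodule.mem_span_singleton.1 h
      simp [hA w] at hne
    rw [show ({u, w} : Set V) = Set.range ![u, w] by simp [Set.pair_comm], finrank_span_eq_card, Fintype.card_fin]
    refine LinearIndependent.pair_iff.2 fun a b hab => ?_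
    have g1 := congrArg (fun z => B u z) hab
    have g2 := congrArg (fun z => B z w) hab
    simp [hA u, hA w, hne] at g1 g2
    exact ⟨g2, g1⟩

section odd

variable {r : ℕ} [Fact r.Prime]

omit [Finite F] [FiniteDimensional F V] [Fact r.Prime] in
/-- Polynomial evaluation and adjoints of isometries. -/
theorem aeval_adjoint {B : LinearMap.BilinForm F V} {x : End F V} (hxB : ∀ u v, B (x u) (x v) = B u v)
    (hx : x ^ r = 1) (hr : 0 < r) (f : F[X]) (w u : V) :
    B (aeval x f w) u = B w (aeval (x ^ (r - 1)) f u) := by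
  have hstep : ∀ (k : ℕ) (w u : V), B ((x ^ k) w) u = B w (((x ^ (r - 1)) ^ k) u) := by
    intro k
    induction k with
    | zero => intro w u; rfl
    | succ k ih =>
      intro w u
      have h1 : B ((x ^ (k + 1)) w) u = B ((x ^ k) w) ((x ^ (r - 1)) u) := by
        conv_lhs => rw [show u = x ((x ^ (r - 1)) u) by
          rw [← Module.End.mul_apply, ← pow_succ', Nat.sub_add_cancel hr, hx]; rfl,
          pow_succ', Module.End.mul_apply, hxB]
      rw [h1, ih, pow_succ (x ^ (r - 1)) k, Module.End.mul_apply]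
  induction f using Polynomial.induction_on' with
  | add f g hf hg => simp [hf, hg]
  | monomial k a => simp [aeval_monomial, Algebra.algebraMap_eq_smul_one, hstep]

/-- With `ord_r q` even, `-1` is a power of `q` modulo `r`. -/
theorem pow_half_ord (hr : (r : F) ≠ 0) (he : Even (orderOf (Nat.card F : ZMod r))) :
    (Nat.card F : ZMod r) ^ (orderOf (Nat.card F : ZMod r) / 2) = -1 := by
  have hpos := orderOf_pos_zmod (F := F) (r := r) hr
  obtain ⟨h, hh⟩ := he
  rw [show orderOf (Nat.card F : ZMod r) / 2 = h by omega]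
  have hsq : ((Nat.card F : ZMod r) ^ h) ^ 2 = 1 := by
    rw [← pow_mul, show h * 2 = orderOf (Nat.card F : ZMod r) by omega, pow_orderOf_eq_one]
  rcases sq_eq_one_iff.1 hsq with h1 | h1
  · exact absurd (orderOf_le_of_pow_eq_one (by omega) h1) (by omega)
  · exact h1

omit [FiniteDimensional F V] in
/-- Annihilating polynomials of `x ^ (r - 1)` are annihilating polynomials of `x`. -/
theorem aeval_of_inverse (hr : (r : F) ≠ 0) (he : Even (orderOf (Nat.card F : ZMod r))) {x : End F V}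
    (hx : x ^ r = 1) (f : F[X]) (U : Submodule F V) (hU : ∀ u ∈ U, aeval (x ^ (r - 1)) f u = 0) :
    ∀ u ∈ U, aeval x f u = 0 := by
  haveI := Fintype.ofFinite F
  have hQ := pow_half_ord (F := F) hr he
  set Q := Nat.card F ^ (orderOf (Nat.card F : ZMod r) / 2) with hQdef
  have hQpos : 0 < Q := pow_pos Nat.card_pos _
  have hr1 := (Fact.out : r.Prime).one_lt
  have hxQ : (x ^ (r - 1)) ^ Q = x := by
    rw [← pow_mul]
    have h1 : ((((r - 1) * Q : ℕ)) : ZMod r) = ((1 : ℕ) : ZMod r) := by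
      rw [Nat.cast_mul, Nat.cast_sub hr1.le, ZMod.natCast_self, hQdef, Nat.cast_pow, hQ, Nat.cast_one]; ring
    have h2 := (ZMod.natCast_eq_natCast_iff' _ _ _).1 h1
    rw [Nat.mod_eq_of_lt hr1] at h2
    rw [← Nat.div_add_mod ((r - 1) * Q) r, h2, pow_add, pow_mul, hx, one_pow, one_mul, pow_one]
  have hexp : ∀ (k : ℕ) (y : End F V), aeval (y ^ (Nat.card F ^ k)) f = (aeval y f) ^ (Nat.card F ^ k) := by
    intro k
    induction k with
    | zero => intro y; simp
    | succ k ih =>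
      intro y
      rw [pow_succ, pow_mul, pow_mul, ← ih, Nat.card_eq_fintype_card, ← Polynomial.expand_aeval,
        FiniteField.expand_card, map_pow]
  intro u hu
  rw [← hxQ, hQdef, hexp, ← hQdef]
  obtain ⟨Q', hQ'⟩ : ∃ Q', Q = Q' + 1 := ⟨Q - 1, by omega⟩
  rw [hQ', pow_succ, Module.End.mul_apply, hU u hu, map_zero]

/-- Invariant simple subspaces inside a fixed-point-free part. -/
theorem exists_simple_le (hr : (r : F) ≠ 0) {x : End F V} (hx : x ^ r = 1) {P : Submodule F V}
    (hPx : P.map x ≤ P) (hPM : P ≤ movedSpace x) (hP0 : P ≠ ⊥) :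
    ∃ W, W ≤ P ∧ W.map x ≤ W ∧ W ≠ ⊥ ∧ finrank F W = orderOf (Nat.card F : ZMod r) ∧
      ∀ U : Submodule F V, U ≤ W → U.map x ≤ U → U = ⊥ ∨ U = W := by
  classical
  haveI : Finite V := Module.finite_of_finite F
  haveI : Finite (Submodule F V) := Finite.of_injective _ SetLike.coe_injective
  haveI := Fintype.ofFinite (Submodule F V)
  obtain ⟨W, hW, hmin⟩ := (Finset.univ.filter fun W : Submodule F V => W ≤ P ∧ W.map x ≤ W ∧ W ≠ ⊥).exists_min_image
    (fun W => finrank F W) ⟨P, by simp [hPx, hP0]⟩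
  obtain ⟨h1, h2, h3⟩ := (Finset.mem_filter.1 hW).2
  have hirr : ∀ U : Submodule F V, U ≤ W → U.map x ≤ U → U = ⊥ ∨ U = W := fun U hU hUi => by
    by_contra h; push Not at h
    have := hmin U (by simp [hU.trans h1, hUi, h.1])
    exact h.2 (Submodule.eq_of_le_of_finrank_le hU this)
  exact ⟨W, h1, h2, h3, finrank_simple_moved hr x hx W h2 (h1.trans hPM) h3 hirr, hirr⟩

omit [Finite F] [Fact r.Prime] in
/-- A simple invariant subspace is either nondegenerate or totally isotropic. -/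
theorem simple_dichotomy {B : LinearMap.BilinForm F V} (hA : B.IsAlt) {x : End F V}
    (hxB : ∀ u v, B (x u) (x v) = B u v) (hinj : Function.Injective x) {W : Submodule F V} (hW : W.map x ≤ W)
    (hirr : ∀ U : Submodule F V, U ≤ W → U.map x ≤ U → U = ⊥ ∨ U = W) :
    NondegOn B W ∨ ∀ u ∈ W, ∀ v ∈ W, B u v = 0 := by
  have hWeq : W.map x = W := Submodule.eq_of_le_of_finrank_eq hW
    (Submodule.equivMapOfInjective x hinj W).finrank_eq.symm
  have hR : (W ⊓ B.orthogonal W).map x ≤ W ⊓ B.orthogonal W := by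
    rintro _ ⟨v, ⟨h1, h2⟩, rfl⟩
    refine ⟨hW ⟨v, h1, rfl⟩, fun t ht => ?_⟩
    rw [← hWeq] at ht
    obtain ⟨t', ht', rfl⟩ := ht
    rw [hxB]; exact h2 t' ht'
  rcases hirr _ inf_le_left hR with h | h
  · exact Or.inl fun v hv h0 => (Submodule.mem_bot F).1 (h ▸ ⟨hv, fun t ht => hA.isRefl _ _ (h0 t ht)⟩)
  · exact Or.inr fun u hu v hv => (h.ge hv).2 u hu

/-- Fixed-point-free nondegenerate subspaces contain nondegenerate pieces of dimension `lcm 2 (ord_r q)`. -/
theorem exists_nondeg_piece (hr : (r : F) ≠ 0) (hr2 : r ≠ 2) {B : LinearMap.BilinForm F V} (hA : B.IsAlt)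
    {x : End F V} (hxB : ∀ u v, B (x u) (x v) = B u v) (hx : x ^ r = 1) {P : Submodule F V}
    (hPx : P.map x ≤ P) (hP : NondegOn B P) (hPM : P ≤ movedSpace x) (hP0 : P ≠ ⊥) :
    ∃ T, T ≤ P ∧ T.map x ≤ T ∧ NondegOn B T ∧ finrank F T = Nat.lcm 2 (orderOf (Nat.card F : ZMod r)) := by
  have hr1 := (Fact.out : r.Prime).one_lt
  have hinv' : ∀ v, (x ^ (r - 1)) (x v) = v := fun v => by
    rw [← Module.End.mul_apply, ← pow_succ, Nat.sub_add_cancel hr1.le, hx]; rfl
  have hinj : Function.Injective x := Function.LeftInverse.injective hinv'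
  set i := orderOf (Nat.card F : ZMod r) with hidef
  obtain ⟨W, hWP, hWx, hW0, hWd, hirr⟩ := exists_simple_le hr hx hPx hPM hP0
  rcases simple_dichotomy hA hxB hinj hWx hirr with hWn | hWiso
  · obtain ⟨h, hh⟩ := hWn.even_finrank hA
    have he : 2 ∣ i := ⟨h, by omega⟩
    exact ⟨W, hWP, hWx, hWn, by rw [hWd, Nat.lcm_eq_right he]⟩
  -- a dual partner
  have hWeq : W.map x = W := Submodule.eq_of_le_of_finrank_eq hWx
    (Submodule.equivMapOfInjective x hinj W).finrank_eq.symm
  have hoinv : (P ⊓ B.orthogonal W).map x ≤ P ⊓ B.orthogonal W := by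
    rintro _ ⟨v, ⟨h1, h2⟩, rfl⟩
    refine ⟨hPx ⟨v, h1, rfl⟩, fun t ht => ?_⟩
    rw [← hWeq] at ht
    obtain ⟨t', ht', rfl⟩ := ht
    rw [hxB]; exact h2 t' ht'
  obtain ⟨U, hUx, hUsum, hUd⟩ := exists_inv_compl hr x hx P _ hPx hoinv inf_le_left
  have hUP : U ≤ P := le_sup_right.trans hUsum.le
  -- the pairing between `W` and `U`
  have hpairU : ∀ u ∈ U, (∀ w ∈ W, B w u = 0) → u = 0 := fun u hu h =>
    Submodule.disjoint_def.1 hUd u ⟨hUP hu, h⟩ hu
  have hpairW : ∀ w ∈ W, (∀ u ∈ U, B w u = 0) → w = 0 := fun w hw h => hP w (hWP hw) fun y hy => by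
    rw [← hUsum] at hy
    obtain ⟨a, ha, b, hb, rfl⟩ := Submodule.mem_sup.1 hy
    rw [map_add, ha.2 w hw, h b hb, zero_add]
  have hUdim : finrank F U = i := by
    let L1 : U →ₗ[F] Module.Dual F W := (B.flip.domRestrict₁₂ U W)
    let L2 : W →ₗ[F] Module.Dual F U := (B.domRestrict₁₂ W U)
    have h1 : finrank F U ≤ finrank F W := by
      rw [← Subspace.dual_finrank_eq (K := F) (V := W)]
      refine LinearMap.finrank_le_finrank_of_injective (f := L1) (LinearMap.ker_eq_bot.1 (LinearMap.ker_eq_bot'.2 fun u hu => ?_))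
      exact Subtype.ext (hpairU u u.2 fun w hw => LinearMap.congr_fun hu ⟨w, hw⟩)
    have h2 : finrank F W ≤ finrank F U := by
      rw [← Subspace.dual_finrank_eq (K := F) (V := U)]
      refine LinearMap.finrank_le_finrank_of_injective (f := L2) (LinearMap.ker_eq_bot.1 (LinearMap.ker_eq_bot'.2 fun w hw => ?_))
      exact Subtype.ext (hpairW w w.2 fun u hu => LinearMap.congr_fun hw ⟨u, hu⟩)
    omega
  have hWU : Disjoint W U := hUd.mono_left (show W ≤ P ⊓ B.orthogonal W from le_inf hWP fun v hv => fun t ht => hWiso t ht v hv)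
  rcases Nat.even_or_odd i with hev | hodd
  swap
  · -- `i` odd: the sum is the piece
    have hcop : Nat.Coprime 2 i := Nat.coprime_two_left.2 hodd
    refine ⟨W ⊔ U, sup_le hWP hUP, map_sup_le hWx hUx, fun v hv h0 => ?_, ?_⟩
    · obtain ⟨w, hw, u, hu, rfl⟩ := Submodule.mem_sup.1 hv
      have hu0 : u = 0 := hpairU u hu fun w' hw' => hA.isRefl _ _ (by
        have := h0 w' (Submodule.mem_sup_left hw')
        rwa [map_add, LinearMap.add_apply, hWiso w hw w' hw', zero_add] at this)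
      subst hu0
      rw [add_zero] at h0 ⊢
      exact hpairW w hw fun u hu => h0 u (Submodule.mem_sup_right hu)
    · have h1 := Submodule.finrank_sup_add_finrank_inf_eq W U
      rw [hWU.eq_bot, finrank_bot, add_zero, hWd, hUdim] at h1
      rw [h1, hcop.lcm_eq_mul, two_mul]
  -- `i` even
  obtain ⟨w0, hw0, hw00⟩ := (Submodule.ne_bot_iff W).1 hW0
  have hU0 : U ≠ ⊥ := fun h => by
    have := hUdim; rw [h, finrank_bot] at this
    have := orderOf_pos_zmod (F := F) (r := r) hr; omega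
  obtain ⟨u0, hu0, hu00⟩ := (Submodule.ne_bot_iff U).1 hU0
  have hUirr : ∀ T : Submodule F V, T ≤ U → T.map x ≤ T → T = ⊥ ∨ T = U := by
    intro T hT hTi
    by_contra h; push Not at h
    obtain ⟨S, hST, -, -, hSd, -⟩ := exists_simple_le hr hx hTi ((hT.trans hUP).trans hPM) h.1
    have h1 := Submodule.finrank_mono hST
    exact h.2 (Submodule.eq_of_le_of_finrank_le hT (by omega))
  -- orbit maps
  let ev : V → (F[X] →ₗ[F] V) := fun v => (LinearMap.applyₗ v).comp (aeval x).toLinearMap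
  have hev' : ∀ v f, ev v f = aeval x f v := fun _ _ => rfl
  have hevX : ∀ v f, ev v (X * f) = x (ev v f) := fun v f => by simp [hev']
  have hinvf : ∀ {A : Submodule F V}, A.map x ≤ A → ∀ f : F[X], ∀ a ∈ A, aeval x f a ∈ A := by
    intro A hA' f
    induction f using Polynomial.induction_on' with
    | add f g hf hg => intro a ha; simpa using A.add_mem (hf a ha) (hg a ha)
    | monomial k s =>
      intro a ha
      have : ∀ k : ℕ, (x ^ k) a ∈ A := fun k => by
        induction k with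
        | zero => exact ha
        | succ k ih => rw [pow_succ', Module.End.mul_apply]; exact hA' ⟨_, ih, rfl⟩
      simpa [aeval_monomial, Algebra.algebraMap_eq_smul_one] using A.smul_mem s (this k)
  have hrange : ∀ {A : Submodule F V} (a : V), A.map x ≤ A →
      (∀ T : Submodule F V, T ≤ A → T.map x ≤ T → T = ⊥ ∨ T = A) → a ∈ A → a ≠ 0 → LinearMap.range (ev a) = A := by
    intro A a hA' hAirr ha ha0
    have hmem : a ∈ LinearMap.range (ev a) := ⟨1, by simp [hev']⟩
    have h1 : LinearMap.range (ev a) ≤ A := by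
      rintro _ ⟨f, rfl⟩; exact hinvf hA' f a ha
    have h2 : (LinearMap.range (ev a)).map x ≤ LinearMap.range (ev a) := by
      rintro _ ⟨_, ⟨f, rfl⟩, rfl⟩; exact ⟨X * f, hevX a f⟩
    rcases hAirr _ h1 h2 with h | h
    · exact absurd ((Submodule.mem_bot F).1 (h ▸ hmem)) ha0
    · exact h
  have hrW := hrange w0 hWx hirr hw0 hw00
  have hrU := hrange u0 hUx hUirr hu0 hu00
  have hker : LinearMap.ker (ev w0) ≤ LinearMap.ker (ev u0) := by
    intro f hf
    refine aeval_of_inverse hr hev hx f U (fun u hu => ?_) u0 hu0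
    refine hpairU _ (hinvf (A := U) hUx (f.comp (X ^ (r - 1))) u hu |> fun h => by
      simpa [aeval_comp] using h) fun w hw => ?_
    rw [← aeval_adjoint hxB hx (by omega)]
    obtain ⟨g, rfl⟩ := hrW.ge hw
    have hf' : aeval x f w0 = 0 := hf
    rw [hev', ← Module.End.mul_apply, ← map_mul, mul_comm, map_mul, Module.End.mul_apply, hf', map_zero]
    simp
  let T0 : LinearMap.range (ev w0) →ₗ[F] V :=
    ((LinearMap.ker (ev w0)).liftQ (ev u0) hker).comp (ev w0).quotKerEquivRange.symm.toLinearMap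
  have hT0 : ∀ f : F[X], T0 ⟨ev w0 f, ⟨f, rfl⟩⟩ = ev u0 f := by
    intro f
    have : (ev w0).quotKerEquivRange.symm ⟨ev w0 f, ⟨f, rfl⟩⟩ = Submodule.Quotient.mk f := by
      rw [LinearEquiv.symm_apply_eq]; exact Subtype.ext rfl
    simp [T0, this]
  have hrT0 : LinearMap.range T0 = U := by
    refine le_antisymm ?_ ?_
    · rintro _ ⟨⟨_, f, rfl⟩, rfl⟩
      rw [hT0]; exact hrU.le ⟨f, rfl⟩
    · rw [← hrU]; rintro _ ⟨f, rfl⟩; exact ⟨_, hT0 f⟩
  have hinjT : Function.Injective T0 := by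
    refine LinearMap.ker_eq_bot.1 (Submodule.finrank_eq_zero.1 ?_)
    have h1 := LinearMap.finrank_range_add_finrank_ker T0
    rw [hrT0, hUdim, (LinearEquiv.ofEq _ _ hrW).finrank_eq, hWd] at h1
    omega
  let T : W →ₗ[F] V := T0.comp (LinearEquiv.ofEq _ _ hrW.symm).toLinearMap
  have hTU : ∀ w : W, T w ∈ U := fun w => hrT0.le ⟨_, rfl⟩
  have hTinj : Function.Injective T := hinjT.comp (LinearEquiv.injective _)
  have hTsurj : ∀ u ∈ U, ∃ w : W, T w = u := fun u hu => by
    obtain ⟨y, hy⟩ := hrT0.ge hu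
    exact ⟨LinearEquiv.ofEq _ _ hrW y, hy⟩
  let xW : W →ₗ[F] W := x.restrict fun v hv => hWx ⟨v, hv, rfl⟩
  have hTx : ∀ w : W, T (xW w) = x (T w) := by
    intro w
    obtain ⟨f, hf⟩ := hrW.ge w.2
    have e1 : LinearEquiv.ofEq _ _ hrW.symm w = ⟨ev w0 f, ⟨f, rfl⟩⟩ := Subtype.ext hf.symm
    have e2 : LinearEquiv.ofEq _ _ hrW.symm (xW w) = ⟨ev w0 (X * f), ⟨X * f, rfl⟩⟩ :=
      Subtype.ext ((congrArg x hf).symm.trans (hevX w0 f).symm)
    show T0 (LinearEquiv.ofEq _ _ hrW.symm (xW w)) = x (T0 (LinearEquiv.ofEq _ _ hrW.symm w))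
    rw [e1, e2, hT0, hT0, hevX]
  have hUiso : ∀ u ∈ U, ∀ v ∈ U, B u v = 0 ∨ NondegOn B U := fun u hu v hv => by
    rcases simple_dichotomy hA hxB hinj hUx hUirr with h | h
    exacts [Or.inr h, Or.inl (h u hu v hv)]
  by_cases hUn : NondegOn B U
  · obtain ⟨h, hh⟩ := hUn.even_finrank hA
    exact ⟨U, hUP, hUx, hUn, by rw [hUdim, Nat.lcm_eq_right ⟨h, by omega⟩]⟩
  -- a diagonal subspace
  suffices h : ∃ S : W →ₗ[F] V, (∀ w, S w ∈ U) ∧ (∀ w, S (xW w) = x (S w)) ∧
      ∃ w w' : W, B w (S w') + B (S w) w' ≠ 0 by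
    obtain ⟨S, hSU, hSx, w, w', hne⟩ := h
    let D : Submodule F V := LinearMap.range (W.subtype + S)
    have hinjD : Function.Injective (W.subtype + S) := by
      refine LinearMap.ker_eq_bot.1 (LinearMap.ker_eq_bot'.2 fun v hv => ?_)
      have h1 : (v : V) ∈ U := by
        have h2 : (v : V) + S v = 0 := hv
        rw [eq_neg_of_add_eq_zero_left h2]; exact U.neg_mem (hSU v)
      exact Subtype.ext (Submodule.disjoint_def.1 hWU v v.2 h1)
    have hDd : finrank F D = i := by rw [LinearMap.finrank_range_of_inj hinjD, hWd]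
    have hDx : D.map x ≤ D := by
      rintro _ ⟨_, ⟨v, rfl⟩, rfl⟩
      exact ⟨xW v, by simp [hSx]; rfl⟩
    have hDP : D ≤ P := by
      rintro _ ⟨v, rfl⟩; exact P.add_mem (hWP v.2) (hUP (hSU v))
    have hDirr : ∀ T : Submodule F V, T ≤ D → T.map x ≤ T → T = ⊥ ∨ T = D := by
      intro T hT hTi
      by_contra h; push Not at h
      obtain ⟨S', hST, -, -, hSd, -⟩ := exists_simple_le hr hx hTi ((hT.trans hDP).trans hPM) h.1
      have h1 := Submodule.finrank_mono hST
      exact h.2 (Submodule.eq_of_le_of_finrank_le hT (by omega))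
    rcases simple_dichotomy hA hxB hinj hDx hDirr with hDn | hDiso
    · exact ⟨D, hDP, hDx, hDn, by rw [hDd, Nat.lcm_eq_right hev.two_dvd]⟩
    · exfalso
      have h0 := hDiso _ ⟨w, rfl⟩ _ ⟨w', rfl⟩
      simp only [LinearMap.add_apply, Submodule.coe_subtype, map_add, hWiso _ w.2 _ w'.2] at h0
      rcases hUiso _ (hSU w) _ (hSU w') with h1 | h1
      · rw [h1] at h0; exact hne (by linear_combination h0)
      · exact hUn h1
  by_contra hall
  push Not at hall
  have h1 := hall T hTU hTx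
  have h2 := hall (T.comp xW) (fun w => hTU _) (fun w => by
    show T (xW (xW w)) = x (T (xW w)); rw [hTx])
  -- `x ^ 2` is trivial on `W`
  have hxx : ∀ w : W, (xW (xW w) : V) = w := by
    intro w
    have hkey : ∀ v : W, B (v : V) (T (xW (xW w)) - T w) = 0 := by
      intro v
      have a4 := h2 v (xW w)
      have a5 := h1 v w
      have c2 : B (T (xW v)) (xW w : V) = B (T v) (w : V) := by rw [hTx]; exact hxB _ _
      simp only [LinearMap.comp_apply] at a4
      rw [map_sub, sub_eq_zero]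
      linear_combination a4 - c2 - a5
    have h3 : T (xW (xW w)) - T w = 0 := hpairU _ (U.sub_mem (hTU _) (hTU _)) fun y hy => hkey ⟨y, hy⟩
    exact congrArg Subtype.val (hTinj (sub_eq_zero.1 h3))
  refine hw00 (Submodule.disjoint_def.1 (disjoint_fixed_moved hr x hx) w0 (mem_fixedSpace.2 ?_)
    (hPM (hWP hw0)))
  have h3 : x (x w0) = w0 := hxx ⟨w0, hw0⟩
  obtain ⟨k, hk⟩ := (Fact.out : r.Prime).odd_of_ne_two hr2
  have h4 : ∀ k : ℕ, (x ^ (2 * k)) w0 = w0 := by
    intro k
    induction k with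
    | zero => rfl
    | succ k ih => rw [Nat.mul_succ, pow_add, pow_two, Module.End.mul_apply, Module.End.mul_apply, h3, ih]
  calc x w0 = x ((x ^ (2 * k)) w0) := by rw [h4]
    _ = (x ^ r) w0 := by rw [hk, pow_succ', Module.End.mul_apply]
    _ = w0 := by rw [hx]; rfl

end odd

end Cfsg.Agent.H97
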