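import Mathlib
import Cfsg.Agent.H2.Basis
import Cfsg.Agent.H97.Twisted

set_option autoImplicit false

/-!
# Square-scalar operators preserve some alternating form up to a scalar
-/

namespace Cfsg.Agent.H97

open Module Matrix

variable {F : Type*} [Field F]

/-- Some form is kept up to a scalar, and commuting operators have every determinant. -/
def GoodSymp {V : Type*} [AddCommGroup V] [Module F V] (x : End F V) : Prop :=
  (∃ (B : LinearMap.BilinForm F V) (c : F), B.IsAlt ∧ B.Nondegenerate ∧ c ≠ 0 ∧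
      ∀ u v, B (x u) (x v) = c * B u v) ∧
    ∀ μ : F, μ ≠ 0 → ∃ s : End F V, x * s = s * x ∧ LinearMap.det s = μ

theorem GoodSymp.transport {V W : Type*} [AddCommGroup V] [Module F V] [AddCommGroup W] [Module F W]
    (e : V ≃ₗ[F] W) {x : End F V} {y : End F W} (hxy : ∀ v, e (x v) = y (e v)) (h : GoodSymp y) :
    GoodSymp x := by
  obtain ⟨⟨B, c, hA, hB, hc, hBy⟩, hdet⟩ := h
  refine ⟨⟨B.compl₁₂ e.toLinearMap e.toLinearMap, c, fun v => hA (e v), ⟨fun u hu => ?_, fun v hv => ?_⟩,
    hc, fun u v => ?_⟩, fun μ hμ => ?_⟩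
  · refine e.injective ((hB.1 (e u) fun w => ?_).trans (map_zero e).symm)
    simpa using hu (e.symm w)
  · refine e.injective ((hB.2 (e v) fun w => ?_).trans (map_zero e).symm)
    simpa using hv (e.symm w)
  · show B (e (x u)) (e (x v)) = c * B (e u) (e v)
    rw [hxy, hxy, hBy]
  · obtain ⟨s, hs, hsd⟩ := hdet μ hμ
    refine ⟨e.symm.conj s, LinearMap.ext fun v => e.injective ?_, by
      rw [LinearEquiv.conj_apply, LinearMap.comp_assoc, LinearMap.det_conj s e.symm, hsd]⟩
    simp only [Module.End.mul_apply, LinearEquiv.conj_apply_apply, LinearEquiv.symm_symm,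
      LinearEquiv.apply_symm_apply, hxy]
    exact LinearMap.congr_fun hs (e v)

/-- The sum of two alternating forms. -/
theorem exists_sum_form {V W : Type*} [AddCommGroup V] [Module F V] [AddCommGroup W] [Module F W]
    {B : LinearMap.BilinForm F V} {C : LinearMap.BilinForm F W} (hBa : B.IsAlt) (hB : B.Nondegenerate)
    (hCa : C.IsAlt) (hC : C.Nondegenerate) :
    ∃ D : LinearMap.BilinForm F (V × W), D.IsAlt ∧ D.Nondegenerate ∧
      ∀ x y, D x y = B x.1 y.1 + C x.2 y.2 := by
  let D : LinearMap.BilinForm F (V × W) :=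
    B.compl₁₂ (LinearMap.fst F V W) (LinearMap.fst F V W) +
      C.compl₁₂ (LinearMap.snd F V W) (LinearMap.snd F V W)
  have hD : ∀ x y, D x y = B x.1 y.1 + C x.2 y.2 := fun x y => rfl
  refine ⟨D, fun x => ?_, ⟨fun x hx => Prod.ext (hB.1 _ fun v => ?_) (hC.1 _ fun w => ?_),
    fun x hx => Prod.ext (hB.2 _ fun v => ?_) (hC.2 _ fun w => ?_)⟩, hD⟩
  · show D x x = 0
    rw [hD, hBa, hCa, add_zero]
  · simpa [hD] using hx (v, 0)
  · simpa [hD] using hx (0, w)
  · simpa [hD] using hx (v, 0)
  · simpa [hD] using hx (0, w)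

/-- Even-dimensional spaces have non-degenerate alternating forms. -/
theorem exists_alt_form {V : Type*} [AddCommGroup V] [Module F V] [FiniteDimensional F V]
    (h : Even (finrank F V)) : ∃ B : LinearMap.BilinForm F V, B.IsAlt ∧ B.Nondegenerate := by
  obtain ⟨k, hk⟩ := h
  let e : V ≃ₗ[F] (Fin k ⊕ Fin k → F) := LinearEquiv.ofFinrankEq _ _ (by simp [hk])
  refine ⟨(H2.sympBilin k F).compl₁₂ e.toLinearMap e.toLinearMap,
    fun v => H2.sympBilin_isAlt k F (e v), ⟨fun u hu => ?_, fun v hv => ?_⟩⟩
  · refine e.injective (((H2.sympBilin_nondegenerate k F).1 (e u) fun w => ?_).trans (map_zero e).symm)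
    simpa using hu (e.symm w)
  · refine e.injective (((H2.sympBilin_nondegenerate k F).2 (e v) fun w => ?_).trans (map_zero e).symm)
    simpa using hv (e.symm w)

/-- Operators of every determinant on a non-zero space. -/
theorem exists_det_eq {V : Type*} [AddCommGroup V] [Module F V] [FiniteDimensional F V]
    (h : 0 < finrank F V) (μ : F) : ∃ s : End F V, LinearMap.det s = μ := by
  let b := Module.finBasis F V
  refine ⟨Matrix.toLin b b (diagonal (Function.update 1 ⟨0, h⟩ μ)), ?_⟩
  rw [LinearMap.det_toLin, det_diagonal, Finset.prod_update_of_mem (Finset.mem_univ _)]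
  simp

section pairs

variable {l : ℕ}

/-- The operator acting on the `i`th pair of coordinates by `M i`. -/
def pairMap (M : Fin l → Matrix (Fin 2) (Fin 2) F) : End F (Fin l ⊕ Fin l → F) :=
  Matrix.toLin' (fromBlocks (diagonal fun i => M i 0 0) (diagonal fun i => M i 0 1)
    (diagonal fun i => M i 1 0) (diagonal fun i => M i 1 1))

theorem pairMap_apply (M : Fin l → Matrix (Fin 2) (Fin 2) F) (v : Fin l ⊕ Fin l → F) :
    pairMap M v = Sum.elim (fun i => M i 0 0 * v (.inl i) + M i 0 1 * v (.inr i))
      (fun i => M i 1 0 * v (.inl i) + M i 1 1 * v (.inr i)) := by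
  conv_lhs => rw [← Sum.elim_comp_inl_inr v]
  rw [pairMap, Matrix.toLin'_apply, fromBlocks_mulVec]
  funext i
  rcases i with i | i <;> simp [mulVec_diagonal]

theorem det_pairMap (M : Fin l → Matrix (Fin 2) (Fin 2) F) :
    LinearMap.det (pairMap M) = ∏ i, (M i).det := by
  let e : Fin 2 × Fin l ≃ Fin l ⊕ Fin l :=
    { toFun := fun p => if p.1 = 0 then .inl p.2 else .inr p.2
      invFun := Sum.elim (fun i => (0, i)) (fun i => (1, i))
      left_inv := fun p => by
        obtain ⟨a, i⟩ := p
        fin_cases a <;> simp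
      right_inv := fun s => by rcases s with i | i <;> simp }
  rw [pairMap, LinearMap.det_toLin', ← det_blockDiagonal,
    ← det_reindex_self e (blockDiagonal M)]
  congr 1
  ext a b
  rcases a with a | a <;> rcases b with b | b <;>
    simp [e, blockDiagonal_apply, diagonal_apply]

theorem pairMap_symp (M : Fin l → Matrix (Fin 2) (Fin 2) F) {c : F} (hc : ∀ i, (M i).det = c)
    (u v : Fin l ⊕ Fin l → F) :
    Cfsg.sympForm l F (pairMap M u) (pairMap M v) = c * Cfsg.sympForm l F u v := by
  simp only [Cfsg.sympForm, Matrix.J, dotProduct, Fintype.sum_sum_type, pairMap_apply,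
    fromBlocks_mulVec, Sum.elim_inl, Sum.elim_inr, neg_mulVec, zero_mulVec, one_mulVec,
    Pi.add_apply, Pi.zero_apply, Pi.neg_apply, Function.comp_apply, zero_add, add_zero, mul_add,
    Finset.mul_sum, ← Finset.sum_add_distrib]
  refine Finset.sum_congr rfl fun i _ => ?_
  rw [← hc i, det_fin_two]
  ring

theorem pairMap_mul (M N : Fin l → Matrix (Fin 2) (Fin 2) F) :
    pairMap M * pairMap N = pairMap fun i => M i * N i := by
  refine LinearMap.ext fun v => ?_
  rw [Module.End.mul_apply, pairMap_apply, pairMap_apply, pairMap_apply]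
  funext i
  rcases i with i | i <;> simp [Matrix.mul_apply, Fin.sum_univ_two] <;> ring

end pairs

/-- Eigenspace case. -/
theorem goodSymp_split {V : Type*} [AddCommGroup V] [Module F V] [FiniteDimensional F V]
    (h2 : (2 : F) ≠ 0) {w : F} (hw : w ≠ 0) (x : End F V) (hx : x * x = (w * w) • 1)
    (hn : Even (finrank F V)) (hpos : 0 < finrank F V) (hdet : LinearMap.det x = 1)
    (hno : ∀ u : F, u ^ finrank F V ≠ -1) : GoodSymp x := by
  set P := LinearMap.ker (x - w • 1) with hP
  set N := LinearMap.ker (x + w • 1) with hN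
  have hxx : ∀ v, x (x v) = (w * w) • v := fun v => LinearMap.congr_fun hx v
  have hPv : ∀ v ∈ P, x v = w • v := fun v hv => sub_eq_zero.1 (LinearMap.mem_ker.1 hv)
  have hNv : ∀ v ∈ N, x v = -(w • v) := fun v hv => eq_neg_of_add_eq_zero_left (LinearMap.mem_ker.1 hv)
  have h2w : (2 * w) ≠ 0 := mul_ne_zero h2 hw
  have hcompl : IsCompl P N := by
    refine ⟨Submodule.disjoint_def.2 fun v h1 h3 => ?_, codisjoint_iff.2 ?_⟩
    · have h4 : (2 * w) • v = 0 := by
        have := (hPv v h1).symm.trans (hNv v h3)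
        rw [mul_smul, two_smul]
        exact add_eq_zero_iff_eq_neg.2 this
      exact (smul_eq_zero.1 h4).resolve_left h2w
    · refine Submodule.eq_top_iff'.2 fun v => Submodule.mem_sup.2
        ⟨(2 * w)⁻¹ • (w • v + x v), ?_, (2 * w)⁻¹ • (w • v - x v), ?_, ?_⟩
      · rw [hP, LinearMap.mem_ker, map_smul]
        simp only [LinearMap.sub_apply, LinearMap.smul_apply, Module.End.one_apply, map_add, map_smul, hxx]
        module
      · rw [hN, LinearMap.mem_ker, map_smul]
        simp only [LinearMap.add_apply, LinearMap.smul_apply, Module.End.one_apply, map_sub, map_smul, hxx]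
        module
      · rw [← smul_add, show w • v + x v + (w • v - x v) = (2 * w) • v by module, smul_smul,
          inv_mul_cancel₀ h2w, one_smul]
  set e := (Submodule.prodEquivOfIsCompl P N hcompl).symm
  set y : End F (P × N) := LinearMap.prodMap (w • LinearMap.id) ((-w) • LinearMap.id) with hy
  have hxy : ∀ v, e (x v) = y (e v) := fun v => by
    obtain ⟨⟨a, b⟩, rfl⟩ := (Submodule.prodEquivOfIsCompl P N hcompl).surjective v
    show e (x ((Submodule.prodEquivOfIsCompl P N hcompl) (a, b))) = y (e _)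
    rw [LinearEquiv.symm_apply_apply, LinearEquiv.symm_apply_eq]
    simp [hy, hPv _ a.2, hNv _ b.2]
  have hdim : finrank F P + finrank F N = finrank F V := Submodule.finrank_add_eq_of_isCompl hcompl
  have hdety : LinearMap.det y = 1 := by
    rw [← hdet, ← LinearMap.det_conj x e]
    congr 1
    refine LinearMap.ext fun p => ?_
    rw [LinearMap.comp_apply, LinearMap.comp_apply, LinearEquiv.coe_coe, LinearEquiv.coe_coe, hxy,
      LinearEquiv.apply_symm_apply]
  rw [hy, LinearMap.det_prodMap, LinearMap.det_smul, LinearMap.det_smul, LinearMap.det_id,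
    LinearMap.det_id, mul_one, mul_one, neg_pow, mul_left_comm, ← pow_add, hdim] at hdety
  have hNe : Even (finrank F N) := by
    rcases Nat.even_or_odd (finrank F N) with h | h
    · exact h
    · rw [h.neg_one_pow, neg_one_mul] at hdety
      exact absurd (neg_eq_iff_eq_neg.1 hdety) (hno w)
  have hPe : Even (finrank F P) := by
    rw [← hdim] at hn
    exact (Nat.even_add.1 hn).2 hNe
  refine GoodSymp.transport e hxy ⟨?_, fun μ hμ => ?_⟩
  · obtain ⟨B, hBa, hB⟩ := exists_alt_form hPe
    obtain ⟨C, hCa, hC⟩ := exists_alt_form hNe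
    obtain ⟨D, hDa, hD, hDD⟩ := exists_sum_form hBa hB hCa hC
    refine ⟨D, w * w, hDa, hD, mul_ne_zero hw hw, fun u v => ?_⟩
    simp [hy, hDD]
    ring
  · rcases Nat.eq_zero_or_pos (finrank F P) with h | h
    · obtain ⟨s, hs⟩ := exists_det_eq (V := N) (by omega) μ
      exact ⟨LinearMap.prodMap LinearMap.id s, LinearMap.ext fun u => by simp [hy],
        by rw [LinearMap.det_prodMap, LinearMap.det_id, one_mul, hs]⟩
    · obtain ⟨s, hs⟩ := exists_det_eq (V := P) h μ
      exact ⟨LinearMap.prodMap s LinearMap.id, LinearMap.ext fun u => by simp [hy],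
        by rw [LinearMap.det_prodMap, LinearMap.det_id, mul_one, hs]⟩

/-- Non-square case. -/
theorem goodSymp_twisted [Fintype F] {V : Type*} [AddCommGroup V] [Module F V] [FiniteDimensional F V]
    {z : F} (hz0 : z ≠ 0) (hz : ∀ w : F, w ^ 2 ≠ z) (x : End F V) (hx : x * x = z • 1)
    (hpos : 0 < finrank F V) : GoodSymp x := by
  classical
  haveI : Fact (Nat.Prime 2) := ⟨Nat.prime_two⟩
  obtain ⟨l, w, b, hb⟩ := exists_twisted_basis (r := 2) hz0 hz x (by rw [pow_two, hx])
  let i2 : Fin l × Fin 2 ≃ Fin l ⊕ Fin l :=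
    { toFun := fun p => if p.2 = 0 then .inl p.1 else .inr p.1
      invFun := Sum.elim (fun i => (i, 0)) (fun i => (i, 1))
      left_inv := fun p => by
        obtain ⟨i, a⟩ := p
        fin_cases a <;> simp
      right_inv := fun s => by rcases s with i | i <;> simp }
  let b' := b.reindex i2
  let e : V ≃ₗ[F] (Fin l ⊕ Fin l → F) := b'.equivFun
  set M : Fin l → Matrix (Fin 2) (Fin 2) F := fun _ => !![0, z; 1, 0] with hM
  have hxy : ∀ v, e (x v) = pairMap M (e v) := by
    suffices h : e.toLinearMap ∘ₗ x = pairMap M ∘ₗ e.toLinearMap from fun v => LinearMap.congr_fun h v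
    refine b'.ext fun s => ?_
    rw [LinearMap.comp_apply, LinearMap.comp_apply]
    show e (x (b' s)) = pairMap M (e (b' s))
    rcases s with k | k
    · have h1 : x (b' (.inl k)) = b' (.inr k) := by simp [b', i2, hb]
      rw [h1]
      funext t
      rcases t with t | t <;> simp [e, pairMap_apply, hM, Finsupp.single_apply, Basis.equivFun_self]
    · have h1 : x (b' (.inr k)) = z • b' (.inl k) := by
        have : x (x (w k)) = z • w k := LinearMap.congr_fun hx (w k)
        simpa [b', i2, hb] using this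
      rw [h1, map_smul]
      funext t
      rcases t with t | t <;> simp [e, pairMap_apply, hM, Finsupp.single_apply, Basis.equivFun_self]
  have hl : 0 < l := by
    rw [finrank_eq_card_basis b] at hpos
    simp at hpos
    exact hpos
  refine GoodSymp.transport e hxy ⟨⟨H2.sympBilin l F, -z, H2.sympBilin_isAlt l F,
    H2.sympBilin_nondegenerate l F, neg_ne_zero.2 hz0, fun u v => ?_⟩, fun μ hμ => ?_⟩
  · rw [H2.sympBilin_apply, H2.sympBilin_apply]
    exact pairMap_symp M (fun i => by simp [hM, det_fin_two]) u v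
  · obtain ⟨a, c, hac⟩ : ∃ a c : F, a * a - z * (c * c) = μ := by
      have hchar : ringChar F ≠ 2 := fun h => by
        obtain ⟨s, hs⟩ := FiniteField.isSquare_of_char_two h z
        exact hz s (by rw [pow_two, ← hs])
      obtain ⟨a, c, hac⟩ := FiniteField.exists_root_sum_quadratic (f := (Polynomial.X : Polynomial F) ^ 2)
        (g := Polynomial.C (-z) * Polynomial.X ^ 2 + Polynomial.C (-μ)) (Polynomial.degree_X_pow 2)
        (by rw [Polynomial.degree_add_C (by
              rw [Polynomial.degree_C_mul_X_pow 2 (neg_ne_zero.2 hz0)]; norm_num),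
            Polynomial.degree_C_mul_X_pow 2 (neg_ne_zero.2 hz0)]; rfl)
        (FiniteField.odd_card_of_char_ne_two hchar)
      refine ⟨a, c, ?_⟩
      simp at hac
      linear_combination hac
    refine ⟨pairMap (Function.update (fun _ => 1) ⟨0, hl⟩ !![a, z * c; c, a]), ?_, ?_⟩
    · rw [pairMap_mul, pairMap_mul]
      congr 1
      funext i
      by_cases h : i = ⟨0, hl⟩
      · subst h
        simp [hM]
        constructor <;> ring
      · simp [Function.update_of_ne h]
    · rw [det_pairMap, ← hac]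
      rw [Finset.prod_eq_single ⟨0, hl⟩ (fun i _ h => by simp [Function.update_of_ne h])
        (fun h => absurd (Finset.mem_univ _) h)]
      simp [det_fin_two]
      ring

/-- Characteristic-two case. -/
theorem goodSymp_charTwo [Fintype F] [CharP F 2] {V : Type*} [AddCommGroup V] [Module F V]
    [FiniteDimensional F V] {w : F} (hw : w ≠ 0) (x : End F V) (hx : x * x = (w * w) • 1)
    (hns : x ≠ w • 1) (hn : Even (finrank F V)) : GoodSymp x := by
  classical
  set N : End F V := w⁻¹ • x - 1 with hN
  have hdbl : ∀ u : V, u + u = 0 := fun u => by rw [← two_smul F u, CharTwo.two_eq_zero, zero_smul]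
  have hxx : ∀ v, x (x v) = (w * w) • v := fun v => LinearMap.congr_fun hx v
  have hNv : ∀ v, N v = w⁻¹ • x v - v := fun v => rfl
  have hxN : ∀ v, x v = w • (v + N v) := fun v => by
    rw [hNv, add_sub_cancel, smul_smul, mul_inv_cancel₀ hw, one_smul]
  have hNN : ∀ v, N (N v) = 0 := fun v => by
    rw [hNv, hNv]
    simp only [map_sub, map_smul, hxx, smul_sub, smul_smul]
    rw [show w⁻¹ * (w⁻¹ * (w * w)) = 1 by field_simp, one_smul,
      show v - w⁻¹ • x v - (w⁻¹ • x v - v) = (v + v) - (w⁻¹ • x v + w⁻¹ • x v) by abel, hdbl, hdbl,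
      sub_zero]
  obtain ⟨C, hC⟩ := (LinearMap.ker N).exists_isCompl
  obtain ⟨W, hW⟩ := (Submodule.comap (LinearMap.ker N).subtype (LinearMap.range N)).exists_isCompl
  let bC := Module.finBasis F C
  set j := finrank F C
  let φ : (Fin j → F) →ₗ[F] V := C.subtype ∘ₗ bC.equivFun.symm.toLinearMap
  let f : ((Fin j ⊕ Fin j → F) × W) →ₗ[F] V :=
    { toFun := fun p => φ (p.1 ∘ Sum.inl) + N (φ (p.1 ∘ Sum.inr)) + ((p.2 : LinearMap.ker N) : V)
      map_add' := fun p p' => by
        simp only [Prod.fst_add, Prod.snd_add, Pi.add_comp, map_add, Submodule.coe_add]; abel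
      map_smul' := fun c p => by
        simp only [Prod.smul_fst, Prod.smul_snd, Submodule.coe_smul, smul_add, RingHom.id_apply]
        rw [show (c • p.1) ∘ Sum.inl = c • (p.1 ∘ Sum.inl) from rfl,
          show (c • p.1) ∘ Sum.inr = c • (p.1 ∘ Sum.inr) from rfl, map_smul, map_smul, map_smul] }
  have hφC : ∀ a, φ a ∈ C := fun a => (bC.equivFun.symm a).2
  have hφ : Function.Injective φ := fun a a' h =>
    bC.equivFun.symm.injective (Subtype.ext h)
  have hker : ∀ a, N (φ a) = 0 → a = 0 := fun a ha => hφ (by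
    rw [map_zero]
    exact Submodule.disjoint_def.1 hC.disjoint _ (LinearMap.mem_ker.2 ha) (hφC a))
  have hfb : Function.Bijective f := by
    constructor
    · rw [← LinearMap.ker_eq_bot, Submodule.eq_bot_iff]
      rintro ⟨a, u⟩ h
      have h' : φ (a ∘ Sum.inl) + N (φ (a ∘ Sum.inr)) + ((u : LinearMap.ker N) : V) = 0 := h
      have h1 := congrArg N h'
      rw [map_add, map_add, hNN, LinearMap.mem_ker.1 u.1.2, map_zero, add_zero, add_zero] at h1
      have ha := hker _ h1
      rw [ha, map_zero, zero_add] at h'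
      have h3 : (u : LinearMap.ker N) ∈ Submodule.comap (LinearMap.ker N).subtype (LinearMap.range N) := by
        refine ⟨φ (-(a ∘ Sum.inr)), ?_⟩
        rw [map_neg, map_neg]
        exact neg_eq_of_add_eq_zero_right h'
      have h4 : (u : LinearMap.ker N) = 0 := Submodule.disjoint_def.1 hW.disjoint _ h3 u.2
      rw [h4, Submodule.coe_zero, add_zero] at h'
      have hb := hker _ h'
      refine Prod.ext (funext fun i => ?_) (Subtype.ext h4)
      rcases i with i | i
      · exact congrFun ha i
      · exact congrFun hb i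
    · intro v
      obtain ⟨k, hk, c, hc, rfl⟩ := Submodule.mem_sup.1 (hC.sup_eq_top ▸ Submodule.mem_top (x := v))
      obtain ⟨r, hr, u, hu, hru⟩ := Submodule.mem_sup.1 (hW.sup_eq_top ▸ Submodule.mem_top (x := (⟨k, hk⟩ : LinearMap.ker N)))
      obtain ⟨y, hy⟩ := (Submodule.mem_comap.1 hr : (r : V) ∈ LinearMap.range N)
      obtain ⟨k', hk', c', hc', rfl⟩ := Submodule.mem_sup.1 (hC.sup_eq_top ▸ Submodule.mem_top (x := y))
      refine ⟨(Sum.elim (bC.equivFun ⟨c, hc⟩) (bC.equivFun ⟨c', hc'⟩), ⟨u, hu⟩), ?_⟩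
      show φ (bC.equivFun ⟨c, hc⟩) + N (φ (bC.equivFun ⟨c', hc'⟩)) + (u : V) = k + c
      rw [map_add, LinearMap.mem_ker.1 hk', zero_add] at hy
      have e1 : (r : V) + (u : V) = k := congrArg Subtype.val hru
      simp only [φ, LinearMap.comp_apply, LinearEquiv.coe_coe, LinearEquiv.symm_apply_apply, Submodule.coe_subtype]
      rw [hy, ← e1, Submodule.subtype_apply]; abel
  let e := (LinearEquiv.ofBijective f hfb).symm
  set M : Fin j → Matrix (Fin 2) (Fin 2) F := fun _ => !![w, 0; w, w] with hM
  set y : End F ((Fin j ⊕ Fin j → F) × W) := LinearMap.prodMap (pairMap M) (w • LinearMap.id) with hy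
  have hxy : ∀ v, e (x v) = y (e v) := fun v => by
    obtain ⟨⟨a, u⟩, rfl⟩ := (LinearEquiv.ofBijective f hfb).surjective v
    show e (x _) = y (e _)
    rw [LinearEquiv.symm_apply_apply, LinearEquiv.symm_apply_eq]
    show x (f (a, u)) = f (y (a, u))
    rw [hxN]
    have hl : (pairMap M a) ∘ Sum.inl = w • (a ∘ Sum.inl) := by
      funext i; simp [pairMap_apply, hM]
    have hr : (pairMap M a) ∘ Sum.inr = w • (a ∘ Sum.inl + a ∘ Sum.inr) := by
      funext i; simp [pairMap_apply, hM, mul_add]
    show w • ((φ (a ∘ Sum.inl) + N (φ (a ∘ Sum.inr)) + ((u : LinearMap.ker N) : V)) +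
        N (φ (a ∘ Sum.inl) + N (φ (a ∘ Sum.inr)) + ((u : LinearMap.ker N) : V))) =
      φ ((pairMap M a) ∘ Sum.inl) + N (φ ((pairMap M a) ∘ Sum.inr)) + w • ((u : LinearMap.ker N) : V)
    rw [hl, hr, map_add N, map_add N, hNN, LinearMap.mem_ker.1 u.1.2]
    simp only [map_smul, map_add]
    module
  have hj : 0 < j := by
    by_contra h
    refine hns (LinearMap.ext fun v => ?_)
    have hC0 : C = ⊥ := Submodule.finrank_eq_zero.1 (show finrank F C = 0 by omega)
    have hv : v ∈ LinearMap.ker N := by
      have := hC.sup_eq_top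
      rw [hC0, sup_bot_eq] at this
      rw [this]; trivial
    rw [hxN, LinearMap.mem_ker.1 hv, add_zero]; rfl
  have hWe : Even (finrank F W) := by
    have := e.finrank_eq
    rw [finrank_prod, finrank_fintype_fun_eq_card, Fintype.card_sum, Fintype.card_fin] at this
    rw [this] at hn
    exact (Nat.even_add.1 hn).1 ⟨j, rfl⟩
  refine GoodSymp.transport e hxy ⟨?_, fun μ hμ => ?_⟩
  · obtain ⟨C', hCa, hC'⟩ := exists_alt_form hWe
    obtain ⟨D, hDa, hD, hDD⟩ := exists_sum_form (H2.sympBilin_isAlt j F) (H2.sympBilin_nondegenerate j F) hCa hC'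
    refine ⟨D, w * w, hDa, hD, mul_ne_zero hw hw, fun u v => ?_⟩
    rw [hDD, hDD, hy]
    simp only [LinearMap.prodMap_apply, LinearMap.smul_apply, LinearMap.id_coe, id_eq, map_smul,
      smul_eq_mul, H2.sympBilin_apply]
    rw [pairMap_symp M (c := w * w) (fun i => by simp [hM, det_fin_two])]
    ring
  · obtain ⟨ν, hν⟩ := FiniteField.isSquare_of_char_two (F := F) (ringChar.eq F 2) μ
    set M' : Fin j → Matrix (Fin 2) (Fin 2) F :=
      Function.update (fun _ => 1) ⟨0, hj⟩ (ν • 1) with hM'
    have hcomm : pairMap M * pairMap M' = pairMap M' * pairMap M := by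
      rw [pairMap_mul, pairMap_mul]
      congr 1
      funext i
      by_cases h : i = ⟨0, hj⟩
      · subst h; simp [hM', mul_comm]
      · simp [hM', Function.update_of_ne h]
    refine ⟨LinearMap.prodMap (pairMap M') LinearMap.id, ?_, ?_⟩
    · rw [hy]
      exact LinearMap.ext fun u => Prod.ext (LinearMap.congr_fun hcomm u.1) (by simp)
    · rw [LinearMap.det_prodMap, LinearMap.det_id, mul_one, det_pairMap,
        Finset.prod_eq_single ⟨0, hj⟩ (fun i _ h => by simp [hM', Function.update_of_ne h])
          (fun h => absurd (Finset.mem_univ _) h)]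
      simp [hM', hν, pow_two]

end Cfsg.Agent.H97
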