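import Cfsg.Agent.H98.SubfieldBase
import Cfsg.Agent.H97.SympInvolutionSL

set_option autoImplicit false

/-!
# Conjugating operators into subfield groups
-/

namespace Cfsg.Agent.H97

open Module Matrix

variable {F : Type*} [Field F] {n : ℕ}

theorem comap_subfield_mem [NeZero n] {F₀ : Subfield F} (y : Matrix.SpecialLinearGroup (Fin n) F) :
    y ∈ (Cfsg.Geo.subfieldSubgroup F₀ 1).comap
        (Matrix.SpecialLinearGroup.toGL : Matrix.SpecialLinearGroup (Fin n) F →* GL (Fin n) F) ↔
      ∃ c : F, c ≠ 0 ∧ ∀ a b, c * (y : Matrix (Fin n) (Fin n) F) a b ∈ F₀ := by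
  haveI : Nonempty (Fin n) := ⟨0⟩
  rw [Subgroup.mem_comap, H98.subfieldSubgroup_eq_map]
  constructor
  · rintro ⟨g, hg, hgy⟩
    obtain ⟨c, hc, h⟩ := H98.mem_subGroupF.1 hg
    refine ⟨c, hc, fun a b => ?_⟩
    have hgy' : g = Matrix.SpecialLinearGroup.toGL y := by simpa using hgy
    have := h a b
    rw [hgy'] at this
    exact this
  · rintro ⟨c, hc, h⟩
    exact ⟨Matrix.SpecialLinearGroup.toGL y, H98.mem_subGroupF.2 ⟨c, hc, h⟩, by simp⟩

/-- An operator with entries in the subfield up to a scalar in some basis is conjugate into the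
subfield group by a matrix of determinant one, given enough centralising operators. -/
theorem exists_conj_subfield [NeZero n] {F₀ : Subfield F} (x : Matrix.SpecialLinearGroup (Fin n) F)
    {ι : Type*} [Fintype ι] [DecidableEq ι] (b : Basis ι F (Fin n → F)) {c : F} (hc : c ≠ 0)
    (hb : ∀ i j, c * b.repr ((x : Matrix (Fin n) (Fin n) F) *ᵥ b j) i ∈ F₀)
    (hdets : ∀ μ : F, μ ≠ 0 → ∃ u : End F (Fin n → F),
      Matrix.toLin' (x : Matrix (Fin n) (Fin n) F) * u = u * Matrix.toLin' (x : Matrix (Fin n) (Fin n) F) ∧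
        LinearMap.det u = μ) :
    ∃ P : Matrix.SpecialLinearGroup (Fin n) F, P⁻¹ * x * P ∈
      (Cfsg.Geo.subfieldSubgroup F₀ 1).comap
        (Matrix.SpecialLinearGroup.toGL : Matrix.SpecialLinearGroup (Fin n) F →* GL (Fin n) F) := by
  let ε : ι ≃ Fin n := Fintype.equivFinOfCardEq (by
    rw [← Module.finrank_eq_card_basis b, finrank_fintype_fun_eq_card, Fintype.card_fin])
  set B := b.reindex ε
  have hBe : ∀ a a', c * B.equivFun ((x : Matrix (Fin n) (Fin n) F) *ᵥ B a') a ∈ F₀ := fun a a' => by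
    simpa [B, Basis.equivFun_apply] using hb (ε.symm a) (ε.symm a')
  set g : (Fin n → F) ≃ₗ[F] (Fin n → F) := B.equivFun
  have hgd : LinearMap.det g.toLinearMap ≠ 0 := (LinearEquiv.isUnit_det' g).ne_zero
  obtain ⟨u, hu, hud⟩ := hdets (LinearMap.det g.toLinearMap)⁻¹ (inv_ne_zero hgd)
  set G : End F (Fin n → F) := g.toLinearMap ∘ₗ u with hG
  have hGd : LinearMap.det G = 1 := by rw [hG, LinearMap.det_comp, hud, mul_inv_cancel₀ hgd]
  let R : Matrix.SpecialLinearGroup (Fin n) F :=
    ⟨LinearMap.toMatrix' G, by rw [LinearMap.det_toMatrix', hGd]⟩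
  refine ⟨R⁻¹, (comap_subfield_mem _).2 ⟨c, hc, fun a a' => ?_⟩⟩
  rw [inv_inv]
  have hcol : ((R * x * R⁻¹ : Matrix.SpecialLinearGroup (Fin n) F) : Matrix (Fin n) (Fin n) F) *ᵥ
      Pi.single a' 1 = g ((x : Matrix (Fin n) (Fin n) F) *ᵥ B a') := by
    set w := ((R⁻¹ : Matrix.SpecialLinearGroup (Fin n) F) : Matrix (Fin n) (Fin n) F) *ᵥ Pi.single a' 1
    have hw : g (u w) = Pi.single a' 1 := by
      have : (R : Matrix (Fin n) (Fin n) F) *ᵥ w = Pi.single a' 1 := by
        rw [Matrix.mulVec_mulVec, ← Matrix.SpecialLinearGroup.coe_mul, mul_inv_cancel,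
          Matrix.SpecialLinearGroup.coe_one, Matrix.one_mulVec]
      rwa [show (R : Matrix (Fin n) (Fin n) F) *ᵥ w = G w from LinearMap.toMatrix'_mulVec G w] at this
    have huw : u w = B a' := g.injective (hw.trans (by
      funext i
      simp [g, Basis.equivFun_self, Pi.single_apply, eq_comm]))
    rw [Matrix.SpecialLinearGroup.coe_mul, Matrix.SpecialLinearGroup.coe_mul, ← Matrix.mulVec_mulVec,
      ← Matrix.mulVec_mulVec]
    rw [show (R : Matrix (Fin n) (Fin n) F) *ᵥ ((x : Matrix (Fin n) (Fin n) F) *ᵥ w) =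
      G ((x : Matrix (Fin n) (Fin n) F) *ᵥ w) from LinearMap.toMatrix'_mulVec G _]
    show g (u ((x : Matrix (Fin n) (Fin n) F) *ᵥ w)) = _
    rw [← huw]
    exact congrArg g (by simpa [Matrix.toLin'_apply] using (LinearMap.congr_fun hu w).symm)
  have := congrFun hcol a
  rw [Matrix.mulVec_single_one] at this
  simp only [Matrix.col_apply] at this
  rw [this]
  exact hBe a a'

/-- Coordinates for an operator `w (1 + N)` with `N ^ 2 = 0`. -/
theorem exists_charTwo_coords [CharP F 2] {V : Type*} [AddCommGroup V] [Module F V]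
    [FiniteDimensional F V] {w : F} (hw : w ≠ 0) (x : End F V) (hx : x * x = (w * w) • 1) :
    ∃ (j m : ℕ) (b : Basis ((Fin j ⊕ Fin j) ⊕ Fin m) F V),
      (∀ i, x (b (.inl (.inl i))) = w • (b (.inl (.inl i)) + b (.inl (.inr i)))) ∧
      (∀ i, x (b (.inl (.inr i))) = w • b (.inl (.inr i))) ∧
      ∀ i, x (b (.inr i)) = w • b (.inr i) := by
  classical
  set N : End F V := w⁻¹ • x - 1 with hN
  have hdbl : ∀ u : V, u + u = 0 := fun u => by rw [← two_smul F u, CharTwo.two_eq_zero, zero_smul]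
  have hxx : ∀ v, x (x v) = (w * w) • v := fun v => LinearMap.congr_fun hx v
  have hNv : ∀ v, N v = w⁻¹ • x v - v := fun v => rfl
  have hxN : ∀ v, x v = w • (v + N v) := fun v => by
    rw [hNv, add_sub_cancel, smul_smul, mul_inv_cancel₀ hw, one_smul]
  have hNN : ∀ v, N (N v) = 0 := fun v => by
    rw [hNv, hNv]
    simp only [map_sub, map_smul, hxx, smul_sub, smul_smul]
    rw [show w⁻¹ * (w⁻¹ * (w * w)) = 1 by field_simp, one_smul,
      show v - w⁻¹ • x v - (w⁻¹ • x v - v) = (v + v) - (w⁻¹ • x v + w⁻¹ • x v) by abel, hdbl, hdbl,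
      sub_zero]
  obtain ⟨C, hC⟩ := (LinearMap.ker N).exists_isCompl
  obtain ⟨W, hW⟩ := (Submodule.comap (LinearMap.ker N).subtype (LinearMap.range N)).exists_isCompl
  let bC := Module.finBasis F C
  let bW := Module.finBasis F W
  set j := finrank F C
  set m := finrank F W
  let φ : (Fin j → F) →ₗ[F] V := C.subtype ∘ₗ bC.equivFun.symm.toLinearMap
  let f : ((Fin j ⊕ Fin j → F) × W) →ₗ[F] V :=
    { toFun := fun p => φ (p.1 ∘ Sum.inl) + N (φ (p.1 ∘ Sum.inr)) + ((p.2 : LinearMap.ker N) : V)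
      map_add' := fun p p' => by
        simp only [Prod.fst_add, Prod.snd_add, Pi.add_comp, map_add, Submodule.coe_add]; abel
      map_smul' := fun c p => by
        simp only [Prod.smul_fst, Prod.smul_snd, Submodule.coe_smul, smul_add, RingHom.id_apply]
        rw [show (c • p.1) ∘ Sum.inl = c • (p.1 ∘ Sum.inl) from rfl,
          show (c • p.1) ∘ Sum.inr = c • (p.1 ∘ Sum.inr) from rfl, map_smul, map_smul, map_smul] }
  have hφC : ∀ a, φ a ∈ C := fun a => (bC.equivFun.symm a).2
  have hφ : Function.Injective φ := fun a a' h =>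
    bC.equivFun.symm.injective (Subtype.ext h)
  have hker : ∀ a, N (φ a) = 0 → a = 0 := fun a ha => hφ (by
    rw [map_zero]
    exact Submodule.disjoint_def.1 hC.disjoint _ (LinearMap.mem_ker.2 ha) (hφC a))
  have hfb : Function.Bijective f := by
    constructor
    · rw [← LinearMap.ker_eq_bot, Submodule.eq_bot_iff]
      rintro ⟨a, u⟩ h
      have h' : φ (a ∘ Sum.inl) + N (φ (a ∘ Sum.inr)) + ((u : LinearMap.ker N) : V) = 0 := h
      have h1 := congrArg N h'
      rw [map_add, map_add, hNN, LinearMap.mem_ker.1 u.1.2, map_zero, add_zero, add_zero] at h1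
      have ha := hker _ h1
      rw [ha, map_zero, zero_add] at h'
      have h3 : (u : LinearMap.ker N) ∈ Submodule.comap (LinearMap.ker N).subtype (LinearMap.range N) := by
        refine ⟨φ (-(a ∘ Sum.inr)), ?_⟩
        rw [map_neg, map_neg]
        exact neg_eq_of_add_eq_zero_right h'
      have h4 : (u : LinearMap.ker N) = 0 := Submodule.disjoint_def.1 hW.disjoint _ h3 u.2
      rw [h4, Submodule.coe_zero, add_zero] at h'
      have hb := hker _ h'
      refine Prod.ext (funext fun i => ?_) (Subtype.ext h4)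
      rcases i with i | i
      · exact congrFun ha i
      · exact congrFun hb i
    · intro v
      obtain ⟨k, hk, c, hc, rfl⟩ := Submodule.mem_sup.1 (hC.sup_eq_top ▸ Submodule.mem_top (x := v))
      obtain ⟨r, hr, u, hu, hru⟩ :=
        Submodule.mem_sup.1 (hW.sup_eq_top ▸ Submodule.mem_top (x := (⟨k, hk⟩ : LinearMap.ker N)))
      obtain ⟨y, hy⟩ := (Submodule.mem_comap.1 hr : (r : V) ∈ LinearMap.range N)
      obtain ⟨k', hk', c', hc', rfl⟩ := Submodule.mem_sup.1 (hC.sup_eq_top ▸ Submodule.mem_top (x := y))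
      refine ⟨(Sum.elim (bC.equivFun ⟨c, hc⟩) (bC.equivFun ⟨c', hc'⟩), ⟨u, hu⟩), ?_⟩
      show φ (bC.equivFun ⟨c, hc⟩) + N (φ (bC.equivFun ⟨c', hc'⟩)) + (u : V) = k + c
      rw [map_add, LinearMap.mem_ker.1 hk', zero_add] at hy
      have e1 : (r : V) + (u : V) = k := congrArg Subtype.val hru
      simp only [φ, LinearMap.comp_apply, LinearEquiv.coe_coe, LinearEquiv.symm_apply_apply, Submodule.coe_subtype]
      rw [hy, ← e1, Submodule.subtype_apply]; abel
  let b := ((Pi.basisFun F (Fin j ⊕ Fin j)).prod bW).map (LinearEquiv.ofBijective f hfb)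
  have hkerW : ∀ u : W, N ((u : LinearMap.ker N) : V) = 0 := fun u => LinearMap.mem_ker.1 u.1.2
  have hsl : ∀ i : Fin j, (Pi.single (Sum.inl i) (1 : F) : Fin j ⊕ Fin j → F) ∘ Sum.inl = Pi.single i 1 ∧
      (Pi.single (Sum.inl i) (1 : F) : Fin j ⊕ Fin j → F) ∘ Sum.inr = 0 := fun i =>
    ⟨by funext t; simp [Pi.single_apply], by funext t; simp⟩
  have hsr : ∀ i : Fin j, (Pi.single (Sum.inr i) (1 : F) : Fin j ⊕ Fin j → F) ∘ Sum.inr = Pi.single i 1 ∧
      (Pi.single (Sum.inr i) (1 : F) : Fin j ⊕ Fin j → F) ∘ Sum.inl = 0 := fun i =>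
    ⟨by funext t; simp [Pi.single_apply], by funext t; simp⟩
  have hb1 : ∀ i, b (.inl (.inl i)) = φ (Pi.single i 1) := fun i => by
    simp [b, f, hsl i]
  have hb2 : ∀ i, b (.inl (.inr i)) = N (φ (Pi.single i 1)) := fun i => by
    simp [b, f, hsr i]
  have hb3 : ∀ i, b (.inr i) = ((bW i : LinearMap.ker N) : V) := fun i => by
    simp [b, f]
  exact ⟨j, m, b, fun i => by rw [hxN, hb1, hb2], fun i => by rw [hxN, hb2, hNN, add_zero],
    fun i => by rw [hxN, hb3, hkerW, add_zero]⟩

/-- Determinants of centralising operators that scale one eigen vector. -/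
theorem dets_of_diagonal {V : Type*} [AddCommGroup V] [Module F V] {ι : Type*} [Fintype ι]
    [DecidableEq ι] (b : Basis ι F V) (x : End F V) (a : ι → F) (hx : ∀ i, x (b i) = a i • b i)
    (i0 : ι) (μ : F) : ∃ u : End F V, x * u = u * x ∧ LinearMap.det u = μ := by
  refine ⟨Matrix.toLin b b (diagonal (Function.update 1 i0 μ)), b.ext fun i => ?_, ?_⟩
  · simp only [Module.End.mul_apply, Matrix.toLin_self, diagonal_apply, ite_smul, zero_smul,
      Finset.sum_ite_eq, Finset.sum_ite_eq', Finset.mem_univ, if_true, map_smul, hx, smul_smul]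
    rw [mul_comm]
  · rw [LinearMap.det_toLin, det_diagonal, Finset.prod_update_of_mem (Finset.mem_univ _)]
    simp

theorem odd_geom_sum {a k : ℕ} (ha : Odd a) (hk : Odd k) : Odd (∑ i ∈ Finset.range k, a ^ i) := by
  rw [Finset.odd_sum_iff_odd_card_odd, Finset.filter_true_of_mem fun i _ => ha.pow, Finset.card_range]
  exact hk

end Cfsg.Agent.H97
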