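import Cfsg.Agent.H97.Decompositions

/-! Construction and counting of decompositions permuted by an operator of prime order. -/

namespace Cfsg.Agent.H97

open Module

variable {F V : Type*} [Field F] [AddCommGroup V] [Module F V] [FiniteDimensional F V]

omit [FiniteDimensional F V] in
/-- Adjoining a disjoint subspace preserves independence. -/
theorem indep_cons {t : ℕ} {W : Submodule F V} {D : Fin t → Submodule F V} (h : iSupIndep D)
    (hd : Disjoint W (iSup D)) : iSupIndep (Fin.cons W D : Fin (t + 1) → Submodule F V) := by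
  intro i
  rcases Fin.eq_zero_or_eq_succ i with rfl | ⟨k, rfl⟩
  · refine hd.mono_right (iSup₂_le fun j hj => ?_)
    obtain ⟨j', rfl⟩ := Fin.exists_succ_eq.2 hj
    simpa using le_iSup D j'
  · rw [Fin.cons_succ, Submodule.disjoint_def]
    intro v hv hv'
    have hle : (⨆ j, ⨆ (_ : j ≠ k.succ), (Fin.cons W D : Fin (t + 1) → Submodule F V) j) ≤
        W ⊔ ⨆ j, ⨆ (_ : j ≠ k), D j := by
      refine iSup₂_le fun j hj => ?_
      rcases Fin.eq_zero_or_eq_succ j with rfl | ⟨j', rfl⟩
      · simp
      · rw [Fin.cons_succ]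
        exact le_sup_of_le_right (le_iSup₂_of_le j' (fun h => hj (by rw [h])) le_rfl)
    obtain ⟨w, hw, o, ho, rfl⟩ := Submodule.mem_sup.1 (hle hv')
    have hoD : o ∈ iSup D := iSup₂_le_iSup (fun j => j ≠ k) D ho
    have hw0 : w = 0 := Submodule.disjoint_def.1 hd w hw (by
      simpa using Submodule.sub_mem _ (le_iSup D k hv) hoD)
    rw [hw0, zero_add] at hv ⊢
    exact Submodule.disjoint_def.1 (h k) o hv ho

/-- An invariant subspace is the sum of its fixed and moved parts. -/
theorem finrank_inf_add {r : ℕ} [Fact r.Prime] (hr : (r : F) ≠ 0) (x : End F V) (hx : x ^ r = 1)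
    (W : Submodule F V) (hW : W.map x ≤ W) :
    finrank F ↥(W ⊓ fixedSpace x) + finrank F ↥(W ⊓ movedSpace x) = finrank F W := by
  have hWx : ∀ v ∈ W, x v ∈ W := fun v hv => hW ⟨v, hv, rfl⟩
  have hpow : ∀ i : ℕ, ∀ v ∈ W, (x ^ i) v ∈ W := by
    intro i
    induction i with
    | zero => intro v hv; exact hv
    | succ i ih => intro v hv; rw [pow_succ', Module.End.mul_apply]; exact hWx _ (ih v hv)
  have h1 := LinearMap.finrank_range_add_finrank_ker ((orbitSum x r).domRestrict W)
  rw [LinearMap.range_domRestrict] at h1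
  have h2 : finrank F ↥(W.map (orbitSum x r)) ≤ finrank F ↥(W ⊓ fixedSpace x) := by
    refine Submodule.finrank_mono ?_
    rintro _ ⟨v, hv, rfl⟩
    refine ⟨?_, orbitSum_mem_fixed hx v⟩
    rw [orbitSum, LinearMap.sum_apply]
    exact W.sum_mem fun i _ => hpow i v hv
  have hker : LinearMap.ker (orbitSum x r) = movedSpace x := by
    refine (Submodule.eq_of_le_of_finrank_eq ?_ (ker_orbitSum hr hx).1.symm).symm
    rintro _ ⟨w, rfl⟩
    exact LinearMap.congr_fun (orbitSum_mul hx).1 w
  have h3 : finrank F (LinearMap.ker ((orbitSum x r).domRestrict W)) ≤ finrank F ↥(W ⊓ movedSpace x) := by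
    rw [← Submodule.finrank_map_subtype_eq]
    refine Submodule.finrank_mono ?_
    rintro _ ⟨v, hv, rfl⟩
    exact ⟨v.2, hker ▸ (hv : v.1 ∈ LinearMap.ker (orbitSum x r))⟩
  have h4 := Submodule.finrank_sup_add_finrank_inf_eq (W ⊓ fixedSpace x) (W ⊓ movedSpace x)
  rw [((disjoint_fixed_moved hr x hx).mono inf_le_right inf_le_right).eq_bot, finrank_bot, add_zero] at h4
  have h5 : finrank F ↥(W ⊓ fixedSpace x ⊔ W ⊓ movedSpace x) ≤ finrank F W :=
    Submodule.finrank_mono (sup_le inf_le_left inf_le_left)
  omega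

/-- Fixed vectors of a direct sum of invariant subspaces. -/
theorem finrank_fixed_sup_le (x : End F V) {W Q : Submodule F V} (hW : W.map x ≤ W) (hQ : Q.map x ≤ Q)
    (hd : Disjoint W Q) :
    finrank F ↥((W ⊔ Q) ⊓ fixedSpace x) ≤ finrank F ↥(W ⊓ fixedSpace x) + finrank F ↥(Q ⊓ fixedSpace x) := by
  refine le_trans (Submodule.finrank_mono ?_) (Submodule.finrank_add_le_finrank_add_finrank _ _)
  rintro v ⟨hv, hfix⟩
  obtain ⟨w, hw, q, hq, rfl⟩ := Submodule.mem_sup.1 hv
  have h := mem_fixedSpace.1 hfix
  rw [map_add] at h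
  have hw0 : x w - w = 0 := Submodule.disjoint_def.1 hd _
    (W.sub_mem (hW ⟨w, hw, rfl⟩) hw)
    (by rw [show x w - w = q - x q by rw [sub_eq_sub_iff_add_eq_add, h, add_comm]]
        exact Q.sub_mem hq (hQ ⟨q, hq, rfl⟩))
  rw [sub_eq_zero] at hw0
  rw [hw0, add_right_inj] at h
  exact Submodule.add_mem_sup ⟨hw, mem_fixedSpace.2 hw0⟩ ⟨hq, mem_fixedSpace.2 h⟩

variable [Finite F] {r : ℕ} [Fact r.Prime]

/-- Decomposition of an invariant subspace into invariant parts. -/
theorem exists_inv_parts (hr : (r : F) ≠ 0) (x : End F V) (hx : x ^ r = 1) {a : ℕ}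
    (hca : orderOf (Nat.card F : ZMod r) ≤ a) :
    ∀ (t : ℕ) (P : Submodule F V), P.map x ≤ P → finrank F P = a * t →
      t * (a % orderOf (Nat.card F : ZMod r)) ≤ finrank F ↥(P ⊓ fixedSpace x) →
      ∃ D : Fin t → Submodule F V, (∀ j, finrank F (D j) = a) ∧ iSupIndep D ∧ iSup D = P ∧
        ∀ j, (D j).map x ≤ D j := by
  have hip := orderOf_pos_zmod (F := F) (r := r) hr
  intro t
  induction t with
  | zero =>
    intro P _ hP _
    refine ⟨Fin.elim0, fun j => j.elim0, fun j => j.elim0, ?_, fun j => j.elim0⟩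
    rw [iSup_of_empty, eq_comm, ← Submodule.finrank_eq_zero, hP, mul_zero]
  | succ t ih =>
    intro P hP hPd he
    obtain ⟨L, hL⟩ := finrank_inv_eq hr x hx P hP
    have hPc := finrank_inf_add hr x hx P hP
    rw [hPd] at hL hPc
    generalize heP : finrank F ↥(P ⊓ fixedSpace x) = e at *
    generalize hi : orderOf (Nat.card F : ZMod r) = c at *
    -- choose the fixed dimension of the first part
    obtain ⟨eW, l, heW, hsum, hfit, hrest⟩ : ∃ eW l, eW ≤ e ∧ eW + l * c = a ∧
        eW + l * c ≤ eW + (a * (t + 1) - e) ∧ t * (a % c) + eW ≤ e := by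
      have hda := Nat.div_add_mod' a c
      rcases le_or_gt a (e - t * (a % c)) with h | h
      · exact ⟨a, 0, by omega, by simp, by simp, by omega⟩
      · have h1 : a * (t + 1) = (t + 1) * (a % c) + (t + 1) * (a / c) * c := by
          rw [mul_comm a, mul_assoc, ← mul_add, add_comm (a % c), hda]
        have hlow : (t + 1) * (a % c) = t * (a % c) + a % c := by ring
        have hLe : L ≤ (t + 1) * (a / c) := by
          by_contra hlt
          have := Nat.mul_le_mul_right c (Nat.succ_le_of_lt (not_le.1 hlt))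
          rw [Nat.succ_mul] at this
          omega
        have h2 := Nat.mul_le_mul_right c hLe
        have hs : e - t * (a % c) = a % c + ((t + 1) * (a / c) - L) * c := by
          rw [tsub_mul]; omega
        have hsle : (t + 1) * (a / c) - L ≤ a / c := by
          by_contra hlt
          have := Nat.mul_le_mul_right c (Nat.succ_le_of_lt (not_le.1 hlt))
          rw [Nat.succ_mul] at this
          omega
        refine ⟨e - t * (a % c), a / c - ((t + 1) * (a / c) - L), by omega, ?_, ?_, by omega⟩
        · rw [hs]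
          have := Nat.mul_le_mul_right c hsle
          simp only [tsub_mul] at this ⊢
          omega
        · have h3 := Nat.mul_le_mul_right c hsle
          have h4 : a ≤ a * (t + 1) := Nat.le_mul_of_pos_right a t.succ_pos
          have h5 : t * (a % c) ≤ t * a := Nat.mul_le_mul_left t (Nat.mod_le a c)
          have h6 : a * (t + 1) = t * a + a := by ring
          have h7 : a / c * c ≤ (t + 1) * (a / c) * c :=
            Nat.mul_le_mul_right c (Nat.le_mul_of_pos_left _ t.succ_pos)
          simp only [tsub_mul] at hs h3 ⊢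
          omega
    obtain ⟨E', hE', hE'd⟩ := exists_le_finrank_eq (P ⊓ fixedSpace x) (heP.symm ▸ heW)
    -- build the part inside `P`
    have hPx : ∀ v ∈ P, x v ∈ P := fun v hv => hP ⟨v, hv, rfl⟩
    have hgr : (x.restrict hPx : End F P) ^ r = 1 := by
      rw [restrict_pow_eq x P hPx (z := 1) (by rw [hx, one_smul]), one_smul]
    let N : Submodule F P := E'.comap P.subtype
    have hNd : finrank F N = eW := by
      rw [← hE'd]
      exact (Submodule.comapSubtypeEquivOfLe (hE'.trans inf_le_left)).finrank_eq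
    have hNfix : N ≤ fixedSpace (x.restrict hPx : End F P) := fun v hv =>
      mem_fixedSpace.2 (Subtype.ext (mem_fixedSpace.1 (hE' hv).2))
    obtain ⟨W, hNW, hWle, hW, hWd⟩ := exists_inv_between hr (x.restrict hPx : End F P) hgr N
      (map_le_of_fixed fun v hv => mem_fixedSpace.1 (hNfix hv)) l (by
        rw [hi]
        have h1 := Submodule.finrank_sup_add_finrank_inf_eq N (movedSpace (x.restrict hPx : End F P))
        rw [((disjoint_fixed_moved hr _ hgr).mono_left hNfix).eq_bot, finrank_bot, add_zero] at h1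
        have h2 := Submodule.finrank_add_eq_of_isCompl (isCompl_fixed_moved hr _ hgr)
        rw [finrank_fixedSpace_restrict, hPd, heP] at h2
        rw [h1, hNd]; omega)
    rw [hi, hNd, hsum] at hWd
    let W' := W.map P.subtype
    have hW'P : W' ≤ P := Submodule.map_subtype_le P W
    have hW'd : finrank F W' = a := (Submodule.finrank_map_subtype_eq P W).trans hWd
    have hW' : W'.map x ≤ W' := by
      rintro _ ⟨_, ⟨u, hu, rfl⟩, rfl⟩
      exact ⟨_, hW ⟨u, hu, rfl⟩, rfl⟩
    have hW'E : finrank F ↥(W' ⊓ fixedSpace x) ≤ eW := by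
      rw [← hE'd]
      refine Submodule.finrank_mono ?_
      rintro _ ⟨⟨u, hu, rfl⟩, hfix⟩
      obtain ⟨n, hn, m, hm, rfl⟩ := Submodule.mem_sup.1 (hWle hu)
      have h1 : x.restrict hPx (n + m) = n + m := Subtype.ext (mem_fixedSpace.1 hfix)
      rw [map_add, mem_fixedSpace.1 (hNfix hn), add_right_inj] at h1
      rw [Submodule.disjoint_def.1 (disjoint_fixed_moved hr _ hgr) m (mem_fixedSpace.2 h1) hm, add_zero]
      exact hn
    obtain ⟨Q, hQ, hWQ, hd⟩ := exists_inv_compl hr x hx P W' hP hW' hW'P
    have hQd : finrank F Q = a * t := by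
      have h1 := Submodule.finrank_sup_add_finrank_inf_eq W' Q
      rw [hWQ, hd.eq_bot, finrank_bot, hPd, hW'd] at h1
      rw [mul_add, mul_one] at h1
      omega
    obtain ⟨D, hD1, hD2, hD3, hD4⟩ := ih Q hQ hQd (by
      have h1 := finrank_fixed_sup_le x hW' hQ hd
      rw [hWQ, heP] at h1
      omega)
    refine ⟨Fin.cons W' D, fun j => ?_, indep_cons hD2 (hD3 ▸ hd), ?_, fun j => ?_⟩
    · rcases Fin.eq_zero_or_eq_succ j with rfl | ⟨k, rfl⟩
      · rw [Fin.cons_zero]; exact hW'd
      · rw [Fin.cons_succ]; exact hD1 k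
    · rw [← hWQ, ← hD3]
      refine le_antisymm (iSup_le fun j => ?_) (sup_le ?_ (iSup_le fun k => ?_))
      · rcases Fin.eq_zero_or_eq_succ j with rfl | ⟨k, rfl⟩
        · simp
        · exact le_sup_of_le_right (by simpa using le_iSup D k)
      · exact le_iSup_of_le 0 (by simp)
      · exact le_iSup_of_le k.succ (by simp)
    · rcases Fin.eq_zero_or_eq_succ j with rfl | ⟨k, rfl⟩
      · simpa using hW'
      · simpa using hD4 k

/-- When `ord_r q = r - 1` and there are enough fixed vectors, a permuted basis exists. -/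
theorem exists_cycle_basis (hr : (r : F) ≠ 0) (x : End F V) (hx : x ^ r = 1)
    (hc : orderOf (Nat.card F : ZMod r) + 1 = r) :
    ∀ (h : ℕ) (P : Submodule F V), P.map x ≤ P →
      finrank F P = finrank F ↥(P ⊓ fixedSpace x) + h * orderOf (Nat.card F : ZMod r) →
      h ≤ finrank F ↥(P ⊓ fixedSpace x) →
      ∃ (ι : Type) (_ : Fintype ι) (b : ι → V) (π : Equiv.Perm ι), LinearIndependent F b ∧
        Submodule.span F (Set.range b) = P ∧ ∀ i, x (b i) = b (π i) := by
  intro h
  induction h with
  | zero =>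
    intro P _ hd _
    have hfix : P ≤ fixedSpace x :=
      inf_eq_left.1 (Submodule.eq_of_le_of_finrank_le inf_le_left (by omega))
    let b := Module.finBasis F P
    refine ⟨Fin (finrank F P), inferInstance, fun i => (b i : V), Equiv.refl _,
      b.linearIndependent.map' P.subtype (Submodule.ker_subtype P), ?_, fun i => mem_fixedSpace.1 (hfix (b i).2)⟩
    rw [show (fun i => (b i : V)) = P.subtype ∘ b from rfl, Set.range_comp, Submodule.span_image,
      b.span_eq, Submodule.map_top, Submodule.range_subtype]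
  | succ h ih =>
    intro P hP hd hle
    have hip := orderOf_pos_zmod (F := F) (r := r) hr
    have hPc := finrank_inf_add hr x hx P hP
    have hM : P ⊓ movedSpace x ≠ ⊥ := fun h0 => by
      rw [h0, finrank_bot] at hPc
      rw [add_mul, one_mul] at hd
      omega
    -- a simple piece inside `P`
    classical
    haveI : Finite V := Module.finite_of_finite F
    haveI : Finite (Submodule F V) := Finite.of_injective _ SetLike.coe_injective
    haveI := Fintype.ofFinite (Submodule F V)
    obtain ⟨W, hWmem, hmin⟩ := (Finset.univ.filter fun W : Submodule F V =>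
      W ≤ P ⊓ movedSpace x ∧ W.map x ≤ W ∧ W ≠ ⊥).exists_min_image (fun W => finrank F W)
        ⟨P ⊓ movedSpace x, Finset.mem_filter.2 ⟨Finset.mem_univ _, le_rfl, map_inf_le hP (movedSpace_inv x), hM⟩⟩
    obtain ⟨hW1, hW2, hW3⟩ := (Finset.mem_filter.1 hWmem).2
    have hirr : ∀ U : Submodule F V, U ≤ W → U.map x ≤ U → U = ⊥ ∨ U = W := fun U hU hUi => by
      by_contra hne; push Not at hne
      exact hne.2 (Submodule.eq_of_le_of_finrank_le hU
        (hmin U (Finset.mem_filter.2 ⟨Finset.mem_univ _, hU.trans hW1, hUi, hne.1⟩)))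
    have hWc := finrank_simple_moved hr x hx W hW2 (hW1.trans inf_le_right) hW3 hirr
    obtain ⟨w, hw, hw0⟩ := (Submodule.ne_bot_iff W).1 hW3
    obtain ⟨f, hf, hf0⟩ := (Submodule.ne_bot_iff (P ⊓ fixedSpace x)).1 fun h0 => by
      rw [h0, finrank_bot] at hle; omega
    let b : Fin r → V := fun i => (x ^ (i : ℕ)) (w + f)
    let S := Submodule.span F (Set.range b)
    have hx' : x ^ r = (1 : F) • 1 := by rw [hx, one_smul]
    have hS : S.map x ≤ S := cyclic_inv x hx' (w + f)
    have hb0 : w + f ∈ S := Submodule.subset_span ⟨⟨0, (Fact.out : r.Prime).pos⟩, by simp [b]⟩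
    have hdiff : x w - w ∈ S ⊓ W := by
      refine ⟨?_, W.sub_mem (hW2 ⟨w, hw, rfl⟩) hw⟩
      have h1 := S.sub_mem (hS ⟨_, hb0, rfl⟩) hb0
      rwa [map_add, mem_fixedSpace.1 hf.2, add_sub_add_right_eq_sub] at h1
    have hWS : W ≤ S := by
      rcases hirr (S ⊓ W) inf_le_right (map_inf_le hS hW2) with h0 | h0
      · rw [h0] at hdiff
        have h1 : x w = w := sub_eq_zero.1 ((Submodule.mem_bot F).1 hdiff)
        exact absurd (Submodule.disjoint_def.1 (disjoint_fixed_moved hr x hx) w (mem_fixedSpace.2 h1)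
          (hW1 hw).2) hw0
      · exact inf_eq_right.1 h0
    have hfS : f ∈ S := by simpa using S.sub_mem hb0 (hWS hw)
    have hfW : Disjoint W (Submodule.span F {f}) :=
      (disjoint_fixed_moved hr x hx).symm.mono (hW1.trans inf_le_right)
        ((Submodule.span_singleton_le_iff_mem _ _).2 hf.2)
    have hSd : finrank F S = r := by
      refine le_antisymm ((finrank_range_le_card _).trans (by simp)) ?_
      have h1 := Submodule.finrank_sup_add_finrank_inf_eq W (Submodule.span F {f})
      rw [hfW.eq_bot, finrank_bot, add_zero, finrank_span_singleton hf0, hWc, hc] at h1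
      exact h1.symm.le.trans (Submodule.finrank_mono (sup_le hWS ((Submodule.span_singleton_le_iff_mem _ _).2 hfS)))
    have hbLI : LinearIndependent F b := linearIndependent_iff_card_eq_finrank_span.2 (by
      rw [Fintype.card_fin, Set.finrank]; exact hSd.symm)
    have hSP : S ≤ P := Submodule.span_le.2 (by
      rintro _ ⟨i, rfl⟩
      have hpow : ∀ k : ℕ, ∀ v ∈ P, (x ^ k) v ∈ P := by
        intro k
        induction k with
        | zero => intro v hv; exact hv
        | succ k ih => intro v hv; rw [pow_succ', Module.End.mul_apply]; exact hP ⟨_, ih v hv, rfl⟩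
      exact hpow _ _ (P.add_mem (hW1 hw).1 hf.1))
    obtain ⟨Q, hQ, hSQ, hdis⟩ := exists_inv_compl hr x hx P S hP hS hSP
    have hQd := Submodule.finrank_sup_add_finrank_inf_eq S Q
    rw [hSQ, hdis.eq_bot, finrank_bot, add_zero, hSd] at hQd
    have hf1 := finrank_fixed_sup_le x hS hQ hdis
    rw [hSQ] at hf1
    have hSfix := finrank_inf_add hr x hx S hS
    have hWSM : finrank F W ≤ finrank F ↥(S ⊓ movedSpace x) :=
      Submodule.finrank_mono (le_inf hWS (hW1.trans inf_le_right))
    have hQfix : finrank F ↥(Q ⊓ fixedSpace x) + finrank F ↥(S ⊓ fixedSpace x) ≤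
        finrank F ↥(P ⊓ fixedSpace x) := by
      have h1 := Submodule.finrank_sup_add_finrank_inf_eq (Q ⊓ fixedSpace x) (S ⊓ fixedSpace x)
      rw [(hdis.symm.mono inf_le_left inf_le_left).eq_bot, finrank_bot, add_zero] at h1
      rw [← h1]
      exact Submodule.finrank_mono (sup_le (inf_le_inf_right _ (hSQ ▸ le_sup_right)) (inf_le_inf_right _ hSP))
    have hS1 : 1 ≤ finrank F ↥(S ⊓ fixedSpace x) := by
      rw [← finrank_span_singleton (K := F) hf0]
      exact Submodule.finrank_mono ((Submodule.span_singleton_le_iff_mem _ _).2 ⟨hfS, hf.2⟩)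
    rw [add_mul, one_mul] at hd
    obtain ⟨ι, _, b', π, g1, g2, g3⟩ := ih Q hQ (by omega) (by omega)
    refine ⟨Fin r ⊕ ι, inferInstance, Sum.elim b b', Equiv.sumCongr (finRotate r) π,
      hbLI.sum_type g1 (g2.symm ▸ hdis), by rw [Set.Sum.elim_range, Submodule.span_union, g2, hSQ], ?_⟩
    rintro (i | i)
    · obtain ⟨r', hr'⟩ : ∃ r', r = r' + 1 := ⟨r - 1, by omega⟩
      subst hr'
      show x (b i) = b (finRotate _ i)
      simp only [b, finRotate_apply, ← Module.End.mul_apply, ← pow_succ']
      rw [Fin.val_add_one]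
      split_ifs with hi
      · subst hi; simp [hx]
      · rfl
    · exact g3 i

/-- Lines permuted by `x` from a permuted basis. -/
theorem permutesParts_of_cycles {t : ℕ} (x : End F V) (hV : finrank F V = t) {ι : Type} [Fintype ι]
    (b : ι → V) (π : Equiv.Perm ι) (hb : LinearIndependent F b) (hs : Submodule.span F (Set.range b) = ⊤)
    (hx : ∀ i, x (b i) = b (π i)) : ∃ D, PermutesParts x 1 t D := by
  classical
  have hcard : Fintype.card ι = t := by
    rw [← hV, ← finrank_top F V, ← hs, finrank_span_eq_card hb]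
  let e := (Fintype.equivFin ι).trans (finCongr hcard)
  obtain ⟨h1, h2, h3, h4⟩ := decomposition_of_fibres (a := 1) b hb hs e
    (fun j => Finset.card_eq_one.2 ⟨e.symm j, by ext i; simp [Equiv.eq_symm_apply]⟩) x π
    (fun i => ⟨1, one_ne_zero, by rw [one_smul, hx]⟩) ((e.symm.trans π).trans e) (fun i => by simp)
  exact ⟨_, h1, h2, h3, _, h4⟩

omit [Finite F] in
/-- Twisted operators permute suitable decompositions. -/
theorem twisted_permutesParts {z : F} (hz0 : z ≠ 0) (hz : ∀ w : F, w ^ r ≠ z) (x : End F V)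
    (hx : x ^ r = z • 1) {a t : ℕ} (hV : finrank F V = a * t) : ∃ D, PermutesParts x a t D := by
  classical
  obtain ⟨l, w, b, hb⟩ := exists_twisted_basis hz0 hz x hx
  have hlr : l * r = a * t := by rw [← hV, Module.finrank_eq_card_basis b]; simp
  have hmon : ∀ p, ∃ c : F, c ≠ 0 ∧ x (b p) = c • b (twistPerm l r p) := fun ⟨k, j⟩ => by
    refine ⟨twistDiag l r z (k, j), by unfold twistDiag; split_ifs <;> simp [hz0], ?_⟩
    obtain ⟨h1, h2⟩ := twistPerm_val k j
    rw [← Prod.mk.eta (p := twistPerm l r (k, j)), hb, hb, h1, h2, ← Module.End.mul_apply, ← pow_succ', twistDiag]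
    split_ifs with h
    · simp only at h; rw [h, hx]; simp
    · rw [one_smul]
  have hrat : r ∣ a * t := ⟨l, by rw [← hlr, mul_comm]⟩
  rcases (Fact.out : r.Prime).dvd_mul.1 hrat with ⟨a', rfl⟩ | ⟨t', rfl⟩
  · have hl : l = t * a' := Nat.eq_of_mul_eq_mul_right (Fact.out : r.Prime).pos (by rw [hlr]; ring)
    subst hl
    let g : Fin (t * a') × Fin r → Fin t := fun p => (finProdFinEquiv.symm p.1).1
    have hg : ∀ j, (Finset.univ.filter fun p => g p = j).card = r * a' := fun j => by
      rw [← Fintype.card_subtype, mul_comm r a', ← Fintype.card_fin (a' * r)]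
      refine Fintype.card_congr ?_
      exact
        { toFun := fun p => finProdFinEquiv ((finProdFinEquiv.symm p.1.1).2, p.1.2)
          invFun := fun u => ⟨(finProdFinEquiv (j, (finProdFinEquiv.symm u).1), (finProdFinEquiv.symm u).2), by simp [g, -finProdFinEquiv_symm_apply]⟩
          left_inv := fun p => Subtype.ext (by
            obtain ⟨⟨k, i⟩, hp⟩ := p
            simp only [g] at hp
            simp [← hp, -finProdFinEquiv_symm_apply])
          right_inv := fun u => by simp [-finProdFinEquiv_symm_apply] }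
    obtain ⟨h1, h2, h3, h4⟩ := decomposition_of_fibres b b.linearIndependent b.span_eq g hg x (twistPerm _ r)
      hmon 1 (fun p => rfl)
    exact ⟨_, h1, h2, h3, _, h4⟩
  · have hl : l = t' * a := Nat.eq_of_mul_eq_mul_right (Fact.out : r.Prime).pos (by rw [hlr]; ring)
    subst hl
    let e : Fin t' × Fin r ≃ Fin (r * t') := finProdFinEquiv.trans (finCongr (mul_comm _ _))
    let g : Fin (t' * a) × Fin r → Fin (r * t') := fun p => e ((finProdFinEquiv.symm p.1).1, p.2)
    have hg : ∀ j, (Finset.univ.filter fun p => g p = j).card = a := fun j => by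
      rw [← Fintype.card_subtype]
      refine (Fintype.card_congr ?_).trans (Fintype.card_fin a)
      exact
        { toFun := fun p => (finProdFinEquiv.symm p.1.1).2
          invFun := fun u => ⟨(finProdFinEquiv ((e.symm j).1, u), (e.symm j).2), by simp [g, -finProdFinEquiv_symm_apply]⟩
          left_inv := fun p => Subtype.ext (by
            obtain ⟨⟨k, i⟩, hp⟩ := p
            simp only [g] at hp
            simp [← hp, -finProdFinEquiv_symm_apply])
          right_inv := fun u => by simp [-finProdFinEquiv_symm_apply] }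
    obtain ⟨h1, h2, h3, h4⟩ := decomposition_of_fibres b b.linearIndependent b.span_eq g hg x (twistPerm _ r)
      hmon (e.permCongr (twistPerm t' r)) (fun p => by
        simp [g, Equiv.permCongr_apply, twistPerm, Equiv.prodCongrRight_apply, -finProdFinEquiv_symm_apply])
    exact ⟨_, h1, h2, h3, _, h4⟩

end Cfsg.Agent.H97
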