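import Cfsg.Agent.H97.SympSemisimple
import Cfsg.Agent.H97.DecompBuild

/-! Elusiveness of `PSp_n(q)` on nondegenerate subspaces away from the characteristic. -/

universe u v

namespace Cfsg.Agent.H97

open Module

variable {F : Type u} [Field F] [Finite F]

/-- `lcm 2 (ord_r q)` is the number `c` of the elusiveness criteria. -/
theorem lcm_two_eq (i : ℕ) : Nat.lcm 2 i = if Even i then i else 2 * i := by
  split_ifs with h
  · exact Nat.lcm_eq_right h.two_dvd
  · exact (Nat.coprime_two_left.2 (Nat.not_even_iff_odd.1 h)).lcm_eq_mul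

section inv

variable {V : Type v} [AddCommGroup V] [Module F V] [FiniteDimensional F V] {r : ℕ} [Fact r.Prime]

omit [Finite F] [FiniteDimensional F V] in
/-- An element of order `r` is injective. -/
theorem injective_of_pow_eq_one {x : End F V} (hx : x ^ r = 1) : Function.Injective x :=
  Function.LeftInverse.injective (g := x ^ (r - 1)) fun v => by
    rw [← Module.End.mul_apply, ← pow_succ, Nat.sub_add_cancel (Fact.out : r.Prime).one_le, hx]; rfl

/-- Invariant nondegenerate subspaces split into nondegenerate fixed and moved parts. -/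
theorem nondegOn_parts (hr : (r : F) ≠ 0) {B : LinearMap.BilinForm F V} (hA : B.IsAlt) {x : End F V}
    (hxB : ∀ u v, B (x u) (x v) = B u v) (hx : x ^ r = 1) {W : Submodule F V} (hW : W.map x ≤ W)
    (hWn : NondegOn B W) :
    NondegOn B (W ⊓ fixedSpace x) ∧ NondegOn B (W ⊓ movedSpace x) ∧
      finrank F ↥(W ⊓ fixedSpace x) + finrank F ↥(W ⊓ movedSpace x) = finrank F W := by
  have hdim := finrank_inf_add hr x hx W hW
  have hsum : W ⊓ fixedSpace x ⊔ W ⊓ movedSpace x = W := by
    refine Submodule.eq_of_le_of_finrank_le (sup_le inf_le_left inf_le_left) ?_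
    have h4 := Submodule.finrank_sup_add_finrank_inf_eq (W ⊓ fixedSpace x) (W ⊓ movedSpace x)
    rw [((disjoint_fixed_moved hr x hx).mono inf_le_right inf_le_right).eq_bot, finrank_bot, add_zero] at h4
    omega
  have ho := fixed_orth_moved B x hxB
  refine ⟨fun v hv h0 => hWn v hv.1 fun w hw => ?_, fun v hv h0 => hWn v hv.1 fun w hw => ?_, hdim⟩
  all_goals
    rw [← hsum] at hw
    obtain ⟨a, ha, b, hb, rfl⟩ := Submodule.mem_sup.1 hw
    rw [map_add]
  · rw [h0 a ha, ho v hv.2 b hb.2, add_zero]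
  · rw [h0 b hb, hA.isRefl _ _ (ho a ha.2 v hv.2), add_zero]

/-- Fixed-point-free nondegenerate subspaces have dimension a multiple of `lcm 2 (ord_r q)`. -/
theorem dvd_finrank_nondeg_moved (hr : (r : F) ≠ 0) {B : LinearMap.BilinForm F V} (hA : B.IsAlt) {x : End F V}
    (hx : x ^ r = 1) {W : Submodule F V} (hW : W.map x ≤ W)
    (hWn : NondegOn B W) (hWM : W ≤ movedSpace x) :
    Nat.lcm 2 (orderOf (Nat.card F : ZMod r)) ∣ finrank F W :=
  Nat.lcm_dvd (hWn.even_finrank hA).two_dvd
    (dvd_finrank_fpf hr x hx W hW ((disjoint_fixed_moved hr x hx).symm.mono_left hWM))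

/-- The dimensions of invariant nondegenerate subspaces. -/
theorem nondeg_inv_mod_le (hr : (r : F) ≠ 0) {B : LinearMap.BilinForm F V} (hA : B.IsAlt) {x : End F V}
    (hxB : ∀ u v, B (x u) (x v) = B u v) (hx : x ^ r = 1) {W : Submodule F V} (hW : W.map x ≤ W)
    (hWn : NondegOn B W) (hfix : finrank F (fixedSpace x) < Nat.lcm 2 (orderOf (Nat.card F : ZMod r))) :
    finrank F W % Nat.lcm 2 (orderOf (Nat.card F : ZMod r)) ≤ finrank F (fixedSpace x) ∧
      (finrank F W < Nat.lcm 2 (orderOf (Nat.card F : ZMod r)) → finrank F W ≤ finrank F (fixedSpace x)) := by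
  obtain ⟨-, h2, hdim⟩ := nondegOn_parts hr hA hxB hx hW hWn
  obtain ⟨a, ha⟩ := dvd_finrank_nondeg_moved hr hA hx (W := W ⊓ movedSpace x)
    (map_inf_le hW (movedSpace_inv x)) h2 inf_le_right
  have he := Submodule.finrank_mono (inf_le_right : W ⊓ fixedSpace x ≤ fixedSpace x)
  rw [← hdim, ha, Nat.add_mul_mod_self_left, Nat.mod_eq_of_lt (by omega)]
  refine ⟨he, fun hlt => ?_⟩
  rcases Nat.eq_zero_or_pos a with rfl | hpos
  · simpa using he
  · have := Nat.le_mul_of_pos_right (Nat.lcm 2 (orderOf (Nat.card F : ZMod r))) hpos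
    omega

/-- Existence of invariant nondegenerate subspaces. -/
theorem exists_nondeg_inv (hr : (r : F) ≠ 0) (hr2 : r ≠ 2) {B : LinearMap.BilinForm F V} (hA : B.IsAlt)
    (hnd : NondegOn B (⊤ : Submodule F V)) {x : End F V} (hxB : ∀ u v, B (x u) (x v) = B u v) (hx : x ^ r = 1)
    {m : ℕ} (hme : Even m) (hcm : Nat.lcm 2 (orderOf (Nat.card F : ZMod r)) ≤ m) (hmV : m ≤ finrank F V)
    (hmod : m % Nat.lcm 2 (orderOf (Nat.card F : ZMod r)) ≤ finrank F V % Nat.lcm 2 (orderOf (Nat.card F : ZMod r))) :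
    ∃ W : Submodule F V, finrank F W = m ∧ NondegOn B W ∧ W.map x ≤ W := by
  have hinj := injective_of_pow_eq_one hx
  obtain ⟨hF, hM⟩ := nondegOn_fixed_moved B hA.isRefl hnd hr x hx hxB
  have hsum := Submodule.finrank_add_eq_of_isCompl (isCompl_fixed_moved hr x hx)
  obtain ⟨L, hL⟩ := dvd_finrank_nondeg_moved hr hA hx (movedSpace_inv x) hM le_rfl
  have hc2 : 2 ∣ Nat.lcm 2 (orderOf (Nat.card F : ZMod r)) := Nat.dvd_lcm_left _ _
  have hip := orderOf_pos_zmod (F := F) (r := r) hr
  have hcpos : 0 < Nat.lcm 2 (orderOf (Nat.card F : ZMod r)) := Nat.lcm_pos two_pos hip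
  generalize hc : Nat.lcm 2 (orderOf (Nat.card F : ZMod r)) = c at *
  set a := min L (m / c) with hadef
  have hac : c * a ≤ m := (Nat.mul_le_mul_left c (min_le_right _ _)).trans (Nat.mul_div_le m c)
  have hem : m - c * a ≤ finrank F (fixedSpace x) := by
    rcases le_total L (m / c) with h | h
    · rw [hadef, min_eq_left h]; omega
    · rw [hadef, min_eq_right h]
      have h1 := Nat.div_add_mod m c
      have h2 : finrank F V % c = finrank F (fixedSpace x) % c := by
        rw [← hsum, hL, Nat.add_mul_mod_self_left]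
      have h3 := Nat.mod_le (finrank F (fixedSpace x)) c
      omega
  obtain ⟨e, he⟩ : 2 ∣ m - c * a := Nat.dvd_sub hme.two_dvd (hc2.mul_right a)
  obtain ⟨T, hTM, hTx, hT, hTd⟩ := exists_nondeg_mul hA.isRefl hxB hinj (c := c) (movedSpace_inv x) hM
    (fun Q hQ hQx hQn hQ0 => hc ▸ exists_nondeg_piece hr hr2 hA hxB hx hQx hQn hQ hQ0) a
    (hL ▸ Nat.mul_le_mul_left c (min_le_left _ _))
  obtain ⟨S, hSF, hSx, hS, hSd⟩ := exists_nondeg_fixed hA hxB hinj le_rfl hF e (by omega)
  obtain ⟨h1, h2⟩ := hS.sup hA.isRefl hT fun s hs t ht => fixed_orth_moved B x hxB s (hSF hs) t (hTM ht)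
  exact ⟨S ⊔ T, by rw [h2, hSd, hTd]; omega, h1, map_sup_le hSx hTx⟩

end inv

section elements

variable {r : ℕ} [Fact r.Prime]

/-- An element of order `r` of the isometry group from an endomorphism. -/
theorem exists_isometry_of_end {V : Type v} [AddCommGroup V] [Module F V] {B : LinearMap.BilinForm F V} {x : End F V}
    (hxB : ∀ u v, B (x u) (x v) = B u v) (hx : x ^ r = 1) :
    ∃ g : H2.isometries B, g ^ r = 1 ∧ ∀ v, (g : V ≃ₗ[F] V) v = x v := by
  have h1 := (Fact.out : r.Prime).one_le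
  let e : V ≃ₗ[F] V := LinearEquiv.ofLinear x (x ^ (r - 1))
    (LinearMap.ext fun v => by
      show x ((x ^ (r - 1)) v) = v
      rw [← Module.End.mul_apply, ← pow_succ', Nat.sub_add_cancel h1, hx]; rfl)
    (LinearMap.ext fun v => by
      show (x ^ (r - 1)) (x v) = v
      rw [← Module.End.mul_apply, ← pow_succ, Nat.sub_add_cancel h1, hx]; rfl)
  refine ⟨⟨e, hxB⟩, Subtype.ext (LinearEquiv.ext fun v => ?_), fun v => rfl⟩
  have : ∀ k : ℕ, (e ^ k) v = (x ^ k) v := fun k => by
    induction k with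
    | zero => rfl
    | succ k ih => rw [pow_succ', pow_succ', LinearEquiv.mul_apply, ih]; rfl
  simp [this, hx]

/-- Isometries of order `r` with moved space of every admissible dimension. -/
theorem exists_isometry_moved (hr : (r : F) ≠ 0) :
    ∀ (l : ℕ) (V : Type v) [AddCommGroup V] [Module F V] [FiniteDimensional F V] (B : LinearMap.BilinForm F V),
      B.Nondegenerate → B.IsAlt → Nat.lcm 2 (orderOf (Nat.card F : ZMod r)) * l ≤ finrank F V →
      ∃ x : End F V, (∀ u v, B (x u) (x v) = B u v) ∧ x ^ r = 1 ∧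
        finrank F (movedSpace x) = Nat.lcm 2 (orderOf (Nat.card F : ZMod r)) * l := by
  intro l
  induction l with
  | zero =>
    intro V _ _ _ B _ _ _
    refine ⟨1, fun u v => rfl, one_pow r, ?_⟩
    rw [movedSpace, sub_self, LinearMap.range_zero, finrank_bot, mul_zero]
  | succ l ih =>
    intro V _ _ _ B hB hA hdim
    have hip := orderOf_pos_zmod (F := F) (r := r) hr
    have hcpos : 0 < Nat.lcm 2 (orderOf (Nat.card F : ZMod r)) := Nat.lcm_pos two_pos hip
    obtain ⟨j, hj⟩ : 2 ∣ Nat.lcm 2 (orderOf (Nat.card F : ZMod r)) := Nat.dvd_lcm_left _ _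
    have hfix : fixedSpace (1 : End F V) = ⊤ := by simp [fixedSpace]
    have hnd : NondegOn B (⊤ : Submodule F V) := fun v _ h => hB.1 v fun w => h w Submodule.mem_top
    obtain ⟨W, -, -, hW, hWd⟩ := exists_nondeg_fixed hA (x := (1 : End F V)) (fun u v => rfl)
      (fun u v h => h) (P := ⊤) hfix.ge hnd j (by rw [finrank_top, ← hj]; rw [Nat.mul_succ] at hdim; omega)
    rw [← hj] at hWd
    -- an element of order `r` on `W`
    obtain ⟨iso⟩ := H2.isometries_equiv_sp (B.restrict W) (hW.restrict hA) (fun v => hA (v : V)) (hWd.trans hj)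
    haveI : Finite (Matrix.symplecticGroup (Fin j) F) := Finite.of_injective _ Subtype.val_injective
    haveI : Finite (H2.isometries (B.restrict W)) := Finite.of_equiv _ iso.symm.toEquiv
    have hdvd : r ∣ Nat.card (H2.isometries (B.restrict W)) := by
      rw [Nat.card_congr iso.toEquiv]
      refine dvd_card_sp (by omega) ?_
      rw [← hj]
      refine (Nat.modEq_iff_dvd' (Nat.one_le_pow _ _ Nat.card_pos)).1 ?_
      refine ((ZMod.natCast_eq_natCast_iff _ _ _).1 ?_).symm
      obtain ⟨k, hk⟩ := Nat.dvd_lcm_right 2 (orderOf (Nat.card F : ZMod r))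
      rw [Nat.cast_pow, Nat.cast_one, hk, pow_mul, pow_orderOf_eq_one, one_pow]
    obtain ⟨g, hg⟩ := exists_prime_orderOf_dvd_card' r hdvd
    have hc := H2.isCompl_orth B hA hW
    have hQ := H2.restrict_orth_nondegenerate B hA hB hc
    have hQd := Submodule.finrank_add_eq_of_isCompl hc
    obtain ⟨y, hyB, hy, hyd⟩ := ih (H2.orth B W) (B.restrict (H2.orth B W)) hQ (fun v => hA (v : V))
      (by rw [Nat.mul_succ] at hdim; omega)
    obtain ⟨g', hg', hg'y⟩ := exists_isometry_of_end hyB hy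
    let G := H2.extendIso B hA hc (g, g')
    have hG : G ^ r = 1 := by
      rw [← map_pow, Prod.pow_mk, ← hg, pow_orderOf_eq_one, hg, hg']; exact map_one _
    let x : End F V := ((G : V ≃ₗ[F] V) : V →ₗ[F] V)
    have hxk : ∀ k : ℕ, x ^ k = (((G : V ≃ₗ[F] V) ^ k : V ≃ₗ[F] V) : V →ₗ[F] V) := fun k => by
      induction k with
      | zero => rfl
      | succ k ih => rw [pow_succ, pow_succ, ih]; rfl
    have hxr : x ^ r = 1 := by
      rw [hxk, ← Subgroup.coe_pow, hG]; rfl
    refine ⟨x, fun u v => G.2 u v, hxr, ?_⟩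
    -- the moved space
    let gE : End F W := ((g : W ≃ₗ[F] W) : W →ₗ[F] W)
    have hmoved : movedSpace x = (movedSpace gE).map W.subtype ⊔ (movedSpace y).map (H2.orth B W).subtype := by
      apply le_antisymm
      · rintro _ ⟨v, rfl⟩
        obtain ⟨⟨a, c⟩, rfl⟩ := (Submodule.prodEquivOfIsCompl W (H2.orth B W) hc).surjective v
        refine Submodule.mem_sup.2 ⟨_, ⟨_, ⟨a, rfl⟩, rfl⟩, _, ⟨_, ⟨c, rfl⟩, rfl⟩, ?_⟩
        simp only [Submodule.coe_prodEquivOfIsCompl', Submodule.subtype_apply, LinearMap.sub_apply, Module.End.one_apply,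
          Submodule.coe_sub]
        show _ = (G : V ≃ₗ[F] V) ((a : V) + c) - ((a : V) + c)
        rw [H2.extendIso_apply, hg'y]
        show ((g : W ≃ₗ[F] W) a : V) - a + ((y c : H2.orth B W) - c : V) = _
        abel
      · refine sup_le ?_ ?_
        · rintro _ ⟨_, ⟨a, rfl⟩, rfl⟩
          refine ⟨a, ?_⟩
          show (G : V ≃ₗ[F] V) (a : V) - a = _
          rw [H2.extendIso_left]; rfl
        · rintro _ ⟨_, ⟨c, rfl⟩, rfl⟩
          refine ⟨c, ?_⟩
          show (G : V ≃ₗ[F] V) (c : V) - c = _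
          rw [H2.extendIso_right, hg'y]; rfl
    have hgEk : ∀ k : ℕ, gE ^ k = (((g : W ≃ₗ[F] W) ^ k : W ≃ₗ[F] W) : W →ₗ[F] W) := fun k => by
      induction k with
      | zero => rfl
      | succ k ih => rw [pow_succ, pow_succ, ih]; rfl
    have hgEr : gE ^ r = 1 := by
      rw [hgEk, ← Subgroup.coe_pow, ← hg, pow_orderOf_eq_one]; rfl
    have hgEd : finrank F (movedSpace gE) = Nat.lcm 2 (orderOf (Nat.card F : ZMod r)) := by
      have hgA : (B.restrict W).IsAlt := fun v => hA (v : V)
      have hM := (nondegOn_fixed_moved (B.restrict W) hgA.isRefl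
        (fun v _ h => (hW.restrict hA).1 v fun w => h w Submodule.mem_top) hr gE hgEr g.2).2
      obtain ⟨k, hk⟩ := dvd_finrank_nondeg_moved hr hgA hgEr (movedSpace_inv gE) hM le_rfl
      have hne : finrank F (movedSpace gE) ≠ 0 := fun h0 => by
        have h1 : gE - 1 = 0 := LinearMap.range_eq_bot.1 (Submodule.finrank_eq_zero.1 h0)
        have : g = 1 := Subtype.ext (LinearEquiv.toLinearMap_injective (sub_eq_zero.1 h1))
        rw [this, orderOf_one] at hg
        exact (Fact.out : r.Prime).one_lt.ne hg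
      have hle := Submodule.finrank_le (movedSpace gE)
      rcases Nat.lt_or_ge k 2 with h | h
      · interval_cases k <;> omega
      · have := Nat.mul_le_mul_left (Nat.lcm 2 (orderOf (Nat.card F : ZMod r))) h
        omega
    have h1 := Submodule.finrank_sup_add_finrank_inf_eq ((movedSpace gE).map W.subtype)
      ((movedSpace y).map (H2.orth B W).subtype)
    rw [(hc.disjoint.mono (Submodule.map_subtype_le _ _) (Submodule.map_subtype_le _ _)).eq_bot, finrank_bot,
      add_zero, Submodule.finrank_map_subtype_eq, Submodule.finrank_map_subtype_eq, hgEd, hyd] at h1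
    rw [hmoved, h1, Nat.mul_succ, add_comm]

end elements

section counting

variable {V : Type v} [AddCommGroup V] [Module F V] [FiniteDimensional F V] {r : ℕ} [Fact r.Prime]

open scoped Pointwise in
/-- A prime dividing the number of nondegenerate `2a`-spaces divides a top factor of `|Sp_{2d}|`. -/
theorem exists_dvd_of_dvd_card_nondeg (hr : (r : F) ≠ 0) {B : LinearMap.BilinForm F V} (hB : B.Nondegenerate)
    (hA : B.IsAlt) {d a : ℕ} (hV : finrank F V = 2 * d) (had : a ≤ d)
    (hdvd : r ∣ Nat.card {W : Submodule F V // finrank F W = 2 * a ∧ NondegOn B W}) :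
    ∃ j < a, Nat.lcm 2 (orderOf (Nat.card F : ZMod r)) ∣ 2 * (d - j) := by
  classical
  haveI : Finite V := Module.finite_of_finite F
  haveI : Finite (Submodule F V) := Finite.of_injective _ SetLike.coe_injective
  haveI : Finite (V ≃ₗ[F] V) := Finite.of_injective _ DFunLike.coe_injective
  set G := H2.isometries B
  have hfix : fixedSpace (1 : End F V) = ⊤ := by simp [fixedSpace]
  have hnd : NondegOn B (⊤ : Submodule F V) := fun v _ h => hB.1 v fun w => h w Submodule.mem_top
  obtain ⟨W₀, -, -, hW₀, hW₀d⟩ := exists_nondeg_fixed hA (x := (1 : End F V)) (fun u v => rfl)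
    (fun u v h => h) (P := ⊤) hfix.ge hnd a (by rw [finrank_top, hV]; omega)
  let Ω := {W : Submodule F V // finrank F W = 2 * a ∧ NondegOn B W}
  letI : MulAction G Ω :=
    { smul := fun g W => ⟨W.1.map ((g : V ≃ₗ[F] V) : V →ₗ[F] V), by
        refine ⟨(LinearEquiv.finrank_map_eq _ _).trans W.2.1, ?_⟩
        rintro _ ⟨v, hv, rfl⟩ h0
        have : v = 0 := W.2.2 v hv fun w hw => by
          rw [← g.2 v w]; exact h0 _ ⟨w, hw, rfl⟩
        simp [this]⟩
      one_smul := fun W => Subtype.ext (Submodule.map_id _)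
      mul_smul := fun g h W => Subtype.ext (Submodule.map_comp _ _ _) }
  have hsmul : ∀ (g : G) (W : Ω), (g • W).1 = W.1.map ((g : V ≃ₗ[F] V) : V →ₗ[F] V) := fun _ _ => rfl
  haveI : MulAction.IsPretransitive G Ω := by
    suffices h : ∀ W : Ω, ∃ g : G, g • (⟨W₀, hW₀d, hW₀⟩ : Ω) = W from
      ⟨fun W W' => by
        obtain ⟨g, hg⟩ := h W; obtain ⟨g', hg'⟩ := h W'
        exact ⟨g' * g⁻¹, by rw [mul_smul, ← hg, inv_smul_smul, hg']⟩⟩
    intro W
    obtain ⟨m1, e1, hd1, he1⟩ := H2.exists_equiv_std (B.restrict W₀) (hW₀.restrict hA) fun v => hA (v : V)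
    obtain ⟨m2, e2, hd2, he2⟩ := H2.exists_equiv_std (B.restrict W.1) (W.2.2.restrict hA) fun v => hA (v : V)
    obtain rfl : m1 = m2 := by have := W.2.1; omega
    obtain ⟨g, hg, hgx⟩ := H2.exists_isometry_extend B hB hA W₀
      (W.1.subtype ∘ₗ (e1.trans e2.symm).toLinearMap)
      (W.1.subtype_injective.comp (e1.trans e2.symm).injective) (fun x x' => by
        show B.restrict W.1 (e2.symm (e1 x)) (e2.symm (e1 x')) = B.restrict W₀ x x'
        rw [← he2, e2.apply_symm_apply, e2.apply_symm_apply, he1])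
    refine ⟨⟨g, hg⟩, Subtype.ext ?_⟩
    rw [hsmul]
    refine le_antisymm ?_ ?_
    · rintro _ ⟨v, hv, rfl⟩
      show g (⟨v, hv⟩ : W₀) ∈ W.1
      rw [hgx]; exact Subtype.coe_prop _
    · intro w hw
      refine ⟨(e1.symm (e2 ⟨w, hw⟩) : V), Subtype.coe_prop _, ?_⟩
      show g _ = w
      rw [hgx]
      simp
  have hcard := (H2.card_eq_orbit_mul_stabilizer (G := G) (⟨W₀, hW₀d, hW₀⟩ : Ω)).symm
  rw [MulAction.orbit_eq_univ, Nat.card_coe_set_eq, Set.ncard_univ] at hcard
  -- the stabiliser contains the two factors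
  have hc := H2.isCompl_orth B hA hW₀
  have hrange : (H2.extendIso B hA hc).range ≤ MulAction.stabilizer G (⟨W₀, hW₀d, hW₀⟩ : Ω) := by
    rintro _ ⟨p, rfl⟩
    refine Subtype.ext (Submodule.ext fun v => ⟨?_, fun hv => ?_⟩)
    · rintro ⟨u, hu, rfl⟩
      exact (H2.extendIso_mem B hA hc p u).1 hu
    · refine ⟨((H2.extendIso B hA hc p : G) : V ≃ₗ[F] V).symm v,
        (H2.extendIso_mem B hA hc p _).2 (by simpa using hv), ?_⟩
      simp
  have hfac : Nat.card (H2.isometries (B.restrict W₀) × H2.isometries (B.restrict (H2.orth B W₀))) ∣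
      Nat.card (MulAction.stabilizer G (⟨W₀, hW₀d, hW₀⟩ : Ω)) := by
    rw [Nat.card_congr (MonoidHom.ofInjective (H2.extendIso_injective B hA hc)).toEquiv]
    exact Subgroup.card_dvd_of_le hrange
  have hQ := H2.restrict_orth_nondegenerate B hA hB hc
  have hQd := Submodule.finrank_add_eq_of_isCompl hc
  obtain ⟨i1⟩ := H2.isometries_equiv_sp (B.restrict W₀) (hW₀.restrict hA) (fun v => hA (v : V)) hW₀d
  obtain ⟨i2⟩ := H2.isometries_equiv_sp (B.restrict (H2.orth B W₀)) hQ (fun v => hA (v : V))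
    (m := d - a) (by omega)
  obtain ⟨i3⟩ := H2.isometries_equiv_sp B hB hA hV
  rw [Nat.card_prod, Nat.card_congr i1.toEquiv, Nat.card_congr i2.toEquiv, H2.card_sp, H2.card_sp] at hfac
  have htot := Nat.mul_dvd_mul hdvd hfac
  rw [hcard, Nat.card_congr i3.toEquiv, H2.card_sp] at htot
  set q := Nat.card F
  set P := ∏ i ∈ Finset.range (d - a), (q ^ (2 * (i + 1)) - 1)
  have hq : 2 ≤ q := Finite.one_lt_card (α := F)
  have hPpos : 0 < P := Finset.prod_pos fun i _ => Nat.sub_pos_of_lt (Nat.one_lt_pow (by omega) hq)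
  rw [← Finset.prod_range_mul_prod_Ico _ (Nat.sub_le d a)] at htot
  have h1 : r * P ∣ q ^ d ^ 2 * (∏ i ∈ Finset.Ico (d - a) d, (q ^ (2 * (i + 1)) - 1)) * P := by
    refine dvd_trans ?_ (htot.trans (dvd_of_eq (by ring)))
    exact Nat.mul_dvd_mul_left r (dvd_mul_of_dvd_right (dvd_mul_left _ _) _)
  have h2 := Nat.dvd_of_mul_dvd_mul_right hPpos h1
  rcases (Fact.out : r.Prime).dvd_mul.1 h2 with h3 | h3
  · exact absurd ((ZMod.natCast_eq_zero_iff _ _).2 ((Fact.out : r.Prime).dvd_of_dvd_pow h3)) (natCard_ne_zero_zmod hr)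
  obtain ⟨i, hi, hdi⟩ := (Fact.out : r.Prime).prime.exists_mem_finset_dvd h3
  rw [Finset.mem_Ico] at hi
  refine ⟨d - 1 - i, by omega, Nat.lcm_dvd (dvd_mul_right _ _) ?_⟩
  rw [show d - (d - 1 - i) = i + 1 by omega]
  exact orderOf_dvd_of_modEq ((Nat.modEq_iff_dvd' (Nat.one_le_pow _ _ Nat.card_pos)).2 hdi).symm

end counting

section involution

variable {V : Type v} [AddCommGroup V] [Module F V] [FiniteDimensional F V]

omit [Finite F] in
/-- Two vectors with `B u w ≠ 0` span a nondegenerate plane. -/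
theorem plane_nondeg {B : LinearMap.BilinForm F V} (hA : B.IsAlt) {u w : V} (hne : B u w ≠ 0) :
    NondegOn B (Submodule.span F {u, w}) ∧ finrank F (Submodule.span F {u, w}) = 2 := by
  refine ⟨fun y hy h0 => ?_, ?_⟩
  · obtain ⟨a, b, rfl⟩ := mem_span_pair'.1 hy
    have g1 := h0 u (Submodule.mem_span_of_mem (by simp))
    have g2 := h0 w (Submodule.mem_span_of_mem (by simp))
    simp only [map_add, map_smul, LinearMap.add_apply, LinearMap.smul_apply, smul_eq_mul, hA u, hA w,
      ← hA.neg_eq u w, mul_zero, zero_add, add_zero, mul_neg, neg_eq_zero, mul_eq_zero, hne, or_false] at g1 g2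
    simp [g1, g2]
  · rw [show ({u, w} : Set V) = Set.range ![u, w] by simp [Set.pair_comm], finrank_span_eq_card, Fintype.card_fin]
    refine LinearIndependent.pair_iff.2 fun a b hab => ?_
    have g1 := congrArg (fun z => B u z) hab
    have g2 := congrArg (fun z => B z w) hab
    simp [hA u, hA w, hne] at g1 g2
    exact ⟨g2, g1⟩

omit [Finite F] in
/-- In odd characteristic, isometries with scalar square have invariant nondegenerate subspaces of every
even dimension. -/
theorem exists_nondeg_inv_square (h2 : (2 : F) ≠ 0) {B : LinearMap.BilinForm F V} (hA : B.IsAlt)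
    (hnd : NondegOn B (⊤ : Submodule F V)) {x : End F V} (hxB : ∀ u v, B (x u) (x v) = B u v) {z : F} (hz : z ≠ 0)
    (hx : ∀ v, x (x v) = z • v) {e : ℕ} (he : 2 * e ≤ finrank F V) :
    ∃ W : Submodule F V, finrank F W = 2 * e ∧ NondegOn B W ∧ W.map x ≤ W := by
  have hinj : Function.Injective x := fun a b h => smul_right_injective V hz (by
    show z • a = z • b
    rw [← hx, ← hx, h])
  have key : ∀ P : Submodule F V, (∀ v ∈ P, x v ∈ P) → NondegOn B P →
      P = ⊥ ∨ ∃ T, T ≤ P ∧ T.map x ≤ T ∧ NondegOn B T ∧ finrank F T = 2 := by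
    refine sympSquare_induction B hA x hxB z hz hx _ (Or.inl rfl) ?_ ?_ ?_ ?_
    · intro u w c h hu hw
      have hne : B u w ≠ 0 := by rw [h]; exact one_ne_zero
      refine Or.inr ⟨_, le_rfl, ?_, (plane_nondeg hA hne).1, (plane_nondeg hA hne).2⟩
      rintro _ ⟨v, hv, rfl⟩
      obtain ⟨a, b, rfl⟩ := mem_span_pair'.1 hv
      exact mem_span_pair'.2 ⟨a * c, b * c, by simp [hu, hw, smul_smul]⟩
    · intro v hne
      refine Or.inr ⟨_, le_rfl, ?_, (plane_nondeg hA hne).1, (plane_nondeg hA hne).2⟩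
      rintro _ ⟨y, hy, rfl⟩
      obtain ⟨a, b, rfl⟩ := mem_span_pair'.1 hy
      exact mem_span_pair'.2 ⟨b * z, a, by simp [hx, smul_smul, add_comm]⟩
    · intro u w h a1 a2 a3 a4 hz1
      have hne : B (u + x u) (w + x w) ≠ 0 := by
        have : B (u + x u) (w + x w) = 2 := by
          simp only [map_add, LinearMap.add_apply, hxB, h, a2, ← hA.neg_eq w (x u), a3]
          ring
        rw [this]; exact h2
      refine Or.inr ⟨_, Submodule.span_le.2 (Set.insert_subset ?_ (Set.singleton_subset_iff.2 ?_)), ?_,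
        (plane_nondeg hA hne).1, (plane_nondeg hA hne).2⟩
      · exact Submodule.add_mem_sup (Submodule.mem_span_of_mem (by simp)) (Submodule.mem_span_of_mem (by simp))
      · exact Submodule.add_mem_sup (Submodule.mem_span_of_mem (by simp)) (Submodule.mem_span_of_mem (by simp))
      · rintro _ ⟨y, hy, rfl⟩
        obtain ⟨a, b, rfl⟩ := mem_span_pair'.1 hy
        exact mem_span_pair'.2 ⟨a, b, by simp [hx, hz1]; abel⟩
    · rintro P Q (rfl | ⟨T, h1, h3, h4, h5⟩) hQ - -
      · rwa [bot_sup_eq]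
      · exact Or.inr ⟨T, h1.trans le_sup_left, h3, h4, h5⟩
  obtain ⟨W, -, hWx, hW, hWd⟩ := exists_nondeg_mul hA.isRefl hxB hinj (c := 2) (P := ⊤) le_top hnd
    (fun Q _ hQx hQ hQ0 => (key Q (fun v hv => hQx ⟨v, hv, rfl⟩) hQ).resolve_left hQ0) e
    (by rwa [finrank_top])
  exact ⟨W, hWd, hW, hWx⟩

end involution

end Cfsg.Agent.H97
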