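import Cfsg.Agent.H97.OrthTypes
import Cfsg.Agent.H97.SympElusive
import Cfsg.Agent.H67.OrthMoved

set_option autoImplicit false

/-!
# Invariant non-degenerate subspaces of isometries of odd prime order
-/

universe u

namespace Cfsg.Agent.H97

open Module QuadraticMap

variable {F : Type u} [Field F] [Fintype F] {V : Type u} [AddCommGroup V] [Module F V] [FiniteDimensional F V]
  {r : ℕ} [Fact r.Prime]

/-- The type of a fixed-point-free space of dimension `l * lcm 2 i`. -/
def SgnPlus (i l : ℕ) : Prop := Odd i ∨ Even l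

theorem sgnPlus_add (i a b : ℕ) : SgnPlus i (a + b) ↔ (SgnPlus i a ↔ SgnPlus i b) := by
  rcases Nat.even_or_odd i with h | h
  · simp [SgnPlus, Nat.not_odd_iff_even.2 h, Nat.even_add]
  · simp [SgnPlus, h]

theorem sgnPlus_zero (i : ℕ) : SgnPlus i 0 := Or.inr Even.zero

theorem iff_iff_of_left {A B : Prop} (h : A) : (A ↔ B) ↔ B := by simp [h]

theorem iff_rot {A B C : Prop} (h : (A ↔ B) ↔ C) : A ↔ (C ↔ B) := by
  by_cases A <;> by_cases B <;> simp_all

theorem iff_rot_of_left {A B C : Prop} (h : A) (hBC : B ↔ C) : A ↔ (C ↔ B) := by simp [h, hBC]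

theorem iff_cancel_right {A B : Prop} : ((A ↔ B) ↔ B) ↔ A := by
  by_cases B <;> simp_all

omit [Fintype F] [FiniteDimensional F V] in
theorem isometry_polarBilin {Q : QuadraticForm F V} {x : End F V} (hxQ : ∀ v, Q (x v) = Q v) (u v : V) :
    polarBilin Q (x u) (x v) = polarBilin Q u v := by
  simp only [polarBilin_apply_apply, polar, ← map_add, hxQ]

/-- Invariant non-degenerate subspaces split into non-degenerate fixed and moved parts. -/
theorem nondegOn_parts_refl (hr : (r : F) ≠ 0) {B : LinearMap.BilinForm F V} (hB : B.IsRefl) {x : End F V}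
    (hxB : ∀ u v, B (x u) (x v) = B u v) (hx : x ^ r = 1) {W : Submodule F V} (hW : W.map x ≤ W)
    (hWn : NondegOn B W) :
    NondegOn B (W ⊓ fixedSpace x) ∧ NondegOn B (W ⊓ movedSpace x) ∧
      W ⊓ fixedSpace x ⊔ W ⊓ movedSpace x = W ∧
      finrank F ↥(W ⊓ fixedSpace x) + finrank F ↥(W ⊓ movedSpace x) = finrank F W := by
  have hdim := finrank_inf_add hr x hx W hW
  have hsum : W ⊓ fixedSpace x ⊔ W ⊓ movedSpace x = W := by
    refine Submodule.eq_of_le_of_finrank_le (sup_le inf_le_left inf_le_left) ?_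
    have h4 := Submodule.finrank_sup_add_finrank_inf_eq (W ⊓ fixedSpace x) (W ⊓ movedSpace x)
    rw [((disjoint_fixed_moved hr x hx).mono inf_le_right inf_le_right).eq_bot, finrank_bot, add_zero] at h4
    omega
  have ho := fixed_orth_moved B x hxB
  refine ⟨fun v hv h0 => hWn v hv.1 fun w hw => ?_, fun v hv h0 => hWn v hv.1 fun w hw => ?_, hsum, hdim⟩
  all_goals
    rw [← hsum] at hw
    obtain ⟨a, ha, b, hb, rfl⟩ := Submodule.mem_sup.1 hw
    rw [map_add]
  · rw [h0 a ha, ho v hv.2 b hb.2, add_zero]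
  · rw [h0 b hb, hB _ _ (ho a ha.2 v hv.2), add_zero]

/-- The alternating form twisted by `x - x⁻¹`. -/
def twistForm (Q : QuadraticForm F V) (x : End F V) (r : ℕ) : LinearMap.BilinForm F V :=
  (polarBilin Q) ∘ₗ (x - x ^ (r - 1))

omit [Fintype F] [FiniteDimensional F V] in
theorem twistForm_isAlt {Q : QuadraticForm F V} {x : End F V} (hxQ : ∀ v, Q (x v) = Q v) (hx : x ^ r = 1) :
    (twistForm Q x r).IsAlt := by
  intro u
  have h1 : x ((x ^ (r - 1)) u) = u := by
    rw [← Module.End.mul_apply, ← pow_succ', Nat.sub_add_cancel (Fact.out : r.Prime).one_le, hx]; rfl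
  have h2 := isometry_polarBilin hxQ ((x ^ (r - 1)) u) u
  rw [h1, polarBilin_apply_apply, polarBilin_apply_apply] at h2
  show polarBilin Q (x u - (x ^ (r - 1)) u) u = 0
  rw [map_sub, LinearMap.sub_apply, polarBilin_apply_apply, polarBilin_apply_apply, ← h2, polar_comm, sub_self]

omit [Fintype F] [FiniteDimensional F V] [Fact r.Prime] in
theorem twistForm_isometry {Q : QuadraticForm F V} {x : End F V} (hxQ : ∀ v, Q (x v) = Q v) (u v : V) :
    twistForm Q x r (x u) (x v) = twistForm Q x r u v := by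
  show polarBilin Q (x (x u) - (x ^ (r - 1)) (x u)) (x v) = polarBilin Q (x u - (x ^ (r - 1)) u) v
  rw [show (x ^ (r - 1)) (x u) = x ((x ^ (r - 1)) u) by
    rw [← Module.End.mul_apply, ← Module.End.mul_apply, ← pow_succ, ← pow_succ'], ← map_sub,
    isometry_polarBilin hxQ]

/-- On invariant moved subspaces the twist is invertible. -/
theorem exists_twist_eq (hr : (r : F) ≠ 0) (hr2 : r ≠ 2) {x : End F V} (hx : x ^ r = 1) {W : Submodule F V}
    (hW : W.map x ≤ W) (hWM : W ≤ movedSpace x) :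
    (∀ v ∈ W, (x - x ^ (r - 1)) v ∈ W) ∧ ∀ w ∈ W, ∃ v ∈ W, (x - x ^ (r - 1)) v = w := by
  have hmem : ∀ v ∈ W, (x - x ^ (r - 1)) v ∈ W := by
    intro v hv
    have : ∀ k, (x ^ k) v ∈ W := fun k => by
      induction k with
      | zero => exact hv
      | succ k ih => rw [pow_succ', Module.End.mul_apply]; exact hW ⟨_, ih, rfl⟩
    exact W.sub_mem (hW ⟨v, hv, rfl⟩) (this _)
  have hinj : ∀ v ∈ W, (x - x ^ (r - 1)) v = 0 → v = 0 := by
    intro v hv h
    rw [LinearMap.sub_apply, sub_eq_zero] at h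
    have h2 : (x ^ 2) v = v := by
      rw [pow_two, Module.End.mul_apply, h, ← Module.End.mul_apply, ← pow_succ',
        Nat.sub_add_cancel (Fact.out : r.Prime).one_le, hx]; rfl
    have h3 : ∀ k, ((x ^ 2) ^ k) v = v := fun k => by
      induction k with
      | zero => rfl
      | succ k ih => rw [pow_succ, Module.End.mul_apply, h2, ih]
    obtain ⟨s, hs⟩ := (Fact.out : r.Prime).odd_of_ne_two hr2
    have h4 : (x ^ r) v = x v := by rw [hs, pow_succ', pow_mul, Module.End.mul_apply, h3]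
    rw [hx, Module.End.one_apply] at h4
    exact Submodule.disjoint_def.1 (disjoint_fixed_moved hr x hx) v (mem_fixedSpace.2 h4.symm) (hWM hv)
  let D : W →ₗ[F] W := (x - x ^ (r - 1)).restrict hmem
  have hD : Function.Surjective D := LinearMap.injective_iff_surjective.1
    ((injective_iff_map_eq_zero _).2 fun v hv => Subtype.ext (hinj v v.2 (congrArg Subtype.val hv)))
  refine ⟨hmem, fun w hw => ?_⟩
  obtain ⟨v, hv⟩ := hD ⟨w, hw⟩
  exact ⟨v, v.2, congrArg Subtype.val hv⟩

theorem nondegOn_twist_iff (hr : (r : F) ≠ 0) (hr2 : r ≠ 2) {Q : QuadraticForm F V} {x : End F V}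
    (hx : x ^ r = 1) {W : Submodule F V} (hW : W.map x ≤ W) (hWM : W ≤ movedSpace x) :
    NondegOn (twistForm Q x r) W ↔ NondegOn (polarBilin Q) W := by
  obtain ⟨hmem, hsurj⟩ := exists_twist_eq hr hr2 hx hW hWM
  constructor
  · intro h v hv h0
    obtain ⟨u, hu, rfl⟩ := hsurj v hv
    rw [h u hu (fun w hw => h0 w hw), map_zero]
  · intro h v hv h0
    have h1 := h _ (hmem v hv) fun w hw => h0 w hw
    have hinj : Function.Injective ((x - x ^ (r - 1)).restrict hmem) :=
      LinearMap.injective_iff_surjective.2 fun z => by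
        obtain ⟨y, hy, hy'⟩ := hsurj z z.2
        exact ⟨⟨y, hy⟩, Subtype.ext hy'⟩
    exact congrArg Subtype.val (@hinj ⟨v, hv⟩ 0 (Subtype.ext (by simpa using h1)))

/-- The dimension of a non-degenerate invariant moved subspace. -/
theorem dvd_finrank_orth_moved (hr : (r : F) ≠ 0) (hr2 : r ≠ 2) {Q : QuadraticForm F V} {x : End F V}
    (hxQ : ∀ v, Q (x v) = Q v) (hx : x ^ r = 1) {W : Submodule F V}
    (hW : W.map x ≤ W) (hWn : NondegOn (polarBilin Q) W) (hWM : W ≤ movedSpace x) :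
    Nat.lcm 2 (orderOf (Nat.card F : ZMod r)) ∣ finrank F W :=
  dvd_finrank_nondeg_moved hr (twistForm_isAlt hxQ hx) hx hW ((nondegOn_twist_iff hr hr2 hx hW hWM).2 hWn) hWM

/-- Pieces of dimension `lcm 2 i`, with a totally singular half when `i` is odd. -/
theorem exists_orth_piece (hr : (r : F) ≠ 0) (hr2 : r ≠ 2) {Q : QuadraticForm F V} {x : End F V}
    (hxQ : ∀ v, Q (x v) = Q v) (hx : x ^ r = 1) {P : Submodule F V}
    (hPx : P.map x ≤ P) (hP : NondegOn (polarBilin Q) P) (hPM : P ≤ movedSpace x) (hP0 : P ≠ ⊥) :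
    ∃ T, T ≤ P ∧ T.map x ≤ T ∧ NondegOn (polarBilin Q) T ∧
      finrank F T = Nat.lcm 2 (orderOf (Nat.card F : ZMod r)) ∧
      (Odd (orderOf (Nat.card F : ZMod r)) → PlusOn Q T) := by
  have hA := twistForm_isAlt hxQ hx
  obtain ⟨T, hTP, hTx, hT, hTd⟩ := exists_nondeg_piece hr hr2 hA (twistForm_isometry hxQ) hx hPx
    ((nondegOn_twist_iff hr hr2 hx hPx hPM).2 hP) hPM hP0
  have hTM := hTP.trans hPM
  refine ⟨T, hTP, hTx, (nondegOn_twist_iff hr hr2 hx hTx hTM).1 hT, hTd, fun hi => ?_⟩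
  have hT0 : T ≠ ⊥ := fun h => by
    rw [h, finrank_bot] at hTd
    exact (Nat.lcm_pos two_pos (orderOf_pos_zmod (F := F) (r := r) hr)).ne hTd
  obtain ⟨W, hWT, hWx, -, hWd, hirr⟩ := exists_simple_le hr hx hTx hTM hT0
  have hWM := hWT.trans hTM
  rcases simple_dichotomy hA (twistForm_isometry hxQ) (injective_of_pow_eq_one hx) hWx hirr with h | h
  · obtain ⟨e, he⟩ := h.even_finrank hA
    exact absurd ⟨e, by omega⟩ (Nat.not_even_iff_odd.2 hi)
  obtain ⟨-, hsurj⟩ := exists_twist_eq hr hr2 hx hWx hWM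
  have hperp : ∀ a ∈ W, ∀ b ∈ W, polar Q a b = 0 := fun a ha b hb => by
    obtain ⟨a', ha', rfl⟩ := hsurj a ha
    exact h a' ha' b hb
  refine ⟨W, hWT, by rw [hWd, hTd, lcm_two_eq, if_neg (Nat.not_even_iff_odd.2 hi)], fun w hw => ?_⟩
  have hmem : ∀ v ∈ W, (x - 1 : End F V) v ∈ W := fun v hv => W.sub_mem (hWx ⟨v, hv, rfl⟩) hv
  have hs : Function.Surjective ((x - 1 : End F V).restrict hmem) := LinearMap.injective_iff_surjective.1
    ((injective_iff_map_eq_zero _).2 fun v hv => Subtype.ext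
      (Submodule.disjoint_def.1 (disjoint_fixed_moved hr x hx) v
        (mem_fixedSpace.2 (sub_eq_zero.1 (congrArg Subtype.val hv))) (hWM v.2)))
  obtain ⟨⟨v, hv⟩, hvw⟩ := hs ⟨w, hw⟩
  have hvw' : x v - v = w := congrArg Subtype.val hvw
  have h1 := hperp w hw v hv
  rw [QuadraticMap.polar, ← hvw', sub_add_cancel, hxQ] at h1
  rw [← hvw']
  linear_combination -h1

/-- The type of a non-degenerate invariant moved subspace. -/
theorem plusOn_moved (hr : (r : F) ≠ 0) (hr2 : r ≠ 2) {Q : QuadraticForm F V} {x : End F V}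
    (hxQ : ∀ v, Q (x v) = Q v) (hx : x ^ r = 1) {W : Submodule F V}
    (hW : W.map x ≤ W) (hWn : NondegOn (polarBilin Q) W) (hWM : W ≤ movedSpace x) (l : ℕ)
    (hl : finrank F W = Nat.lcm 2 (orderOf (Nat.card F : ZMod r)) * l) :
    PlusOn Q W ↔ SgnPlus (orderOf (Nat.card F : ZMod r)) l := by
  have hrp : r.Prime := Fact.out
  set i := orderOf (Nat.card F : ZMod r) with hi
  have hc2 : 2 ∣ Nat.lcm 2 i := Nat.dvd_lcm_left _ _
  rcases Nat.even_or_odd i with he | ho
  · obtain ⟨p, hp⟩ := CharP.exists F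
    haveI := hp
    haveI : Fact p.Prime := ⟨CharP.char_is_prime F p⟩
    obtain ⟨h, hh⟩ := id he
    rw [lcm_two_eq, if_pos he, hh] at hl
    have hd : finrank F W = 2 * (h * l) := by rw [hl]; ring
    have hinj := injective_of_pow_eq_one hx
    let T : W ≃ₗ[F] W := LinearEquiv.ofInjectiveEndo (x.restrict fun v hv => hW ⟨v, hv, rfl⟩)
      fun a b hab => Subtype.ext (hinj (congrArg Subtype.val hab))
    have hTv : ∀ v : W, ((T v : W) : V) = x v := fun v => rfl
    have hTk : ∀ (k : ℕ) (v : W), (((T ^ k) v : W) : V) = (x ^ k) v := fun k => by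
      induction k with
      | zero => intro v; rfl
      | succ k ih => intro v; rw [pow_succ', pow_succ', LinearEquiv.mul_apply, hTv, ih]; rfl
    have hx1 : (Fintype.card F : ZMod r) ≠ 1 := fun h1 => by
      rw [hi, Nat.card_eq_fintype_card, h1, orderOf_one] at he
      exact Nat.not_even_one he
    have key := H67.hasSing_iff_of_fpf hrp hr2 (Q.comp W.subtype) (restrictQ_nondegenerate hWn) hd T
      (LinearEquiv.ext fun v => Subtype.ext (by rw [hTk, hx]; rfl)) (fun v => by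
        rw [QuadraticMap.comp_apply, QuadraticMap.comp_apply, Submodule.subtype_apply, hTv, hxQ]; rfl)
      (fun v hv => Subtype.ext (Submodule.disjoint_def.1 (disjoint_fixed_moved hr x hx) v
        (mem_fixedSpace.2 (by rw [← hTv, hv])) (hWM v.2))) hx1
    have hq := pow_half_ord (F := F) hr he
    rw [← hi, show i / 2 = h by omega, Nat.card_eq_fintype_card] at hq
    rw [pow_mul, hq] at key
    rw [plusOn_iff_hasSing Q W hd]
    rcases Nat.even_or_odd l with hl' | hl'
    · exact iff_of_true (key.1 hl'.neg_one_pow) (Or.inr hl')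
    · exact iff_of_false (key.2 hl'.neg_one_pow)
        (fun h' => h'.elim (Nat.not_odd_iff_even.2 he) (Nat.not_even_iff_odd.2 hl'))
  · refine iff_of_true ?_ (Or.inl ho)
    clear hl l
    induction hn : finrank F W using Nat.strong_induction_on generalizing W with
    | _ n ih =>
      subst hn
      by_cases hW0 : W = ⊥
      · exact ⟨⊥, bot_le, by rw [hW0, finrank_bot], by simp⟩
      obtain ⟨T, hTW, hTx, hT, hTd, hTp⟩ := exists_orth_piece hr hr2 hxQ hx hW hWn hWM hW0
      obtain ⟨R, hRW, hRx, hR, hd, hsum, ho'⟩ := nondegOn_split_inv (polarBilin_isRefl Q)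
        (isometry_polarBilin hxQ) (injective_of_pow_eq_one hx) hTW hW hTx hWn hT
      have hdim := (hT.sup (polarBilin_isRefl Q) hR ho').2
      rw [hsum] at hdim
      have hpos : 0 < finrank F T := by
        rw [hTd]; exact Nat.lcm_pos two_pos (orderOf_pos_zmod (F := F) (r := r) hr)
      have hRM := hRW.trans hWM
      have hRp := ih _ (by omega) hRx hR hRM rfl
      rw [← hsum, plusOn_sup hT hR ho'
        (even_iff_two_dvd.2 (hTd ▸ hc2))
        (even_iff_two_dvd.2 (hc2.trans (dvd_finrank_orth_moved hr hr2 hxQ hx hRx hR hRM)))]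
      exact iff_of_true (hTp ho) hRp

/-- The moved and fixed spaces of an isometry of order `r`. -/
theorem orth_fixed_moved (hr : (r : F) ≠ 0) (hr2 : r ≠ 2) {Q : QuadraticForm F V}
    (hQ : (polarBilin Q).Nondegenerate) {x : End F V} (hxQ : ∀ v, Q (x v) = Q v) (hx : x ^ r = 1) :
    NondegOn (polarBilin Q) (fixedSpace x) ∧ NondegOn (polarBilin Q) (movedSpace x) ∧
      ∃ l, finrank F (movedSpace x) = Nat.lcm 2 (orderOf (Nat.card F : ZMod r)) * l ∧
        finrank F (fixedSpace x) + Nat.lcm 2 (orderOf (Nat.card F : ZMod r)) * l = finrank F V ∧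
        (x ≠ 1 → 1 ≤ l) ∧
        ∀ d, finrank F V = 2 * d → (H67.HasSing Q d ↔
          (PlusOn Q (fixedSpace x) ↔ SgnPlus (orderOf (Nat.card F : ZMod r)) l)) := by
  obtain ⟨hF, hM⟩ := nondegOn_fixed_moved (polarBilin Q) (polarBilin_isRefl Q) (nondegOn_top hQ) hr x hx
    (isometry_polarBilin hxQ)
  obtain ⟨l, hl⟩ := dvd_finrank_orth_moved hr hr2 hxQ hx (movedSpace_inv x) hM le_rfl
  have hsum := Submodule.finrank_add_eq_of_isCompl (isCompl_fixed_moved hr x hx)
  refine ⟨hF, hM, l, hl, hl ▸ hsum, fun hne => ?_, fun d hd => ?_⟩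
  · rcases Nat.eq_zero_or_pos l with rfl | h
    · rw [mul_zero] at hl
      exact absurd (sub_eq_zero.1 (LinearMap.range_eq_bot.1 (Submodule.finrank_eq_zero.1 hl))) hne
    · exact h
  · have hMe : Even (finrank F (movedSpace x)) :=
      even_iff_two_dvd.2 (hl ▸ (Nat.dvd_lcm_left _ _).mul_right _)
    have hFe : Even (finrank F (fixedSpace x)) := by
      have h2 : Even (finrank F (fixedSpace x) + finrank F (movedSpace x)) := hsum ▸ hd ▸ even_two_mul d
      exact (Nat.even_add.1 h2).2 hMe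
    rw [← plusOn_top Q hd, ← (isCompl_fixed_moved hr x hx).sup_eq_top,
      plusOn_sup hF hM (fun a ha b hb => fixed_orth_moved (polarBilin Q) x (isometry_polarBilin hxQ) a ha b hb)
        hFe hMe, plusOn_moved hr hr2 hxQ hx (movedSpace_inv x) hM le_rfl l hl]

/-- Necessity: the shape of invariant non-degenerate subspaces. -/
theorem orth_inv_shape (hr : (r : F) ≠ 0) (hr2 : r ≠ 2) {Q : QuadraticForm F V}
    {x : End F V} (hxQ : ∀ v, Q (x v) = Q v) (hx : x ^ r = 1) {W : Submodule F V} (hW : W.map x ≤ W)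
    (hWn : NondegOn (polarBilin Q) W) {l : ℕ}
    (hl : finrank F (movedSpace x) = Nat.lcm 2 (orderOf (Nat.card F : ZMod r)) * l) :
    ∃ l' f', l' ≤ l ∧ f' + Nat.lcm 2 (orderOf (Nat.card F : ZMod r)) * l' = finrank F W ∧
      f' ≤ finrank F (fixedSpace x) ∧
      (Even (finrank F W) → (f' = 0 → (PlusOn Q W ↔ SgnPlus (orderOf (Nat.card F : ZMod r)) l')) ∧
        (f' = finrank F (fixedSpace x) →
          (PlusOn Q W ↔ (PlusOn Q (fixedSpace x) ↔ SgnPlus (orderOf (Nat.card F : ZMod r)) l')))) := by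
  obtain ⟨hWF, hWM, hsum, hdim⟩ :=
    nondegOn_parts_refl hr (polarBilin_isRefl Q) (isometry_polarBilin hxQ) hx hW hWn
  have hMx := map_inf_le hW (movedSpace_inv x)
  obtain ⟨l', hl'⟩ := dvd_finrank_orth_moved hr hr2 hxQ hx (W := W ⊓ movedSpace x) hMx hWM inf_le_right
  have hle := Submodule.finrank_mono (inf_le_right : W ⊓ movedSpace x ≤ movedSpace x)
  have hcpos := Nat.lcm_pos two_pos (orderOf_pos_zmod (F := F) (r := r) hr)
  refine ⟨l', finrank F ↥(W ⊓ fixedSpace x), Nat.le_of_mul_le_mul_left (hl ▸ hl' ▸ hle) hcpos,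
    hl' ▸ hdim, Submodule.finrank_mono inf_le_right, fun he => ?_⟩
  have hMe : Even (finrank F ↥(W ⊓ movedSpace x)) :=
    even_iff_two_dvd.2 (hl' ▸ (Nat.dvd_lcm_left _ _).mul_right _)
  have hFe : Even (finrank F ↥(W ⊓ fixedSpace x)) := (Nat.even_add.1 (hdim ▸ he)).2 hMe
  have hplus := plusOn_sup hWF hWM
    (fun a ha b hb => fixed_orth_moved (polarBilin Q) x (isometry_polarBilin hxQ) a ha.2 b hb.2) hFe hMe
  rw [hsum, plusOn_moved hr hr2 hxQ hx hMx hWM inf_le_right l' hl'] at hplus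
  refine ⟨fun h0 => ?_, fun hf => ?_⟩
  · have : PlusOn Q (W ⊓ fixedSpace x) := ⟨⊥, bot_le, by rw [finrank_bot, h0], by simp⟩
    exact hplus.trans (iff_iff_of_left this)
  · have he2 : W ⊓ fixedSpace x = fixedSpace x := Submodule.eq_of_le_of_finrank_eq inf_le_right hf
    rwa [he2] at hplus

/-- Sufficiency: invariant non-degenerate subspaces of every possible shape. -/
theorem exists_orth_inv (hr : (r : F) ≠ 0) (hr2 : r ≠ 2) {Q : QuadraticForm F V}
    (hQ : (polarBilin Q).Nondegenerate) (hc : (2 : F) ≠ 0 ∨ Even (finrank F V))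
    {x : End F V} (hxQ : ∀ v, Q (x v) = Q v) (hx : x ^ r = 1) {l : ℕ}
    (hl : finrank F (movedSpace x) = Nat.lcm 2 (orderOf (Nat.card F : ZMod r)) * l) {l' j : ℕ} (hl' : l' ≤ l)
    (hj : 2 * j ≤ finrank F (fixedSpace x)) (τ : Prop)
    (h0 : j = 0 → (SgnPlus (orderOf (Nat.card F : ZMod r)) l' ↔ τ))
    (htop : 2 * j = finrank F (fixedSpace x) → j ≠ 0 →
      ((PlusOn Q (fixedSpace x) ↔ SgnPlus (orderOf (Nat.card F : ZMod r)) l') ↔ τ)) :
    ∃ W : Submodule F V, finrank F W = 2 * j + Nat.lcm 2 (orderOf (Nat.card F : ZMod r)) * l' ∧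
      NondegOn (polarBilin Q) W ∧ W.map x ≤ W ∧ (PlusOn Q W ↔ τ) := by
  set i := orderOf (Nat.card F : ZMod r)
  have hxB := isometry_polarBilin hxQ
  obtain ⟨hF, hM⟩ := nondegOn_fixed_moved (polarBilin Q) (polarBilin_isRefl Q) (nondegOn_top hQ) hr x hx hxB
  obtain ⟨T, hTM, hTx, hT, hTd⟩ := exists_nondeg_mul (polarBilin_isRefl Q) hxB (injective_of_pow_eq_one hx)
    (c := Nat.lcm 2 i) (movedSpace_inv x) hM
    (fun P hP hPx hPn hP0 => by
      obtain ⟨T, h1, h2, h3, h4, -⟩ := exists_orth_piece hr hr2 hxQ hx hPx hPn hP hP0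
      exact ⟨T, h1, h2, h3, h4⟩) l' (hl ▸ Nat.mul_le_mul_left _ hl')
  have hTp := plusOn_moved hr hr2 hxQ hx hTx hT hTM l' hTd
  obtain ⟨S, hSF, hS, hSd, hSp⟩ : ∃ S, S ≤ fixedSpace x ∧ NondegOn (polarBilin Q) S ∧ finrank F S = 2 * j ∧
      (PlusOn Q S ↔ (τ ↔ SgnPlus i l')) := by
    rcases hj.lt_or_eq with hlt | heq
    · refine exists_sub_of_type hF ?_ hlt _ fun h => (h0 h).symm
      refine hc.imp id fun h => ?_
      have hsum := Submodule.finrank_add_eq_of_isCompl (isCompl_fixed_moved hr x hx)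
      rw [← hsum, hl] at h
      exact (Nat.even_add.1 h).2 (even_iff_two_dvd.2 ((Nat.dvd_lcm_left _ _).mul_right _))
    · refine ⟨fixedSpace x, le_rfl, hF, heq.symm, ?_⟩
      by_cases hj0 : j = 0
      · have : PlusOn Q (fixedSpace x) := ⟨⊥, bot_le, by rw [finrank_bot, ← heq, hj0], by simp⟩
        exact iff_rot_of_left this (h0 hj0)
      · exact iff_rot (htop heq hj0)
  have ho : ∀ a ∈ S, ∀ b ∈ T, polar Q a b = 0 := fun a ha b hb =>
    fixed_orth_moved (polarBilin Q) x hxB a (hSF ha) b (hTM hb)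
  obtain ⟨h1, h2⟩ := hS.sup (polarBilin_isRefl Q) hT ho
  refine ⟨S ⊔ T, by rw [h2, hSd, hTd], h1, map_sup_le (map_le_of_fixed fun v hv => mem_fixedSpace.1 (hSF hv)) hTx, ?_⟩
  rw [plusOn_sup hS hT ho (hSd ▸ even_two_mul j) (even_iff_two_dvd.2 (hTd ▸ (Nat.dvd_lcm_left _ _).mul_right _)),
    hSp, hTp]
  exact iff_cancel_right

/-- Sufficiency for subspaces of odd dimension: every isometry class. -/
theorem exists_orth_inv_odd (hr : (r : F) ≠ 0) (hr2 : r ≠ 2) (h2 : (2 : F) ≠ 0) {Q : QuadraticForm F V}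
    (hQ : (polarBilin Q).Nondegenerate) {x : End F V} (hxQ : ∀ v, Q (x v) = Q v) (hx : x ^ r = 1) {l : ℕ}
    (hl : finrank F (movedSpace x) = Nat.lcm 2 (orderOf (Nat.card F : ZMod r)) * l) {l' f' : ℕ} (hl' : l' ≤ l)
    (hf0 : 0 < f') (hf : f' < finrank F (fixedSpace x)) {W₀ : Submodule F V} (hW₀ : NondegOn (polarBilin Q) W₀)
    (hd₀ : finrank F W₀ = f' + Nat.lcm 2 (orderOf (Nat.card F : ZMod r)) * l') :
    ∃ W : Submodule F V, finrank F W = finrank F W₀ ∧ NondegOn (polarBilin Q) W ∧ W.map x ≤ W ∧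
      ∃ e : W ≃ₗ[F] W₀, ∀ w : W, Q ((e w : W₀) : V) = Q (w : V) := by
  set i := orderOf (Nat.card F : ZMod r)
  have hxB := isometry_polarBilin hxQ
  have hB := polarBilin_isRefl Q
  obtain ⟨hF, hM⟩ := nondegOn_fixed_moved (polarBilin Q) hB (nondegOn_top hQ) hr x hx hxB
  obtain ⟨T, hTM, hTx, hT, hTd⟩ := exists_nondeg_mul hB hxB (injective_of_pow_eq_one hx)
    (c := Nat.lcm 2 i) (movedSpace_inv x) hM
    (fun P hP hPx hPn hP0 => by
      obtain ⟨T, h1, h2, h3, h4, -⟩ := exists_orth_piece hr hr2 hxQ hx hPx hPn hP hP0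
      exact ⟨T, h1, h2, h3, h4⟩) l' (hl ▸ Nat.mul_le_mul_left _ hl')
  obtain ⟨g, hg, hgQ⟩ := exists_embed (restrictQ_nondegenerate hW₀) (restrictQ_nondegenerate hT)
    (by omega) (Or.inl h2)
  set T' := LinearMap.range (W₀.subtype ∘ₗ g) with hT'def
  have hinj' : Function.Injective (W₀.subtype ∘ₗ g) := W₀.subtype_injective.comp hg
  have hT'Q : ∀ t : T, Q ((W₀.subtype ∘ₗ g) t) = (Q.comp T.subtype) t := hgQ
  have hT' : NondegOn (polarBilin Q) T' := nondegOn_range (restrictQ_nondegenerate hT) _ hT'Q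
  have hT'le : T' ≤ W₀ := (LinearMap.range_comp_le_range g W₀.subtype).trans (by rw [Submodule.range_subtype])
  obtain ⟨R, hRW, -, hR, hd, hsum, ho⟩ := nondegOn_split_inv hB (x := (1 : End F V)) (fun a b => rfl)
    (fun a b h => h) hT'le (map_le_of_fixed fun v _ => rfl) (map_le_of_fixed fun v _ => rfl) hW₀ hT'
  have hRd : finrank F R = f' := by
    have h1 := (hT'.sup hB hR ho).2
    have h2 : finrank F T' = finrank F T := LinearMap.finrank_range_of_inj hinj'
    rw [hsum] at h1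
    omega
  obtain ⟨h, hh, hhQ⟩ := exists_embed (restrictQ_nondegenerate hF) (restrictQ_nondegenerate hR)
    (by omega) (Or.inl h2)
  set S := LinearMap.range ((fixedSpace x).subtype ∘ₗ h)
  have hinjS : Function.Injective ((fixedSpace x).subtype ∘ₗ h) := (fixedSpace x).subtype_injective.comp hh
  have hS : NondegOn (polarBilin Q) S :=
    nondegOn_range (restrictQ_nondegenerate hR) ((fixedSpace x).subtype ∘ₗ h) hhQ
  have hSF : S ≤ fixedSpace x :=
    (LinearMap.range_comp_le_range h (fixedSpace x).subtype).trans (by rw [Submodule.range_subtype])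
  have hSd : finrank F S = f' := (LinearMap.finrank_range_of_inj hinjS).trans hRd
  have hoS : ∀ a ∈ S, ∀ b ∈ T, polar Q a b = 0 := fun a ha b hb =>
    fixed_orth_moved (polarBilin Q) x hxB a (hSF ha) b (hTM hb)
  obtain ⟨h1, h2'⟩ := hS.sup hB hT hoS
  refine ⟨S ⊔ T, by rw [h2', hSd, hTd, hd₀], h1,
    map_sup_le (map_le_of_fixed fun v hv => mem_fixedSpace.1 (hSF hv)) hTx, ?_⟩
  -- both spaces are the image of `R × T`
  let φ₀ : (R × T) →ₗ[F] V := R.subtype.coprod (W₀.subtype ∘ₗ g)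
  let φ : (R × T) →ₗ[F] V := ((fixedSpace x).subtype ∘ₗ h).coprod T.subtype
  have hval₀ : ∀ z, Q (φ₀ z) = ((Q.comp R.subtype).prod (Q.comp T.subtype)) z := fun z => by
    have h3 : polar Q (((W₀.subtype ∘ₗ g) z.2 : V)) (z.1 : V) = 0 := ho _ ⟨z.2, rfl⟩ _ z.1.2
    rw [QuadraticMap.polar] at h3
    have h4 := hT'Q z.2
    simp only [φ₀, LinearMap.coprod_apply, QuadraticMap.prod_apply, QuadraticMap.comp_apply,
      Submodule.subtype_apply, LinearMap.comp_apply] at h3 h4 ⊢
    rw [add_comm (z.1 : V)]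
    linear_combination h3 + h4
  have hval : ∀ z, Q (φ z) = ((Q.comp R.subtype).prod (Q.comp T.subtype)) z := fun z => by
    have h3 : polar Q (((fixedSpace x).subtype ∘ₗ h) z.1) (z.2 : V) = 0 := hoS _ ⟨z.1, rfl⟩ _ z.2.2
    rw [QuadraticMap.polar] at h3
    have h4 : Q ((h z.1 : fixedSpace x) : V) = Q (z.1 : V) := hhQ z.1
    simp only [φ, LinearMap.coprod_apply, QuadraticMap.prod_apply, QuadraticMap.comp_apply,
      Submodule.subtype_apply, LinearMap.comp_apply] at h3 ⊢
    linear_combination h3 + h4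
  have hinj : ∀ ψ : (R × T) →ₗ[F] V,
      (∀ z, Q (ψ z) = ((Q.comp R.subtype).prod (Q.comp T.subtype)) z) → Function.Injective ψ := fun ψ hψ => by
    rw [injective_iff_map_eq_zero]
    intro z hz
    refine H4.eq_zero_of_polar
      (H67.prod_nondegenerate (restrictQ_nondegenerate hR) (restrictQ_nondegenerate hT)) fun y => ?_
    simp only [polar, ← hψ, map_add, hz, zero_add, map_zero, sub_zero, sub_self]
  have hr₀ : LinearMap.range φ₀ = W₀ := by
    rw [LinearMap.range_coprod, Submodule.range_subtype, sup_comm]; exact hsum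
  have hr₁ : LinearMap.range φ = S ⊔ T := by
    rw [LinearMap.range_coprod, Submodule.range_subtype]
  let e₁ := (LinearEquiv.ofInjective φ (hinj φ hval)).trans (LinearEquiv.ofEq _ _ hr₁)
  let e₀ := (LinearEquiv.ofInjective φ₀ (hinj φ₀ hval₀)).trans (LinearEquiv.ofEq _ _ hr₀)
  refine ⟨e₁.symm.trans e₀, fun w => ?_⟩
  obtain ⟨z, rfl⟩ := e₁.surjective w
  rw [LinearEquiv.trans_apply, e₁.symm_apply_apply]
  exact (hval₀ z).trans (hval z).symm

/-- Isometries of order `r` with moved space of every admissible dimension. -/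
theorem exists_orth_moved_dim (hr2 : r ≠ 2) {p : ℕ} [Fact p.Prime] [CharP F p] (hne : r ≠ p)
    {Q : QuadraticForm F V} (hQ : (polarBilin Q).Nondegenerate) (hc : (2 : F) ≠ 0 ∨ Even (finrank F V))
    {l : ℕ} (hl : Nat.lcm 2 (orderOf (Nat.card F : ZMod r)) * l ≤ finrank F V)
    (htype : Nat.lcm 2 (orderOf (Nat.card F : ZMod r)) * l = finrank F V →
      ∀ d, finrank F V = 2 * d → (H67.HasSing Q d ↔ SgnPlus (orderOf (Nat.card F : ZMod r)) l)) :
    ∃ x : End F V, (∀ v, Q (x v) = Q v) ∧ x ^ r = 1 ∧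
      finrank F (movedSpace x) = Nat.lcm 2 (orderOf (Nat.card F : ZMod r)) * l := by
  classical
  have hrp : r.Prime := Fact.out
  have hr := H67.cast_ne_zero_of_prime_ne (K := F) hrp hne
  rw [Nat.card_eq_fintype_card] at hl htype ⊢
  set i := orderOf (Fintype.card F : ZMod r) with hi
  obtain ⟨P₀⟩ : Nonempty (H67.CycFac r F) := by
    have hdeg : 0 < (Polynomial.cyclotomic r F).natDegree := by
      rw [Polynomial.natDegree_cyclotomic]; exact Nat.totient_pos.2 hrp.pos
    obtain ⟨f, hfm, hfi, hfd⟩ := Polynomial.exists_monic_irreducible_factor (Polynomial.cyclotomic r F)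
      fun hu => by rw [Polynomial.natDegree_eq_zero_of_isUnit hu] at hdeg; exact lt_irrefl _ hdeg
    exact ⟨⟨f, H67.mem_cycSet hfm hfi hfd⟩⟩
  obtain ⟨a, ha, hsum, hmv⟩ : ∃ a : H67.CycFac r F → ℕ, (∀ P, a (H67.dualId hrp hne P) = a P) ∧
      i * ∑ P, a P = Nat.lcm 2 i * l ∧ (H67.mvPlus a ↔ SgnPlus i l) := by
    rw [lcm_two_eq]
    by_cases he : Even i
    · refine ⟨Pi.single P₀ l, fun P => ?_, by rw [if_pos he, Finset.sum_pi_single']; simp, ?_⟩
      · rw [(H67.dualId_eq_self_iff hrp hne hr2 P).2 (Nat.not_odd_iff_even.2 he)]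
      · rw [H67.mvPlus, Finset.sum_pi_single']; simp [SgnPlus, hi]
    · have ho := Nat.not_even_iff_odd.1 he
      have hd : H67.dualId hrp hne P₀ ≠ P₀ := fun h => (H67.dualId_eq_self_iff hrp hne hr2 P₀).1 h ho
      have hdd : ∀ P, H67.dualId (K := F) hrp hne (H67.dualId hrp hne P) = P :=
        H67.cycDual_cycDual _ _ _ _
      refine ⟨Pi.single P₀ l + Pi.single (H67.dualId hrp hne P₀) l, fun P => ?_, ?_,
        iff_of_true (Or.inl ho) (Or.inl ho)⟩
      · simp only [Pi.add_apply, Pi.single_apply]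
        rw [add_comm]
        congr 1
        · exact if_congr ⟨fun h => by rw [← hdd P, h, hdd], fun h => by rw [h]⟩ rfl rfl
        · exact if_congr ⟨fun h => by rw [← hdd P, h], fun h => by rw [h, hdd]⟩ rfl rfl
      · rw [if_neg he]
        simp only [Pi.add_apply, Finset.sum_add_distrib, Finset.sum_pi_single', Finset.mem_univ, if_true]
        ring
  haveI := H67.finiteDimensional_movMod a
  obtain ⟨Q1, T, hQ1, -, hTr, hQT, hfix, htyp⟩ := H67.exists_moved_orth hrp hne hr2 a ha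
  have hd1 : finrank F (H67.MovMod a) = Nat.lcm 2 i * l := by rw [H67.finrank_movMod hr hrp]; exact hsum
  obtain ⟨j, hj⟩ : ∃ j, Nat.lcm 2 i * l = 2 * j := (Nat.dvd_lcm_left 2 i).mul_right l
  obtain ⟨f, hf, hfQ⟩ : ∃ f : H67.MovMod a →ₗ[F] V, Function.Injective f ∧ ∀ v, Q (f v) = Q1 v := by
    rcases hl.lt_or_eq with hlt | heq
    · exact exists_embed hQ hQ1 (hd1 ▸ hlt) (hc.imp id fun h => ⟨by rw [hd1, hj]; exact even_two_mul j, h⟩)
    · obtain ⟨g, hg⟩ := H67.isom_of_type hQ1 hQ (hd1.trans hj) (heq ▸ hj)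
        ((htyp j (hsum.trans hj)).trans (hmv.trans (htype heq j (heq ▸ hj)).symm))
      exact ⟨g.toLinearMap, g.injective, hg⟩
  set P := LinearMap.range f
  have hP : NondegOn (polarBilin Q) P := nondegOn_range hQ1 f hfQ
  obtain ⟨R, -, -, hR, hd, hsup, ho⟩ := nondegOn_split_inv (polarBilin_isRefl Q) (x := (1 : End F V))
    (fun a b => rfl) (fun a b h => h) le_top le_top (map_le_of_fixed fun v _ => rfl) (nondegOn_top hQ) hP
  have hc' : IsCompl P R := ⟨hd, codisjoint_iff.2 hsup⟩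
  let e : (H67.MovMod a × R) ≃ₗ[F] V :=
    ((LinearEquiv.ofInjective f hf).prodCongr (LinearEquiv.refl F R)).trans
      (Submodule.prodEquivOfIsCompl P R hc')
  have he : ∀ z, e z = f z.1 + (z.2 : V) := fun z => rfl
  have heQ : ∀ z, Q (e z) = Q1 z.1 + Q (z.2 : V) := fun z => by
    have h3 : polar Q (f z.1) (z.2 : V) = 0 := ho _ ⟨z.1, rfl⟩ _ z.2.2
    rw [QuadraticMap.polar] at h3
    rw [he, ← hfQ]
    linear_combination h3
  let S : End F (H67.MovMod a × R) := T.toLinearMap.prodMap LinearMap.id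
  have hSk : ∀ k z, (S ^ k) z = ((T ^ k) z.1, z.2) := fun k => by
    induction k with
    | zero => intro z; rfl
    | succ k ih => intro z; rw [pow_succ', Module.End.mul_apply, ih]; rw [pow_succ']; rfl
  refine ⟨e.conjAlgEquiv F S, fun v => ?_, ?_, ?_⟩
  · obtain ⟨z, rfl⟩ := e.surjective v
    rw [LinearEquiv.conjAlgEquiv_apply_apply, e.symm_apply_apply, heQ, heQ]
    show Q1 (T z.1) + _ = _
    rw [hQT]; rfl
  · rw [← map_pow, show S ^ r = 1 from LinearMap.ext fun z => by rw [hSk, hTr]; rfl, map_one]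
  · have hrange : movedSpace (e.conjAlgEquiv F S) = P := by
      apply le_antisymm
      · rintro _ ⟨v, rfl⟩
        obtain ⟨z, rfl⟩ := e.surjective v
        rw [LinearMap.sub_apply, Module.End.one_apply, LinearEquiv.conjAlgEquiv_apply_apply,
          e.symm_apply_apply, he, he]
        exact ⟨T z.1 - z.1, by rw [map_sub]; show _ = f (T z.1) + (z.2 : V) - _; abel⟩
      · rintro _ ⟨y, rfl⟩
        have hs : Function.Surjective (T.toLinearMap - 1 : H67.MovMod a →ₗ[F] H67.MovMod a) :=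
          LinearMap.injective_iff_surjective.1
            ((injective_iff_map_eq_zero _).2 fun v hv => hfix v (sub_eq_zero.1 hv))
        obtain ⟨v, rfl⟩ := hs y
        refine ⟨e (v, 0), ?_⟩
        rw [LinearMap.sub_apply, Module.End.one_apply, LinearEquiv.conjAlgEquiv_apply_apply,
          e.symm_apply_apply, he, he]
        show f (T v) + ((0 : R) : V) - (f v + ((0 : R) : V)) = f (T v - v)
        rw [map_sub]; simp
    rw [hrange, LinearMap.finrank_range_of_inj hf, hd1]

end Cfsg.Agent.H97
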