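import Mathlib

/-! Partitions into equal parts that are permuted by an involution. -/

namespace Cfsg.Agent.H97

variable {ι : Type*} [DecidableEq ι] (π : Equiv.Perm ι)

/-- Invariant subsets of every even size exist, and of every size if there is a fixed point. -/
theorem exists_inv_subset (hπ : ∀ i, π (π i) = i) :
    ∀ (S : Finset ι) (k : ℕ), (∀ i ∈ S, π i ∈ S) → k ≤ S.card → (Even k ∨ ∃ i ∈ S, π i = i) →
      ∃ T ⊆ S, T.card = k ∧ ∀ i ∈ T, π i ∈ T := by
  intro S
  induction S using Finset.strongInduction with
  | H S ih =>
    intro k hS hk hpar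
    by_cases h : ∃ i ∈ S, π i ≠ i
    · obtain ⟨i, hi, hne⟩ := h
      rcases lt_or_ge k 2 with hk2 | hk2
      · rcases Nat.eq_zero_or_pos k with rfl | hk0
        · exact ⟨∅, Finset.empty_subset _, rfl, by simp⟩
        · have : k = 1 := by omega
          subst this
          rcases hpar with hp | ⟨j, hj, hjf⟩
          · simp at hp
          · exact ⟨{j}, by simpa using hj, rfl, by simp [hjf]⟩
      · set P : Finset ι := {i, π i} with hP
        have hPS : P ⊆ S := by simp [hP, Finset.insert_subset_iff, hi, hS i hi]
        have hPcard : P.card = 2 := Finset.card_pair hne.symm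
        have hPinv : ∀ j ∈ P, π j ∈ P := by simp [hP, hπ]
        have hinv : ∀ j ∈ S \ P, π j ∈ S \ P := by
          intro j hj
          rw [Finset.mem_sdiff] at hj ⊢
          refine ⟨hS j hj.1, fun hc => hj.2 ?_⟩
          simpa [hπ] using hPinv _ hc
        have hlt : S \ P ⊂ S := Finset.sdiff_ssubset hPS (Finset.card_pos.1 (by omega))
        obtain ⟨T, hT, hTc, hTi⟩ := ih (S \ P) hlt (k - 2) hinv
          (by rw [Finset.card_sdiff_of_subset hPS]; omega)
          (by
            rcases hpar with hp | ⟨j, hj, hjf⟩
            · left; obtain ⟨r, hr⟩ := hp; exact ⟨r - 1, by omega⟩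
            · right; refine ⟨j, Finset.mem_sdiff.2 ⟨hj, ?_⟩, hjf⟩
              simp only [hP, Finset.mem_insert, Finset.mem_singleton, not_or]
              refine ⟨fun h => hne (h ▸ hjf), fun h => hne ?_⟩
              rw [h, hπ] at hjf; exact hjf.symm)
        refine ⟨T ∪ P, Finset.union_subset (hT.trans Finset.sdiff_subset) hPS, ?_, ?_⟩
        · rw [Finset.card_union_of_disjoint (Finset.disjoint_of_subset_left hT Finset.sdiff_disjoint)]
          omega
        · intro j hj
          rcases Finset.mem_union.1 hj with hj | hj
          · exact Finset.mem_union_left _ (hTi j hj)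
          · exact Finset.mem_union_right _ (hPinv j hj)
    · push Not at h
      obtain ⟨T, hT, hTc⟩ := Finset.exists_subset_card_eq hk
      exact ⟨T, hT, hTc, fun i hi => by rw [h i (hT hi)]; exact hi⟩

/-- Without fixed points, a half-sized transversal of any size exists. -/
theorem exists_free_subset (hπ : ∀ i, π (π i) = i) (S : Finset ι) (hS : ∀ i ∈ S, π i ∈ S)
    (hf : ∀ i ∈ S, π i ≠ i) :
    ∀ k, 2 * k ≤ S.card → ∃ T ⊆ S, T.card = k ∧ Disjoint T (T.image π) := by
  intro k
  induction k with
  | zero => intro _; exact ⟨∅, Finset.empty_subset _, rfl, by simp⟩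
  | succ k ih =>
    intro hk
    obtain ⟨T, hT, hTc, hd⟩ := ih (by omega)
    have hlt : (T ∪ T.image π).card < S.card := by
      have := Finset.card_union_le T (T.image π)
      have := Finset.card_image_le (s := T) (f := π)
      omega
    obtain ⟨i, hi, hi'⟩ := Finset.exists_mem_notMem_of_card_lt_card hlt
    simp only [Finset.mem_union, Finset.mem_image, not_or, not_exists, not_and] at hi'
    refine ⟨insert i T, Finset.insert_subset_iff.2 ⟨hi, hT⟩,
      by rw [Finset.card_insert_of_notMem hi'.1, hTc], ?_⟩
    rw [Finset.disjoint_left]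
    simp only [Finset.mem_insert, Finset.mem_image, not_exists, not_and]
    rintro y (rfl | hy) z (rfl | hz) hzy
    · exact hf _ hi hzy
    · exact hi'.2 z hz hzy
    · exact hi'.2 y hy (by rw [← hzy, hπ])
    · exact Finset.disjoint_left.1 hd hy (Finset.mem_image.2 ⟨z, hz, hzy⟩)

/-- A set of size `a * t` invariant under an involution splits into `t` parts of size `a` permuted by it. -/
theorem exists_partition_aux (hπ : ∀ i, π (π i) = i) (a : ℕ) :
    ∀ (t : ℕ) (S : Finset ι), (∀ i ∈ S, π i ∈ S) → S.card = a * t →
      ∃ g : ι → ℕ, (∀ i ∈ S, g i < t) ∧ (∀ j < t, (S.filter fun i => g i = j).card = a) ∧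
        ∀ i ∈ S, ∀ j ∈ S, g i = g j → g (π i) = g (π j) := by
  intro t
  induction t using Nat.strong_induction_on with
  | _ t ih =>
    intro S hS hc
    rcases Nat.eq_zero_or_pos t with rfl | ht
    · refine ⟨fun _ => 0, fun i hi => ?_, fun j hj => by omega, fun _ _ _ _ _ => rfl⟩
      simp [Finset.card_eq_zero.1 (by simpa using hc)] at hi
    have hle : a ≤ S.card := hc ▸ Nat.le_mul_of_pos_right a ht
    by_cases hex : Even a ∨ ∃ i ∈ S, π i = i
    · obtain ⟨T, hT, hTc, hTi⟩ := exists_inv_subset π hπ S a hS hle hex
      have hinv : ∀ i ∈ S \ T, π i ∈ S \ T := by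
        intro i hi
        rw [Finset.mem_sdiff] at hi ⊢
        exact ⟨hS i hi.1, fun h => hi.2 (by simpa [hπ] using hTi _ h)⟩
      obtain ⟨g, h1, h2, h3⟩ := ih (t - 1) (by omega) (S \ T) hinv
        (by rw [Finset.card_sdiff_of_subset hT, hTc, hc, Nat.mul_sub, mul_one])
      refine ⟨fun i => if i ∈ T then t - 1 else g i, fun i hi => ?_, fun j hj => ?_, fun i hi j hj h => ?_⟩
      · dsimp only; split_ifs with h
        · omega
        · have := h1 i (Finset.mem_sdiff.2 ⟨hi, h⟩); omega
      · rcases Nat.lt_or_ge j (t - 1) with hj' | hj'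
        · rw [← h2 j hj']
          congr 1
          ext i
          by_cases hiT : i ∈ T
          · simp [hiT, hT hiT]; omega
          · simp [hiT]
        · have hj'' : j = t - 1 := by omega
          rw [← hTc]
          congr 1
          ext i
          by_cases hiT : i ∈ T
          · simp [hiT, hT hiT, hj'']
          · simp only [Finset.mem_filter, hiT, if_false, iff_false, not_and]
            intro hi he
            have := h1 i (Finset.mem_sdiff.2 ⟨hi, hiT⟩)
            omega
      · have key : ∀ k, (π k ∈ T ↔ k ∈ T) := fun k => ⟨fun h => by simpa [hπ] using hTi _ h, hTi k⟩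
        simp only [key] at h ⊢
        split_ifs at h ⊢ with hiT hjT hjT
        · rfl
        · have := h1 j (Finset.mem_sdiff.2 ⟨hj, hjT⟩); omega
        · have := h1 i (Finset.mem_sdiff.2 ⟨hi, hiT⟩); omega
        · exact h3 i (Finset.mem_sdiff.2 ⟨hi, hiT⟩) j (Finset.mem_sdiff.2 ⟨hj, hjT⟩) h
    · push Not at hex
      obtain ⟨hodd, hfree⟩ := hex
      have ht2 : 2 ≤ t := by
        by_contra hlt
        have hev : Even S.card := by
          by_contra hne
          have hpos : 0 < S.card := by
            rcases Nat.eq_zero_or_pos S.card with h0 | h0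
            · simp [h0] at hne
            · exact h0
          obtain ⟨T, hT, hTc, hTi⟩ := exists_inv_subset π hπ S (S.card - 1) hS (by omega)
            (Or.inl (Nat.Odd.sub_odd (Nat.not_even_iff_odd.1 hne) odd_one))
          obtain ⟨j, hj, hj'⟩ := Finset.exists_mem_notMem_of_card_lt_card
            (show T.card < S.card by omega)
          have huniq : S \ T = {j} := by
            obtain ⟨k, hk⟩ := Finset.card_eq_one.1
              (show (S \ T).card = 1 by rw [Finset.card_sdiff_of_subset hT]; omega)
            have := Finset.mem_sdiff.2 ⟨hj, hj'⟩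
            rw [hk, Finset.mem_singleton] at this
            rw [hk, this]
          have : π j ∈ S \ T :=
            Finset.mem_sdiff.2 ⟨hS j hj, fun h => hj' (by simpa [hπ] using hTi _ h)⟩
          rw [huniq, Finset.mem_singleton] at this
          exact hfree j hj this
        have : t = 1 := by omega
        subst this
        rw [hc, mul_one] at hev
        exact hodd hev
      have h2a : 2 * a ≤ S.card := by
        rw [hc, mul_comm 2]; exact Nat.mul_le_mul_left a ht2
      obtain ⟨T, hT, hTc, hd⟩ := exists_free_subset π hπ S hS hfree a h2a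
      set T' := T.image π with hT'
      have hT'c : T'.card = a := by rw [hT', Finset.card_image_of_injective _ π.injective, hTc]
      have hT'S : T' ⊆ S := by
        intro i hi; obtain ⟨j, hj, rfl⟩ := Finset.mem_image.1 hi; exact hS j (hT hj)
      have hm : ∀ i, (π i ∈ T ↔ i ∈ T') ∧ (π i ∈ T' ↔ i ∈ T) := fun i => by
        constructor
        · exact ⟨fun h => Finset.mem_image.2 ⟨π i, h, hπ i⟩, fun h => by
            obtain ⟨j, hj, rfl⟩ := Finset.mem_image.1 h; rwa [hπ]⟩
        · exact Finset.mem_image.trans ⟨fun ⟨j, hj, h⟩ => π.injective h ▸ hj, fun h => ⟨i, h, rfl⟩⟩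
      have hU : T ∪ T' ⊆ S := Finset.union_subset hT hT'S
      have hinv : ∀ i ∈ S \ (T ∪ T'), π i ∈ S \ (T ∪ T') := by
        intro i hi
        simp only [Finset.mem_sdiff, Finset.mem_union, (hm i).1, (hm i).2] at hi ⊢
        exact ⟨hS i hi.1, fun h => hi.2 h.symm⟩
      obtain ⟨g, h1, h2, h3⟩ := ih (t - 2) (by omega) (S \ (T ∪ T')) hinv
        (by rw [Finset.card_sdiff_of_subset hU, Finset.card_union_of_disjoint hd, hTc, hT'c, hc,
              Nat.mul_sub]; omega)
      have hdd : ∀ i, i ∈ T → i ∉ T' := fun i h => Finset.disjoint_left.1 hd h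
      refine ⟨fun i => if i ∈ T then t - 1 else if i ∈ T' then t - 2 else g i,
        fun i hi => ?_, fun j hj => ?_, fun i hi j hj h => ?_⟩
      · dsimp only; split_ifs with h h'
        · omega
        · omega
        · have := h1 i (by simp [hi, h, h']); omega
      · rcases Nat.lt_or_ge j (t - 2) with hj' | hj'
        · rw [← h2 j hj']
          congr 1
          ext i
          by_cases hiT : i ∈ T
          · simp [hiT]; omega
          by_cases hiT' : i ∈ T'
          · simp [hiT, hiT']; omega
          · simp [hiT, hiT']
        · rcases Nat.lt_or_ge j (t - 1) with hj'' | hj''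
          · rw [← hT'c]
            congr 1
            ext i
            by_cases hiT : i ∈ T
            · simp [hiT, hdd i hiT]; omega
            by_cases hiT' : i ∈ T'
            · simp [hiT, hiT', hT'S hiT']; omega
            · simp only [Finset.mem_filter, hiT, hiT', if_false, iff_false, not_and]
              intro hi he
              have := h1 i (by simp [hi, hiT, hiT'])
              omega
          · rw [← hTc]
            congr 1
            ext i
            by_cases hiT : i ∈ T
            · simp [hiT, hT hiT]; omega
            by_cases hiT' : i ∈ T'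
            · simp [hiT, hiT']; omega
            · simp only [Finset.mem_filter, hiT, hiT', if_false, iff_false, not_and]
              intro hi he
              have := h1 i (by simp [hi, hiT, hiT'])
              omega
      · simp only [(hm i).1, (hm i).2, (hm j).1, (hm j).2]
        simp only at h
        by_cases a1 : i ∈ T <;> by_cases a2 : i ∈ T' <;> by_cases b1 : j ∈ T <;> by_cases b2 : j ∈ T'
          <;> simp only [a1, a2, b1, b2, if_true, if_false] at h ⊢
          <;> first
            | exact absurd a2 (hdd i a1)
            | exact absurd b2 (hdd j b1)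
            | omega
            | (have := h1 i (by simp [hi, a1, a2]); omega)
            | (have := h1 j (by simp [hj, b1, b2]); omega)
            | exact h3 i (by simp [hi, a1, a2]) j (by simp [hj, b1, b2]) h

/-- A finite type of size `a * t` with an involution maps onto `Fin t` with fibres of size `a`,
equivariantly for some permutation of `Fin t`. -/
theorem exists_perm_partition [Fintype ι] (hπ : ∀ i, π (π i) = i) {a t : ℕ} (ha : 0 < a)
    (hc : Fintype.card ι = a * t) :
    ∃ (g : ι → Fin t) (σ : Equiv.Perm (Fin t)),
      (∀ j, (Finset.univ.filter fun i => g i = j).card = a) ∧ ∀ i, g (π i) = σ (g i) := by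
  obtain ⟨g, h1, h2, h3⟩ := exists_partition_aux π hπ a t Finset.univ (fun _ _ => Finset.mem_univ _)
    (by rw [Finset.card_univ, hc])
  let G : ι → Fin t := fun i => ⟨g i, h1 i (Finset.mem_univ i)⟩
  have hfib : ∀ j, (Finset.univ.filter fun i => G i = j).card = a := fun j => by
    rw [← h2 j j.2]; simp [G, Fin.ext_iff]
  have hne : ∀ j, ∃ i, G i = j := fun j => by
    obtain ⟨i, hi⟩ := Finset.card_pos.1 (show 0 < (Finset.univ.filter fun i => G i = j).card by
      rw [hfib]; exact ha)
    exact ⟨i, (Finset.mem_filter.1 hi).2⟩
  choose r hr using hne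
  have key : ∀ i, G (π i) = G (π (r (G i))) := fun i => Fin.ext
    (h3 i (Finset.mem_univ _) _ (Finset.mem_univ _) (congrArg Fin.val (hr (G i))).symm)
  have hinv : Function.Involutive fun j => G (π (r j)) := fun j => by
    show G (π (r (G (π (r j))))) = j
    rw [← key (π (r j)), hπ, hr]
  exact ⟨G, hinv.toPerm _, hfib, key⟩

end Cfsg.Agent.H97
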