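import Cfsg.Agent.H97.SympInvolution
import Cfsg.Agent.H97.InvPartition
import Cfsg.Agent.H2.Form

/-! Hyperbolic plane families permuted by an isometry with scalar square, and the symplectic group setting. -/

namespace Cfsg.Agent.H97

open Module

variable {F V : Type*} [Field F] [AddCommGroup V] [Module F V] [FiniteDimensional F V]

/-- A family of hyperbolic pairs, pairwise orthogonal, spanning `P`, with planes permuted by `x` through
an involution. -/
def HasPermutedPlanes (B : LinearMap.BilinForm F V) (x : V →ₗ[F] V) (P : Submodule F V) : Prop :=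
  ∃ (ι : Type) (_ : Fintype ι) (u w : ι → V) (π : Equiv.Perm ι),
    (∀ i, π (π i) = i) ∧ Submodule.span F (Set.range u ∪ Set.range w) = P ∧
    (∀ i, B (u i) (w i) = 1) ∧
    (∀ i j, i ≠ j → B (u i) (u j) = 0 ∧ B (u i) (w j) = 0 ∧ B (w i) (u j) = 0 ∧ B (w i) (w j) = 0) ∧
    ∀ i, x (u i) ∈ Submodule.span F {u (π i), w (π i)} ∧ x (w i) ∈ Submodule.span F {u (π i), w (π i)}

/-- Every invariant nondegenerate subspace has a permuted plane family. -/
theorem hasPermutedPlanes (B : LinearMap.BilinForm F V) (hB : B.IsAlt) (x : V →ₗ[F] V)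
    (hxB : ∀ u v, B (x u) (x v) = B u v) (z : F) (hz : z ≠ 0) (hx : ∀ v, x (x v) = z • v) :
    ∀ P : Submodule F V, (∀ v ∈ P, x v ∈ P) → NondegOn B P → HasPermutedPlanes B x P := by
  refine sympSquare_induction B hB x hxB z hz hx _ ?_ ?_ ?_ ?_ ?_
  · exact ⟨Empty, inferInstance, Empty.elim, Empty.elim, Equiv.refl _, fun i => i.elim, by simp,
      fun i => i.elim, fun i => i.elim, fun i => i.elim⟩
  · intro u w c h hu hw
    refine ⟨Unit, inferInstance, fun _ => u, fun _ => w, Equiv.refl _, fun _ => rfl, by rw [Set.range_const, Set.range_const, ← Set.insert_eq],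
      fun _ => h, fun i j hij => (hij (Subsingleton.elim i j)).elim, fun i => ⟨?_, ?_⟩⟩
    · rw [hu]; exact Submodule.smul_mem _ _ (Submodule.mem_span_of_mem (by simp))
    · rw [hw]; exact Submodule.smul_mem _ _ (Submodule.mem_span_of_mem (by simp))
  · intro v h
    have hspan : Submodule.span F {v, x v} = Submodule.span F {v, (B v (x v))⁻¹ • x v} := by
      rw [Submodule.span_insert, Submodule.span_insert,
        Submodule.span_singleton_smul_eq (IsUnit.mk0 _ (inv_ne_zero h))]
    refine ⟨Unit, inferInstance, fun _ => v, fun _ => (B v (x v))⁻¹ • x v, Equiv.refl _, fun _ => rfl,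
      by rw [Set.range_const, Set.range_const, ← Set.insert_eq, hspan],
      fun _ => by simp [h], fun i j hij => (hij (Subsingleton.elim i j)).elim, fun i => ⟨?_, ?_⟩⟩
    · rw [← hspan]; exact Submodule.mem_span_of_mem (by simp)
    · rw [← hspan, map_smul, hx]
      exact Submodule.smul_mem _ _ (Submodule.smul_mem _ _ (Submodule.mem_span_of_mem (by simp)))
  · intro u w h a1 a2 a3 a4 hz1
    refine ⟨Fin 2, inferInstance, ![u, x u], ![w, x w], Equiv.swap 0 1, Equiv.swap_apply_self _ _, ?_, ?_, ?_, ?_⟩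
    · rw [Submodule.span_union]
      simp only [Matrix.range_cons, Matrix.range_empty, Set.union_empty, ← Set.insert_eq, Submodule.span_insert]
      ac_rfl
    · intro i; fin_cases i <;> simp [h, hxB]
    · intro i j hij
      fin_cases i <;> fin_cases j <;>
        simp [a1, a2, a3, a4, ← hB.neg_eq u (x u), ← hB.neg_eq u (x w), ← hB.neg_eq w (x u),
          ← hB.neg_eq w (x w)] at hij ⊢
    · intro i
      fin_cases i <;> simp [hx, hz1, Submodule.mem_span_of_mem]
  · rintro P Q ⟨ι, _, u, w, π, hπ, hsp, h1, h2, h3⟩ ⟨κ, _, u', w', ρ, hρ, hsp', g1, g2, g3⟩ - ho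
    refine ⟨ι ⊕ κ, inferInstance, Sum.elim u u', Sum.elim w w', Equiv.sumCongr π ρ, ?_, ?_, ?_, ?_, ?_⟩
    · rintro (i | i) <;> simp [hπ, hρ]
    · rw [Set.Sum.elim_range, Set.Sum.elim_range, ← hsp, ← hsp']
      simp only [Submodule.span_union]
      ac_rfl
    · rintro (i | i) <;> simp [h1, g1]
    · have hu : ∀ i, u i ∈ P := fun i => hsp ▸ Submodule.mem_span_of_mem (Or.inl ⟨i, rfl⟩)
      have hw : ∀ i, w i ∈ P := fun i => hsp ▸ Submodule.mem_span_of_mem (Or.inr ⟨i, rfl⟩)
      have hu' : ∀ i, u' i ∈ Q := fun i => hsp' ▸ Submodule.mem_span_of_mem (Or.inl ⟨i, rfl⟩)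
      have hw' : ∀ i, w' i ∈ Q := fun i => hsp' ▸ Submodule.mem_span_of_mem (Or.inr ⟨i, rfl⟩)
      have ho' : ∀ p ∈ P, ∀ q ∈ Q, B q p = 0 := fun p hp q hq => hB.isRefl _ _ (ho p hp q hq)
      rintro (i | i) (j | j) hij
      · exact h2 i j (fun h => hij (by rw [h]))
      · exact ⟨ho _ (hu i) _ (hu' j), ho _ (hu i) _ (hw' j), ho _ (hw i) _ (hu' j), ho _ (hw i) _ (hw' j)⟩
      · exact ⟨ho' _ (hu j) _ (hu' i), ho' _ (hw j) _ (hu' i), ho' _ (hu j) _ (hw' i), ho' _ (hw j) _ (hw' i)⟩
      · exact g2 i j (fun h => hij (by rw [h]))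
    · rintro (i | i)
      · simpa using h3 i
      · simpa using g3 i

/-- Grouping a permuted plane family along an equivariant map gives an orthogonal decomposition. -/
theorem planes_decomposition {ι : Type*} [Fintype ι] {t k : ℕ} (B : LinearMap.BilinForm F V) (hB : B.IsAlt)
    (u w : ι → V) (hsp : Submodule.span F (Set.range u ∪ Set.range w) = ⊤) (h1 : ∀ i, B (u i) (w i) = 1)
    (h2 : ∀ i j, i ≠ j → B (u i) (u j) = 0 ∧ B (u i) (w j) = 0 ∧ B (w i) (u j) = 0 ∧ B (w i) (w j) = 0)
    (g : ι → Fin t) (hg : ∀ j, (Finset.univ.filter fun i => g i = j).card = k)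
    (x : V →ₗ[F] V) (hxinj : Function.Injective x) (π : Equiv.Perm ι)
    (hx : ∀ i, x (u i) ∈ Submodule.span F {u (π i), w (π i)} ∧ x (w i) ∈ Submodule.span F {u (π i), w (π i)})
    (σ : Equiv.Perm (Fin t)) (hσ : ∀ i, g (π i) = σ (g i)) :
    let D : Fin t → Submodule F V := fun j => Submodule.span F (u '' {i | g i = j} ∪ w '' {i | g i = j})
    (∀ j, finrank F (D j) = 2 * k) ∧ iSupIndep D ∧ iSup D = ⊤ ∧ (∀ j, NondegOn B (D j)) ∧
      (∀ j j', j ≠ j' → ∀ v ∈ D j, ∀ v' ∈ D j', B v v' = 0) ∧ ∀ j, (D j).map x = D (σ j) := by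
  classical
  intro D
  let e : ι ⊕ ι → V := Sum.elim u w
  have hdual : ∀ (c : ι ⊕ ι → F) (i : ι), B (∑ s, c s • e s) (w i) = c (.inl i) ∧
      B (∑ s, c s • e s) (u i) = -c (.inr i) := by
    intro c i
    have hexp : ∀ y, B (∑ s, c s • e s) y = ∑ s, c s * B (e s) y := fun y => by
      rw [map_sum]; simp
    rw [hexp, hexp]
    simp only [Fintype.sum_sum_type, e, Sum.elim_inl, Sum.elim_inr]
    constructor
    · rw [Finset.sum_eq_single i (fun j _ hj => by simp [(h2 j i hj).2.1]) (by simp),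
        Finset.sum_eq_single i (fun j _ hj => by simp [(h2 j i hj).2.2.2]) (by simp)]
      simp [h1, hB (w i)]
    · rw [Finset.sum_eq_single i (fun j _ hj => by simp [(h2 j i hj).1]) (by simp),
        Finset.sum_eq_single i (fun j _ hj => by simp [(h2 j i hj).2.2.1]) (by simp)]
      simp [h1, hB (u i), ← hB.neg_eq (u i) (w i)]
  have he : LinearIndependent F e := by
    rw [Fintype.linearIndependent_iff]
    intro c hc s
    rcases s with i | i
    · simpa [hc] using (hdual c i).1.symm
    · simpa [hc] using (hdual c i).2.symm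
  have hDe : ∀ j, D j = Submodule.span F (Set.range (e ∘ fun s : {s : ι ⊕ ι // g (Sum.elim id id s) = j} => (s : ι ⊕ ι))) := by
    intro j
    show Submodule.span F _ = _
    congr 1
    ext y
    constructor
    · rintro (⟨i, hi, rfl⟩ | ⟨i, hi, rfl⟩)
      · exact ⟨⟨.inl i, hi⟩, rfl⟩
      · exact ⟨⟨.inr i, hi⟩, rfl⟩
    · rintro ⟨⟨i | i, hi⟩, rfl⟩
      · exact Or.inl ⟨i, hi, rfl⟩
      · exact Or.inr ⟨i, hi, rfl⟩
  have hdim : ∀ j, finrank F (D j) = 2 * k := fun j => by
    rw [hDe, finrank_span_eq_card (he.comp _ Subtype.val_injective), Fintype.card_subtype,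
      Finset.card_filter, Fintype.sum_sum_type]
    simp only [Sum.elim_inl, Sum.elim_inr, id]
    have h := hg j
    rw [Finset.card_filter] at h
    rw [two_mul]
    exact congrArg₂ (· + ·) h h
  have horth : ∀ j j', j ≠ j' → ∀ v ∈ D j, ∀ v' ∈ D j', B v v' = 0 := by
    intro j j' hjj v hv v' hv'
    have h3 : ∀ a ∈ u '' {i | g i = j} ∪ w '' {i | g i = j}, ∀ b ∈ u '' {i | g i = j'} ∪ w '' {i | g i = j'},
        B a b = 0 := by
      rintro _ (⟨i, hi, rfl⟩ | ⟨i, hi, rfl⟩) _ (⟨i', hi', rfl⟩ | ⟨i', hi', rfl⟩) <;>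
        (have hne : i ≠ i' := fun h => hjj (by rw [← hi, ← hi', h]); simp [h2 i i' hne])
    refine Submodule.span_induction (p := fun y _ => B y v' = 0) (fun a ha => ?_) (by simp)
      (fun a b _ _ ha hb => by simp [ha, hb]) (fun c a _ ha => by simp [ha]) hv
    exact Submodule.span_induction (p := fun y _ => B a y = 0) (h3 a ha) (by simp)
      (fun c d _ _ hc hd => by simp [hc, hd]) (fun c d _ hd => by simp [hd]) hv'
  have htop : iSup D = ⊤ := by
    rw [eq_top_iff, ← hsp, Submodule.span_le]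
    rintro _ (⟨i, rfl⟩ | ⟨i, rfl⟩)
    · exact le_iSup D (g i) (Submodule.subset_span (Or.inl ⟨i, rfl, rfl⟩))
    · exact le_iSup D (g i) (Submodule.subset_span (Or.inr ⟨i, rfl, rfl⟩))
  have hnd : ∀ j, NondegOn B (D j) := by
    intro j v hv h0
    obtain ⟨c, rfl⟩ := (Submodule.mem_span_range_iff_exists_fun F).1
      (show v ∈ Submodule.span F (Set.range e) from (hDe j ▸ hv : _) |> Submodule.span_mono (Set.range_comp_subset_range _ _))
    have key : ∀ s, c s = 0 := by
      rintro (i | i)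
      · by_cases hi : g i = j
        · rw [← (hdual c i).1]; exact h0 _ (Submodule.subset_span (Or.inr ⟨i, hi, rfl⟩))
        · rw [← (hdual c i).1]
          exact horth j (g i) (Ne.symm hi) _ hv _ (Submodule.subset_span (Or.inr ⟨i, rfl, rfl⟩))
      · by_cases hi : g i = j
        · have := (hdual c i).2
          rw [h0 _ (Submodule.subset_span (Or.inl ⟨i, hi, rfl⟩))] at this
          simpa using this.symm
        · have := (hdual c i).2
          rw [horth j (g i) (Ne.symm hi) _ hv _ (Submodule.subset_span (Or.inl ⟨i, rfl, rfl⟩))] at this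
          simpa using this.symm
    simp [key]
  refine ⟨hdim, ?_, htop, hnd, horth, fun j => ?_⟩
  · intro j
    rw [Submodule.disjoint_def]
    intro v hv hv'
    refine hnd j v hv fun y hy => ?_
    refine hB.isRefl _ _ ?_
    refine Submodule.iSup_induction _ (motive := fun z => B y z = 0) hv' (fun j' z hz => ?_) (by simp)
      (fun a b ha hb => by simp [ha, hb])
    by_cases hne : j' = j
    · simp only [hne, ne_eq, not_true_eq_false, iSup_false, Submodule.mem_bot] at hz
      simp [hz]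
    · rw [iSup_pos hne] at hz
      exact horth j j' (Ne.symm hne) y hy z hz
  · refine Submodule.eq_of_le_of_finrank_eq ?_ ?_
    · show (Submodule.span F _).map x ≤ _
      rw [Submodule.map_span, Submodule.span_le]
      rintro _ ⟨y, hy, rfl⟩
      rcases hy with ⟨i, hi, rfl⟩ | ⟨i, hi, rfl⟩
      all_goals
        have hsub : Submodule.span F {u (π i), w (π i)} ≤ D (σ j) := by
          have hi' : g (π i) = σ j := by rw [hσ, hi]
          exact Submodule.span_le.2 (Set.insert_subset (Submodule.subset_span (Or.inl ⟨π i, hi', rfl⟩))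
            (Set.singleton_subset_iff.2 (Submodule.subset_span (Or.inr ⟨π i, hi', rfl⟩))))
      · exact hsub (hx i).1
      · exact hsub (hx i).2
    · rw [← (Submodule.equivMapOfInjective x hxinj (D j)).finrank_eq, hdim, hdim]

/-- A symplectic matrix with scalar square as an isometry of the standard form. -/
theorem symplectic_square_setup {d : ℕ} (hd : 0 < d) (x : ↥(Matrix.symplecticGroup (Fin d) F))
    {z : F} (hz : ((x ^ 2 : ↥(Matrix.symplecticGroup (Fin d) F)) : Matrix (Fin d ⊕ Fin d) (Fin d ⊕ Fin d) F) =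
      z • (1 : Matrix (Fin d ⊕ Fin d) (Fin d ⊕ Fin d) F)) :
    let f := Matrix.toLin' (x : Matrix (Fin d ⊕ Fin d) (Fin d ⊕ Fin d) F)
    (∀ u v, H2.sympBilin d F (f u) (f v) = H2.sympBilin d F u v) ∧ (∀ v, f (f v) = z • v) ∧ z ≠ 0 ∧
      z * z = 1 ∧ NondegOn (H2.sympBilin d F) (⊤ : Submodule F (Fin d ⊕ Fin d → F)) := by
  intro f
  have h1 : ∀ u v, H2.sympBilin d F (f u) (f v) = H2.sympBilin d F u v := fun u v => by
    simp [f, Matrix.toLin'_apply]
  have h2 : ∀ v, f (f v) = z • v := fun v => by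
    rw [← LinearMap.comp_apply, ← Matrix.toLin'_mul, Matrix.toLin'_apply]
    rw [pow_two, Submonoid.coe_mul] at hz
    rw [hz, Matrix.smul_mulVec, Matrix.one_mulVec]
  have hzz : z * z = 1 := by
    let i : Fin d := ⟨0, hd⟩
    have h := (h1 (f (Pi.single (.inl i) 1)) (f (Pi.single (.inr i) 1))).trans
      (h1 (Pi.single (.inl i) 1) (Pi.single (.inr i) 1))
    rw [h2, h2, map_smul, LinearMap.map_smul₂] at h
    simp only [H2.sympBilin_apply, H2.sympForm_single_inl, Pi.single_eq_same, smul_eq_mul] at h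
    linear_combination -h
  refine ⟨h1, h2, fun h => by simp [h] at hzz, hzz, fun v _ hv => H2.sympForm_eq_zero_forall fun w => ?_⟩
  simpa using hv w Submodule.mem_top

end Cfsg.Agent.H97
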