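import Cfsg.Prelude.Def_GeometricClasses
import Cfsg.Agent.H97.LinearCriteria
import Cfsg.Agent.H97.SubfieldConj
import Mathlib.FieldTheory.Finite.GaloisField

set_option autoImplicit false

/-!
# Normalisers of Singer cycles in prime dimension
-/

namespace Cfsg.Agent.H97

open Module Matrix

variable {F : Type*} [Field F] {n : ℕ} {K : Subalgebra F (Matrix (Fin n) (Fin n) F)}

/-- A field subalgebra is a field. -/
theorem isField_fieldSubalgebra (hn : 0 < n) {k : ℕ} (hK : Cfsg.Geo.IsFieldSubalgebra k K) : IsField K := by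
  haveI : Nonempty (Fin n) := ⟨⟨0, hn⟩⟩
  haveI : Nontrivial K := ⟨⟨0, 1, fun e => zero_ne_one (congrArg Subtype.val e)⟩⟩
  exact { exists_pair_ne := exists_pair_ne _
          mul_comm := fun a b => Subtype.ext (hK.comm a a.2 b b.2)
          mul_inv_cancel := fun {a} ha => by
            obtain ⟨y, hy, hxy⟩ := hK.inv a a.2 (fun e => ha (Subtype.ext e))
            exact ⟨⟨y, hy⟩, Subtype.ext hxy⟩ }

/-- Nonzero elements of the field act without kernel. -/
theorem mulVec_injective {k : ℕ} (hK : Cfsg.Geo.IsFieldSubalgebra k K) {y : Matrix (Fin n) (Fin n) F}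
    (hy : y ∈ K) (hy0 : y ≠ 0) {v : Fin n → F} (hv : y *ᵥ v = 0) : v = 0 := by
  obtain ⟨z, hz, hyz⟩ := hK.inv y hy hy0
  rw [hK.comm y hy z hz] at hyz
  have := congrArg (fun t => z *ᵥ t) hv
  simpa [Matrix.mulVec_mulVec, hyz] using this

/-- The space as a line over the field. -/
theorem exists_eval_equiv (hn : 0 < n) (hK : Cfsg.Geo.IsFieldSubalgebra n K) {v0 : Fin n → F} (hv0 : v0 ≠ 0) :
    ∃ E : K ≃ₗ[F] (Fin n → F), ∀ y : K, E y = (y : Matrix (Fin n) (Fin n) F) *ᵥ v0 := by
  let L : K →ₗ[F] (Fin n → F) :=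
    { toFun := fun y => (y : Matrix (Fin n) (Fin n) F) *ᵥ v0
      map_add' := fun a b => by simp [Matrix.add_mulVec]
      map_smul' := fun c a => by simp [Matrix.smul_mulVec] }
  have hinj : Function.Injective L := by
    rw [← LinearMap.ker_eq_bot, Submodule.eq_bot_iff]
    intro y hy
    by_contra hne
    exact hv0 (mulVec_injective hK y.2 (fun h => hne (Subtype.ext h)) hy)
  exact ⟨LinearEquiv.ofBijective L ⟨hinj,
    (LinearMap.injective_iff_surjective_of_finrank_eq_finrank (by
      rw [hK.finrank_eq, Module.finrank_fin_fun])).1 hinj⟩, fun y => rfl⟩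

/-- A field element of prime degree fixed by a semilinear automorphism is a scalar, or the automorphism
is trivial. -/
theorem scalar_of_eigen (hn : n.Prime) (hK : Cfsg.Geo.IsFieldSubalgebra n K) (g : GL (Fin n) F)
    (hg : g ∈ Cfsg.Geo.subalgebraNormalizer K) {a : F} {E : Submodule F (Fin n → F)}
    (hE : ∀ v ∈ E, (g : Matrix (Fin n) (Fin n) F) *ᵥ v = a • v) (hEd : 2 ≤ finrank F E) :
    ∀ v, (g : Matrix (Fin n) (Fin n) F) *ᵥ v = a • v := by
  classical
  set G := (g : Matrix (Fin n) (Fin n) F) with hG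
  set G' := ((g⁻¹ : GL (Fin n) F) : Matrix (Fin n) (Fin n) F) with hG'
  have hGG : G' * G = 1 := Units.inv_mul g
  have hsig : ∀ y : K, G * y * G' ∈ K := fun y => (hg y).1 y.2
  let σ : K →ₐ[F] K :=
    { toFun := fun y => ⟨G * y * G', hsig y⟩
      map_one' := Subtype.ext (by simp [G, G'])
      map_mul' := fun x y => Subtype.ext (by
        show G * (x * y : Matrix (Fin n) (Fin n) F) * G' = G * x * G' * (G * y * G')
        rw [show G * (x : Matrix (Fin n) (Fin n) F) * G' * (G * y * G') =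
          G * x * (G' * G) * y * G' by simp only [mul_assoc], hGG, mul_one]
        simp only [mul_assoc])
      map_zero' := Subtype.ext (by simp)
      map_add' := fun x y => Subtype.ext (by simp [mul_add, add_mul])
      commutes' := fun c => Subtype.ext (by
        simp [Algebra.algebraMap_eq_smul_one, G, G']) }
  have hsigv : ∀ (y : K) v, G *ᵥ ((y : Matrix (Fin n) (Fin n) F) *ᵥ v) =
      (σ y : Matrix (Fin n) (Fin n) F) *ᵥ (G *ᵥ v) := fun y v => by
    rw [Matrix.mulVec_mulVec, Matrix.mulVec_mulVec]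
    show _ = (G * (y : Matrix (Fin n) (Fin n) F) * G' * G) *ᵥ v
    rw [mul_assoc (G * (y : Matrix (Fin n) (Fin n) F)), hGG, mul_one]
  obtain ⟨v, hv, hv0⟩ : ∃ v ∈ E, v ≠ 0 := Submodule.exists_mem_ne_zero_of_ne_bot fun h => by
    rw [h, finrank_bot] at hEd; omega
  obtain ⟨Φ, hΦ⟩ := exists_eval_equiv hn.pos hK hv0
  obtain ⟨w, hw, hwv⟩ : ∃ w ∈ E, w ∉ F ∙ v := by
    by_contra h
    push Not at h
    have := Submodule.finrank_mono (show E ≤ F ∙ v from h)
    rw [finrank_span_singleton hv0] at this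
    omega
  have ha0 : a ≠ 0 := fun h => hv0 (by
    have := congrArg (fun t => G' *ᵥ t) (hE v hv)
    rw [h, zero_smul, Matrix.mulVec_mulVec, hGG, Matrix.one_mulVec, Matrix.mulVec_zero] at this
    exact this)
  obtain ⟨y, hy⟩ := Φ.surjective w
  rw [hΦ] at hy
  have hfix : σ y = y := Φ.injective (by
    rw [hΦ, hΦ, hy]
    refine smul_right_injective _ ha0 ?_
    show a • _ = a • w
    rw [← hE w hw, ← hy, hsigv, hE v hv, Matrix.mulVec_smul])
  haveI : Nontrivial K := Nontrivial.mk ⟨0, 1, fun e => by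
    haveI : Nonempty (Fin n) := ⟨⟨0, hn.pos⟩⟩
    exact zero_ne_one (congrArg Subtype.val e)⟩
  letI : Field K := (isField_fieldSubalgebra hn.pos hK).toField
  have hy' : y ∉ (⊥ : Subalgebra F K) := by
    rintro ⟨c, hc⟩
    refine hwv (Submodule.mem_span_singleton.2 ⟨c, ?_⟩)
    rw [← hy, ← hc]
    simp [Algebra.algebraMap_eq_smul_one, Matrix.smul_mulVec]
  have htop : Algebra.adjoin F {y} = ⊤ := by
    haveI := Subalgebra.isSimpleOrder_of_finrank_prime F K (by rw [hK.finrank_eq]; exact hn)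
    refine (eq_bot_or_eq_top _).resolve_left fun h => hy' ?_
    rw [← h]; exact Algebra.self_mem_adjoin_singleton F y
  have hid : σ = AlgHom.id F K := AlgHom.ext_of_adjoin_eq_top htop (fun z hz => by
    rw [Set.mem_singleton_iff.1 hz, hfix]; rfl)
  intro u
  obtain ⟨z, rfl⟩ := Φ.surjective u
  rw [hΦ, hsigv, hid, hE v hv, Matrix.mulVec_smul]
  rfl

/-- The normaliser contains an element of order `n` outside the field. -/
theorem exists_frobenius [Fintype F] (hn : 2 ≤ n) (hK : Cfsg.Geo.IsFieldSubalgebra n K) :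
    ∃ g ∈ Cfsg.Geo.subalgebraNormalizer K, g ^ n = 1 ∧
      ∀ c : F, (g : Matrix (Fin n) (Fin n) F) ≠ c • 1 := by
  classical
  haveI : Nonempty (Fin n) := ⟨⟨0, by omega⟩⟩
  letI : Field K := (isField_fieldSubalgebra (by omega) hK).toField
  haveI : Fintype K := Fintype.ofFinite K
  haveI : Algebra.IsAlgebraic F K := Algebra.IsAlgebraic.of_finite F K
  obtain ⟨v0, hv0⟩ := exists_ne (0 : Fin n → F)
  obtain ⟨Φ, hΦ⟩ := exists_eval_equiv (by omega) hK hv0
  set φ : K ≃ₐ[F] K := FiniteField.frobeniusAlgEquivOfAlgebraic F K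
  have hφ : ∀ y : K, φ y = y ^ Fintype.card F := fun y => by
    rw [FiniteField.coe_frobeniusAlgEquivOfAlgebraic]
  have hcard : Fintype.card K = Fintype.card F ^ n := by
    rw [Module.card_eq_pow_finrank (K := F), hK.finrank_eq]
  set G : End F (Fin n → F) := Φ.conj φ.toLinearMap with hG
  have hGp : ∀ (m : ℕ) (y : K), (G ^ m) (Φ y) = Φ (y ^ Fintype.card F ^ m) := by
    intro m
    induction m with
    | zero => intro y; simp
    | succ m ih =>
      intro y
      rw [pow_succ, Module.End.mul_apply, hG, LinearEquiv.conj_apply_apply, LinearEquiv.symm_apply_apply,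
        AlgEquiv.toLinearMap_apply, hφ, ← hG, ih, ← pow_mul, pow_succ']
  have hGn : G ^ n = 1 := LinearMap.ext fun v => by
    obtain ⟨y, rfl⟩ := Φ.surjective v
    rw [hGp, ← hcard, FiniteField.pow_card]; rfl
  let M := LinearMap.toMatrixAlgEquiv' G
  have hMn : M ^ n = 1 := by rw [← map_pow, hGn, map_one]
  let g : GL (Fin n) F := ⟨M, M ^ (n - 1), by rw [← pow_succ', Nat.sub_add_cancel (by omega), hMn],
    by rw [← pow_succ, Nat.sub_add_cancel (by omega), hMn]⟩
  have hgv : ∀ v, (g : Matrix (Fin n) (Fin n) F) *ᵥ v = G v := fun v =>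
    LinearMap.toMatrix'_mulVec G v
  have hconj : ∀ y : K, (g : Matrix (Fin n) (Fin n) F) * y = (φ y : Matrix (Fin n) (Fin n) F) * g := by
    intro y
    refine Matrix.ext_of_mulVec_single fun i => ?_
    obtain ⟨z, hz⟩ := Φ.surjective (Pi.single i 1)
    rw [← hz, ← Matrix.mulVec_mulVec, ← Matrix.mulVec_mulVec, hgv, hgv]
    have hmul : ∀ a b : K, (a : Matrix (Fin n) (Fin n) F) *ᵥ Φ b = Φ (a * b) := fun a b => by
      rw [hΦ, hΦ, Matrix.mulVec_mulVec]; rfl
    simp only [hG, LinearEquiv.conj_apply_apply, LinearEquiv.symm_apply_apply, hmul, map_mul,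
      AlgEquiv.toLinearMap_apply]
  have hc : ∀ y : K, (g : Matrix (Fin n) (Fin n) F) * y * ((g⁻¹ : GL (Fin n) F) : Matrix (Fin n) (Fin n) F) =
      (φ y : Matrix (Fin n) (Fin n) F) := fun y => by
    rw [hconj, mul_assoc, Units.mul_inv, mul_one]
  refine ⟨g, fun k => ⟨fun hk => ?_, fun hk => ?_⟩, Units.ext (by rw [Units.val_pow_eq_pow_val]; exact hMn), ?_⟩
  · rw [hc ⟨k, hk⟩]; exact (φ ⟨k, hk⟩).2
  · obtain ⟨y, hy⟩ := φ.surjective ⟨_, hk⟩
    have h2 := (hc y).trans (congrArg Subtype.val hy)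
    have : (y : Matrix (Fin n) (Fin n) F) = k := by
      have := congrArg (fun A => ((g⁻¹ : GL (Fin n) F) : Matrix (Fin n) (Fin n) F) * A * g) h2
      simp only [← mul_assoc, Units.inv_mul, one_mul] at this
      simp only [mul_assoc, Units.inv_mul, mul_one] at this
      exact this
    rw [← this]; exact y.2
  · intro c hgc
    have h1 : ∀ y : K, y ^ Fintype.card F = y := fun y => by
      have e1 : G (Φ (1 : K)) = Φ 1 := by
        have := hGp 1 1
        rwa [pow_one, one_pow] at this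
      have e2 : ∀ v, G v = c • v := fun v => by
        rw [← hgv, hgc, Matrix.smul_mulVec, Matrix.one_mulVec]
      have hc1 : c = 1 := by
        rw [e2] at e1
        have hne : Φ (1 : K) ≠ 0 := fun h => one_ne_zero (Φ.map_eq_zero_iff.1 h)
        exact smul_left_injective _ hne (e1.trans (one_smul F _).symm)
      refine Φ.injective ?_
      have := hGp 1 y
      rw [pow_one, pow_one, e2, hc1, one_smul] at this
      exact this.symm
    have hp : (Polynomial.X ^ Fintype.card F - Polynomial.X : Polynomial K) ≠ 0 :=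
      FiniteField.X_pow_card_sub_X_ne_zero K Fintype.one_lt_card
    have hle := Polynomial.card_le_degree_of_subset_roots (p := (Polynomial.X ^ Fintype.card F - Polynomial.X : Polynomial K))
      (Z := Finset.univ) (fun y _ => by
        simp [Polynomial.mem_roots hp, h1 y])
    rw [FiniteField.X_pow_card_sub_X_natDegree_eq K Fintype.one_lt_card, Finset.card_univ, hcard] at hle
    have : Fintype.card F ^ 1 < Fintype.card F ^ n := Nat.pow_lt_pow_right Fintype.one_lt_card (by omega)
    rw [pow_one] at this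
    omega

/-- An operator intertwined with an element of `N` is conjugate into `N` by a matrix of determinant one. -/
theorem exists_conj_of_intertwine (N : Subgroup (GL (Fin n) F)) (x : Matrix.SpecialLinearGroup (Fin n) F)
    (g : GL (Fin n) F) (hg : g ∈ N) (Φ : (Fin n → F) ≃ₗ[F] (Fin n → F))
    (hΦ : ∀ v, Φ ((x : Matrix (Fin n) (Fin n) F) *ᵥ v) = (g : Matrix (Fin n) (Fin n) F) *ᵥ Φ v)
    (hdets : ∀ μ : F, μ ≠ 0 → ∃ u : End F (Fin n → F),
      Matrix.toLin' (x : Matrix (Fin n) (Fin n) F) * u = u * Matrix.toLin' (x : Matrix (Fin n) (Fin n) F) ∧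
        LinearMap.det u = μ) :
    ∃ P : Matrix.SpecialLinearGroup (Fin n) F, P⁻¹ * x * P ∈
      N.comap (Matrix.SpecialLinearGroup.toGL : Matrix.SpecialLinearGroup (Fin n) F →* GL (Fin n) F) := by
  have hd : LinearMap.det Φ.toLinearMap ≠ 0 := (LinearEquiv.isUnit_det' Φ).ne_zero
  obtain ⟨u, hu, hud⟩ := hdets (LinearMap.det Φ.toLinearMap)⁻¹ (inv_ne_zero hd)
  set G : End F (Fin n → F) := Φ.toLinearMap ∘ₗ u with hG
  have hGd : LinearMap.det G = 1 := by rw [hG, LinearMap.det_comp, hud, mul_inv_cancel₀ hd]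
  let R : Matrix.SpecialLinearGroup (Fin n) F :=
    ⟨LinearMap.toMatrix' G, by rw [LinearMap.det_toMatrix', hGd]⟩
  have hR : ∀ v, (R : Matrix (Fin n) (Fin n) F) *ᵥ v = G v := LinearMap.toMatrix'_mulVec G
  refine ⟨R⁻¹, ?_⟩
  rw [inv_inv, Subgroup.mem_comap]
  suffices h : Matrix.SpecialLinearGroup.toGL (R * x * R⁻¹) = g from h ▸ hg
  refine Units.ext ?_
  show ((R * x * R⁻¹ : Matrix.SpecialLinearGroup (Fin n) F) : Matrix (Fin n) (Fin n) F) = g
  have h1 : (R : Matrix (Fin n) (Fin n) F) * x = g * R := by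
    refine Matrix.ext_of_mulVec_single fun i => ?_
    rw [← Matrix.mulVec_mulVec, ← Matrix.mulVec_mulVec, hR, hR]
    show Φ (u _) = (g : Matrix (Fin n) (Fin n) F) *ᵥ Φ (u _)
    rw [← hΦ]
    exact congrArg Φ (by simpa [Matrix.toLin'_apply] using (LinearMap.congr_fun hu (Pi.single i 1)).symm)
  rw [Matrix.SpecialLinearGroup.coe_mul, Matrix.SpecialLinearGroup.coe_mul, h1, mul_assoc,
    ← Matrix.SpecialLinearGroup.coe_mul, mul_inv_cancel, Matrix.SpecialLinearGroup.coe_one, mul_one]

/-- Operators with cyclic vectors and the same scalar power are intertwined. -/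
theorem exists_intertwine_cyclic {V : Type*} [AddCommGroup V] [Module F V] [FiniteDimensional F V]
    (hn : 0 < n) (hV : finrank F V = n) (S T : End F V) {z : F} (hS : S ^ n = z • 1) (hT : T ^ n = z • 1)
    {s t : V} (hs : LinearIndependent F fun i : Fin n => (S ^ (i : ℕ)) s)
    (ht : LinearIndependent F fun i : Fin n => (T ^ (i : ℕ)) t) :
    ∃ Φ : V ≃ₗ[F] V, ∀ v, Φ (S v) = T (Φ v) := by
  haveI : Nonempty (Fin n) := ⟨⟨0, hn⟩⟩
  let bs := basisOfLinearIndependentOfCardEqFinrank hs (by rw [Fintype.card_fin, hV])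
  let bt := basisOfLinearIndependentOfCardEqFinrank ht (by rw [Fintype.card_fin, hV])
  refine ⟨bs.equiv bt (Equiv.refl _), fun v => ?_⟩
  suffices h : (bs.equiv bt (Equiv.refl _)).toLinearMap ∘ₗ S = T ∘ₗ (bs.equiv bt (Equiv.refl _)).toLinearMap
    from LinearMap.congr_fun h v
  have hpow : ∀ (k : ℕ), k ≤ n → (bs.equiv bt (Equiv.refl _)) ((S ^ k) s) = (T ^ k) t := by
    intro k hk
    rcases Nat.lt_or_ge k n with h | h
    · rw [show (S ^ k) s = bs ⟨k, h⟩ by simp [bs], Basis.equiv_apply]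
      simp [bt]
    · obtain rfl : k = n := le_antisymm hk h
      rw [hS, hT, LinearMap.smul_apply, LinearMap.smul_apply, Module.End.one_apply, Module.End.one_apply,
        map_smul, show s = bs ⟨0, hn⟩ by simp [bs], Basis.equiv_apply]
      simp [bt]
  refine bs.ext fun i => ?_
  simp only [LinearMap.comp_apply, LinearEquiv.coe_coe]
  rw [Basis.equiv_apply, show bs i = (S ^ (i : ℕ)) s by simp [bs], ← Module.End.mul_apply, ← pow_succ',
    hpow _ i.2, pow_succ', Module.End.mul_apply]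
  simp [bt]

/-- An operator with iterates spanning everything has independent iterates. -/
theorem cyclic_of_invariant {V : Type*} [AddCommGroup V] [Module F V] [FiniteDimensional F V]
    (hn : 0 < n) (hV : finrank F V = n) (T : End F V) {z : F} (hT : T ^ n = z • 1) (v : V)
    (h : ∀ W : Submodule F V, W.map T ≤ W → v ∈ W → W = ⊤) :
    LinearIndependent F fun i : Fin n => (T ^ (i : ℕ)) v := by
  haveI : Nonempty (Fin n) := ⟨⟨0, hn⟩⟩
  refine linearIndependent_of_top_le_span_of_card_eq_finrank (le_of_eq (h _ ?_ ?_).symm)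
    (by rw [Fintype.card_fin, hV])
  · rw [Submodule.map_span, Submodule.span_le]
    rintro _ ⟨_, ⟨i, rfl⟩, rfl⟩
    rw [← Module.End.mul_apply, ← pow_succ']
    by_cases hi : (i : ℕ) + 1 < n
    · exact Submodule.subset_span ⟨⟨_, hi⟩, rfl⟩
    · rw [show (i : ℕ) + 1 = n by omega, hT, LinearMap.smul_apply]
      exact Submodule.smul_mem _ _ (Submodule.subset_span ⟨⟨0, hn⟩, by simp⟩)
  · exact Submodule.subset_span ⟨⟨0, hn⟩, by simp⟩

/-- Operators whose moved space is minimal have a cyclic vector. -/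
theorem exists_cyclic_moved {V : Type*} [AddCommGroup V] [Module F V] [FiniteDimensional F V] [Finite F]
    {r : ℕ} [Fact r.Prime] (hr : (r : F) ≠ 0) (hord : orderOf (Nat.card F : ZMod r) = n - 1) (hn : 3 ≤ n)
    (hnr : r = n) (hV : finrank F V = n) (T : End F V) (hT : T ^ n = 1) (hne : T ≠ 1) :
    ∃ v, LinearIndependent F (fun i : Fin n => (T ^ (i : ℕ)) v) := by
  subst hnr
  have hc := isCompl_fixed_moved hr T hT
  have hd := dvd_finrank_fpf hr T hT _ (movedSpace_inv T) (disjoint_fixed_moved hr T hT).symm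
  rw [hord] at hd
  have hsum := Submodule.finrank_add_eq_of_isCompl hc
  rw [hV] at hsum
  have hM0 : finrank F (movedSpace T) ≠ 0 := fun h => hne (sub_eq_zero.1
    (LinearMap.range_eq_bot.1 (Submodule.finrank_eq_zero.1 h)))
  have hMd : finrank F (movedSpace T) = r - 1 := by
    obtain ⟨l, hl⟩ := hd
    rcases l with _ | _ | l
    · omega
    · omega
    · rw [show (r - 1) * (l + 1 + 1) = (r - 1) * l + (r - 1) + (r - 1) by ring] at hl
      omega
  obtain ⟨f, hf, hf0⟩ : ∃ f ∈ fixedSpace T, f ≠ 0 :=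
    Submodule.exists_mem_ne_zero_of_ne_bot fun h => by rw [h, finrank_bot] at hsum; omega
  obtain ⟨m, hm, hm0⟩ : ∃ m ∈ movedSpace T, m ≠ 0 :=
    Submodule.exists_mem_ne_zero_of_ne_bot fun h => hM0 (by rw [h, finrank_bot])
  refine ⟨f + m, cyclic_of_invariant (z := 1) (by omega) hV T (by rw [hT, one_smul]) _ fun W hW hvW => ?_⟩
  have hTk : ∀ k : ℕ, ∀ w ∈ W, (T ^ k) w ∈ W := by
    intro k
    induction k with
    | zero => intro w hw; simpa using hw
    | succ k ih => intro w hw; rw [pow_succ', Module.End.mul_apply]; exact hW ⟨_, ih w hw, rfl⟩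
  have hfW : f ∈ W := by
    have h1 : (∑ k ∈ Finset.range r, T ^ k) (f + m) ∈ W := by
      rw [LinearMap.sum_apply]; exact sum_mem fun k _ => hTk k _ hvW
    have h2 : (∑ k ∈ Finset.range r, T ^ k) m = 0 := by
      obtain ⟨y, rfl⟩ := hm
      rw [← Module.End.mul_apply, geom_sum_mul, hT, sub_self]; rfl
    have h3 : ∀ k : ℕ, (T ^ k) f = f := fun k => by
      induction k with
      | zero => rfl
      | succ k ih => rw [pow_succ, Module.End.mul_apply, mem_fixedSpace.1 hf, ih]
    rw [map_add, h2, add_zero, LinearMap.sum_apply, Finset.sum_congr rfl (fun k _ => h3 k),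
      Finset.sum_const, Finset.card_range, ← Nat.cast_smul_eq_nsmul F] at h1
    exact (Submodule.smul_mem_iff _ hr).1 h1
  have hmW : m ∈ W := by simpa using sub_mem hvW hfW
  have hdW := dvd_finrank_fpf hr T hT (W ⊓ movedSpace T) (map_inf_le hW (movedSpace_inv T))
    ((disjoint_fixed_moved hr T hT).symm.mono_left inf_le_right)
  rw [hord] at hdW
  have hWM : 0 < finrank F ↥(W ⊓ movedSpace T) := Nat.pos_of_ne_zero fun h =>
    hm0 ((Submodule.mem_bot F).1 (Submodule.finrank_eq_zero.1 h ▸ ⟨hmW, hm⟩))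
  have hle := Submodule.finrank_mono (inf_le_right : W ⊓ movedSpace T ≤ movedSpace T)
  have heq : W ⊓ movedSpace T = movedSpace T := Submodule.eq_of_le_of_finrank_eq inf_le_right
    (by have := Nat.le_of_dvd hWM hdW; omega)
  refine top_le_iff.1 ?_
  rw [← hc.sup_eq_top]
  refine sup_le ?_ (inf_eq_right.1 heq)
  have hspan : fixedSpace T = F ∙ f := (Submodule.eq_of_le_of_finrank_eq
    ((Submodule.span_singleton_le_iff_mem _ _).2 hf) (by rw [finrank_span_singleton hf0]; omega)).symm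
  rw [hspan, Submodule.span_singleton_le_iff_mem]
  exact hfW

/-- A basis of eigenvectors for an operator killed by `X ^ r - 1` over a field with primitive roots. -/
theorem exists_eigenbasis {V : Type*} [AddCommGroup V] [Module F V] [FiniteDimensional F V] {r : ℕ}
    (hr : (r : F) ≠ 0) {ζ : F} (hζ : IsPrimitiveRoot ζ r) (hV : finrank F V = n) (T : End F V) (hT : T ^ r = 1) :
    ∃ (b : Basis (Fin n) F V) (e : Fin n → ℕ), (∀ i, e i < r) ∧ ∀ i, T (b i) = ζ ^ e i • b i := by
  classical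
  have hr0 : 0 < r := Nat.pos_of_ne_zero fun h => hr (by rw [h, Nat.cast_zero])
  let s : Set V := {v | ∃ j < r, T v = ζ ^ j • v}
  have hs : ⊤ ≤ Submodule.span F s := fun v _ => by
    -- projections
    let P : ℕ → V := fun j => ∑ k ∈ Finset.range r, (ζ ^ j)⁻¹ ^ k • (T ^ k) v
    have hP : ∀ j < r, P j ∈ Submodule.span F s := fun j hj => by
      refine Submodule.subset_span ⟨j, hj, ?_⟩
      have hz : (ζ ^ j) ≠ 0 := pow_ne_zero _ (hζ.ne_zero hr0.ne')
      have hone : (ζ ^ j)⁻¹ ^ r = 1 := by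
        rw [inv_pow, ← pow_mul, mul_comm, pow_mul, hζ.pow_eq_one, one_pow, inv_one]
      simp only [P, map_sum, map_smul, Finset.smul_sum, smul_smul, ← Module.End.mul_apply, ← pow_succ']
      have h1 : ∀ k, (ζ ^ j) * (ζ ^ j)⁻¹ ^ (k + 1) = (ζ ^ j)⁻¹ ^ k := fun k => by
        rw [pow_succ', ← mul_assoc, mul_inv_cancel₀ hz, one_mul]
      calc ∑ k ∈ Finset.range r, (ζ ^ j)⁻¹ ^ k • (T ^ (k + 1)) v
          = ∑ k ∈ Finset.range r, (ζ ^ j * (ζ ^ j)⁻¹ ^ (k + 1)) • (T ^ (k + 1)) v :=
            Finset.sum_congr rfl fun k _ => by rw [h1]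
        _ = ∑ k ∈ Finset.range r, (ζ ^ j * (ζ ^ j)⁻¹ ^ k) • (T ^ k) v := by
            have e1 := Finset.sum_range_succ' (fun k => (ζ ^ j * (ζ ^ j)⁻¹ ^ k) • (T ^ k) v) r
            rw [Finset.sum_range_succ, hone, hT, pow_zero, pow_zero] at e1
            exact add_right_cancel e1.symm
    have hsum : ∑ j ∈ Finset.range r, P j = (r : F) • v := by
      simp only [P]
      rw [Finset.sum_comm, Finset.sum_eq_single 0]
      · simp [Nat.cast_smul_eq_nsmul]
      · intro k hk hk0
        rw [← Finset.sum_smul]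
        have hne : ζ⁻¹ ^ k ≠ 1 := fun h => hk0 (Nat.eq_zero_of_dvd_of_lt
          ((hζ.inv.pow_eq_one_iff_dvd k).1 h) (Finset.mem_range.1 hk))
        have h0 : ∑ j ∈ Finset.range r, (ζ⁻¹ ^ k) ^ j = 0 := by
          rw [geom_sum_eq hne, ← pow_mul, mul_comm, pow_mul, hζ.inv.pow_eq_one, one_pow, sub_self, zero_div]
        rw [show (∑ j ∈ Finset.range r, (ζ ^ j)⁻¹ ^ k) = 0 by
          rw [← h0]; exact Finset.sum_congr rfl fun j _ => by rw [← pow_mul, inv_pow, inv_pow, ← pow_mul, mul_comm],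
          zero_smul]
      · intro h; exact absurd (Finset.mem_range.2 hr0) h
    rw [← inv_smul_smul₀ hr v, ← hsum]
    exact Submodule.smul_mem _ _ (sum_mem fun j hj => hP j (Finset.mem_range.1 hj))
  let B := Basis.ofSpan hs
  haveI := FiniteDimensional.fintypeBasisIndex B
  let b := B.reindex (Fintype.equivFinOfCardEq ((Module.finrank_eq_card_basis B).symm.trans hV))
  have hb : ∀ i, b i ∈ s := fun i => by
    rw [Basis.reindex_apply]
    exact Basis.ofSpan_subset hs ⟨_, rfl⟩
  choose e he he' using hb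
  exact ⟨b, e, he, he'⟩

/-- The determinant of the centraliser of an operator splitting off a fixed line. -/
theorem dets_of_isCompl {V : Type*} [AddCommGroup V] [Module F V] [FiniteDimensional F V]
    (T : End F V) {A B : Submodule F V} (hc : IsCompl A B) (hA : ∀ v ∈ A, T v ∈ A) (hB : ∀ v ∈ B, T v ∈ B)
    (hA1 : finrank F A = 1) (μ : F) : ∃ u : End F V, T * u = u * T ∧ LinearMap.det u = μ := by
  let e := Submodule.prodEquivOfIsCompl A B hc
  refine ⟨e.conj (LinearMap.prodMap (μ • LinearMap.id) LinearMap.id), LinearMap.ext fun v => ?_, ?_⟩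
  · obtain ⟨⟨a, b⟩, rfl⟩ := e.surjective v
    have h1 : T (e (a, b)) = e (⟨T a, hA a a.2⟩, ⟨T b, hB b b.2⟩) := by simp [e, map_add]
    rw [Module.End.mul_apply, Module.End.mul_apply, h1, LinearEquiv.conj_apply_apply,
      LinearEquiv.conj_apply_apply, LinearEquiv.symm_apply_apply, LinearEquiv.symm_apply_apply]
    simp [e, map_smul]
  · rw [LinearEquiv.conj_apply, LinearMap.comp_assoc, LinearMap.det_conj _ e, LinearMap.det_prodMap,
      LinearMap.det_smul, LinearMap.det_id, LinearMap.det_id, mul_one, mul_one, hA1, pow_one]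

/-- Norms from the field are determinants. -/
theorem exists_det_field [Fintype F] (hn : 0 < n) (hK : Cfsg.Geo.IsFieldSubalgebra n K) (μ : F) :
    ∃ y ∈ K, (y : Matrix (Fin n) (Fin n) F).det = μ := by
  haveI : Nonempty (Fin n) := ⟨⟨0, hn⟩⟩
  letI : Field K := (isField_fieldSubalgebra hn hK).toField
  haveI : Finite K := inferInstance
  obtain ⟨v0, hv0⟩ := exists_ne (0 : Fin n → F)
  obtain ⟨Φ, hΦ⟩ := exists_eval_equiv hn hK hv0
  obtain ⟨y, hy⟩ := FiniteField.norm_surjective F K μ
  refine ⟨y, y.2, ?_⟩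
  rw [← hy, Algebra.norm_apply, ← LinearMap.det_toLin', ← LinearMap.det_conj (Algebra.lmul F K y) Φ]
  congr 1
  refine LinearMap.ext fun v => ?_
  obtain ⟨a, rfl⟩ := Φ.surjective v
  simp only [LinearEquiv.coe_coe, LinearMap.comp_apply, LinearEquiv.conj_apply_apply, LinearEquiv.symm_apply_apply,
    Algebra.coe_lmul_eq_mul, LinearMap.mul_apply', Matrix.toLin'_apply]
  rw [hΦ, hΦ, Matrix.mulVec_mulVec]
  simp [← hΦ, LinearEquiv.symm_apply_apply]

/-- A scalar that becomes an `n`th power in the field. -/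
theorem exists_pow_eq_smul [Fintype F] (hn : 2 ≤ n) (hK : Cfsg.Geo.IsFieldSubalgebra n K)
    (hdvd : n ∣ Fintype.card F - 1) {z : F} (hz : z ≠ 0) :
    ∃ y ∈ K, y ^ n = z • (1 : Matrix (Fin n) (Fin n) F) := by
  classical
  haveI : Nonempty (Fin n) := ⟨⟨0, by omega⟩⟩
  letI : Field K := (isField_fieldSubalgebra (by omega) hK).toField
  haveI : Fintype K := Fintype.ofFinite K
  have hcard : Fintype.card K = Fintype.card F ^ n := by
    rw [Module.card_eq_pow_finrank (K := F), hK.finrank_eq]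
  obtain ⟨g, hg⟩ := IsCyclic.exists_generator (α := Kˣ)
  set Z : Kˣ := Units.map (algebraMap F K).toMonoidHom (Units.mk0 z hz) with hZ
  obtain ⟨m, hm⟩ := Submonoid.mem_powers_iff _ _ |>.1 ((mem_powers_iff_mem_zpowers).2 (hg Z))
  set q := Fintype.card F
  have hq : 2 ≤ q := Fintype.one_lt_card
  have hord : orderOf g = q ^ n - 1 := by
    rw [orderOf_eq_card_of_forall_mem_zpowers hg, Nat.card_eq_fintype_card, Fintype.card_units, hcard]
  have h1 : g ^ (m * (q - 1)) = 1 := by
    rw [pow_mul, hm, hZ, ← map_pow]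
    rw [show (Units.mk0 z hz) ^ (Fintype.card F - 1) = 1 from
      Units.ext (by simpa using FiniteField.pow_card_sub_one_eq_one z hz), map_one]
  obtain ⟨S, hS, hnS⟩ : ∃ S, S * (q - 1) = q ^ n - 1 ∧ n ∣ S := by
    refine ⟨∑ i ∈ Finset.range n, q ^ i, geom_sum_mul_of_one_le (by omega) n, ?_⟩
    rw [← ZMod.natCast_eq_zero_iff, Nat.cast_sum]
    have : (q : ZMod n) = 1 := by
      rw [← Nat.cast_one, ZMod.natCast_eq_natCast_iff]
      exact ((Nat.modEq_iff_dvd' (by omega)).2 hdvd).symm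
    simp [this]
  have h2 := orderOf_dvd_of_pow_eq_one h1
  rw [hord, ← hS] at h2
  obtain ⟨j, hj⟩ := hnS.trans (Nat.dvd_of_mul_dvd_mul_right (by omega) h2)
  refine ⟨((g ^ j : Kˣ) : K), ((g ^ j : Kˣ) : K).2, ?_⟩
  have h3 : ((g ^ j : Kˣ) : K) ^ n = algebraMap F K z := by
    rw [← Units.val_pow_eq_pow_val, ← pow_mul, mul_comm, ← hj, hm, hZ]; rfl
  have := congrArg Subtype.val h3
  rw [SubmonoidClass.coe_pow] at this
  rw [this]
  exact Algebra.algebraMap_eq_smul_one z

/-- A field element with irrational root is cyclic. -/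
theorem twisted_cyclic {V : Type*} [AddCommGroup V] [Module F V] [FiniteDimensional F V] [Fact n.Prime]
    {z : F} (hz0 : z ≠ 0) (hz : ∀ w : F, w ^ n ≠ z) (hV : finrank F V = n) (T : End F V) (hT : T ^ n = z • 1) :
    ∃ v, LinearIndependent F (fun i : Fin n => (T ^ (i : ℕ)) v) := by
  haveI : Nontrivial V := Module.nontrivial_of_finrank_pos (R := F) (by
    rw [hV]; exact (Fact.out : n.Prime).pos)
  obtain ⟨v, hv⟩ := exists_ne (0 : V)
  refine ⟨v, cyclic_of_invariant (Fact.out : n.Prime).pos hV T hT v fun W hW hvW => ?_⟩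
  have h1 := twisted_dvd_finrank hz0 hz T hT W hW
  have h2 : 0 < finrank F W := Nat.pos_of_ne_zero fun h =>
    hv ((Submodule.mem_bot F).1 (Submodule.finrank_eq_zero.1 h ▸ hvW))
  exact Submodule.eq_top_of_finrank_eq (le_antisymm (Submodule.finrank_le _)
    (hV ▸ Nat.le_of_dvd h2 h1))

end Cfsg.Agent.H97
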