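import Cfsg.Prelude.Def_GeometricClasses
import Cfsg.Agent.H97.SympInvolutionSL

set_option autoImplicit false

/-!
# Quadratic field structures and operators with scalar square
-/

namespace Cfsg.Agent.H97

open Module Matrix

variable {F : Type*} [Field F] {n : ℕ}

/-- The operator of a matrix in pair coordinates given by a basis. -/
theorem coords_of_basis {V : Type*} [AddCommGroup V] [Module F V] {l : ℕ}
    (b : Basis (Fin l ⊕ Fin l) F V) (x : End F V) (M : Fin l → Matrix (Fin 2) (Fin 2) F)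
    (h0 : ∀ i, x (b (.inl i)) = M i 0 0 • b (.inl i) + M i 1 0 • b (.inr i))
    (h1 : ∀ i, x (b (.inr i)) = M i 0 1 • b (.inl i) + M i 1 1 • b (.inr i)) :
    ∀ v, b.equivFun (x v) = pairMap M (b.equivFun v) := by
  suffices h : b.equivFun.toLinearMap ∘ₗ x = pairMap M ∘ₗ b.equivFun.toLinearMap from
    fun v => LinearMap.congr_fun h v
  refine b.ext fun s => ?_
  rw [LinearMap.comp_apply, LinearMap.comp_apply]
  show b.equivFun (x (b s)) = pairMap M (b.equivFun (b s))
  rcases s with k | k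
  · rw [h0, map_add, map_smul, map_smul]
    funext t
    rcases t with t | t <;> by_cases ht : t = k <;>
      simp [pairMap_apply, Basis.equivFun_self, Finsupp.single_apply, ht, eq_comm (a := k)]
  · rw [h1, map_add, map_smul, map_smul]
    funext t
    rcases t with t | t <;> by_cases ht : t = k <;>
      simp [pairMap_apply, Basis.equivFun_self, Finsupp.single_apply, ht, eq_comm (a := k)]

variable {K : Subalgebra F (Matrix (Fin n) (Fin n) F)}

/-- A generator of a quadratic field subalgebra. -/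
theorem exists_generator_quad (hn : 0 < n) (hK : Cfsg.Geo.IsFieldSubalgebra 2 K) :
    ∃ k ∈ K, (∀ a : F, k ≠ a • 1) ∧ (∃ s t : F, k * k = s • k + t • 1) ∧
      (∀ y ∈ K, ∃ a b : F, y = a • 1 + b • k) := by
  haveI : Nonempty (Fin n) := ⟨⟨0, hn⟩⟩
  let bK := Module.finBasisOfFinrankEq F K hK.finrank_eq
  obtain ⟨k, hk, hkn⟩ : ∃ k ∈ K, ∀ a : F, k ≠ a • (1 : Matrix (Fin n) (Fin n) F) := by
    by_contra h
    push Not at h
    have h1 : finrank F K ≤ 1 := finrank_le_one (1 : K) fun w => by
      obtain ⟨a, ha⟩ := h w w.2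
      exact ⟨a, Subtype.ext ha.symm⟩
    rw [hK.finrank_eq] at h1
    omega
  have hli : LinearIndependent F ![(1 : K), ⟨k, hk⟩] := by
    rw [LinearIndependent.pair_iff]
    intro a b hab
    have hab' : a • (1 : Matrix (Fin n) (Fin n) F) + b • k = 0 := congrArg Subtype.val hab
    have hb : b = 0 := by
      by_contra hb
      refine hkn (-(b⁻¹ * a)) ?_
      have : b • k = -(a • (1 : Matrix (Fin n) (Fin n) F)) := eq_neg_of_add_eq_zero_right hab'
      rw [← inv_smul_smul₀ hb k, this, smul_neg, smul_smul, neg_smul]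
    refine ⟨?_, hb⟩
    rw [hb, zero_smul, add_zero] at hab'
    exact (smul_eq_zero.1 hab').resolve_right one_ne_zero
  have hspan : Submodule.span F (Set.range ![(1 : K), ⟨k, hk⟩]) = ⊤ :=
    hli.span_eq_top_of_card_eq_finrank (by simp [hK.finrank_eq])
  have hgen : ∀ y ∈ K, ∃ a b : F, y = a • 1 + b • k := fun y hy => by
    have : (⟨y, hy⟩ : K) ∈ Submodule.span F (Set.range ![(1 : K), ⟨k, hk⟩]) := hspan ▸ trivial
    rw [Matrix.range_cons, Matrix.range_cons, Matrix.range_empty, Set.union_empty,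
      Set.singleton_union, Submodule.mem_span_pair] at this
    obtain ⟨a, b, hab⟩ := this
    exact ⟨a, b, (congrArg Subtype.val hab).symm⟩
  obtain ⟨a, b, hab⟩ := hgen (k * k) (K.mul_mem hk hk)
  exact ⟨k, hk, hkn, ⟨b, a, hab.trans (add_comm _ _)⟩, hgen⟩

/-- Coordinates in which the generator is a companion matrix on each pair. -/
theorem exists_field_coords (hn : 0 < n) (hK : Cfsg.Geo.IsFieldSubalgebra 2 K)
    {k : Matrix (Fin n) (Fin n) F} (hk : k ∈ K) (hkn : ∀ a : F, k ≠ a • 1)
    (hgen : ∀ y ∈ K, ∃ a b : F, y = a • 1 + b • k) {s t : F}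
    (hst : k * k = s • k + t • 1) :
    ∃ (l : ℕ) (e : (Fin n → F) ≃ₗ[F] (Fin l ⊕ Fin l → F)),
      ∀ v, e (k *ᵥ v) = pairMap (fun _ => !![0, t; 1, s]) (e v) := by
  classical
  haveI : Nonempty (Fin n) := ⟨⟨0, hn⟩⟩
  let fam : ∀ {l : ℕ}, (Fin l → Fin n → F) → Fin l ⊕ Fin l → (Fin n → F) := fun w =>
    Sum.elim w fun i => k *ᵥ w i
  have hkk : ∀ v, k *ᵥ (k *ᵥ v) = s • (k *ᵥ v) + t • v := fun v => by
    rw [Matrix.mulVec_mulVec, hst, Matrix.add_mulVec, Matrix.smul_mulVec, Matrix.smul_mulVec,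
      Matrix.one_mulVec]
  have hinvar : ∀ {l : ℕ} (w : Fin l → Fin n → F), ∀ v ∈ Submodule.span F (Set.range (fam w)),
      k *ᵥ v ∈ Submodule.span F (Set.range (fam w)) := by
    intro l w v hv
    induction hv using Submodule.span_induction with
    | mem u hu =>
      obtain ⟨i, rfl⟩ := hu
      rcases i with i | i
      · exact Submodule.subset_span ⟨.inr i, rfl⟩
      · show k *ᵥ (k *ᵥ w i) ∈ _
        rw [hkk]
        exact add_mem (Submodule.smul_mem _ _ (Submodule.subset_span ⟨.inr i, rfl⟩))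
          (Submodule.smul_mem _ _ (Submodule.subset_span ⟨.inl i, rfl⟩))
    | zero => rw [Matrix.mulVec_zero]; exact zero_mem _
    | add a b _ _ ha hb => rw [Matrix.mulVec_add]; exact add_mem ha hb
    | smul c a _ ha => rw [Matrix.mulVec_smul]; exact Submodule.smul_mem _ _ ha
  have hstep : ∀ {l : ℕ} (w : Fin l → Fin n → F) (v : Fin n → F),
      v ∉ Submodule.span F (Set.range (fam w)) → ∀ a b : F,
      a • v + b • (k *ᵥ v) ∈ Submodule.span F (Set.range (fam w)) → a = 0 ∧ b = 0 := by
    intro l w v hv a b hab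
    by_contra hne
    refine hv ?_
    have hy : a • (1 : Matrix (Fin n) (Fin n) F) + b • k ≠ 0 := fun h => hne (by
      have hb : b = 0 := by
        by_contra hb
        refine hkn (-(b⁻¹ * a)) ?_
        have : b • k = -(a • (1 : Matrix (Fin n) (Fin n) F)) := eq_neg_of_add_eq_zero_right h
        rw [← inv_smul_smul₀ hb k, this, smul_neg, smul_smul, neg_smul]
      refine ⟨?_, hb⟩
      rw [hb, zero_smul, add_zero] at h
      exact (smul_eq_zero.1 h).resolve_right one_ne_zero)
    have hyK : a • (1 : Matrix (Fin n) (Fin n) F) + b • k ∈ K :=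
      K.add_mem (K.smul_mem K.one_mem a) (K.smul_mem hk b)
    obtain ⟨z, hz, hyz⟩ := hK.inv _ hyK hy
    obtain ⟨a', b', rfl⟩ := hgen z hz
    rw [hK.comm _ hyK _ hz] at hyz
    have h1 := congrArg (fun A : Matrix (Fin n) (Fin n) F => A *ᵥ v) hyz
    simp only [← Matrix.mulVec_mulVec, Matrix.add_mulVec, Matrix.smul_mulVec, Matrix.one_mulVec] at h1
    rw [← h1]
    exact add_mem (Submodule.smul_mem _ _ hab) (Submodule.smul_mem _ _ (hinvar w _ hab))
  have key : ∀ l, 2 * l ≤ n + 1 → ∃ w : Fin l → Fin n → F, LinearIndependent F (fam w) := by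
    intro l
    induction l with
    | zero => exact fun _ => ⟨Fin.elim0, linearIndependent_empty_type⟩
    | succ l ih =>
      intro hl
      obtain ⟨w, hw⟩ := ih (by omega)
      set W := Submodule.span F (Set.range (fam w)) with hW
      have hWd : finrank F W = 2 * l := by
        rw [hW, finrank_span_eq_card hw]; simp; omega
      obtain ⟨v, hv⟩ : ∃ v, v ∉ W := by
        by_contra h; push Not at h
        have : W = ⊤ := Submodule.eq_top_iff'.2 h
        rw [this, finrank_top, finrank_fintype_fun_eq_card, Fintype.card_fin] at hWd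
        omega
      refine ⟨Fin.cons v w, ?_⟩
      rw [Fintype.linearIndependent_iff]
      intro g hg
      rw [Fintype.sum_sum_type, Fin.sum_univ_succ, Fin.sum_univ_succ] at hg
      simp only [fam, Sum.elim_inl, Sum.elim_inr, Fin.cons_zero, Fin.cons_succ] at hg
      have hmem : g (.inl 0) • v + g (.inr 0) • (k *ᵥ v) ∈ W := by
        have : g (.inl 0) • v + g (.inr 0) • (k *ᵥ v) =
            -(∑ i, g (.inl i.succ) • w i + ∑ i, g (.inr i.succ) • (k *ᵥ w i)) := by
          rw [eq_neg_iff_add_eq_zero, ← hg]; abel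
        rw [this]
        exact neg_mem (add_mem (sum_mem fun i _ => Submodule.smul_mem _ _ (Submodule.subset_span ⟨.inl i, rfl⟩))
          (sum_mem fun i _ => Submodule.smul_mem _ _ (Submodule.subset_span ⟨.inr i, rfl⟩)))
      obtain ⟨h0, h1⟩ := hstep w v hv _ _ hmem
      rw [h0, h1, zero_smul, zero_smul, zero_add, zero_add] at hg
      have hall := Fintype.linearIndependent_iff.1 hw
        (Sum.elim (fun i => g (.inl i.succ)) (fun i => g (.inr i.succ))) (by
          rw [Fintype.sum_sum_type]; simpa [fam] using hg)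
      rintro (i | i)
      · refine Fin.cases h0 (fun j => ?_) i
        exact hall (.inl j)
      · refine Fin.cases h1 (fun j => ?_) i
        exact hall (.inr j)
  obtain ⟨w, hw⟩ := key ((n + 1) / 2) (by omega)
  have hle := hw.fintype_card_le_finrank
  rw [Fintype.card_sum, Fintype.card_fin, finrank_fintype_fun_eq_card, Fintype.card_fin] at hle
  let b : Basis (Fin ((n + 1) / 2) ⊕ Fin ((n + 1) / 2)) F (Fin n → F) := Basis.mk hw (by
    rw [top_le_iff]
    exact Submodule.eq_top_of_finrank_eq (by rw [finrank_span_eq_card hw]; simp; omega))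
  refine ⟨_, b.equivFun, fun v => ?_⟩
  have := coords_of_basis b (Matrix.toLin' k) (fun _ => !![0, t; 1, s])
    (fun i => by simp [b, fam, Matrix.toLin'_apply])
    (fun i => by simp [b, fam, Matrix.toLin'_apply, hkk, add_comm]) v
  rwa [Matrix.toLin'_apply] at this

/-- A criterion to normalise the field. -/
theorem mem_normalizer_of_generator {k : Matrix (Fin n) (Fin n) F} (hk : k ∈ K)
    (hgen : ∀ y ∈ K, ∃ a b : F, y = a • 1 + b • k) (g : GL (Fin n) F) {s : F}
    (h : (g : Matrix (Fin n) (Fin n) F) * k = k * g ∨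
      (g : Matrix (Fin n) (Fin n) F) * k = (s • 1 - k) * g) :
    g ∈ Cfsg.Geo.subalgebraNormalizer K := by
  set G := (g : Matrix (Fin n) (Fin n) F)
  set H := ((g⁻¹ : GL (Fin n) F) : Matrix (Fin n) (Fin n) F)
  have hGH : G * H = 1 := Units.mul_inv g
  have hHG : H * G = 1 := Units.inv_mul g
  have hc : ∀ y ∈ K, G * y * H ∈ K := by
    intro y hy
    obtain ⟨a, b, rfl⟩ := hgen y hy
    rw [mul_add, add_mul, mul_smul_comm, mul_smul_comm, smul_mul_assoc, smul_mul_assoc, mul_one, hGH]
    refine K.add_mem (K.smul_mem K.one_mem a) (K.smul_mem ?_ b)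
    rcases h with h | h <;> rw [h, mul_assoc, hGH, mul_one]
    · exact hk
    · exact K.sub_mem (K.smul_mem K.one_mem s) hk
  have hd : ∀ y ∈ K, H * y * G ∈ K := by
    intro y hy
    obtain ⟨a, b, rfl⟩ := hgen y hy
    rw [mul_add, add_mul, mul_smul_comm, mul_smul_comm, smul_mul_assoc, smul_mul_assoc, mul_one, hHG]
    refine K.add_mem (K.smul_mem K.one_mem a) (K.smul_mem ?_ b)
    rcases h with h | h
    · rw [mul_assoc, ← h, ← mul_assoc, hHG, one_mul]; exact hk
    · have h' : k * G = s • G - G * k := by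
        rw [h, sub_mul, smul_mul_assoc, one_mul, sub_sub_cancel]
      rw [mul_assoc, h', mul_sub, mul_smul_comm, hHG, ← mul_assoc, hHG, one_mul]
      exact K.sub_mem (K.smul_mem K.one_mem s) hk
  intro y
  refine ⟨hc y, fun hy => ?_⟩
  have := hd _ hy
  rwa [← mul_assoc, ← mul_assoc, hHG, one_mul, mul_assoc, hHG, mul_one] at this

/-- Operators in pair coordinates compatible with the field are conjugate into its normaliser by a
matrix of determinant one. -/
theorem exists_conj_normalizer (hn : 0 < n) (hK : Cfsg.Geo.IsFieldSubalgebra 2 K)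
    {k : Matrix (Fin n) (Fin n) F} (hk : k ∈ K) (hkn : ∀ a : F, k ≠ a • 1)
    (hgen : ∀ y ∈ K, ∃ a b : F, y = a • 1 + b • k) {s t : F} (hst : k * k = s • k + t • 1)
    (x : Matrix.SpecialLinearGroup (Fin n) F) {l : ℕ}
    (b : Basis (Fin l ⊕ Fin l) F (Fin n → F)) (M : Fin l → Matrix (Fin 2) (Fin 2) F)
    (h0 : ∀ i, (x : Matrix (Fin n) (Fin n) F) *ᵥ b (.inl i) = M i 0 0 • b (.inl i) + M i 1 0 • b (.inr i))
    (h1 : ∀ i, (x : Matrix (Fin n) (Fin n) F) *ᵥ b (.inr i) = M i 0 1 • b (.inl i) + M i 1 1 • b (.inr i))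
    (hM : (∀ i, M i * !![0, t; 1, s] = !![0, t; 1, s] * M i) ∨
      ∀ i, M i * !![0, t; 1, s] = (s • 1 - !![0, t; 1, s]) * M i)
    (hdets : ∀ μ : F, μ ≠ 0 → ∃ u : End F (Fin n → F),
      Matrix.toLin' (x : Matrix (Fin n) (Fin n) F) * u = u * Matrix.toLin' (x : Matrix (Fin n) (Fin n) F) ∧
        LinearMap.det u = μ) :
    ∃ P : Matrix.SpecialLinearGroup (Fin n) F, P⁻¹ * x * P ∈
      (Cfsg.Geo.subalgebraNormalizer K).comap
        (Matrix.SpecialLinearGroup.toGL : Matrix.SpecialLinearGroup (Fin n) F →* GL (Fin n) F) := by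
  obtain ⟨l', e, he⟩ := exists_field_coords hn hK hk hkn hgen hst
  have hll : l' = l := by
    have h := (e.symm.trans b.equivFun).finrank_eq
    simp at h
    omega
  subst hll
  have hb := coords_of_basis b (Matrix.toLin' (x : Matrix (Fin n) (Fin n) F)) M
    (fun i => by rw [Matrix.toLin'_apply, h0]) (fun i => by rw [Matrix.toLin'_apply, h1])
  set g : (Fin n → F) ≃ₗ[F] (Fin n → F) := b.equivFun.trans e.symm
  have hgd : LinearMap.det g.toLinearMap ≠ 0 := (LinearEquiv.isUnit_det' g).ne_zero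
  obtain ⟨u, hu, hud⟩ := hdets (LinearMap.det g.toLinearMap)⁻¹ (inv_ne_zero hgd)
  set G : End F (Fin n → F) := g.toLinearMap ∘ₗ u with hG
  have hGd : LinearMap.det G = 1 := by rw [hG, LinearMap.det_comp, hud, mul_inv_cancel₀ hgd]
  let R : Matrix.SpecialLinearGroup (Fin n) F :=
    ⟨LinearMap.toMatrix' G, by rw [LinearMap.det_toMatrix', hGd]⟩
  have hRG : ∀ w, (R : Matrix (Fin n) (Fin n) F) *ᵥ w = G w := LinearMap.toMatrix'_mulVec G
  refine ⟨R⁻¹, mem_normalizer_of_generator hk hgen _ (s := s) ?_⟩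
  rw [inv_inv]
  set Y := ((Matrix.SpecialLinearGroup.toGL (R * x * R⁻¹) : GL (Fin n) F) : Matrix (Fin n) (Fin n) F)
  have hY : ∀ v, e (Y *ᵥ v) = pairMap M (e v) := fun v => by
    obtain ⟨w, hw⟩ : ∃ w, (R : Matrix (Fin n) (Fin n) F) *ᵥ w = v :=
      ⟨((R⁻¹ : Matrix.SpecialLinearGroup (Fin n) F) : Matrix (Fin n) (Fin n) F) *ᵥ v, by
        rw [Matrix.mulVec_mulVec, ← Matrix.SpecialLinearGroup.coe_mul, mul_inv_cancel,
          Matrix.SpecialLinearGroup.coe_one, Matrix.one_mulVec]⟩
    subst hw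
    show e (((R * x * R⁻¹ : Matrix.SpecialLinearGroup (Fin n) F) : Matrix (Fin n) (Fin n) F) *ᵥ _) = _
    rw [Matrix.mulVec_mulVec, ← Matrix.SpecialLinearGroup.coe_mul, inv_mul_cancel_right,
      Matrix.SpecialLinearGroup.coe_mul, ← Matrix.mulVec_mulVec, hRG, hRG]
    show e (g (u ((x : Matrix (Fin n) (Fin n) F) *ᵥ w))) = pairMap M (e (g (u w)))
    simp only [g, LinearEquiv.trans_apply, LinearEquiv.apply_symm_apply]
    rw [← Matrix.toLin'_apply, ← hb]
    exact congrArg _ (LinearMap.congr_fun hu w).symm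
  have hCk := he
  rcases hM with hM | hM
  · refine Or.inl (Matrix.ext_iff_mulVec.2 fun v => e.injective ?_)
    rw [← Matrix.mulVec_mulVec, ← Matrix.mulVec_mulVec, hY, hCk, hCk, hY]
    refine LinearMap.congr_fun (?_ : pairMap M * pairMap _ = pairMap _ * pairMap M) (e v)
    rw [pairMap_mul, pairMap_mul]
    exact congrArg pairMap (funext hM)
  · refine Or.inr (Matrix.ext_iff_mulVec.2 fun v => e.injective ?_)
    rw [← Matrix.mulVec_mulVec, ← Matrix.mulVec_mulVec, hY, hCk, Matrix.sub_mulVec, map_sub,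
      Matrix.smul_mulVec, Matrix.one_mulVec, map_smul, hCk, hY]
    have h2 : pairMap M * pairMap (fun _ => !![0, t; 1, s]) =
        pairMap (fun _ => (s • 1 - !![0, t; 1, s] : Matrix (Fin 2) (Fin 2) F)) * pairMap M := by
      rw [pairMap_mul, pairMap_mul]
      exact congrArg pairMap (funext hM)
    refine (LinearMap.congr_fun h2 (e v)).trans ?_
    rw [Module.End.mul_apply]
    funext z
    rcases z with z | z <;>
      simp [pairMap_apply, Matrix.one_apply] <;> ring

end Cfsg.Agent.H97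

namespace Cfsg.Agent.H97

open Module Matrix

variable {F : Type*} [Field F] {n : ℕ} {K : Subalgebra F (Matrix (Fin n) (Fin n) F)}

/-- Commuting operators of every determinant from coordinates. -/
theorem dets_of_coords {V : Type*} [AddCommGroup V] [Module F V] {l : ℕ}
    (b : Basis (Fin l ⊕ Fin l) F V) (x : End F V) (M : Fin l → Matrix (Fin 2) (Fin 2) F)
    (hx : ∀ v, b.equivFun (x v) = pairMap M (b.equivFun v)) (i0 : Fin l) (A : Matrix (Fin 2) (Fin 2) F)
    (hA : M i0 * A = A * M i0) : ∃ u : End F V, x * u = u * x ∧ LinearMap.det u = A.det := by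
  classical
  set M' : Fin l → Matrix (Fin 2) (Fin 2) F := Function.update (fun _ => 1) i0 A with hM'
  refine ⟨b.equivFun.symm.conj (pairMap M'), LinearMap.ext fun v => b.equivFun.injective ?_, ?_⟩
  · simp only [Module.End.mul_apply, LinearEquiv.conj_apply_apply, LinearEquiv.symm_symm,
      LinearEquiv.apply_symm_apply, hx]
    refine LinearMap.congr_fun (?_ : pairMap M * pairMap M' = pairMap M' * pairMap M) _
    rw [pairMap_mul, pairMap_mul]
    congr 1
    funext i
    by_cases h : i = i0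
    · subst h; simp [hM', hA]
    · simp [hM', Function.update_of_ne h]
  · rw [LinearEquiv.conj_apply, LinearMap.comp_assoc, LinearMap.det_conj (pairMap M') b.equivFun.symm,
      det_pairMap, Finset.prod_eq_single i0 (fun i _ h => by simp [hM', Function.update_of_ne h])
        (fun h => absurd (Finset.mem_univ _) h)]
    simp [hM']

/-- An element scalar on a hyperplane does not normalise a quadratic field. -/
theorem not_normalizer_of_hyperplane (hn : 3 ≤ n) (hK : Cfsg.Geo.IsFieldSubalgebra 2 K)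
    (g : GL (Fin n) F) {w : F} (E : Submodule F (Fin n → F)) (hE : n ≤ finrank F E + 1)
    (hgE : ∀ v ∈ E, (g : Matrix (Fin n) (Fin n) F) *ᵥ v = w • v)
    (hgw : (g : Matrix (Fin n) (Fin n) F) ≠ w • 1) : g ∉ Cfsg.Geo.subalgebraNormalizer K := by
  classical
  intro hg
  obtain ⟨k, hk, hkn, ⟨s, t, hst⟩, hgen⟩ := exists_generator_quad (by omega) hK
  set G := (g : Matrix (Fin n) (Fin n) F)
  set k' := G * k * ((g⁻¹ : GL (Fin n) F) : Matrix (Fin n) (Fin n) F)
  have hk' : k' ∈ K := (hg k).1 hk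
  have hGk : G * k = k' * G := (Units.inv_mul_cancel_right _ _).symm
  have hV : finrank F (Fin n → F) = n := by simp
  have hinj : ∀ y ∈ K, y ≠ 0 → ∀ v, y *ᵥ v = 0 → v = 0 := fun y hy hy0 v hv => by
    obtain ⟨z, hz, hyz⟩ := hK.inv y hy hy0
    rw [hK.comm _ hy _ hz] at hyz
    rw [← Matrix.one_mulVec v, ← hyz, ← Matrix.mulVec_mulVec, hv, Matrix.mulVec_zero]
  -- a vector of the hyperplane sent back into it
  set E' := E ⊓ E.comap (Matrix.toLin' k) with hE'
  have hcm : finrank F E ≤ finrank F (E.comap (Matrix.toLin' k)) := by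
    have hki : Function.Injective (Matrix.toLin' k) := by
      rw [← LinearMap.ker_eq_bot, Submodule.eq_bot_iff]
      intro v hv
      rw [LinearMap.mem_ker, Matrix.toLin'_apply] at hv
      exact hinj k hk (fun h => hkn 0 (by rw [h, zero_smul])) v hv
    have := (LinearEquiv.ofInjectiveEndo _ hki).symm.finrank_map_eq E
    rw [show E.map ((LinearEquiv.ofInjectiveEndo _ hki).symm : (Fin n → F) →ₗ[F] (Fin n → F)) =
      E.comap (Matrix.toLin' k) from Submodule.map_equiv_eq_comap_symm _ _] at this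
    rw [this]
  obtain ⟨v, hv, hv0⟩ : ∃ v ∈ E', v ≠ 0 := by
    refine Submodule.exists_mem_ne_zero_of_ne_bot fun h => ?_
    have h1 := Submodule.finrank_sup_add_finrank_inf_eq E (E.comap (Matrix.toLin' k))
    have h2 := (E ⊔ E.comap (Matrix.toLin' k)).finrank_le
    rw [← hE', h, finrank_bot] at h1
    omega
  have hw : w ≠ 0 := fun h => hv0 (by
    have h1 := hgE v hv.1
    rw [h, zero_smul] at h1
    rw [← Matrix.one_mulVec v, ← Units.inv_mul g, ← Matrix.mulVec_mulVec, h1, Matrix.mulVec_zero])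
  have heq : k' = k := by
    by_contra hne
    refine hv0 (hinj _ (K.sub_mem hk' hk) (sub_ne_zero.2 hne) v ?_)
    have h1 : G *ᵥ (k *ᵥ v) = w • (k *ᵥ v) := hgE _ hv.2
    rw [Matrix.mulVec_mulVec, hGk, ← Matrix.mulVec_mulVec, hgE v hv.1, Matrix.mulVec_smul] at h1
    rw [Matrix.sub_mulVec, sub_eq_zero]
    exact smul_right_injective _ hw h1
  rw [heq] at hGk
  set D := Matrix.toLin' (G - w • 1) with hD
  have hDE : E ≤ LinearMap.ker D := fun v hv => by
    rw [LinearMap.mem_ker, hD, Matrix.toLin'_apply, Matrix.sub_mulVec, hgE v hv, Matrix.smul_mulVec,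
      Matrix.one_mulVec, sub_self]
  obtain ⟨v1, hv1⟩ : ∃ v1, D v1 ≠ 0 := by
    by_contra h
    push Not at h
    exact hgw (sub_eq_zero.1 (Matrix.toLin'.injective (LinearMap.ext fun v => (h v).trans (by simp))))
  have hrange : LinearMap.range D = F ∙ D v1 := by
    refine (Submodule.eq_of_le_of_finrank_le ((Submodule.span_singleton_le_iff_mem _ _).2 (LinearMap.mem_range_self D v1)) ?_).symm
    have h1 := LinearMap.finrank_range_add_finrank_ker D
    have h2 := Submodule.finrank_mono hDE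
    rw [finrank_span_singleton hv1]
    omega
  have hmem : k *ᵥ D v1 ∈ LinearMap.range D := ⟨k *ᵥ v1, by
    rw [hD, Matrix.toLin'_apply, Matrix.toLin'_apply, Matrix.mulVec_mulVec, Matrix.mulVec_mulVec,
      sub_mul, mul_sub, hGk, smul_one_mul, mul_smul_one]⟩
  rw [hrange] at hmem
  obtain ⟨c, hc⟩ := Submodule.mem_span_singleton.1 hmem
  refine hv1 (hinj (k - c • 1) (K.sub_mem hk (K.smul_mem K.one_mem c)) (sub_ne_zero.2 (hkn c)) _ ?_)
  rw [Matrix.sub_mulVec, Matrix.smul_mulVec, Matrix.one_mulVec, hc, sub_self]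

end Cfsg.Agent.H97
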