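import Cfsg.Agent.H97.Counting
import Cfsg.Prelude.Def_GeometricClasses

/-! Counting decompositions into equal parts. -/

namespace Cfsg.Agent.H97

open Module

variable {F : Type*} [Field F] [Finite F] {ι : Type} [Fintype ι]

/-- Parts of a decomposition are distinct. -/
theorem isMDecomposition_injective {a t : ℕ} {D : Fin t → Submodule F (ι → F)}
    (h : Cfsg.Geo.IsMDecomposition a D) : Function.Injective D :=
  h.indep.injective fun j hj => by
    have h1 := h.finrank_eq j
    rw [hj, finrank_bot] at h1
    exact absurd h1.symm h.pos.ne'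

/-- Permuting the parts preserves decompositions. -/
theorem isMDecomposition_comp {a t : ℕ} {D : Fin t → Submodule F (ι → F)}
    (h : Cfsg.Geo.IsMDecomposition a D) (σ : Equiv.Perm (Fin t)) : Cfsg.Geo.IsMDecomposition a (D ∘ σ) :=
  ⟨h.two_le, h.pos, fun j => h.finrank_eq _, h.indep.comp σ.injective,
    (Equiv.iSup_comp (g := D) σ).trans h.iSup_eq_top⟩

/-- A family of ordered decompositions closed under relabelling has size divisible by `t!`. -/
theorem factorial_dvd_card {a t : ℕ} (Q : (Fin t → Submodule F (ι → F)) → Prop)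
    (hQ : ∀ D, Q D → Cfsg.Geo.IsMDecomposition a D) (hQperm : ∀ D (σ : Equiv.Perm (Fin t)), Q D → Q (D ∘ σ)) :
    Nat.factorial t ∣ Nat.card {D : Fin t → Submodule F (ι → F) // Q D} := by
  classical
  haveI : Finite (Submodule F (ι → F)) := Finite.of_injective _ SetLike.coe_injective
  let T := {D : Fin t → Submodule F (ι → F) // Q D}
  letI act : MulAction (Equiv.Perm (Fin t)) T :=
    { smul := fun σ D => ⟨D.1 ∘ (σ⁻¹ : Equiv.Perm (Fin t)), hQperm _ _ D.2⟩
      one_smul := fun D => Subtype.ext (funext fun j => rfl)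
      mul_smul := fun σ τ D => Subtype.ext (funext fun j => by
        show D.1 ((σ * τ)⁻¹ j) = D.1 (τ⁻¹ (σ⁻¹ j))
        rw [mul_inv_rev]; rfl) }
  have hstab : ∀ D : T, MulAction.stabilizer (Equiv.Perm (Fin t)) D = ⊥ := fun D => by
    rw [Subgroup.eq_bot_iff_forall]
    intro σ hσ
    rw [MulAction.mem_stabilizer_iff] at hσ
    have h1 : ∀ j, D.1 (σ⁻¹ j) = D.1 j := fun j => congr_fun (congrArg Subtype.val hσ) j
    exact inv_eq_one.1 (Equiv.ext fun j => isMDecomposition_injective (hQ _ D.2) (h1 j))
  haveI : Fintype T := Fintype.ofFinite _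
  haveI : Fintype (Quotient (MulAction.orbitRel (Equiv.Perm (Fin t)) T)) := Fintype.ofFinite _
  rw [Nat.card_congr (MulAction.selfEquivSigmaOrbits (Equiv.Perm (Fin t)) T), Nat.card_sigma]
  refine Finset.dvd_sum fun o _ => ?_
  rw [Nat.card_congr (MulAction.orbitEquivQuotientStabilizer (Equiv.Perm (Fin t)) o.out), hstab]
  have h1 := Subgroup.index_bot (G := Equiv.Perm (Fin t))
  rw [Subgroup.index, Nat.card_perm, Nat.card_fin] at h1
  rw [h1]

/-- The number of decompositions divides the number of ordered bases. -/
theorem card_decomp_dvd {a t : ℕ} (ht : 2 ≤ t) (ha : 0 < a) (hat : Fintype.card ι = a * t) :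
    Nat.card {D : Fin t → Submodule F (ι → F) // Cfsg.Geo.IsMDecomposition a D} ∣
      ∏ i : Fin (a * t), (Nat.card F ^ (a * t) - Nat.card F ^ (i : ℕ)) := by
  classical
  haveI := Fintype.ofFinite F
  haveI : Finite (Submodule F (ι → F)) := Finite.of_injective _ SetLike.coe_injective
  let T := {D : Fin t → Submodule F (ι → F) // Cfsg.Geo.IsMDecomposition a D}
  haveI : Fintype T := Fintype.ofFinite _
  have hV : finrank F (ι → F) = a * t := by rw [Module.finrank_fintype_fun_eq_card, hat]
  -- combine bases of the parts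
  let mk : (Σ D : T, ∀ j, {s : Fin a → D.1 j // LinearIndependent F s}) →
      {b : Fin t × Fin a → (ι → F) // LinearIndependent F b} := fun p =>
    ⟨fun ji => ((p.2 ji.1).1 ji.2 : ι → F), linearIndependent_iff_card_eq_finrank_span.2 (by
      have htop : Submodule.span F (Set.range fun ji : Fin t × Fin a => ((p.2 ji.1).1 ji.2 : ι → F)) = ⊤ := by
        rw [eq_top_iff, ← p.1.2.iSup_eq_top]
        refine iSup_le fun j => ?_
        have hj : Submodule.span F (Set.range fun i => ((p.2 j).1 i : ι → F)) = p.1.1 j :=
          Submodule.eq_of_le_of_finrank_eq (Submodule.span_le.2 (by rintro _ ⟨i, rfl⟩; exact ((p.2 j).1 i).2))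
            (by rw [finrank_span_eq_card (R := F) (b := fun i => ((p.2 j).1 i : ι → F))
                  ((p.2 j).2.map' (p.1.1 j).subtype (Submodule.ker_subtype _)), Fintype.card_fin, p.1.2.finrank_eq])
        rw [← hj]
        exact Submodule.span_mono (by rintro _ ⟨i, rfl⟩; exact ⟨(j, i), rfl⟩)
      rw [Set.finrank, htop, finrank_top, hV, Fintype.card_prod, Fintype.card_fin, Fintype.card_fin, mul_comm])⟩
  have hmk : Function.Bijective mk := by
    constructor
    · rintro ⟨⟨D, hD⟩, s⟩ ⟨⟨D', hD'⟩, s'⟩ heq
      have h0 : ∀ j i, ((s j).1 i : ι → F) = (s' j).1 i := fun j i => congr_fun (congrArg Subtype.val heq) (j, i)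
      have key : ∀ (E : Fin t → Submodule F (ι → F)) (hE : Cfsg.Geo.IsMDecomposition a E)
          (u : ∀ j, {s : Fin a → E j // LinearIndependent F s}) (j : Fin t),
          Submodule.span F (Set.range fun i => ((u j).1 i : ι → F)) = E j := fun E hE u j =>
        Submodule.eq_of_le_of_finrank_eq (Submodule.span_le.2 (by rintro _ ⟨i, rfl⟩; exact ((u j).1 i).2))
          (by rw [finrank_span_eq_card (R := F) (b := fun i => ((u j).1 i : ι → F))
                ((u j).2.map' (E j).subtype (Submodule.ker_subtype _)), Fintype.card_fin, hE.finrank_eq])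
      have hDD : D = D' := funext fun j => by
        rw [← key D hD s j, ← key D' hD' s' j]; simp only [h0]
      subst hDD
      have : s = s' := funext fun j => Subtype.ext (funext fun i => Subtype.ext (h0 j i))
      subst this
      rfl
    · rintro ⟨b, hb⟩
      let D : Fin t → Submodule F (ι → F) := fun j => Submodule.span F (b '' {p | p.1 = j})
      have hdim : ∀ j, finrank F (D j) = a := fun j => by
        have : b '' {p | p.1 = j} = Set.range fun i => b (j, i) := by
          ext y; constructor
          · rintro ⟨⟨j', i⟩, rfl : j' = j, rfl⟩; exact ⟨i, rfl⟩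
          · rintro ⟨i, rfl⟩; exact ⟨(j, i), rfl, rfl⟩
        show finrank F (Submodule.span F (b '' {p | p.1 = j})) = a
        rw [this, finrank_span_eq_card (R := F) (b := fun i => b (j, i))
          (hb.comp (fun i => (j, i)) fun i i' h => by simpa using h), Fintype.card_fin]
      have hspan : Submodule.span F (Set.range b) = ⊤ := Submodule.eq_top_of_finrank_eq (by
        rw [finrank_span_eq_card hb, hV, Fintype.card_prod, Fintype.card_fin, Fintype.card_fin, mul_comm])
      have hind : iSupIndep D := fun j => by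
        refine Disjoint.mono_right ?_ (hb.disjoint_span_image (s := {p | p.1 = j}) (t := {p | p.1 ≠ j})
          (Set.disjoint_left.2 fun p h1 h2 => h2 h1))
        refine iSup₂_le fun k hk => Submodule.span_mono (Set.image_mono ?_)
        rintro p (rfl : p.1 = k); exact hk
      have htop : iSup D = ⊤ := by
        rw [eq_top_iff, ← hspan, Submodule.span_le]
        rintro _ ⟨p, rfl⟩
        exact le_iSup D p.1 (Submodule.subset_span ⟨p, rfl, rfl⟩)
      refine ⟨⟨⟨D, ht, ha, hdim, hind, htop⟩, fun j => ⟨fun i => ⟨b (j, i), Submodule.subset_span ⟨(j, i), rfl, rfl⟩⟩,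
        LinearIndependent.of_comp (D j).subtype (hb.comp (fun i => (j, i)) fun i i' h => by simpa using h)⟩⟩, rfl⟩
  have hfib : ∀ D : T, Nat.card (∀ j, {s : Fin a → D.1 j // LinearIndependent F s}) =
      (∏ i : Fin a, (Nat.card F ^ a - Nat.card F ^ (i : ℕ))) ^ t := fun D => by
    rw [Nat.card_pi, Finset.prod_congr rfl (fun j _ => by
      rw [card_linearIndependent (K := F) (V := D.1 j) (D.2.finrank_eq j).ge, D.2.finrank_eq j,
        ← Nat.card_eq_fintype_card]), Finset.prod_const, Finset.card_univ, Fintype.card_fin]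
  have h1 := Nat.card_eq_of_bijective mk hmk
  rw [Nat.card_sigma, Finset.sum_congr rfl (fun D _ => hfib D), Finset.sum_const, Finset.card_univ,
    ← Nat.card_eq_fintype_card, smul_eq_mul] at h1
  have e : {b : Fin t × Fin a → (ι → F) // LinearIndependent F b} ≃
      {b : Fin (a * t) → (ι → F) // LinearIndependent F b} :=
    (Equiv.arrowCongr (finProdFinEquiv.trans (finCongr (mul_comm t a))) (Equiv.refl _)).subtypeEquiv fun b => by
      show LinearIndependent F b ↔ LinearIndependent F (b ∘ _)
      exact (linearIndependent_equiv _).symm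
  rw [Nat.card_congr e, card_linearIndependent (K := F) (V := ι → F) hV.ge, hV, ← Nat.card_eq_fintype_card] at h1
  exact Dvd.intro _ h1

end Cfsg.Agent.H97
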