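import Cfsg.Agent.H97.LinearElusive
import Cfsg.Agent.H97.DecompBuild
import Cfsg.Agent.H97.DecompCount

/-! Elusiveness of `PSL_n(q)` on decompositions into `t` parts at odd primes other than the characteristic. -/

namespace Cfsg.Agent.H97

open Module

variable {F : Type*} [Field F] [Finite F] {r : ℕ} [Fact r.Prime]

/-- A nonscalar element of order `r` with given fixed dimension. -/
theorem exists_SL_fixed (hr : (r : F) ≠ 0) (hi : 2 ≤ orderOf (Nat.card F : ZMod r)) {n e l : ℕ} (hl : 0 < l)
    (hn : n = e + l * orderOf (Nat.card F : ZMod r)) :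
    ∃ x : Matrix.SpecialLinearGroup (Fin n) F,
      (∃ c : F, ((x ^ r : Matrix.SpecialLinearGroup (Fin n) F) : Matrix (Fin n) (Fin n) F) =
        c • (1 : Matrix (Fin n) (Fin n) F)) ∧
      (∀ c : F, (x : Matrix (Fin n) (Fin n) F) ≠ c • (1 : Matrix (Fin n) (Fin n) F)) ∧
      (Matrix.toLin' (x : Matrix (Fin n) (Fin n) F) : End F (Fin n → F)) ^ r = 1 ∧
      finrank F (fixedSpace (Matrix.toLin' (x : Matrix (Fin n) (Fin n) F) : End F (Fin n → F))) = e := by
  obtain ⟨f, hf, he⟩ := exists_element (F := F) (r := r) hr (Fin n → F) e l (by rw [Module.finrank_fin_fun, hn])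
  have hdet : LinearMap.det f = 1 := eq_one_of_pow_eq_one hi (by rw [← map_pow, hf, map_one])
  obtain ⟨x, hxf, hxr⟩ := exists_SL f hdet (z := 1) (by rw [hf, one_smul])
  refine ⟨x, ⟨1, hxr⟩, fun c hc => ?_, by rw [hxf]; exact hf, by rw [hxf]; exact he⟩
  have hpos : 0 < l * orderOf (Nat.card F : ZMod r) := Nat.mul_pos hl (by omega)
  have hfc : f = c • 1 := by rw [← hxf, hc, map_smul, Matrix.toLin'_one]; rfl
  have hcr : c ^ r = 1 := by
    rw [hfc, smul_pow, one_pow] at hf
    have := congrArg (fun g : End F (Fin n → F) => g (fun _ => 1) ⟨0, by omega⟩) hf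
    simpa using this
  rw [eq_one_of_pow_eq_one hi hcr, one_smul] at hfc
  have : fixedSpace f = ⊤ := Submodule.eq_top_iff'.2 fun v => by rw [mem_fixedSpace, hfc]; rfl
  rw [this, finrank_top, Module.finrank_fin_fun] at he
  omega

/-- Elusiveness on decompositions at `r ≠ 2, p`. -/
theorem elusive_decomp_iff (hr : (r : F) ≠ 0) {n a t : ℕ} (ha : 1 ≤ a) (ht : 2 ≤ t) (hat : n = a * t)
    (hdvd : r ∣ Nat.card {D : Fin t → Submodule F (Fin n → F) // Cfsg.Geo.IsMDecomposition a D}) :
    ElusiveFor r n (fun f : End F (Fin n → F) => ∃ D, PermutesParts f a t D) ↔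
      ((a = 1 ∧ 1 < orderOf (Nat.card F : ZMod r) ∧ orderOf (Nat.card F : ZMod r) = r - 1 ∧
          n ≤ (n % orderOf (Nat.card F : ZMod r)) * r) ∨
        (orderOf (Nat.card F : ZMod r) ≤ a ∧
          n % orderOf (Nat.card F : ZMod r) = t * (a % orderOf (Nat.card F : ZMod r)))) := by
  have hip := orderOf_pos_zmod (F := F) (r := r) hr
  have hn0 : 0 < n := by rw [hat]; exact Nat.mul_pos ha (by omega)
  have hV : finrank F (Fin n → F) = n := Module.finrank_fin_fun F
  have hrpos := (Fact.out : r.Prime).one_lt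
  -- `c ≤ n`
  have hcn : orderOf (Nat.card F : ZMod r) ≤ n := by
    have h1 := hdvd.trans (card_decomp_dvd (F := F) (ι := Fin n) ht ha (by rw [Fintype.card_fin, hat]))
    obtain ⟨i, -, hi⟩ := (Fact.out : r.Prime).prime.exists_mem_finset_dvd h1
    have hin := i.2
    have he : Nat.card F ^ (a * t) - Nat.card F ^ (i : ℕ) =
        Nat.card F ^ (i : ℕ) * (Nat.card F ^ (a * t - i) - 1) := by
      rw [pow_mul_pow_sub_one, Nat.add_sub_cancel' (by omega)]
    rw [he] at hi
    rcases (Fact.out : r.Prime).dvd_mul.1 hi with h2 | h2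
    · exact absurd ((ZMod.natCast_eq_zero_iff _ _).2 ((Fact.out : r.Prime).dvd_of_dvd_pow h2)) (natCard_ne_zero_zmod hr)
    · have := Nat.le_of_dvd (by omega)
        (orderOf_dvd_of_modEq ((Nat.modEq_iff_dvd' (Nat.one_le_pow _ _ Nat.card_pos)).2 h2).symm)
      omega
  constructor
  · intro h
    rcases eq_or_ne (orderOf (Nat.card F : ZMod r)) 1 with hc1 | hc1
    · exact Or.inr ⟨by omega, by rw [hc1]; simp [Nat.mod_one]⟩
    have hc2 : 2 ≤ orderOf (Nat.card F : ZMod r) := by omega
    have hroot : ∀ c : F, c ^ r = 1 → c = 1 := fun c hc => eq_one_of_pow_eq_one hc2 hc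
    have hmn := Nat.mod_lt n hip
    -- the two test elements
    obtain ⟨x, hx1, hx2, hxr, hxe⟩ := exists_SL_fixed (r := r) hr hc2
      (n := n) (e := n % orderOf (Nat.card F : ZMod r)) (l := n / orderOf (Nat.card F : ZMod r))
      (Nat.div_pos hcn hip) (Nat.mod_add_div' n _).symm
    obtain ⟨D, hD1, hD2, hD3, σ, hσ⟩ := h x hx1 hx2
    have hc := Submodule.finrank_add_eq_of_isCompl (isCompl_fixed_moved hr _ hxr)
    rw [hxe, hV] at hc
    by_cases hσ1 : ∀ j, σ j = j
    · refine Or.inr ?_
      have h1 := fixed_parts_bound hr hxr hD1 hD2 (fun j => by rw [hσ, hσ1])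
      rw [hxe] at h1
      generalize hcdef : orderOf (Nat.card F : ZMod r) = c at *
      have h2 : t * (a % c) % c = n % c := by rw [hat, Nat.mul_mod a t, Nat.mul_mod_mod, mul_comm, Nat.mul_mod_mod]; simp [Nat.mul_mod, mul_comm]
      rw [Nat.mod_eq_of_lt (by omega)] at h2
      refine ⟨?_, h2.symm⟩
      by_contra hlt
      rw [Nat.mod_eq_of_lt (not_le.1 hlt)] at h1
      have : t * a = n := by rw [hat, mul_comm]
      omega
    · push Not at hσ1
      obtain ⟨j, hj⟩ := hσ1
      have hb := moved_part_bound hr hxr hD1 ha hD2 hσ hj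
      -- a single block
      obtain ⟨y, hy1, hy2, hyr, hye⟩ := exists_SL_fixed (r := r) hr hc2
        (n := n) (e := n - orderOf (Nat.card F : ZMod r)) (l := 1) Nat.one_pos (by omega)
      obtain ⟨E, hE1, hE2, hE3, τ, hτ⟩ := h y hy1 hy2
      have hc' := Submodule.finrank_add_eq_of_isCompl (isCompl_fixed_moved hr _ hyr)
      rw [hye, hV] at hc'
      have hcr : orderOf (Nat.card F : ZMod r) ≤ r - 1 :=
        Nat.le_of_dvd (by omega) (ZMod.orderOf_dvd_card_sub_one (natCard_ne_zero_zmod hr))
      by_cases hτ1 : ∀ j, τ j = j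
      · by_cases hca : orderOf (Nat.card F : ZMod r) ≤ a
        · -- compare the fixed space of `x` with a moved part
          exfalso
          have hpart : a ≤ finrank F (fixedSpace (Matrix.toLin' (x : Matrix (Fin n) (Fin n) F) : End F (Fin n → F))) :=
            fixed_of_moved_part hr hxr hroot hD1 ha hD2 hσ hj
          rw [hxe] at hpart
          omega
        · exfalso
          have h1 := fixed_parts_bound hr hyr hE1 hE2 (fun j => by rw [hτ, hτ1])
          rw [hye, Nat.mod_eq_of_lt (not_le.1 hca), mul_comm, ← hat] at h1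
          omega
      · push Not at hτ1
        obtain ⟨k, hk⟩ := hτ1
        have hb' := moved_part_bound hr hyr hE1 ha hE2 hτ hk
        have ha1 : a = 1 := by
          by_contra hne
          have : 2 * (r - 1) ≤ a * (r - 1) := Nat.mul_le_mul_right _ (by omega)
          omega
        subst ha1
        refine Or.inl ⟨rfl, by omega, by omega, ?_⟩
        have hlines := lines_bound hr hxr hroot hD1 hD2 hσ
        rw [hxe] at hlines
        rw [hat, one_mul] at hlines ⊢
        exact hlines
  · intro hcond x hx hxc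
    refine of_untwisted hn0 (fun f : End F (Fin n → F) => ∃ D, PermutesParts f a t D)
      (fun f w hw ⟨D, hD⟩ => ⟨D, hD.smul hw⟩) x hx hxc (fun f hf _ => ?_)
      (fun f z hz0 hz hf _ => twisted_permutesParts hz0 hz f hf (by rw [hV, hat]))
    have hmod := mod_le_finrank_fixed hr f hf
    rw [hV] at hmod
    rcases hcond with ⟨rfl, hc1, hcr, hk⟩ | ⟨hca, heq⟩
    · obtain ⟨l, hl⟩ := finrank_inv_eq hr f hf ⊤ le_top
      rw [top_inf_eq, finrank_top, hV] at hl
      generalize hcdef : orderOf (Nat.card F : ZMod r) = c at *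
      have hqk : n / c ≤ n % c := by
        have h0 := Nat.mod_add_div' n c
        have h1 : n % c * r = n % c * c + n % c := by rw [show r = c + 1 by omega, mul_add, mul_one]
        exact Nat.le_of_mul_le_mul_right (show n / c * c ≤ n % c * c by omega) (by omega)
      have hlq : l ≤ n / c := by
        rw [hl, Nat.add_mul_div_right _ _ (show 0 < c by omega)]; exact Nat.le_add_left _ _
      obtain ⟨ι, _, b, π, hb, hs, hπ⟩ := exists_cycle_basis hr f hf (by omega) l ⊤ le_top
        (by rw [top_inf_eq, finrank_top, hV, hcdef]; exact hl) (by rw [top_inf_eq]; exact hlq.trans (hqk.trans hmod.1))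
      exact permutesParts_of_cycles f (by rw [hV, hat, one_mul]) b π hb hs hπ
    · obtain ⟨D, h1, h2, h3, h4⟩ := exists_inv_parts hr f hf hca t ⊤ le_top (by rw [finrank_top, hV, hat])
        (by rw [top_inf_eq]; omega)
      refine ⟨D, h1, h2, h3, 1, fun j => ?_⟩
      have hinj : Function.Injective f := fun u v huv => by
        have h5 : (f ^ (r - 1)) (f u) = (f ^ (r - 1)) (f v) := by rw [huv]
        rwa [← Module.End.mul_apply, ← Module.End.mul_apply, ← pow_succ, show r - 1 + 1 = r by omega, hf] at h5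
      exact Submodule.eq_of_le_of_finrank_eq (h4 j) (Submodule.equivMapOfInjective f hinj _).finrank_eq.symm

end Cfsg.Agent.H97
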