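import Cfsg.Agent.H97.InvPartition

/-! A linear map whose square is scalar permutes the lines of some basis; grouping of permuted bases. -/

namespace Cfsg.Agent.H97

open Module

variable {F V : Type*} [Field F] [AddCommGroup V] [Module F V] [FiniteDimensional F V]

/-- A subspace carries a basis whose lines are permuted by `x` through an involution. -/
def HasPermutedBasis (x : V →ₗ[F] V) (P : Submodule F V) : Prop :=
  ∃ (ι : Type) (_ : Fintype ι) (b : ι → V) (π : Equiv.Perm ι), LinearIndependent F b ∧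
    Submodule.span F (Set.range b) = P ∧ (∀ i, π (π i) = i) ∧ ∀ i, ∃ c : F, c ≠ 0 ∧ x (b i) = c • b (π i)

/-- Permuted bases of independent subspaces combine. -/
theorem HasPermutedBasis.sup {x : V →ₗ[F] V} {P Q : Submodule F V} (hP : HasPermutedBasis x P)
    (hQ : HasPermutedBasis x Q) (hd : Disjoint P Q) : HasPermutedBasis x (P ⊔ Q) := by
  obtain ⟨ι, _, b, π, h1, h2, h3, h4⟩ := hP
  obtain ⟨κ, _, c, ρ, g1, g2, g3, g4⟩ := hQ
  refine ⟨ι ⊕ κ, inferInstance, Sum.elim b c, Equiv.sumCongr π ρ, h1.sum_type g1 (h2.symm ▸ g2.symm ▸ hd),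
    by rw [Set.Sum.elim_range, Submodule.span_union, h2, g2], ?_, ?_⟩
  · rintro (i | i) <;> simp [h3, g3]
  · rintro (i | i) <;> simp [h4, g4]

/-- A nonzero `z` with `x² = z`: every invariant subspace has a permuted basis. -/
theorem hasPermutedBasis_of_sq (x : V →ₗ[F] V) (z : F) (hz : z ≠ 0) (hx : ∀ v, x (x v) = z • v) :
    ∀ P : Submodule F V, (∀ v ∈ P, x v ∈ P) → HasPermutedBasis x P := by
  intro P
  induction hn : finrank F P using Nat.strong_induction_on generalizing P with
  | _ n ih =>
    subst hn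
    intro hP
    by_cases h : ∃ v ∈ P, v ≠ 0 ∧ ∀ c : F, x v ≠ c • v
    · obtain ⟨v, hv, hv0, hvx⟩ := h
      have hind : LinearIndependent F ![v, x v] := by
        rw [LinearIndependent.pair_iff' hv0]
        exact fun a h => hvx a h.symm
      let T := Submodule.span F (Set.range ![v, x v])
      have hTP : T ≤ P := Submodule.span_le.2 (by
        rintro _ ⟨i, rfl⟩; fin_cases i
        · exact hv
        · exact hP v hv)
      obtain ⟨φ, hφv, hφx⟩ : ∃ φ : V →ₗ[F] F, φ v = 0 ∧ φ (x v) = 1 := by
        obtain ⟨φ, h1, h2⟩ := Submodule.exists_dual_map_eq_bot_of_notMem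
          (x := x v) (p := Submodule.span F {v}) (by
            rw [Submodule.mem_span_singleton]; exact fun ⟨a, ha⟩ => hvx a ha.symm) inferInstance
        refine ⟨(φ (x v))⁻¹ • φ, ?_, by simp [inv_mul_cancel₀ h1]⟩
        have : φ v ∈ Submodule.map φ (Submodule.span F {v}) :=
          Submodule.mem_map_of_mem (Submodule.mem_span_singleton_self v)
        rw [h2] at this
        simp [(Submodule.mem_bot F).1 this]
      let Q : Submodule F V := P ⊓ (LinearMap.ker φ ⊓ LinearMap.ker (φ ∘ₗ x))
      have hQ : ∀ w ∈ Q, x w ∈ Q := by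
        rintro w ⟨h1, h2, h3⟩
        simp only [SetLike.mem_coe, LinearMap.mem_ker, LinearMap.comp_apply] at h2 h3
        exact ⟨hP w h1, h3, by simp [hx, h2]⟩
      have hTs : ∀ y, y ∈ T ↔ ∃ a b : F, a • v + b • x v = y := fun y => by
        simp [T, Submodule.mem_span_pair]
        exact ⟨fun ⟨a, b, h⟩ => ⟨b, a, by rw [add_comm]; exact h⟩,
          fun ⟨a, b, h⟩ => ⟨b, a, by rw [add_comm]; exact h⟩⟩
      have hd : Disjoint T Q := by
        rw [Submodule.disjoint_def]
        rintro y hy ⟨-, h2, h3⟩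
        obtain ⟨a, b, rfl⟩ := (hTs y).1 hy
        simp only [SetLike.mem_coe, LinearMap.mem_ker, LinearMap.comp_apply, map_add, map_smul, hx, hφv, hφx,
          smul_eq_mul, mul_zero, mul_one, zero_add, add_zero] at h2 h3
        simp [h2, h3]
      have hsum : T ⊔ Q = P := by
        refine le_antisymm (sup_le hTP inf_le_left) fun w hw => ?_
        have hu : φ (x w) • v + φ w • x v ∈ T := (hTs _).2 ⟨_, _, rfl⟩
        refine Submodule.mem_sup.2 ⟨_, hu, w - (φ (x w) • v + φ w • x v),
          ⟨P.sub_mem hw (hTP hu), ?_, ?_⟩, add_sub_cancel _ _⟩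
        · simp [hφv, hφx]
        · simp [hx, hφv, hφx]
      have hlt : finrank F Q < finrank F P := by
        refine Submodule.finrank_lt_finrank_of_lt (lt_of_le_of_ne inf_le_left fun he => ?_)
        have hvQ : v ∈ Q := he ▸ hv
        have := hvQ.2.2
        simp [hφx] at this
      rw [← hsum]
      refine HasPermutedBasis.sup ?_ (ih _ hlt Q rfl hQ) hd
      refine ⟨Fin 2, inferInstance, ![v, x v], Equiv.swap 0 1, hind, rfl, fun i => Equiv.swap_apply_self _ _ i,
        fun i => ?_⟩
      fin_cases i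
      · exact ⟨1, one_ne_zero, by simp⟩
      · exact ⟨z, hz, by simp [hx]⟩
    · push Not at h
      let b := Module.finBasis F P
      refine ⟨Fin (finrank F P), inferInstance, fun i => (b i : V), Equiv.refl _,
        b.linearIndependent.map' P.subtype (Submodule.ker_subtype P), ?_, fun _ => rfl, fun i => ?_⟩
      · rw [show (fun i => (b i : V)) = P.subtype ∘ b from rfl, Set.range_comp, Submodule.span_image,
          b.span_eq, Submodule.map_top, Submodule.range_subtype]
      · obtain ⟨c, hc⟩ := h _ (b i).2 (by simpa using b.ne_zero i)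
        refine ⟨c, fun h0 => ?_, hc⟩
        have := hx (b i)
        rw [hc, h0, zero_smul, map_zero, eq_comm, smul_eq_zero] at this
        exact this.elim hz (by simpa using b.ne_zero i)

/-- Spans of the fibres of a map on an independent spanning family form a decomposition permuted by `x`. -/
theorem decomposition_of_fibres {ι : Type*} [Fintype ι] {t a : ℕ} (b : ι → V)
    (hb : LinearIndependent F b) (hsp : Submodule.span F (Set.range b) = ⊤) (g : ι → Fin t)
    (hg : ∀ j, (Finset.univ.filter fun i => g i = j).card = a) (x : V →ₗ[F] V) (π : Equiv.Perm ι)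
    (hx : ∀ i, ∃ c : F, c ≠ 0 ∧ x (b i) = c • b (π i)) (σ : Equiv.Perm (Fin t))
    (hσ : ∀ i, g (π i) = σ (g i)) :
    let D : Fin t → Submodule F V := fun j => Submodule.span F (b '' {i | g i = j})
    (∀ j, finrank F (D j) = a) ∧ iSupIndep D ∧ iSup D = ⊤ ∧ ∀ j, (D j).map x = D (σ j) := by
  intro D
  refine ⟨fun j => ?_, ?_, ?_, fun j => ?_⟩
  · have hr : b '' {i | g i = j} = Set.range (b ∘ (Subtype.val : {i // g i = j} → ι)) := by
      ext; simp [Function.comp]
    show finrank F (Submodule.span F (b '' {i | g i = j})) = a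
    rw [hr, finrank_span_eq_card (R := F) (hb.comp (Subtype.val : {i // g i = j} → ι) Subtype.val_injective),
      Fintype.card_subtype, hg j]
  · intro j
    refine Disjoint.mono_right ?_ (hb.disjoint_span_image (s := {i | g i = j}) (t := {i | g i ≠ j}) ?_)
    · refine iSup₂_le fun k hk => Submodule.span_mono (Set.image_mono fun i hi => ?_)
      simp only [Set.mem_ofPred_eq, ne_eq] at hi ⊢; rw [hi]; exact hk
    · exact Set.disjoint_left.2 fun i h1 h2 => h2 h1
  · rw [eq_top_iff, ← hsp, Submodule.span_le]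
    rintro _ ⟨i, rfl⟩
    exact le_iSup D (g i) (Submodule.subset_span ⟨i, rfl, rfl⟩)
  · show (Submodule.span F (b '' {i | g i = j})).map x = Submodule.span F (b '' {i | g i = σ j})
    rw [Submodule.map_span]
    refine le_antisymm (Submodule.span_le.2 ?_) (Submodule.span_le.2 ?_)
    · rintro _ ⟨_, ⟨i, hi, rfl⟩, rfl⟩
      obtain ⟨c, -, hc⟩ := hx i
      rw [hc]
      exact Submodule.smul_mem _ _ (Submodule.subset_span ⟨π i, by simp [hσ, hi.symm], rfl⟩)
    · rintro _ ⟨i, hi, rfl⟩
      obtain ⟨c, hc0, hc⟩ := hx (π.symm i)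
      rw [π.apply_symm_apply] at hc
      have hmem : x (b (π.symm i)) ∈ Submodule.span F (x '' (b '' {i | g i = j})) :=
        Submodule.subset_span ⟨_, ⟨π.symm i, σ.injective (by rw [← hσ, π.apply_symm_apply]; exact hi), rfl⟩, rfl⟩
      rw [hc] at hmem
      simpa [smul_smul, inv_mul_cancel₀ hc0] using Submodule.smul_mem _ c⁻¹ hmem

end Cfsg.Agent.H97
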