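import Cfsg.Agent.H97.LinearCriteria
import Cfsg.Agent.H97.SquareScalar

/-! Decompositions into equal parts permuted by an operator of prime order. -/

namespace Cfsg.Agent.H97

open Module

variable {F V : Type*} [Field F] [AddCommGroup V] [Module F V] [FiniteDimensional F V]

/-- A decomposition into `t` parts of dimension `a` whose parts are permuted by `x`. -/
def PermutesParts (x : End F V) (a t : ℕ) (D : Fin t → Submodule F V) : Prop :=
  (∀ j, finrank F (D j) = a) ∧ iSupIndep D ∧ iSup D = ⊤ ∧ ∃ σ : Equiv.Perm (Fin t), ∀ j, (D j).map x = D (σ j)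

omit [FiniteDimensional F V] in
/-- Scaling does not change the permuted parts. -/
theorem PermutesParts.smul {x : End F V} {a t : ℕ} {D : Fin t → Submodule F V} (h : PermutesParts x a t D)
    {w : F} (hw : w ≠ 0) : PermutesParts (w • x) a t D := by
  obtain ⟨h1, h2, h3, σ, h4⟩ := h
  exact ⟨h1, h2, h3, σ, fun j => by rw [Submodule.map_smul _ _ _ hw, h4]⟩

/-- The dimension of an independent supremum. -/
theorem finrank_sup_of_indep {ι : Type*} {D : ι → Submodule F V} (h : iSupIndep D) (s : Finset ι) :
    finrank F ↥(s.sup D) = ∑ j ∈ s, finrank F (D j) := by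
  classical
  induction s using Finset.induction with
  | empty => simp
  | insert j t hj ih =>
    have hd : Disjoint (D j) (t.sup D) := by
      refine (h j).mono_right (Finset.sup_le fun k hk => ?_)
      exact le_iSup₂_of_le k (fun hkj => hj (hkj ▸ hk)) le_rfl
    have h1 := Submodule.finrank_sup_add_finrank_inf_eq (D j) (t.sup D)
    rw [hd.eq_bot, finrank_bot, add_zero] at h1
    rw [Finset.sup_insert, Finset.sum_insert hj, h1, ih]

/-- The orbit sum `1 + x + ⋯ + x ^ (r - 1)`. -/
def orbitSum (x : End F V) (r : ℕ) : End F V := ∑ i ∈ Finset.range r, x ^ i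

omit [FiniteDimensional F V] in
/-- The orbit sum kills `x - 1` on both sides. -/
theorem orbitSum_mul {x : End F V} {r : ℕ} (hx : x ^ r = 1) :
    orbitSum x r * (x - 1) = 0 ∧ (x - 1) * orbitSum x r = 0 := by
  simp [orbitSum, geom_sum_mul, mul_geom_sum, hx]

omit [FiniteDimensional F V] in
/-- The image of the orbit sum is fixed. -/
theorem orbitSum_mem_fixed {x : End F V} {r : ℕ} (hx : x ^ r = 1) (v : V) :
    orbitSum x r v ∈ fixedSpace x := LinearMap.congr_fun (orbitSum_mul hx).2 v

/-- The kernel of the orbit sum is the moved space. -/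
theorem ker_orbitSum {x : End F V} {r : ℕ} [Fact r.Prime] (hr : (r : F) ≠ 0) (hx : x ^ r = 1) :
    finrank F (LinearMap.ker (orbitSum x r)) = finrank F (movedSpace x) ∧
      finrank F (LinearMap.range (orbitSum x r)) = finrank F (fixedSpace x) := by
  have hc := Submodule.finrank_add_eq_of_isCompl (isCompl_fixed_moved hr x hx)
  have h1 : finrank F (movedSpace x) ≤ finrank F (LinearMap.ker (orbitSum x r)) := by
    refine Submodule.finrank_mono ?_
    rintro _ ⟨w, rfl⟩
    exact LinearMap.congr_fun (orbitSum_mul hx).1 w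
  have h2 : finrank F (fixedSpace x) ≤ finrank F (LinearMap.range (orbitSum x r)) := by
    refine Submodule.finrank_mono fun v hv => ⟨(r : F)⁻¹ • v, ?_⟩
    have h3 : ∀ k : ℕ, (x ^ k) v = v := by
      intro k
      induction k with
      | zero => rfl
      | succ k ih => rw [pow_succ, Module.End.mul_apply, mem_fixedSpace.1 hv, ih]
    rw [orbitSum, map_smul, LinearMap.sum_apply, Finset.sum_congr rfl (fun k _ => h3 k), Finset.sum_const,
      Finset.card_range, ← Nat.cast_smul_eq_nsmul F, smul_smul, inv_mul_cancel₀ hr, one_smul]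
  have h3 := LinearMap.finrank_range_add_finrank_ker (orbitSum x r)
  omega

section necessity

variable {r : ℕ} [Fact r.Prime] {x : End F V} {a t : ℕ} {D : Fin t → Submodule F V} {σ : Equiv.Perm (Fin t)}

omit [FiniteDimensional F V] [Fact r.Prime] in
/-- Powers permute parts along powers of the permutation. -/
theorem parts_map_pow (hσ : ∀ j, (D j).map x = D (σ j)) (i : ℕ) (j : Fin t) :
    (D j).map (x ^ i) = D ((σ ^ i) j) := by
  induction i with
  | zero => simp [Module.End.one_eq_id]
  | succ i ih => rw [pow_succ', Module.End.mul_eq_comp, Submodule.map_comp, ih, hσ, pow_succ']; rfl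

omit [FiniteDimensional F V] in
/-- The parts determine a permutation of order dividing `r`. -/
theorem perm_pow_eq_one (hx : x ^ r = 1) (hd : ∀ j, finrank F (D j) = a) (ha : 0 < a) (hind : iSupIndep D)
    (hσ : ∀ j, (D j).map x = D (σ j)) : σ ^ r = 1 := by
  have hinjD : Function.Injective D := hind.injective fun j h => by
    have := hd j; rw [h, finrank_bot] at this; omega
  exact Equiv.ext fun j => hinjD (by
    rw [← parts_map_pow hσ, hx, Module.End.one_eq_id, Submodule.map_id, Equiv.Perm.one_apply])

/-- A moved point has a free orbit. -/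
theorem pow_apply_ne {ι : Type*} {σ : Equiv.Perm ι} (hσr : σ ^ r = 1) {j : ι} (hj : σ j ≠ j) {k : ℕ}
    (hk : 0 < k) (hkr : k < r) : (σ ^ k) j ≠ j := by
  intro h1
  obtain ⟨m, hm⟩ : ∃ m, m * k % r = 1 := by
    refine ⟨((k : ZMod r)⁻¹).val, ?_⟩
    have h0 : (k : ZMod r) ≠ 0 := fun h0 => by
      have := Nat.le_of_dvd hk ((ZMod.natCast_eq_zero_iff _ _).1 h0); omega
    have h2 : ((((k : ZMod r)⁻¹).val * k : ℕ) : ZMod r) = ((1 : ℕ) : ZMod r) := by
      rw [Nat.cast_mul, ZMod.natCast_zmod_val, inv_mul_cancel₀ h0, Nat.cast_one]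
    rw [(ZMod.natCast_eq_natCast_iff' _ _ _).1 h2, Nat.mod_eq_of_lt (Fact.out : r.Prime).one_lt]
  have h3 : ∀ m : ℕ, (σ ^ (m * k)) j = j := by
    intro m
    induction m with
    | zero => simp
    | succ m ih => rw [add_mul, one_mul, pow_add, Equiv.Perm.mul_apply, h1, ih]
  have h4 := h3 m
  rw [← Nat.div_add_mod (m * k) r, hm, pow_add, pow_mul, hσr, one_pow, one_mul, pow_one] at h4
  exact hj h4

/-- A moved part forces `r - 1` times its dimension in the moved space. -/
theorem moved_part_bound (hr : (r : F) ≠ 0) (hx : x ^ r = 1) (hd : ∀ j, finrank F (D j) = a) (ha : 0 < a)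
    (hind : iSupIndep D) (hσ : ∀ j, (D j).map x = D (σ j)) {j : Fin t} (hj : σ j ≠ j) :
    a * (r - 1) ≤ finrank F (movedSpace x) := by
  classical
  have hσr := perm_pow_eq_one hx hd ha hind hσ
  have hper : ∀ i < r, ∀ i' < r, (σ ^ i) j = (σ ^ i') j → i = i' := by
    intro i hi i' hi' h
    by_contra hne
    rcases Nat.lt_or_gt_of_ne hne with h' | h'
    · refine pow_apply_ne hσr hj (k := i' - i) (by omega) (by omega) ((σ ^ i).injective ?_)
      rw [← Equiv.Perm.mul_apply, ← pow_add, Nat.add_sub_cancel' h'.le]; exact h.symm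
    · refine pow_apply_ne hσr hj (k := i - i') (by omega) (by omega) ((σ ^ i').injective ?_)
      rw [← Equiv.Perm.mul_apply, ← pow_add, Nat.add_sub_cancel' h'.le]; exact h
  let O : Finset (Fin t) := (Finset.range r).image fun i => (σ ^ i) j
  have hO : O.card = r := by
    rw [Finset.card_image_of_injOn (fun i hi i' hi' h => hper i (by simpa using hi) i' (by simpa using hi') h),
      Finset.card_range]
  let S := O.sup D
  have hS : finrank F S = r * a := by
    show finrank F ↥(O.sup D) = _
    rw [finrank_sup_of_indep hind, Finset.sum_congr rfl (fun k _ => hd k), Finset.sum_const, hO, smul_eq_mul]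
  have hPS : S.map (orbitSum x r) ≤ (D j).map (orbitSum x r) := by
    rw [Submodule.map_le_iff_le_comap]
    refine Finset.sup_le fun k hk => ?_
    obtain ⟨i, -, rfl⟩ := Finset.mem_image.1 hk
    rw [← parts_map_pow hσ]
    rintro _ ⟨v, hv, rfl⟩
    refine ⟨v, hv, ?_⟩
    have hfix := orbitSum_mem_fixed hx v
    have h3 : ∀ k : ℕ, (x ^ k) (orbitSum x r v) = orbitSum x r v := by
      intro k
      induction k with
      | zero => rfl
      | succ k ih => rw [pow_succ, Module.End.mul_apply, mem_fixedSpace.1 hfix, ih]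
    have hcomm : x ^ i * orbitSum x r = orbitSum x r * x ^ i := by
      simp only [orbitSum, Finset.mul_sum, Finset.sum_mul, ← pow_add, add_comm i]
    exact ((h3 i).symm.trans (LinearMap.congr_fun hcomm v))
  have h1 := LinearMap.finrank_range_add_finrank_ker ((orbitSum x r).domRestrict S)
  rw [LinearMap.range_domRestrict, hS] at h1
  have h2 : finrank F ↥(S.map (orbitSum x r)) ≤ a :=
    (Submodule.finrank_mono hPS).trans ((Submodule.finrank_map_le _ _).trans (hd j).le)
  have h4 : finrank F (LinearMap.ker ((orbitSum x r).domRestrict S)) ≤ finrank F (movedSpace x) := by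
    rw [← (ker_orbitSum hr hx).1, ← Submodule.finrank_map_subtype_eq]
    refine Submodule.finrank_mono ?_
    rintro _ ⟨v, hv, rfl⟩
    exact hv
  have : a * (r - 1) = r * a - a := by rw [Nat.mul_sub, mul_one, mul_comm]
  omega

/-- A moved part gives a fixed space of at least its dimension. -/
theorem fixed_of_moved_part (hr : (r : F) ≠ 0) (hx : x ^ r = 1) (_hroot : ∀ c : F, c ^ r = 1 → c = 1)
    (hd : ∀ j, finrank F (D j) = a) (ha : 0 < a) (hind : iSupIndep D)
    (hσ : ∀ j, (D j).map x = D (σ j)) {j : Fin t} (hj : σ j ≠ j) : a ≤ finrank F (fixedSpace x) := by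
  have hσr := perm_pow_eq_one hx hd ha hind hσ
  have hinj : Disjoint (D j) (LinearMap.ker (orbitSum x r)) := by
    rw [Submodule.disjoint_def]
    intro v hv hker
    refine Submodule.disjoint_def.1 (hind j) v hv ?_
    have h0 : ∑ i ∈ Finset.range r, (x ^ i) v = 0 := by simpa [orbitSum, LinearMap.sum_apply] using hker
    rw [← Finset.add_sum_erase _ _ (Finset.mem_range.2 (Fact.out : r.Prime).pos),
      add_eq_zero_iff_eq_neg, pow_zero, Module.End.one_apply] at h0
    rw [h0]
    refine Submodule.neg_mem _ (Submodule.sum_mem _ fun i hi => ?_)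
    rw [Finset.mem_erase, Finset.mem_range] at hi
    exact Submodule.mem_iSup_of_mem ((σ ^ i) j) (Submodule.mem_iSup_of_mem
      (pow_apply_ne hσr hj (Nat.pos_of_ne_zero hi.1) hi.2)
      (by rw [← parts_map_pow hσ]; exact Submodule.mem_map_of_mem hv))
  have h1 := LinearMap.finrank_range_add_finrank_ker ((orbitSum x r).domRestrict (D j))
  rw [LinearMap.range_domRestrict, hd] at h1
  have h2 : LinearMap.ker ((orbitSum x r).domRestrict (D j)) = ⊥ := LinearMap.ker_eq_bot'.2 fun v hv =>
    Subtype.ext (Submodule.disjoint_def.1 hinj v v.2 hv)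
  rw [h2, finrank_bot, add_zero] at h1
  rw [← (ker_orbitSum hr hx).2, ← h1]
  exact Submodule.finrank_mono LinearMap.map_le_range

omit [FiniteDimensional F V] [Fact r.Prime] in
/-- Powers on an eigenvector. -/
theorem pow_apply_smul {c : F} {v : V} (h : x v = c • v) (i : ℕ) : (x ^ i) v = c ^ i • v := by
  induction i with
  | zero => simp
  | succ i ih => rw [pow_succ, Module.End.mul_apply, h, map_smul, ih, smul_smul, pow_succ']

/-- Invariant parts: lower bound on the fixed space. -/
theorem fixed_parts_bound [Finite F] (hr : (r : F) ≠ 0) (hx : x ^ r = 1)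
    (hd : ∀ j, finrank F (D j) = a) (hind : iSupIndep D) (hσ : ∀ j, (D j).map x = D j) :
    t * (a % orderOf (Nat.card F : ZMod r)) ≤ finrank F (fixedSpace x) := by
  have h1 : ∀ j, a % orderOf (Nat.card F : ZMod r) ≤ finrank F ↥(D j ⊓ fixedSpace x) := fun j => by
    obtain ⟨l, hl⟩ := finrank_inv_eq hr x hx (D j) (hσ j).le
    rw [hd] at hl
    rw [hl, Nat.add_mul_mod_self_right]
    exact Nat.mod_le _ _
  have h2 := finrank_sup_of_indep (hind.mono fun j => (inf_le_left : D j ⊓ fixedSpace x ≤ D j)) Finset.univ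
  have h3 : finrank F ↥(Finset.univ.sup fun j => D j ⊓ fixedSpace x) ≤ finrank F (fixedSpace x) :=
    Submodule.finrank_mono (Finset.sup_le fun j _ => inf_le_right)
  have h4 := Finset.sum_le_sum (s := (Finset.univ : Finset (Fin t))) fun j _ => h1 j
  rw [Finset.sum_const, Finset.card_univ, Fintype.card_fin, smul_eq_mul] at h4
  omega

/-- Permuted lines: the fixed space has dimension at least the number of orbits. -/
theorem lines_bound (hr : (r : F) ≠ 0) (hx : x ^ r = 1) (hroot : ∀ c : F, c ^ r = 1 → c = 1)
    (hd : ∀ j, finrank F (D j) = 1) (hind : iSupIndep D)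
    (hσ : ∀ j, (D j).map x = D (σ j)) : t ≤ finrank F (fixedSpace x) * r := by
  classical
  have hσr := perm_pow_eq_one hx hd one_pos hind hσ
  choose d hdm hd0 using fun j => (Submodule.ne_bot_iff (D j)).1 fun h => by
    have := hd j; rw [h, finrank_bot] at this; omega
  have hD : ∀ j, D j = Submodule.span F {d j} := fun j =>
    (Submodule.eq_of_le_of_finrank_eq ((Submodule.span_singleton_le_iff_mem _ _).2 (hdm j))
      (by rw [finrank_span_singleton (hd0 j), hd])).symm
  have hstep : ∀ j i, (x ^ i) (d j) ∈ D ((σ ^ i) j) := fun j i => by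
    rw [← parts_map_pow hσ]; exact Submodule.mem_map_of_mem (hdm j)
  let orb : Fin t → Finset (Fin t) := fun j => (Finset.range r).image fun i => (σ ^ i) j
  have hmem : ∀ j, j ∈ orb j := fun j =>
    Finset.mem_image.2 ⟨0, Finset.mem_range.2 (Fact.out : r.Prime).pos, by simp⟩
  have hred : ∀ n, σ ^ (n % r) = σ ^ n := fun n => by
    conv_rhs => rw [← Nat.div_add_mod n r, pow_add, pow_mul, hσr, one_pow, one_mul]
  have hclosed : ∀ j k, k ∈ orb j → orb k = orb j := by
    intro j k hk
    obtain ⟨i, hi, rfl⟩ := Finset.mem_image.1 hk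
    rw [Finset.mem_range] at hi
    have hmod : ∀ n, (σ ^ n) j ∈ orb j := fun n => Finset.mem_image.2 ⟨n % r,
      Finset.mem_range.2 (Nat.mod_lt _ (Fact.out : r.Prime).pos), by rw [hred]⟩
    refine Finset.Subset.antisymm (fun l hl => ?_) (fun l hl => ?_)
    · obtain ⟨i', -, rfl⟩ := Finset.mem_image.1 hl
      rw [← Equiv.Perm.mul_apply, ← pow_add]; exact hmod _
    · obtain ⟨i', hi', rfl⟩ := Finset.mem_image.1 hl
      rw [Finset.mem_range] at hi'
      refine Finset.mem_image.2 ⟨(i' + (r - i)) % r, Finset.mem_range.2 (Nat.mod_lt _ (Fact.out : r.Prime).pos), ?_⟩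
      rw [hred, ← Equiv.Perm.mul_apply, ← pow_add, show i' + (r - i) + i = i' + r by omega, pow_add, hσr,
        mul_one]
  let O := {o // o ∈ Finset.univ.image orb}
  choose rep hrep using fun o : O => Finset.mem_image.1 o.2
  have hsep : ∀ (o o' : O) k, k ∈ o.1 → k ∈ o'.1 → o = o' := fun o o' k h h' => Subtype.ext (by
    rw [← (hrep o).2] at h ⊢
    rw [← (hrep o').2] at h' ⊢
    rw [← hclosed _ _ h, ← hclosed _ _ h'])
  let P : O → Submodule F V := fun o => o.1.sup D
  have hP : iSupIndep P := by
    intro o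
    refine Disjoint.mono ?_ ?_ (hind.disjoint_biSup_biSup (s := {k | k ∈ o.1}) (t := {k | k ∉ o.1})
      (Set.disjoint_left.2 fun k h h' => h' h))
    · exact Finset.sup_le fun k hk => le_iSup₂_of_le k hk le_rfl
    · refine iSup₂_le fun o' ho' => Finset.sup_le fun k hk => le_iSup₂_of_le k ?_ le_rfl
      exact fun h => ho' (hsep o' o k hk h)
  let y : O → V := fun o => orbitSum x r (d (rep o))
  have hy : ∀ o, y o ∈ P o := by
    intro o
    show orbitSum x r (d (rep o)) ∈ P o
    simp only [orbitSum, LinearMap.sum_apply]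
    refine Submodule.sum_mem _ fun i hi => ?_
    refine (Finset.le_sup (f := D) ?_) (hstep (rep o) i)
    rw [← (hrep o).2]
    exact Finset.mem_image.2 ⟨i, hi, rfl⟩
  have hy0 : ∀ o, y o ≠ 0 := by
    intro o hzero
    by_cases hfix : σ (rep o) = rep o
    · have hxd : x (d (rep o)) ∈ Submodule.span F {d (rep o)} := by
        have := Submodule.mem_map_of_mem (f := x) (hdm (rep o))
        rwa [hσ, hfix, hD] at this
      obtain ⟨c, hc⟩ := Submodule.mem_span_singleton.1 hxd
      have h1 := pow_apply_smul hc.symm r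
      rw [hx, Module.End.one_apply] at h1
      have hcr : c ^ r = 1 := smul_left_injective F (hd0 (rep o)) (by simpa using h1.symm)
      have hc1 : c = 1 := hroot c hcr
      simp only [y, orbitSum, LinearMap.sum_apply, pow_apply_smul hc.symm, hc1, one_pow, one_smul,
        Finset.sum_const, Finset.card_range, ← Nat.cast_smul_eq_nsmul F, smul_eq_zero, hr, hd0, or_false] at hzero
    · refine hd0 (rep o) (Submodule.disjoint_def.1 (hind (rep o)) _ (hdm _) ?_)
      have hzero' : ∑ i ∈ Finset.range r, (x ^ i) (d (rep o)) = 0 := by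
        simpa [y, orbitSum, LinearMap.sum_apply] using hzero
      rw [← Finset.add_sum_erase _ _ (Finset.mem_range.2 (Fact.out : r.Prime).pos),
        add_eq_zero_iff_eq_neg, pow_zero, Module.End.one_apply] at hzero'
      rw [hzero']
      refine Submodule.neg_mem _ (Submodule.sum_mem _ fun i hi => ?_)
      rw [Finset.mem_erase, Finset.mem_range] at hi
      exact Submodule.mem_iSup_of_mem ((σ ^ i) (rep o))
        (Submodule.mem_iSup_of_mem (pow_apply_ne hσr hfix (Nat.pos_of_ne_zero hi.1) hi.2) (hstep _ i))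
  have hLI : LinearIndependent F y := hP.linearIndependent _ hy hy0
  have hle : Fintype.card O ≤ finrank F (fixedSpace x) := by
    rw [← finrank_span_eq_card hLI]
    refine Submodule.finrank_mono (Submodule.span_le.2 ?_)
    rintro _ ⟨o, rfl⟩
    exact orbitSum_mem_fixed hx _
  have hcover : t ≤ Fintype.card O * r := by
    have h1 := Finset.card_le_mul_card_image_of_maps_to
      (s := (Finset.univ : Finset (Fin t))) (t := Finset.univ.image orb) (f := orb)
      (fun j _ => Finset.mem_image_of_mem _ (Finset.mem_univ j)) r (fun o ho => by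
        obtain ⟨j, -, rfl⟩ := Finset.mem_image.1 ho
        refine (Finset.card_le_card (t := orb j) fun k hk => ?_).trans
          (Finset.card_image_le.trans (Finset.card_range r).le)
        rw [← (Finset.mem_filter.1 hk).2]; exact hmem k)
    rw [Finset.card_univ, Fintype.card_fin] at h1
    rw [Fintype.card_coe]
    linarith
  exact hcover.trans (Nat.mul_le_mul_right r hle)

end necessity

end Cfsg.Agent.H97
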