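import Cfsg.Prelude.Def_GeometricClasses
import Cfsg.Agent.H67.OrthOrderCount

set_option autoImplicit false

/-!
# Basic facts on isometries of prime order of quadratic spaces
-/

namespace Cfsg.Agent.H97

open Polynomial Module

universe u

variable {K : Type u} [Field K] [Fintype K] {r p : ℕ} [Fact p.Prime] [CharP K p]
  {I : Type} [Fintype I] [DecidableEq I]

/-- An element whose characteristic polynomial has no factor `X - 1` fixes no non-zero vector. -/
theorem fpf_of_polyOf (hr : (r : K) ≠ 0) (hrp : r.Prime) {M : Matrix I I K}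
    {a : H67.CycFac r K → ℕ} (hM : M.charpoly = H67.polyOf (Fintype.card I) a)
    (hfull : orderOf (Fintype.card K : ZMod r) * ∑ P, a P = Fintype.card I)
    (v : I → K) (hv : M.mulVec v = v) : v = 0 := by
  by_contra h0
  have h1 : M.charpoly.eval 1 = 0 := by
    rw [Matrix.eval_charpoly]
    refine Matrix.exists_mulVec_eq_zero_iff.1 ⟨v, h0, ?_⟩
    rw [Matrix.sub_mulVec, Matrix.scalar_apply, Matrix.diagonal_one, Matrix.one_mulVec, hv,
      sub_self]
  rw [hM, H67.polyOf, hfull, Nat.sub_self, pow_zero, one_mul, eval_prod,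
    Finset.prod_eq_zero_iff] at h1
  obtain ⟨P, -, hP⟩ := h1
  rw [eval_pow] at hP
  have h2 : P.1.IsRoot 1 := eq_zero_of_pow_eq_zero hP
  rw [← dvd_iff_isRoot] at h2
  exact P.ne_X_sub_one hr hrp (eq_of_monic_of_associated P.monic (monic_X_sub_C 1)
    ((irreducible_X_sub_C (1 : K)).associated_of_dvd P.irreducible h2).symm)

/-- An isometry of odd prime order, prime to the characteristic, is a product of commutators. -/
theorem mem_omegaGL_of_semisimple (hrp : r.Prime) (hne : r ≠ p) (hr2 : r ≠ 2)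
    (Q : QuadraticForm K (I → K)) (hQ : (QuadraticMap.polarBilin Q).Nondegenerate)
    (A : ↥(Cfsg.isometryGroup K ⇑Q)) (hA : A ^ r = 1) :
    (A : GL I K) ∈ Cfsg.Geo.omegaGL ⇑Q := by
  classical
  have hr := H67.cast_ne_zero_of_prime_ne (K := K) hrp hne
  refine ⟨A, ?_, rfl⟩
  show A ∈ commutator ↥(Cfsg.isometryGroup K ⇑Q)
  set M := ((A : GL I K) : Matrix I I K) with hMdef
  set N := (((A⁻¹ : ↥(Cfsg.isometryGroup K ⇑Q)) : GL I K) : Matrix I I K) with hNdef
  have hMr : M ^ r = 1 := by
    rw [hMdef, ← Units.val_pow_eq_pow_val, ← SubmonoidClass.coe_pow, hA]; rfl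
  have hNr : N ^ r = 1 := by
    rw [hNdef, ← Units.val_pow_eq_pow_val, ← SubmonoidClass.coe_pow, inv_pow, hA, inv_one]; rfl
  have hcp : N.charpoly = M.charpoly := by
    rw [← H67.charpoly_contra_isometry Q hQ A]
    rw [H67.contraMat_eq, RingHom.coe_id, Matrix.map_id]
    show N.charpoly = (M.transpose)⁻¹.charpoly
    rw [← Matrix.transpose_nonsing_inv, Matrix.charpoly_transpose, hMdef, hNdef]
    simp [Matrix.coe_units_inv]
  have hs : Squarefree ((X : K[X]) ^ r - 1) := (X_pow_sub_one_separable_iff.2 hr).squarefree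
  obtain ⟨L, hL⟩ := H66.exists_equiv_of_charpoly_eq hs hs
    (f := Matrix.toLin' M) (g := Matrix.toLin' N) (by rw [H66.aeval_toLin']; simp [hMr])
    (by rw [H66.aeval_toLin']; simp [hNr])
    (by rw [Matrix.charpoly_toLin', Matrix.charpoly_toLin', hcp])
  have hLU : IsUnit (LinearMap.toMatrix' L.toLinearMap) := by
    refine IsUnit.of_mul_eq_one (LinearMap.toMatrix' L.symm.toLinearMap) ?_
    rw [← LinearMap.toMatrix'_comp]; simp
  have hconj : IsConj M N := by
    refine ⟨hLU.unit, ?_⟩
    show LinearMap.toMatrix' L.toLinearMap * M = N * LinearMap.toMatrix' L.toLinearMap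
    refine Matrix.ext_iff_mulVec.2 fun v => ?_
    simp only [← Matrix.mulVec_mulVec, LinearMap.toMatrix'_mulVec]
    show L (M.mulVec v) = N.mulVec (L v)
    rw [← Matrix.toLin'_apply, hL, Matrix.toLin'_apply]
  have hord : orderOf A ∣ r := orderOf_dvd_of_pow_eq_one hA
  have hodd : Odd (orderOf A) := (hrp.odd_of_ne_two hr2).of_dvd_nat hord
  have hco : (orderOf A).Coprime p :=
    Nat.Coprime.coprime_dvd_left hord ((Nat.coprime_primes hrp Fact.out).2 hne)
  obtain ⟨g, hg⟩ := isConj_iff.1 ((H67.orth_isConj_iff_matrix Q hQ A A⁻¹ hodd hco).2 hconj)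
  obtain ⟨k, hk⟩ := hrp.odd_of_ne_two hr2
  have h2 : A ^ 2 ∈ commutator ↥(Cfsg.isometryGroup K ⇑Q) := by
    have h3 : g * A⁻¹ * g⁻¹ * A⁻¹⁻¹ ∈ commutator ↥(Cfsg.isometryGroup K ⇑Q) := by
      have := Subgroup.commutator_mem_commutator (H₁ := (⊤ : Subgroup ↥(Cfsg.isometryGroup K ⇑Q)))
        (H₂ := ⊤) (g₁ := g) (g₂ := A⁻¹) trivial trivial
      rw [commutatorElement_def] at this
      simpa [commutator_def] using this
    rw [show g * A⁻¹ * g⁻¹ = (g * A * g⁻¹)⁻¹ by group, hg, inv_inv, ← pow_two] at h3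
    exact h3
  have h4 := pow_mem h2 (k + 1)
  rwa [← pow_mul, show 2 * (k + 1) = r + 1 by omega, pow_succ, hA, one_mul] at h4

omit [Fintype K] [DecidableEq I] in
/-- The values of a quadratic form on the multiples of a vector. -/
theorem eval_smul (Q : QuadraticForm K (I → K)) (c : K) (v : I → K) : Q (c • v) = c ^ 2 * Q v := by
  rw [QuadraticMap.map_smul, smul_eq_mul]; ring

omit [DecidableEq I] in
/-- Lines through anisotropic vectors against anisotropic vectors. -/
theorem card_nonsing_lines (Q : QuadraticForm K (I → K)) :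
    Nat.card {W : Submodule K (I → K) // finrank K ↥W = 1 ∧ ∃ v ∈ W, Q v ≠ 0} *
        (Fintype.card K - 1) =
      Nat.card {v : I → K // Q v ≠ 0} := by
  classical
  have hne : ∀ v : {v : I → K // Q v ≠ 0}, v.1 ≠ 0 := fun v h => v.2 (by rw [h, map_zero])
  let S := {W : Submodule K (I → K) // finrank K ↥W = 1 ∧ ∃ v ∈ W, Q v ≠ 0}
  let e : (Σ W : S, {v : ↥W.1 // v ≠ 0}) ≃ {v : I → K // Q v ≠ 0} :=
    { toFun := fun x => ⟨(x.2.1 : I → K), fun h => by
        obtain ⟨w, hw, hQw⟩ := x.1.2.2
        obtain ⟨c, hc⟩ := exists_smul_eq_of_finrank_eq_one x.1.2.1 x.2.2 ⟨w, hw⟩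
        apply hQw
        have : c • (x.2.1 : I → K) = w := congrArg Subtype.val hc
        rw [← this, eval_smul, h, mul_zero]⟩
      invFun := fun v => ⟨⟨K ∙ v.1, finrank_span_singleton (hne v),
          v.1, Submodule.mem_span_singleton_self _, v.2⟩,
        ⟨⟨v.1, Submodule.mem_span_singleton_self _⟩, fun h => hne v (congrArg Subtype.val h)⟩⟩
      left_inv := fun x => by
        obtain ⟨⟨W, hW, hW'⟩, ⟨⟨v, hv⟩, hv0⟩⟩ := x
        have hspan : (K ∙ v) = W := by
          refine Submodule.eq_of_le_of_finrank_eq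
            (Submodule.span_le.2 (Set.singleton_subset_iff.2 hv)) ?_
          rw [hW, finrank_span_singleton (fun h => hv0 (Subtype.ext h))]
        subst hspan
        rfl
      right_inv := fun v => rfl }
  rw [← Nat.card_congr e]
  haveI : Finite S := inferInstance
  haveI := Fintype.ofFinite S
  have hcW : ∀ W : S, Nat.card {v : ↥W.1 // v ≠ 0} = Fintype.card K - 1 := by
    intro W
    haveI := Fintype.ofFinite ↥W.1
    rw [Nat.card_eq_fintype_card, Fintype.card_subtype_compl, Fintype.card_subtype_eq,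
      Module.card_eq_pow_finrank (K := K), W.2.1, pow_one]
  rw [Nat.card_sigma, Finset.sum_congr rfl fun W _ => hcW W, Finset.sum_const, Finset.card_univ,
    smul_eq_mul, Nat.card_eq_fintype_card]

omit [Fintype K] [DecidableEq I] in
/-- A scalar leaving a non-zero value of `Q` fixed in characteristic two is one. -/
theorem scalar_eq_one [CharP K 2] (Q : QuadraticForm K (I → K)) {v : I → K} {c : K}
    (h : Q (c • v) = Q v) (hv : Q v ≠ 0) : c = 1 := by
  rw [eval_smul] at h
  have h1 : c ^ 2 = 1 := (mul_eq_right₀ hv).1 h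
  rcases sq_eq_one_iff.1 h1 with h2 | h2
  · exact h2
  · rw [h2, CharTwo.neg_eq]

omit [Fintype K] in
/-- The fixed vectors of an involution in characteristic two form at least half of the space. -/
theorem finrank_fixed_of_involution [CharP K 2] {V : Type*} [AddCommGroup V] [Module K V]
    [FiniteDimensional K V] (T : Module.End K V) (hT : T * T = 1) :
    finrank K V ≤ 2 * finrank K ↥(LinearMap.ker (T - 1)) := by
  have hsq : (T - 1) * (T - 1) = 0 := by
    have h2 : (1 : Module.End K V) + 1 = 0 := by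
      ext v
      show v + v = 0
      rw [← two_smul K v, CharTwo.two_eq_zero, zero_smul]
    have : (T - 1) * (T - 1) = T * T - T * ((1 : Module.End K V) + 1) + 1 := by noncomm_ring
    rw [this, hT, h2, mul_zero, sub_zero, h2]
  have hle : LinearMap.range (T - 1) ≤ LinearMap.ker (T - 1) := by
    rintro _ ⟨v, rfl⟩
    exact LinearMap.congr_fun hsq v
  have := Submodule.finrank_mono hle
  have := LinearMap.finrank_range_add_finrank_ker (T - 1)
  omega

end Cfsg.Agent.H97
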