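import Cfsg.Agent.H97.OrthArith
import Cfsg.Agent.H4.Orders

set_option autoImplicit false

/-!
# Primes dividing the number of non-degenerate subspaces of a quadratic space
-/

universe u

namespace Cfsg.Agent.H97

open Module QuadraticMap

variable {F : Type u} [Field F] {V : Type u} [AddCommGroup V] [Module F V]

/-- Isometric spaces have isomorphic isometry groups. -/
theorem card_qIsoms_congr {V' : Type*} [AddCommGroup V'] [Module F V'] {Q : QuadraticForm F V}
    {Q' : QuadraticForm F V'} (g : V ≃ₗ[F] V') (hg : ∀ v, Q' (g v) = Q v) :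
    Nat.card (H4.qIsoms Q) = Nat.card (H4.qIsoms Q') := by
  refine Nat.card_congr
    { toFun := fun f => ⟨(g.symm.trans f.1).trans g, fun z => ?_⟩
      invFun := fun f => ⟨(g.trans f.1).trans g.symm, fun z => ?_⟩
      left_inv := fun f => Subtype.ext (LinearEquiv.ext fun z => by simp)
      right_inv := fun f => Subtype.ext (LinearEquiv.ext fun z => by simp) }
  · rw [LinearEquiv.trans_apply, LinearEquiv.trans_apply, hg, f.2, ← hg, g.apply_symm_apply]
  · rw [LinearEquiv.trans_apply, LinearEquiv.trans_apply, ← hg, g.apply_symm_apply, f.2, hg]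

variable [Fintype F] [FiniteDimensional F V]

open scoped Classical in
/-- The order of the isometry group of an even-dimensional space. -/
theorem card_qIsoms_even {Q : QuadraticForm F V} (hQ : (polarBilin Q).Nondegenerate) {b : ℕ}
    (hV : finrank F V = 2 * (b + 1)) :
    (Nat.card (H4.qIsoms Q) : ℤ) = 2 * (Fintype.card F : ℤ) ^ ((b + 1) * b) *
      ((Fintype.card F : ℤ) ^ (b + 1) - if H67.HasSing Q (b + 1) then 1 else -1) *
        ∏ i ∈ Finset.range b, ((Fintype.card F : ℤ) ^ (2 * (i + 1)) - 1) := by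
  by_cases h : H67.HasSing Q (b + 1)
  · obtain ⟨W, hW, hd⟩ := id h
    obtain ⟨g, hg⟩ := H4.isom_qPlus_of_singular hQ hV W hW hd
    rw [if_pos h, card_qIsoms_congr g hg, H4.card_qIsoms_qPlus]
  · obtain ⟨-, ζ, hζ, g, hg⟩ := H67.exists_isom_qMinus hQ hV h
    have hab := H67.aniso_of_one hζ
    rw [if_neg h, card_qIsoms_congr g hg, Nat.add_sub_cancel,
      H4.card_qIsoms_qMinus hab (H4.disc_ne_zero_of_anisotropic hab fun c h2 => H4.exists_sq_eq h2 c), sub_neg_eq_add]

/-- The order of the isometry group of an odd-dimensional space. -/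
theorem card_qIsoms_odd {Q : QuadraticForm F V} (hQ : (polarBilin Q).Nondegenerate) {b : ℕ}
    (hV : finrank F V = 2 * b + 1) :
    (Nat.card (H4.qIsoms Q) : ℤ) = 2 * (Fintype.card F : ℤ) ^ (b ^ 2) *
      ∏ i ∈ Finset.range b, ((Fintype.card F : ℤ) ^ (2 * (i + 1)) - 1) := by
  obtain ⟨h2, c, hc, g, hg⟩ := H4.isom_std_odd hQ hV
  rw [card_qIsoms_congr g (Q' := c • H4.qOdd b F) fun v => hg v, ← H4.card_qIsoms_qOdd h2]
  congr 1
  refine Nat.card_congr (Equiv.subtypeEquivRight fun f => forall_congr' fun z => ?_)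
  simp only [QuadraticMap.smul_apply, smul_eq_mul]
  exact ⟨fun h => mul_left_cancel₀ hc h, fun h => by rw [h]⟩

/-- A prime dividing the number of subspaces in an isometry class. -/
theorem dvd_qIsoms_of_dvd_card {r : ℕ} {Q : QuadraticForm F V} (hQ : (polarBilin Q).Nondegenerate)
    (S : Submodule F V → Prop) (hinv : ∀ g ∈ H4.qIsoms Q, ∀ W : Submodule F V, S W → S (W.map (g : V →ₗ[F] V)))
    {W₀ R : Submodule F V} (hS₀ : S W₀)
    (hiso : ∀ W, S W → ∃ e : W₀ ≃ₗ[F] W, ∀ w : W₀, Q ((e w : W) : V) = Q (w : V))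
    (hc : IsCompl W₀ R) (ho : ∀ a ∈ W₀, ∀ b ∈ R, polar Q a b = 0)
    (hdvd : r ∣ Nat.card {W : Submodule F V // S W}) :
    r * Nat.card (H4.qIsoms (Q.comp R.subtype)) ∣ Nat.card (H4.qIsoms Q) := by
  classical
  haveI : Finite V := Module.finite_of_finite F
  haveI : Finite (V ≃ₗ[F] V) := Finite.of_injective _ DFunLike.coe_injective
  haveI : Finite (R ≃ₗ[F] R) := Finite.of_injective _ DFunLike.coe_injective
  let Ω := {W : Submodule F V // S W}
  letI : MulAction (H4.qIsoms Q) Ω :=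
    { smul := fun g W => ⟨W.1.map ((g : V ≃ₗ[F] V) : V →ₗ[F] V), hinv g g.2 W.1 W.2⟩
      one_smul := fun W => Subtype.ext (Submodule.map_id _)
      mul_smul := fun g h W => Subtype.ext (Submodule.map_comp _ _ _) }
  have hsmul : ∀ (g : H4.qIsoms Q) (W : Ω), (g • W).1 = W.1.map ((g : V ≃ₗ[F] V) : V →ₗ[F] V) := fun _ _ => rfl
  let o : Ω := ⟨W₀, hS₀⟩
  have htrans : ∀ W : Ω, W ∈ MulAction.orbit (H4.qIsoms Q) o := by
    intro W
    obtain ⟨e, he⟩ := hiso W.1 W.2
    obtain ⟨g, hg, hgx⟩ := H4.witt_extension hQ W₀ (W.1.subtype ∘ₗ e.toLinearMap)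
      (W.1.subtype_injective.comp e.injective) he
    refine ⟨⟨g, hg⟩, Subtype.ext (le_antisymm ?_ fun w hw => ⟨(e.symm ⟨w, hw⟩ : W₀), Subtype.coe_prop _, ?_⟩)⟩
    · rintro _ ⟨v, hv, rfl⟩
      show g (⟨v, hv⟩ : W₀) ∈ W.1
      rw [hgx]; exact Subtype.coe_prop _
    · show g _ = w
      rw [hgx]; simp
  let E := Submodule.prodEquivOfIsCompl W₀ R hc
  have hE : ∀ z, E z = (z.1 : V) + (z.2 : V) := fun z => rfl
  have hEQ : ∀ z, Q (E z) = Q (z.1 : V) + Q (z.2 : V) := fun z => by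
    have h := ho _ z.1.2 _ z.2.2
    rw [QuadraticMap.polar] at h
    rw [hE]; linear_combination h
  let ι : H4.qIsoms (Q.comp R.subtype) → MulAction.stabilizer (H4.qIsoms Q) o := fun f =>
    ⟨⟨(E.symm.trans ((LinearEquiv.refl F W₀).prodCongr f.1)).trans E, fun v => by
        obtain ⟨z, rfl⟩ := E.surjective v
        have := f.2 z.2
        simp only [QuadraticMap.comp_apply, Submodule.subtype_apply] at this
        rw [LinearEquiv.trans_apply, LinearEquiv.trans_apply, E.symm_apply_apply, hEQ, hEQ]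
        simp [this]⟩, by
      refine Subtype.ext (Submodule.eq_of_le_of_finrank_eq ?_ (LinearEquiv.finrank_map_eq _ _))
      rintro _ ⟨v, hv, rfl⟩
      have hs : E.symm v = (⟨v, hv⟩, 0) := E.injective (by rw [E.apply_symm_apply, hE]; simp)
      show E ((LinearEquiv.refl F W₀).prodCongr f.1 (E.symm v)) ∈ W₀
      rw [hs, hE]
      simp only [LinearEquiv.prodCongr_apply, LinearEquiv.refl_apply, map_zero, Submodule.coe_zero, add_zero]
      exact hv⟩
  have hmul : ∀ f f' v, (((ι f).1 * (ι f').1 : H4.qIsoms Q) : V ≃ₗ[F] V) v =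
      ((ι (f * f')).1 : V ≃ₗ[F] V) v := fun f f' v => by
    obtain ⟨z, rfl⟩ := E.surjective v
    simp [ι]
  let φ : H4.qIsoms (Q.comp R.subtype) →* MulAction.stabilizer (H4.qIsoms Q) o :=
    MonoidHom.mk' ι fun f f' => Subtype.ext (Subtype.ext (LinearEquiv.ext fun v => (hmul f f' v).symm))
  have hφ : Function.Injective φ := fun f f' h => Subtype.ext (LinearEquiv.ext fun y => by
    have h1 := congrArg (fun g : MulAction.stabilizer (H4.qIsoms Q) o => (g.1 : V ≃ₗ[F] V) (E (0, y))) h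
    simpa [φ, ι] using h1)
  have hcard := Nat.card_congr (MulAction.orbitProdStabilizerEquivGroup (H4.qIsoms Q) o)
  rw [Nat.card_prod, Nat.card_coe_set_eq, Set.eq_univ_of_forall htrans, Set.ncard_univ] at hcard
  rw [← hcard]
  exact Nat.mul_dvd_mul hdvd (Subgroup.card_dvd_of_injective φ hφ)

variable {r : ℕ} [Fact r.Prime]

open scoped Classical in
/-- The sign of `q ^ j` when `lcm 2 (ord_r q)` divides `2 j`. -/
theorem pow_eq_sgn (hr : (r : F) ≠ 0) {j L : ℕ}
    (h : Nat.lcm 2 (orderOf (Nat.card F : ZMod r)) * L = 2 * j) :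
    (Nat.card F : ZMod r) ^ j = if SgnPlus (orderOf (Nat.card F : ZMod r)) L then 1 else -1 := by
  rw [lcm_two_eq] at h
  rcases Nat.even_or_odd (orderOf (Nat.card F : ZMod r)) with he | ho
  · rw [if_pos he] at h
    obtain ⟨e, he'⟩ := id he
    have hj : j = e * L := by rw [he', add_mul] at h; omega
    have hq := pow_half_ord (F := F) hr he
    rw [show orderOf (Nat.card F : ZMod r) / 2 = e by omega] at hq
    rw [hj, pow_mul, hq]
    rcases Nat.even_or_odd L with hL | hL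
    · rw [if_pos (show SgnPlus _ L from Or.inr hL), hL.neg_one_pow]
    · rw [if_neg (fun h' : SgnPlus _ L => h'.elim (Nat.not_odd_iff_even.2 he) (Nat.not_even_iff_odd.2 hL)), hL.neg_one_pow]
  · rw [if_neg (Nat.not_even_iff_odd.2 ho), mul_assoc] at h
    rw [if_pos (show SgnPlus _ L from Or.inl ho), show j = orderOf (Nat.card F : ZMod r) * L by omega, pow_mul, pow_orderOf_eq_one, one_pow]

omit [Fintype F] [Field F] [FiniteDimensional F V] [AddCommGroup V] [Module F V] in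
theorem lcm_dvd_of_pow_eq_sgn {q : ZMod r} {j : ℕ} (h : q ^ j = 1 ∨ q ^ j = -1) :
    Nat.lcm 2 (orderOf q) ∣ 2 * j := by
  refine Nat.lcm_dvd (dvd_mul_right _ _) (orderOf_dvd_of_pow_eq_one ?_)
  rcases h with h | h <;> rw [mul_comm, pow_mul, h] <;> simp

omit [Fintype F] [Fact r.Prime] in
theorem mod_of_dvd_sub {c n m : ℕ} (hm : m < c) (hmn : m ≤ n) (h : c ∣ n - m) : n % c = m ∧ c * (n / c) = n - m := by
  obtain ⟨L, hL⟩ := h
  obtain ⟨h1, h2⟩ := div_mod_of_lt (by omega) hm (show m + c * L = n by omega)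
  exact ⟨h1, by rw [h2, hL]⟩

omit [Fintype F] [Fact r.Prime] in
theorem mod_pos_lt {c n m t : ℕ} (hm : m < c) (h : c ∣ t) (h1 : n < t + m) (h2 : t < n) :
    0 < n % c ∧ n % c < m := by
  obtain ⟨L, hL⟩ := h
  obtain ⟨h3, -⟩ := div_mod_of_lt (by omega) (show n - t < c by omega) (show n - t + c * L = n by omega)
  omega

theorem zmod_neg_one_ne_one (hr2 : r ≠ 2) : (-1 : ZMod r) ≠ 1 :=
  haveI : Fact (2 < r) := ⟨by have := (Fact.out : r.Prime).two_le; omega⟩
  ZMod.neg_one_ne_one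

open scoped Classical in
/-- Divisors of the number of even-dimensional subspaces of one type in even dimension. -/
theorem count_even_even (hr : (r : F) ≠ 0) (hr2 : r ≠ 2) {Q : QuadraticForm F V}
    (hQ : (polarBilin Q).Nondegenerate) {d a : ℕ} (hV : finrank F V = 2 * d) (ha : 0 < a)
    (had : a < d) {τ : Prop}
    (hdvd : r ∣ Nat.card {W : Submodule F V //
      finrank F W = 2 * a ∧ NondegOn (polarBilin Q) W ∧ (PlusOn Q W ↔ τ)})
    (hm : 2 * a < Nat.lcm 2 (orderOf (Nat.card F : ZMod r))) :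
    (0 < (2 * d) % Nat.lcm 2 (orderOf (Nat.card F : ZMod r)) ∧
      (2 * d) % Nat.lcm 2 (orderOf (Nat.card F : ZMod r)) < 2 * a) ∨
    ((2 * d) % Nat.lcm 2 (orderOf (Nat.card F : ZMod r)) = 2 * a ∧
      ¬ ((H67.HasSing Q d ↔ SgnPlus (orderOf (Nat.card F : ZMod r))
        (2 * d / Nat.lcm 2 (orderOf (Nat.card F : ZMod r)))) ↔ τ)) ∨
    ((2 * d) % Nat.lcm 2 (orderOf (Nat.card F : ZMod r)) = 0 ∧
      (H67.HasSing Q d ↔ SgnPlus (orderOf (Nat.card F : ZMod r))
        (2 * d / Nat.lcm 2 (orderOf (Nat.card F : ZMod r))))) := by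
  have : Finite V := Module.finite_of_finite F
  rcases Nat.eq_zero_or_pos (Nat.card {W : Submodule F V //
      finrank F W = 2 * a ∧ NondegOn (polarBilin Q) W ∧ (PlusOn Q W ↔ τ)}) with h0 | h0
  · -- the class is not empty
    obtain ⟨W, -, hW, hWd, hWp⟩ := exists_sub_of_type (nondegOn_top hQ) (j := a)
      (Or.inr (by rw [finrank_top, hV]; exact even_two_mul d)) (by rw [finrank_top, hV]; omega) τ
      (fun h => absurd h ha.ne')
    exact absurd h0 (Nat.card_pos_iff.2 ⟨⟨W, hWd, hW, hWp⟩, inferInstance⟩).ne'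
  obtain ⟨⟨W₀, hd₀, hn₀, hp₀⟩⟩ := (Nat.card_pos_iff.1 h0).1
  obtain ⟨R, -, -, hR, hd, hsup, ho⟩ := nondegOn_split_inv (polarBilin_isRefl Q) (x := (1 : End F V))
    (fun a b => rfl) (fun a b h => h) le_top le_top (map_le_of_fixed fun v _ => rfl) (nondegOn_top hQ) hn₀
  have hc : IsCompl W₀ R := ⟨hd, codisjoint_iff.2 hsup⟩
  have hRd : finrank F R = 2 * (d - a - 1 + 1) := by
    have := Submodule.finrank_add_eq_of_isCompl hc; omega
  have htype : H67.HasSing Q d ↔ (τ ↔ H67.HasSing (Q.comp R.subtype) (d - a - 1 + 1)) := by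
    rw [← plusOn_top Q hV, ← hsup,
      plusOn_sup hn₀ hR ho (hd₀ ▸ even_two_mul a) (hRd ▸ even_two_mul _), hp₀, plusOn_iff_hasSing Q R hRd]
  have key := dvd_qIsoms_of_dvd_card hQ
    (fun W => finrank F W = 2 * a ∧ NondegOn (polarBilin Q) W ∧ (PlusOn Q W ↔ τ))
    (fun g hg W hW => by
      obtain ⟨hW1, hW2, hW3⟩ := hW
      have hf : ∀ w : W, Q (((g : V →ₗ[F] V) ∘ₗ W.subtype) w) = (Q.comp W.subtype) w := fun w => hg (w : V)
      have hr' : LinearMap.range ((g : V →ₗ[F] V) ∘ₗ W.subtype) = W.map (g : V →ₗ[F] V) := by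
        rw [LinearMap.range_comp, Submodule.range_subtype]
      obtain ⟨h1, h2⟩ := plusOn_range _ hf (g.injective.comp W.subtype_injective) hW1
      rw [hr'] at h1 h2
      exact ⟨h1, hr' ▸ nondegOn_range (restrictQ_nondegenerate hW2) _ hf,
        h2.trans ((plusOn_iff_hasSing Q W hW1).symm.trans hW3)⟩)
    (W₀ := W₀) (R := R) ⟨hd₀, hn₀, hp₀⟩ (fun W hW => by
      obtain ⟨e, he⟩ := H67.isom_of_type (restrictQ_nondegenerate hn₀) (restrictQ_nondegenerate hW.2.1) hd₀ hW.1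
        (by rw [← plusOn_iff_hasSing Q _ hd₀, ← plusOn_iff_hasSing Q _ hW.1, hp₀, hW.2.2])
      exact ⟨e, he⟩) hc ho hdvd
  set b := d - a - 1 with hb
  obtain ⟨k, hk⟩ := key
  have hk' := congrArg (Nat.cast (R := ℤ)) hk
  rw [Nat.cast_mul, Nat.cast_mul, card_qIsoms_even (restrictQ_nondegenerate hR) hRd,
    card_qIsoms_even hQ (show finrank F V = 2 * (d - 1 + 1) by omega),
    ← Finset.prod_range_mul_prod_Ico _ (show b ≤ d - 1 by omega), show d - 1 + 1 = d by omega] at hk'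
  set P := ∏ i ∈ Finset.range b, ((Fintype.card F : ℤ) ^ (2 * (i + 1)) - 1)
  set sQ : ℤ := if H67.HasSing Q d then 1 else -1
  set sR : ℤ := if H67.HasSing (Q.comp R.subtype) (b + 1) then 1 else -1
  set q : ℤ := (Fintype.card F : ℤ)
  have hq : 2 ≤ q := by
    have h := (Fintype.one_lt_card : 1 < Fintype.card F)
    simp only [q]; omega
  have hsR : sR = 1 ∨ sR = -1 := by by_cases h : H67.HasSing (Q.comp R.subtype) (b + 1) <;> simp [sR, h]
  have hP : (2 : ℤ) * P * (q ^ (b + 1) - sR) ≠ 0 := by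
    refine mul_ne_zero (mul_ne_zero two_ne_zero (Finset.prod_ne_zero_iff.2 fun i _ => ?_)) ?_
    · have h := le_trans hq (le_self_pow₀ (a := q) (by omega) (show 2 * (i + 1) ≠ 0 by omega))
      intro h0; linarith
    · have : 2 ≤ q ^ (b + 1) := le_trans hq (le_self_pow₀ (by omega) (by omega))
      rcases hsR with h | h <;> rw [h] <;> intro h0 <;> linarith
  rw [Finset.prod_eq_prod_Ico_succ_bot (show b < d - 1 by omega)] at hk'
  set T := ∏ i ∈ Finset.Ico (b + 1) (d - 1), (q ^ (2 * (i + 1)) - 1)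
  have hsR2 : sR * sR = 1 := by rcases hsR with h | h <;> rw [h] <;> norm_num
  have hprod : q ^ (d * (d - 1)) * (q ^ d - sQ) * (q ^ (b + 1) + sR) * T * (2 * P * (q ^ (b + 1) - sR)) =
      (r : ℤ) * (q ^ ((b + 1) * b) * (k : ℤ)) * (2 * P * (q ^ (b + 1) - sR)) := by
    linear_combination hk' - 2 * q ^ (d * (d - 1)) * (q ^ d - sQ) * P * T * hsR2
  have h1 := mul_right_cancel₀ hP hprod
  set x : ZMod r := (Nat.card F : ZMod r) with hx
  have hqx : ((q : ℤ) : ZMod r) = x := by simp [q, hx, Nat.card_eq_fintype_card]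
  have hx0 : x ≠ 0 := natCard_ne_zero_zmod hr
  have h2 : x ^ (d * (d - 1)) * (x ^ d - ((sQ : ℤ) : ZMod r)) * (x ^ (b + 1) + ((sR : ℤ) : ZMod r)) *
      ((T : ℤ) : ZMod r) = 0 := by
    have := congrArg (fun z : ℤ => (z : ZMod r)) h1
    simp only [Int.cast_mul, Int.cast_pow, Int.cast_sub, Int.cast_add, hqx, Int.cast_natCast, ZMod.natCast_self,
      zero_mul] at this
    exact this
  set c := Nat.lcm 2 (orderOf x) with hc'
  have hne := zmod_neg_one_ne_one (r := r) hr2
  rw [mul_eq_zero, mul_eq_zero, mul_eq_zero] at h2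
  rcases h2 with ((h2 | h2) | h2) | h2
  · exact absurd h2 (pow_ne_zero _ hx0)
  · -- the whole space
    right; right
    have h3 : x ^ d = if H67.HasSing Q d then 1 else -1 := by
      rw [sub_eq_zero] at h2; rw [h2]; split_ifs with h <;> simp [sQ, h]
    have hdv : c ∣ 2 * d := lcm_dvd_of_pow_eq_sgn (by rw [h3]; split_ifs <;> simp)
    refine ⟨Nat.mod_eq_zero_of_dvd hdv, ?_⟩
    have h4 := pow_eq_sgn (F := F) hr (j := d) (L := 2 * d / c) (Nat.mul_div_cancel' hdv)
    rw [h3] at h4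
    split_ifs at h4 with g1 g2 g2
    · exact iff_of_true g1 g2
    · exact absurd h4.symm hne
    · exact absurd h4 hne
    · exact iff_of_false g1 g2
  · -- the complement
    right; left
    have h3 : x ^ (b + 1) = if H67.HasSing (Q.comp R.subtype) (b + 1) then -1 else 1 := by
      rw [eq_neg_of_add_eq_zero_left h2]; split_ifs with h <;> simp [sR, h]
    have hdv : c ∣ 2 * (b + 1) := lcm_dvd_of_pow_eq_sgn (by rw [h3]; split_ifs <;> simp)
    obtain ⟨g0, g0'⟩ := mod_of_dvd_sub hm (show 2 * a ≤ 2 * d by omega)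
      (show c ∣ 2 * d - 2 * a by rwa [show 2 * d - 2 * a = 2 * (b + 1) by omega])
    refine ⟨g0, ?_⟩
    have h4 := pow_eq_sgn (F := F) hr (j := b + 1) (L := 2 * d / c) (by rw [g0']; omega)
    rw [h3] at h4
    rw [htype]
    split_ifs at h4 with g1 g2 g2
    · exact absurd h4 hne
    · simp only [g1, g2, iff_true, iff_false]; by_cases τ <;> simp_all
    · simp only [g1, g2, iff_true, iff_false]; by_cases τ <;> simp_all
    · exact absurd h4.symm hne
  · -- an intermediate factor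
    left
    rw [Int.cast_prod, Finset.prod_eq_zero_iff] at h2
    obtain ⟨j, hj, hj0⟩ := h2
    rw [Finset.mem_Ico] at hj
    push_cast at hj0
    rw [hqx, sub_eq_zero] at hj0
    have hdv : c ∣ 2 * (j + 1) := Nat.lcm_dvd (dvd_mul_right _ _) (orderOf_dvd_of_pow_eq_one hj0)
    exact mod_pos_lt hm hdv (by omega) (by omega)

/-- The image of an isometry class under an isometry. -/
theorem isomClass_map {Q : QuadraticForm F V} {W₀ W : Submodule F V} {g : V ≃ₗ[F] V} (hg : g ∈ H4.qIsoms Q)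
    (hW : NondegOn (polarBilin Q) W) (he : ∃ e : W ≃ₗ[F] W₀, ∀ w : W, Q ((e w : W₀) : V) = Q (w : V)) :
    finrank F (W.map (g : V →ₗ[F] V)) = finrank F W ∧ NondegOn (polarBilin Q) (W.map (g : V →ₗ[F] V)) ∧
      ∃ e : W.map (g : V →ₗ[F] V) ≃ₗ[F] W₀, ∀ w, Q ((e w : W₀) : V) = Q (w : V) := by
  obtain ⟨e, he⟩ := he
  have hr' : LinearMap.range ((g : V →ₗ[F] V) ∘ₗ W.subtype) = W.map (g : V →ₗ[F] V) := by
    rw [LinearMap.range_comp, Submodule.range_subtype]
  refine ⟨LinearEquiv.finrank_map_eq _ _, hr' ▸ nondegOn_range (restrictQ_nondegenerate hW) _ (fun w => hg (w : V)),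
    (g.submoduleMap W).symm.trans e, fun w => ?_⟩
  obtain ⟨z, rfl⟩ := (g.submoduleMap W).surjective w
  rw [LinearEquiv.trans_apply, LinearEquiv.symm_apply_apply, he]
  exact (hg _).symm

open scoped Classical in
/-- Divisors of the number of odd-dimensional subspaces in even dimension. -/
theorem count_even_odd (hr : (r : F) ≠ 0) (hr2 : r ≠ 2) {Q : QuadraticForm F V}
    (hQ : (polarBilin Q).Nondegenerate) {d a : ℕ} (hV : finrank F V = 2 * d) (had : 2 * a + 1 < 2 * d)
    {W₀ : Submodule F V} (hd₀ : finrank F W₀ = 2 * a + 1) (hn₀ : NondegOn (polarBilin Q) W₀)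
    (hdvd : r ∣ Nat.card {W : Submodule F V // finrank F W = 2 * a + 1 ∧ NondegOn (polarBilin Q) W ∧
      ∃ e : W ≃ₗ[F] W₀, ∀ w : W, Q ((e w : W₀) : V) = Q (w : V)})
    (hm : 2 * a + 1 < Nat.lcm 2 (orderOf (Nat.card F : ZMod r))) :
    (0 < (2 * d) % Nat.lcm 2 (orderOf (Nat.card F : ZMod r)) ∧
      (2 * d) % Nat.lcm 2 (orderOf (Nat.card F : ZMod r)) < 2 * a + 1) ∨
    ((2 * d) % Nat.lcm 2 (orderOf (Nat.card F : ZMod r)) = 0 ∧
      (H67.HasSing Q d ↔ SgnPlus (orderOf (Nat.card F : ZMod r))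
        (2 * d / Nat.lcm 2 (orderOf (Nat.card F : ZMod r))))) := by
  obtain ⟨R, -, -, hR, hd, hsup, ho⟩ := nondegOn_split_inv (polarBilin_isRefl Q) (x := (1 : End F V))
    (fun a b => rfl) (fun a b h => h) le_top le_top (map_le_of_fixed fun v _ => rfl) (nondegOn_top hQ) hn₀
  have hc : IsCompl W₀ R := ⟨hd, codisjoint_iff.2 hsup⟩
  have hRd : finrank F R = 2 * (d - a - 1) + 1 := by
    have := Submodule.finrank_add_eq_of_isCompl hc; omega
  have key := dvd_qIsoms_of_dvd_card hQ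
    (fun W => finrank F W = 2 * a + 1 ∧ NondegOn (polarBilin Q) W ∧
      ∃ e : W ≃ₗ[F] W₀, ∀ w : W, Q ((e w : W₀) : V) = Q (w : V))
    (fun g hg W hW => by
      obtain ⟨h1, h2, h3⟩ := isomClass_map hg hW.2.1 hW.2.2
      exact ⟨h1.trans hW.1, h2, h3⟩)
    (W₀ := W₀) (R := R) ⟨hd₀, hn₀, LinearEquiv.refl F _, fun _ => rfl⟩ (fun W hW => by
      obtain ⟨e, he⟩ := hW.2.2
      exact ⟨e.symm, fun w => by rw [← he, e.apply_symm_apply]⟩) hc ho hdvd
  set b := d - a - 1 with hb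
  obtain ⟨k, hk⟩ := key
  have hk' := congrArg (Nat.cast (R := ℤ)) hk
  rw [Nat.cast_mul, Nat.cast_mul, card_qIsoms_odd (restrictQ_nondegenerate hR) hRd,
    card_qIsoms_even hQ (show finrank F V = 2 * (d - 1 + 1) by omega),
    ← Finset.prod_range_mul_prod_Ico _ (show b ≤ d - 1 by omega), show d - 1 + 1 = d by omega] at hk'
  set P := ∏ i ∈ Finset.range b, ((Fintype.card F : ℤ) ^ (2 * (i + 1)) - 1)
  set sQ : ℤ := if H67.HasSing Q d then 1 else -1
  set q : ℤ := (Fintype.card F : ℤ)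
  have hq : 2 ≤ q := by
    have h := (Fintype.one_lt_card : 1 < Fintype.card F)
    simp only [q]; omega
  have hP : (2 : ℤ) * P ≠ 0 := by
    refine mul_ne_zero two_ne_zero (Finset.prod_ne_zero_iff.2 fun i _ => ?_)
    have h := le_trans hq (le_self_pow₀ (a := q) (by omega) (show 2 * (i + 1) ≠ 0 by omega))
    intro h0; linarith
  set T := ∏ i ∈ Finset.Ico b (d - 1), (q ^ (2 * (i + 1)) - 1)
  have hprod : q ^ (d * (d - 1)) * (q ^ d - sQ) * T * (2 * P) = (r : ℤ) * (q ^ b ^ 2 * (k : ℤ)) * (2 * P) := by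
    linear_combination hk'
  have h1 := mul_right_cancel₀ hP hprod
  set x : ZMod r := (Nat.card F : ZMod r) with hx
  have hqx : ((q : ℤ) : ZMod r) = x := by simp [q, hx, Nat.card_eq_fintype_card]
  have hx0 : x ≠ 0 := natCard_ne_zero_zmod hr
  have h2 : x ^ (d * (d - 1)) * (x ^ d - ((sQ : ℤ) : ZMod r)) * ((T : ℤ) : ZMod r) = 0 := by
    have := congrArg (fun z : ℤ => (z : ZMod r)) h1
    simp only [Int.cast_mul, Int.cast_pow, Int.cast_sub, hqx, Int.cast_natCast, ZMod.natCast_self, zero_mul] at this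
    exact this
  set c := Nat.lcm 2 (orderOf x) with hc'
  have hne := zmod_neg_one_ne_one (r := r) hr2
  rw [mul_eq_zero, mul_eq_zero] at h2
  rcases h2 with (h2 | h2) | h2
  · exact absurd h2 (pow_ne_zero _ hx0)
  · right
    have h3 : x ^ d = if H67.HasSing Q d then 1 else -1 := by
      rw [sub_eq_zero] at h2; rw [h2]; split_ifs with h <;> simp [sQ, h]
    have hdv : c ∣ 2 * d := lcm_dvd_of_pow_eq_sgn (by rw [h3]; split_ifs <;> simp)
    refine ⟨Nat.mod_eq_zero_of_dvd hdv, ?_⟩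
    have h4 := pow_eq_sgn (F := F) hr (j := d) (L := 2 * d / c) (Nat.mul_div_cancel' hdv)
    rw [h3] at h4
    split_ifs at h4 with g1 g2 g2
    · exact iff_of_true g1 g2
    · exact absurd h4.symm hne
    · exact absurd h4 hne
    · exact iff_of_false g1 g2
  · left
    rw [Int.cast_prod, Finset.prod_eq_zero_iff] at h2
    obtain ⟨j, hj, hj0⟩ := h2
    rw [Finset.mem_Ico] at hj
    push_cast at hj0
    rw [hqx, sub_eq_zero] at hj0
    have hdv : c ∣ 2 * (j + 1) := Nat.lcm_dvd (dvd_mul_right _ _) (orderOf_dvd_of_pow_eq_one hj0)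
    exact mod_pos_lt hm hdv (by omega) (by omega)

open scoped Classical in
/-- Divisors of the number of even-dimensional subspaces of one type in odd dimension. -/
theorem count_odd_even (hr : (r : F) ≠ 0) {Q : QuadraticForm F V}
    (hQ : (polarBilin Q).Nondegenerate) {d a : ℕ} (hV : finrank F V = 2 * d + 1) (ha : 0 < a)
    (had : a ≤ d) {τ : Prop}
    (hdvd : r ∣ Nat.card {W : Submodule F V //
      finrank F W = 2 * a ∧ NondegOn (polarBilin Q) W ∧ (PlusOn Q W ↔ τ)})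
    (hm : 2 * a < Nat.lcm 2 (orderOf (Nat.card F : ZMod r))) :
    (2 * d + 1) % Nat.lcm 2 (orderOf (Nat.card F : ZMod r)) < 2 * a := by
  have : Finite V := Module.finite_of_finite F
  rcases Nat.eq_zero_or_pos (Nat.card {W : Submodule F V //
      finrank F W = 2 * a ∧ NondegOn (polarBilin Q) W ∧ (PlusOn Q W ↔ τ)}) with h0 | h0
  · -- the class is not empty
    obtain ⟨W, -, hW, hWd, hWp⟩ := exists_sub_of_type (nondegOn_top hQ) (j := a)
      (Or.inl (H4.isom_std_odd hQ hV).1) (by rw [finrank_top, hV]; omega) τ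
      (fun h => absurd h ha.ne')
    exact absurd h0 (Nat.card_pos_iff.2 ⟨⟨W, hWd, hW, hWp⟩, inferInstance⟩).ne'
  obtain ⟨⟨W₀, hd₀, hn₀, hp₀⟩⟩ := (Nat.card_pos_iff.1 h0).1
  obtain ⟨R, -, -, hR, hd, hsup, ho⟩ := nondegOn_split_inv (polarBilin_isRefl Q) (x := (1 : End F V))
    (fun a b => rfl) (fun a b h => h) le_top le_top (map_le_of_fixed fun v _ => rfl) (nondegOn_top hQ) hn₀
  have hc : IsCompl W₀ R := ⟨hd, codisjoint_iff.2 hsup⟩
  have hRd : finrank F R = 2 * (d - a) + 1 := by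
    have := Submodule.finrank_add_eq_of_isCompl hc; omega
  have key := dvd_qIsoms_of_dvd_card hQ
    (fun W => finrank F W = 2 * a ∧ NondegOn (polarBilin Q) W ∧ (PlusOn Q W ↔ τ))
    (fun g hg W hW => by
      obtain ⟨hW1, hW2, hW3⟩ := hW
      have hf : ∀ w : W, Q (((g : V →ₗ[F] V) ∘ₗ W.subtype) w) = (Q.comp W.subtype) w := fun w => hg (w : V)
      have hr' : LinearMap.range ((g : V →ₗ[F] V) ∘ₗ W.subtype) = W.map (g : V →ₗ[F] V) := by
        rw [LinearMap.range_comp, Submodule.range_subtype]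
      obtain ⟨h1, h2⟩ := plusOn_range _ hf (g.injective.comp W.subtype_injective) hW1
      rw [hr'] at h1 h2
      exact ⟨h1, hr' ▸ nondegOn_range (restrictQ_nondegenerate hW2) _ hf,
        h2.trans ((plusOn_iff_hasSing Q W hW1).symm.trans hW3)⟩)
    (W₀ := W₀) (R := R) ⟨hd₀, hn₀, hp₀⟩ (fun W hW => by
      obtain ⟨e, he⟩ := H67.isom_of_type (restrictQ_nondegenerate hn₀) (restrictQ_nondegenerate hW.2.1) hd₀ hW.1
        (by rw [← plusOn_iff_hasSing Q _ hd₀, ← plusOn_iff_hasSing Q _ hW.1, hp₀, hW.2.2])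
      exact ⟨e, he⟩) hc ho hdvd
  obtain ⟨k, hk⟩ := key
  have hk' := congrArg (Nat.cast (R := ℤ)) hk
  rw [Nat.cast_mul, Nat.cast_mul, card_qIsoms_odd (restrictQ_nondegenerate hR) hRd,
    card_qIsoms_odd hQ hV, ← Finset.prod_range_mul_prod_Ico _ (show d - a ≤ d by omega)] at hk'
  set P := ∏ i ∈ Finset.range (d - a), ((Fintype.card F : ℤ) ^ (2 * (i + 1)) - 1)
  set q : ℤ := (Fintype.card F : ℤ)
  have hq : 2 ≤ q := by
    have h := (Fintype.one_lt_card : 1 < Fintype.card F)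
    simp only [q]; omega
  have hP : (2 : ℤ) * P ≠ 0 := by
    refine mul_ne_zero two_ne_zero (Finset.prod_ne_zero_iff.2 fun i _ => ?_)
    have h := le_trans hq (le_self_pow₀ (a := q) (by omega) (show 2 * (i + 1) ≠ 0 by omega))
    intro h0; linarith
  set T := ∏ i ∈ Finset.Ico (d - a) d, (q ^ (2 * (i + 1)) - 1)
  have hprod : q ^ d ^ 2 * T * (2 * P) = (r : ℤ) * (q ^ (d - a) ^ 2 * (k : ℤ)) * (2 * P) := by
    linear_combination hk'
  have h1 := mul_right_cancel₀ hP hprod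
  set x : ZMod r := (Nat.card F : ZMod r) with hx
  have hqx : ((q : ℤ) : ZMod r) = x := by simp [q, hx, Nat.card_eq_fintype_card]
  have hx0 : x ≠ 0 := natCard_ne_zero_zmod hr
  have h2 : x ^ d ^ 2 * ((T : ℤ) : ZMod r) = 0 := by
    have := congrArg (fun z : ℤ => (z : ZMod r)) h1
    simp only [Int.cast_mul, Int.cast_pow, hqx, Int.cast_natCast, ZMod.natCast_self, zero_mul] at this
    exact this
  rcases mul_eq_zero.1 h2 with h2 | h2
  · exact absurd h2 (pow_ne_zero _ hx0)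
  rw [Int.cast_prod, Finset.prod_eq_zero_iff] at h2
  obtain ⟨j, hj, hj0⟩ := h2
  rw [Finset.mem_Ico] at hj
  push_cast at hj0
  rw [hqx, sub_eq_zero] at hj0
  exact (mod_pos_lt hm (Nat.lcm_dvd (dvd_mul_right 2 (j + 1)) (orderOf_dvd_of_pow_eq_one hj0))
    (by omega) (by omega)).2

end Cfsg.Agent.H97
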