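import Cfsg.Agent.H97.OrthCriteria
import Cfsg.Agent.H4.SquareClass
import Cfsg.Agent.H5.OmegaGL

set_option autoImplicit false

/-!
# Elements with scalar square in orthogonal groups of odd characteristic
-/

universe u

namespace Cfsg.Agent.H97

open Module QuadraticMap

variable {F : Type u} [Field F] [Fintype F]

theorem isNondegenerateOn_iff_nondegOn {I : Type} [Fintype I] [DecidableEq I] (Q : QuadraticForm F (I → F))
    (W : Submodule F (I → F)) :
    Cfsg.Geo.IsNondegenerateOn (QuadraticMap.polar ⇑Q) W ↔ NondegOn (polarBilin Q) W := by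
  constructor
  · intro h v hv h0
    by_contra hne
    obtain ⟨-, y, hy, hvy⟩ := h v hv hne
    exact hvy (h0 y hy)
  · intro h w hw hw0
    obtain ⟨y, hy, hyw⟩ : ∃ y ∈ W, polar Q w y ≠ 0 := by
      by_contra hc
      push Not at hc
      exact hw0 (h w hw hc)
    exact ⟨⟨y, hy, by rwa [polar_comm]⟩, ⟨y, hy, hyw⟩⟩

variable {V : Type u} [AddCommGroup V] [Module F V] [FiniteDimensional F V]

theorem isomClass_plusOn {Q : QuadraticForm F V} {W W₀ : Submodule F V}
    (he : ∃ e : W ≃ₗ[F] W₀, ∀ w : W, Q ((e w : W₀) : V) = Q (w : V)) {j : ℕ} (hj : finrank F W₀ = 2 * j) :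
    PlusOn Q W ↔ PlusOn Q W₀ := by
  obtain ⟨e, he⟩ := he
  rw [plusOn_iff_hasSing Q W (e.finrank_eq.trans hj), plusOn_iff_hasSing Q W₀ hj]
  refine ⟨fun h => h.of_isom e (Q' := Q.comp W₀.subtype) fun v => ?_,
    fun h => h.of_isom e.symm (Q' := Q.comp W.subtype) fun v => ?_⟩
  · rw [QuadraticMap.comp_apply, QuadraticMap.comp_apply]
    exact he v
  · rw [QuadraticMap.comp_apply, QuadraticMap.comp_apply, Submodule.subtype_apply, Submodule.subtype_apply,
      ← he (e.symm v), e.apply_symm_apply]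

/-- Subspaces of every isometry class adapted to an orthogonal decomposition. -/
theorem exists_split (h2 : (2 : F) ≠ 0) {Q : QuadraticForm F V} {A B : Submodule F V}
    (hA : NondegOn (polarBilin Q) A) (hB : NondegOn (polarBilin Q) B)
    (ho : ∀ a ∈ A, ∀ b ∈ B, polar Q a b = 0) (hAd : 2 ≤ finrank F A)
    {W₀ : Submodule F V} (hW₀ : NondegOn (polarBilin Q) W₀) (h0 : 0 < finrank F W₀)
    (hlt : finrank F W₀ < finrank F A + finrank F B) :
    ∃ S T : Submodule F V, S ≤ A ∧ T ≤ B ∧ NondegOn (polarBilin Q) (S ⊔ T) ∧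
      finrank F ↥(S ⊔ T) = finrank F W₀ ∧
      ∃ e : ↥(S ⊔ T) ≃ₗ[F] W₀, ∀ w : ↥(S ⊔ T), Q ((e w : W₀) : V) = Q (w : V) := by
  classical
  have hBil := polarBilin_isRefl Q
  set v := min (finrank F B) (finrank F W₀ - 1) with hv
  obtain ⟨T, hTB, hT, hTd⟩ : ∃ T, T ≤ B ∧ NondegOn (polarBilin Q) T ∧ finrank F T = v := by
    rcases (min_le_left (finrank F B) (finrank F W₀ - 1)).lt_or_eq with h | h
    · let M := QuadraticMap.weightedSumSquares F (fun _ : Fin v => (1 : F))
      have hM := H4.weightedSumSquares_nondegenerate (w := fun _ : Fin v => (1 : F)) h2 fun _ => one_ne_zero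
      obtain ⟨f, hf, hfQ⟩ := exists_embed (restrictQ_nondegenerate hB) hM
        (by rw [finrank_fintype_fun_eq_card, Fintype.card_fin]; exact h) (Or.inl h2)
      refine ⟨LinearMap.range (B.subtype ∘ₗ f),
        (LinearMap.range_comp_le_range f B.subtype).trans (by rw [Submodule.range_subtype]),
        nondegOn_range hM _ hfQ, ?_⟩
      rw [LinearMap.finrank_range_of_inj (f := B.subtype ∘ₗ f) (B.subtype_injective.comp hf),
        finrank_fintype_fun_eq_card, Fintype.card_fin]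
    · exact ⟨B, le_rfl, hB, h.symm⟩
  obtain ⟨g, hg, hgQ⟩ := exists_embed (restrictQ_nondegenerate hW₀) (restrictQ_nondegenerate hT)
    (by omega) (Or.inl h2)
  set T' := LinearMap.range (W₀.subtype ∘ₗ g) with hT'def
  have hinj' : Function.Injective (W₀.subtype ∘ₗ g) := W₀.subtype_injective.comp hg
  have hT'Q : ∀ t : T, Q ((W₀.subtype ∘ₗ g) t) = (Q.comp T.subtype) t := hgQ
  have hT' : NondegOn (polarBilin Q) T' := nondegOn_range (restrictQ_nondegenerate hT) _ hT'Q
  have hT'le : T' ≤ W₀ := (LinearMap.range_comp_le_range g W₀.subtype).trans (by rw [Submodule.range_subtype])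
  obtain ⟨R, hRW, -, hR, hd, hsum, hoR⟩ := nondegOn_split_inv hBil (x := (1 : End F V)) (fun a b => rfl)
    (fun a b h => h) hT'le (map_le_of_fixed fun v _ => rfl) (map_le_of_fixed fun v _ => rfl) hW₀ hT'
  have hRd : finrank F R + v = finrank F W₀ := by
    have h1 := (hT'.sup hBil hR hoR).2
    have h2 : finrank F T' = finrank F T := LinearMap.finrank_range_of_inj hinj'
    rw [hsum] at h1
    omega
  obtain ⟨h, hh, hhQ⟩ := exists_embed (restrictQ_nondegenerate hA) (restrictQ_nondegenerate hR)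
    (by omega) (Or.inl h2)
  set S := LinearMap.range (A.subtype ∘ₗ h)
  have hinjS : Function.Injective (A.subtype ∘ₗ h) := A.subtype_injective.comp hh
  have hS : NondegOn (polarBilin Q) S := nondegOn_range (restrictQ_nondegenerate hR) (A.subtype ∘ₗ h) hhQ
  have hSA : S ≤ A := (LinearMap.range_comp_le_range h A.subtype).trans (by rw [Submodule.range_subtype])
  have hSd : finrank F S = finrank F R := LinearMap.finrank_range_of_inj hinjS
  have hoS : ∀ a ∈ S, ∀ b ∈ T, polar Q a b = 0 := fun a ha b hb => ho a (hSA ha) b (hTB hb)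
  obtain ⟨h1, h2'⟩ := hS.sup hBil hT hoS
  refine ⟨S, T, hSA, hTB, h1, by omega, ?_⟩
  let φ₀ : (R × T) →ₗ[F] V := R.subtype.coprod (W₀.subtype ∘ₗ g)
  let φ : (R × T) →ₗ[F] V := (A.subtype ∘ₗ h).coprod T.subtype
  have hval₀ : ∀ z, Q (φ₀ z) = ((Q.comp R.subtype).prod (Q.comp T.subtype)) z := fun z => by
    have h3 : polar Q (((W₀.subtype ∘ₗ g) z.2 : V)) (z.1 : V) = 0 := hoR _ ⟨z.2, rfl⟩ _ z.1.2
    rw [QuadraticMap.polar] at h3
    have h4 := hT'Q z.2
    simp only [φ₀, LinearMap.coprod_apply, QuadraticMap.prod_apply, QuadraticMap.comp_apply,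
      Submodule.subtype_apply, LinearMap.comp_apply] at h3 h4 ⊢
    rw [add_comm (z.1 : V)]
    linear_combination h3 + h4
  have hval : ∀ z, Q (φ z) = ((Q.comp R.subtype).prod (Q.comp T.subtype)) z := fun z => by
    have h3 : polar Q ((A.subtype ∘ₗ h) z.1) (z.2 : V) = 0 := hoS _ ⟨z.1, rfl⟩ _ z.2.2
    rw [QuadraticMap.polar] at h3
    have h4 : Q ((h z.1 : A) : V) = Q (z.1 : V) := hhQ z.1
    simp only [φ, LinearMap.coprod_apply, QuadraticMap.prod_apply, QuadraticMap.comp_apply,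
      Submodule.subtype_apply, LinearMap.comp_apply] at h3 ⊢
    linear_combination h3 + h4
  have hinj : ∀ ψ : (R × T) →ₗ[F] V,
      (∀ z, Q (ψ z) = ((Q.comp R.subtype).prod (Q.comp T.subtype)) z) → Function.Injective ψ := fun ψ hψ => by
    rw [injective_iff_map_eq_zero]
    intro z hz
    refine H4.eq_zero_of_polar
      (H67.prod_nondegenerate (restrictQ_nondegenerate hR) (restrictQ_nondegenerate hT)) fun y => ?_
    simp only [polar, ← hψ, map_add, hz, zero_add, map_zero, sub_zero, sub_self]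
  have hr₀ : LinearMap.range φ₀ = W₀ := by
    rw [LinearMap.range_coprod, Submodule.range_subtype, sup_comm]; exact hsum
  have hr₁ : LinearMap.range φ = S ⊔ T := by
    rw [LinearMap.range_coprod, Submodule.range_subtype]
  let e₁ := (LinearEquiv.ofInjective φ (hinj φ hval)).trans (LinearEquiv.ofEq _ _ hr₁)
  let e₀ := (LinearEquiv.ofInjective φ₀ (hinj φ₀ hval₀)).trans (LinearEquiv.ofEq _ _ hr₀)
  refine ⟨e₁.symm.trans e₀, fun w => ?_⟩
  obtain ⟨z, rfl⟩ := e₁.surjective w
  rw [LinearEquiv.trans_apply, e₁.symm_apply_apply]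
  exact (hval₀ z).trans (hval z).symm

/-- Involutions fix subspaces of every isometry class. -/
theorem exists_involution_inv (h2 : (2 : F) ≠ 0) {Q : QuadraticForm F V} (hQ : (polarBilin Q).Nondegenerate)
    (hV : 3 ≤ finrank F V) {x : End F V} (hxQ : ∀ v, Q (x v) = Q v) (hx : ∀ v, x (x v) = v)
    {W₀ : Submodule F V} (hW₀ : NondegOn (polarBilin Q) W₀) (h0 : 0 < finrank F W₀)
    (hlt : finrank F W₀ < finrank F V) :
    ∃ W : Submodule F V, finrank F W = finrank F W₀ ∧ NondegOn (polarBilin Q) W ∧ W.map x ≤ W ∧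
      ∃ e : W ≃ₗ[F] W₀, ∀ w : W, Q ((e w : W₀) : V) = Q (w : V) := by
  let A : Submodule F V := LinearMap.ker (x - 1)
  let B : Submodule F V := LinearMap.ker (x + 1)
  have hA' : ∀ v, v ∈ A ↔ x v = v := fun v => by simp [A, sub_eq_zero]
  have hB' : ∀ v, v ∈ B ↔ x v = -v := fun v => by simp [B, add_eq_zero_iff_eq_neg]
  have hsum : ∀ v, v + x v ∈ A ∧ v - x v ∈ B ∧ (2 : F)⁻¹ • (v + x v) + (2 : F)⁻¹ • (v - x v) = v := fun v => by
    refine ⟨(hA' _).2 (by rw [map_add, hx]; abel), (hB' _).2 (by rw [map_sub, hx]; abel), ?_⟩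
    rw [← smul_add, show v + x v + (v - x v) = (2 : F) • v by rw [two_smul]; abel, smul_smul,
      inv_mul_cancel₀ h2, one_smul]
  have ho : ∀ a ∈ A, ∀ b ∈ B, polar Q a b = 0 := fun a ha b hb => by
    have h := isometry_polarBilin hxQ a b
    rw [(hA' a).1 ha, (hB' b).1 hb, map_neg, polarBilin_apply_apply] at h
    exact (mul_eq_zero.1 (show (2 : F) * polar Q a b = 0 by linear_combination -h)).resolve_left h2
  have hsup : ∀ w, ∃ a ∈ A, ∃ b ∈ B, a + b = w := fun w => by
    obtain ⟨h1, h2, h3⟩ := hsum w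
    exact ⟨_, A.smul_mem _ h1, _, B.smul_mem _ h2, h3⟩
  have hnA : NondegOn (polarBilin Q) A := fun v hv h => hQ.1 v fun w => by
    obtain ⟨a, ha, b, hb, rfl⟩ := hsup w
    have h1 : polar Q v a = 0 := h a ha
    rw [polarBilin_apply_apply, polar_add_right, h1, ho v hv b hb, add_zero]
  have hnB : NondegOn (polarBilin Q) B := fun v hv h => hQ.1 v fun w => by
    obtain ⟨a, ha, b, hb, rfl⟩ := hsup w
    have h1 : polar Q v b = 0 := h b hb
    rw [polarBilin_apply_apply, polar_add_right, h1, polar_comm, ho a ha v hv, add_zero]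
  have hdim : finrank F A + finrank F B = finrank F V := by
    refine Submodule.finrank_add_eq_of_isCompl ⟨?_, codisjoint_iff.2 (eq_top_iff.2 fun w _ => ?_)⟩
    · rw [Submodule.disjoint_def]
      intro v hv hv'
      have h1 : (2 : F) • v = 0 := by
        rw [two_smul]; nth_rw 1 [← (hA' v).1 hv]; rw [(hB' v).1 hv', neg_add_cancel]
      exact (smul_eq_zero.1 h1).resolve_left h2
    · obtain ⟨a, ha, b, hb, rfl⟩ := hsup w
      exact Submodule.add_mem_sup ha hb
  have hAinv : ∀ S, S ≤ A → S.map x ≤ S := fun S hS =>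
    map_le_of_fixed fun v hv => (hA' v).1 (hS hv)
  have hBinv : ∀ S, S ≤ B → S.map x ≤ S := by
    rintro S hS _ ⟨v, hv, rfl⟩
    rw [(hB' v).1 (hS hv)]; exact S.neg_mem hv
  rcases le_or_gt 2 (finrank F A) with h | h
  · obtain ⟨S, T, hS, hT, hn, hd, he⟩ := exists_split h2 hnA hnB ho h hW₀ h0 (hdim.symm ▸ hlt)
    exact ⟨S ⊔ T, hd, hn, map_sup_le (hAinv S hS) (hBinv T hT), he⟩
  · obtain ⟨S, T, hS, hT, hn, hd, he⟩ := exists_split h2 hnB hnA
      (fun b hb a ha => by rw [polar_comm]; exact ho a ha b hb) (by omega) hW₀ h0 (by omega)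
    exact ⟨S ⊔ T, hd, hn, map_sup_le (hBinv S hS) (hAinv T hT), he⟩

/-- Invariant planes of an isometry squaring to `-1`. -/
theorem exists_plane_sq (h2 : (2 : F) ≠ 0) {Q : QuadraticForm F V} {x : End F V} (hxQ : ∀ v, Q (x v) = Q v)
    (hx : ∀ v, x (x v) = -v) {P : Submodule F V} (hPx : P.map x ≤ P) (hP : NondegOn (polarBilin Q) P)
    (hP0 : P ≠ ⊥) :
    ∃ v ∈ P, Q v ≠ 0 ∧ polar Q v (x v) = 0 ∧ ∃ T, T = Submodule.span F {v, x v} ∧ T ≤ P ∧ T.map x ≤ T ∧
      NondegOn (polarBilin Q) T ∧ finrank F T = 2 ∧ (PlusOn Q T ↔ IsSquare (-1 : F)) := by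
  obtain ⟨v, hv, hQv⟩ : ∃ v ∈ P, Q v ≠ 0 := by
    by_contra h
    push Not at h
    obtain ⟨u, hu, hu0⟩ := (Submodule.ne_bot_iff P).1 hP0
    refine hu0 (hP u hu fun w hw => ?_)
    show polar Q u w = 0
    rw [polar, h _ (P.add_mem hu hw), h u hu, h w hw, sub_zero, sub_zero]
  have hxv : polar Q v (x v) = 0 := by
    have h := isometry_polarBilin hxQ v (x v)
    rw [hx, map_neg, polarBilin_apply_apply, polarBilin_apply_apply, polar_comm Q (x v) v] at h
    exact (mul_eq_zero.1 (show (2 : F) * polar Q v (x v) = 0 by linear_combination -h)).resolve_left h2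
  have hval : ∀ a b : F, Q (a • v + b • x v) = (a ^ 2 + b ^ 2) * Q v := fun a b => by
    rw [QuadraticMap.map_add (⇑Q), QuadraticMap.map_smul, QuadraticMap.map_smul, polar_smul_left,
      polar_smul_right, hxv, hxQ]
    simp only [smul_eq_mul, mul_zero, add_zero]; ring
  have hB : ∀ a b a' b' : F, polar Q (a • v + b • x v) (a' • v + b' • x v) =
      2 * (a * a' + b * b') * Q v := fun a b a' b' => by
    rw [polar, show a • v + b • x v + (a' • v + b' • x v) = (a + a') • v + (b + b') • x v by module,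
      hval, hval, hval]
    ring
  have hzero : ∀ a b : F, a • v + b • x v = 0 → a = 0 ∧ b = 0 := fun a b h => by
    have e1 := hB a b 1 0
    have e2 := hB a b 0 1
    rw [h, polar_zero_left] at e1 e2
    exact ⟨by simpa [h2, hQv] using e1.symm, by simpa [h2, hQv] using e2.symm⟩
  have hd : finrank F (Submodule.span F {v, x v}) = 2 := by
    rw [show ({v, x v} : Set V) = Set.range ![v, x v] by simp [Set.pair_comm], finrank_span_eq_card,
      Fintype.card_fin]
    exact LinearIndependent.pair_iff.2 hzero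
  refine ⟨v, hv, hQv, hxv, _, rfl,
    Submodule.span_le.2 (Set.insert_subset hv (Set.singleton_subset_iff.2 (hPx ⟨v, hv, rfl⟩))),
    ?_, ?_, hd, ?_⟩
  · rintro _ ⟨y, hy, rfl⟩
    obtain ⟨a, b, rfl⟩ := mem_span_pair'.1 hy
    exact mem_span_pair'.2 ⟨-b, a, by simp [hx]; abel⟩
  · intro y hy h0
    obtain ⟨a, b, rfl⟩ := mem_span_pair'.1 hy
    have e1 := h0 v (Submodule.mem_span_of_mem (by simp))
    have e2 := h0 (x v) (Submodule.mem_span_of_mem (by simp))
    rw [polarBilin_apply_apply] at e1 e2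
    have f1 := hB a b 1 0
    have f2 := hB a b 0 1
    simp only [one_smul, zero_smul, add_zero, zero_add] at f1 f2
    rw [e1] at f1; rw [e2] at f2
    obtain rfl : a = 0 := by simpa [h2, hQv] using f1.symm
    obtain rfl : b = 0 := by simpa [h2, hQv] using f2.symm
    simp
  · constructor
    · rintro ⟨U, hU, hUd, hUs⟩
      rw [hd] at hUd
      obtain ⟨y, hy, hy0⟩ := (Submodule.ne_bot_iff U).1 fun h => by rw [h, finrank_bot] at hUd; omega
      obtain ⟨a, b, rfl⟩ := mem_span_pair'.1 (hU hy)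
      have h := hUs _ hy
      rw [hval] at h
      have hab : a ^ 2 + b ^ 2 = 0 := (mul_eq_zero.1 h).resolve_right hQv
      have hb0 : b ≠ 0 := fun hb => hy0 (by
        subst hb
        have ha : a = 0 := by simpa using hab
        rw [ha]; simp)
      exact ⟨a / b, by field_simp; linear_combination -hab⟩
    · rintro ⟨s, hs⟩
      refine ⟨Submodule.span F {(1 : F) • v + s • x v}, ?_, ?_, ?_⟩
      · exact (Submodule.span_singleton_le_iff_mem _ _).2 (mem_span_pair'.2 ⟨1, s, rfl⟩)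
      · rw [finrank_span_singleton fun h => one_ne_zero (hzero 1 s h).1, hd]
      · intro y hy
        obtain ⟨t, rfl⟩ := Submodule.mem_span_singleton.1 hy
        rw [QuadraticMap.map_smul, hval, one_pow, show (1 : F) + s ^ 2 = 0 by linear_combination -hs]
        simp

/-- The shape of invariant subspaces of an isometry squaring to `-1`. -/
theorem sq_inv_shape (h2 : (2 : F) ≠ 0) {Q : QuadraticForm F V} {x : End F V} (hxQ : ∀ v, Q (x v) = Q v)
    (hx : ∀ v, x (x v) = -v) {P : Submodule F V} (hPx : P.map x ≤ P) (hP : NondegOn (polarBilin Q) P) :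
    ∃ k, finrank F P = 2 * k ∧ (PlusOn Q P ↔ (IsSquare (-1 : F) ∨ Even k)) := by
  induction hn : finrank F P using Nat.strong_induction_on generalizing P with
  | _ n ih =>
    subst hn
    by_cases hP0 : P = ⊥
    · exact ⟨0, by rw [hP0, finrank_bot],
        iff_of_true ⟨⊥, bot_le, by rw [hP0, finrank_bot], by simp⟩ (Or.inr Even.zero)⟩
    obtain ⟨v, -, -, -, T, -, hTP, hTx, hT, hTd, hTp⟩ := exists_plane_sq h2 hxQ hx hPx hP hP0
    have hinj : Function.Injective x := fun a b h => by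
      have := congrArg x h; rw [hx, hx] at this; exact neg_inj.1 this
    obtain ⟨R, hRP, hRx, hR, hd, hsum, ho⟩ := nondegOn_split_inv (polarBilin_isRefl Q)
      (isometry_polarBilin hxQ) hinj hTP hPx hTx hP hT
    have hdim := (hT.sup (polarBilin_isRefl Q) hR ho).2
    rw [hsum, hTd] at hdim
    obtain ⟨k, hk, hkp⟩ := ih _ (by omega) hRx hR rfl
    refine ⟨k + 1, by omega, ?_⟩
    rw [← hsum, plusOn_sup hT hR ho (hTd ▸ even_two) (hk ▸ even_two_mul k), hTp, hkp, Nat.even_add_one]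
    by_cases IsSquare (-1 : F) <;> by_cases Even k <;> simp_all

/-- Invariant subspaces of an isometry squaring to `-1` of every even dimension. -/
theorem sq_exists (h2 : (2 : F) ≠ 0) {Q : QuadraticForm F V} (hQ : (polarBilin Q).Nondegenerate)
    {x : End F V} (hxQ : ∀ v, Q (x v) = Q v) (hx : ∀ v, x (x v) = -v) {j : ℕ} (hj : 2 * j ≤ finrank F V) :
    ∃ W : Submodule F V, finrank F W = 2 * j ∧ NondegOn (polarBilin Q) W ∧ W.map x ≤ W ∧
      (PlusOn Q W ↔ (IsSquare (-1 : F) ∨ Even j)) := by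
  have hinj : Function.Injective x := fun a b h => by
    have := congrArg x h; rw [hx, hx] at this; exact neg_inj.1 this
  obtain ⟨W, -, hWx, hW, hWd⟩ := exists_nondeg_mul (polarBilin_isRefl Q) (isometry_polarBilin hxQ) hinj
    (c := 2) (P := ⊤) le_top (nondegOn_top hQ) (fun P _ hPx hP hP0 => by
      obtain ⟨-, -, -, -, T, -, h1, h3, h4, h5, -⟩ := exists_plane_sq h2 hxQ hx hPx hP hP0
      exact ⟨T, h1, h3, h4, h5⟩) j (by rwa [finrank_top])
  obtain ⟨k, hk, hkp⟩ := sq_inv_shape h2 hxQ hx hWx hW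
  obtain rfl : k = j := by omega
  exact ⟨W, hWd, hW, hWx, hkp⟩

/-- The spinor norm of an isometry squaring to `-1` on `2 k` dimensions and trivial on a complement. -/
theorem spin_sq [Finite V] (h2 : (2 : F) ≠ 0) {Q : QuadraticForm F V} :
    ∀ (k : ℕ) (g : H5.orth Q) (A B : Submodule F V), finrank F A = 2 * k → NondegOn (polarBilin Q) A →
      A ⊔ B = ⊤ → (∀ a ∈ A, ∀ b ∈ B, polar Q a b = 0) → (∀ b ∈ B, (g : V ≃ₗ[F] V) b = b) →
      (∀ a ∈ A, (g : V ≃ₗ[F] V) a ∈ A ∧ (g : V ≃ₗ[F] V) ((g : V ≃ₗ[F] V) a) = -a) →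
      H5.spin Q g = H5.sqc (2 : F) ^ k := by
  intro k
  induction k with
  | zero =>
    intro g A B hA _ hsup _ hB _
    rw [mul_zero, Submodule.finrank_eq_zero] at hA
    rw [hA, bot_sup_eq] at hsup
    rw [show g = 1 from H5.orth_ext fun v => hB v (hsup ▸ Submodule.mem_top), map_one, pow_zero]
  | succ k ih =>
    intro g A B hAd hA hsup ho hB hgA
    let x : End F V := ((g : V ≃ₗ[F] V) : V →ₗ[F] V)
    have hAx : A.map x ≤ A := by rintro _ ⟨a, ha, rfl⟩; exact (hgA a ha).1
    have hA0 : A ≠ ⊥ := fun h => by rw [h, finrank_bot] at hAd; omega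
    obtain ⟨v, hv, hQv, hxv, T, hT, hTA, hTx, hTn, hTd, -⟩ : ∃ v ∈ A, Q v ≠ 0 ∧ polar Q v (x v) = 0 ∧
        ∃ T, T = Submodule.span F {v, x v} ∧ T ≤ A ∧ T.map x ≤ T ∧ NondegOn (polarBilin Q) T ∧
          finrank F T = 2 ∧ True := by
      -- work inside `A`
      let xA : End F A := x.restrict fun a ha => (hgA a ha).1
      have hAtop : NondegOn (polarBilin (Q.comp A.subtype)) (⊤ : Submodule F A) :=
        nondegOn_top (restrictQ_nondegenerate hA)
      obtain ⟨v, -, hQv, hxv, T, hT, -, hTx, hTn, hTd, -⟩ := exists_plane_sq h2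
        (Q := Q.comp A.subtype) (x := xA) (fun a => g.2 (a : V))
        (fun a => Subtype.ext (hgA a a.2).2) le_top hAtop (fun h => hA0 (by
          rw [← Submodule.finrank_eq_zero, ← finrank_top F A, h, finrank_bot]))
      refine ⟨v, v.2, hQv, by simpa [polar_comp, xA] using hxv, T.map A.subtype, ?_, Submodule.map_subtype_le _ _,
        ?_, ?_, by rw [Submodule.finrank_map_subtype_eq]; exact hTd, trivial⟩
      · rw [hT, Submodule.map_span]
        simp [Set.image_pair, xA]
      · rintro _ ⟨_, ⟨a, ha, rfl⟩, rfl⟩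
        exact ⟨xA a, hTx ⟨a, ha, rfl⟩, rfl⟩
      · rintro _ ⟨a, ha, rfl⟩ h0
        rw [hTn a ha fun b hb => by simpa [polar_comp] using h0 _ ⟨b, hb, rfl⟩, map_zero]
    have hxx : x (x v) = -v := (hgA v hv).2
    have hw : Q (v - x v) = 2 * Q v := by
      have hxQ : Q (x v) = Q v := g.2 v
      rw [sub_eq_add_neg, QuadraticMap.map_add (⇑Q), QuadraticMap.map_neg, polar_neg_right, hxv, hxQ]
      ring
    have hw0 : Q (v - x v) ≠ 0 := by rw [hw]; exact mul_ne_zero h2 hQv
    set R₁ := H5.refl Q v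
    set R₂ := H5.refl Q (v - x v)
    let g' := R₂ * R₁ * g
    obtain ⟨A', hA'A, hA'x, hA', hd', hsum', ho'⟩ := nondegOn_split_inv (polarBilin_isRefl Q)
      (isometry_polarBilin (x := x) fun a => g.2 a) (g : V ≃ₗ[F] V).injective hTA hAx hTx hA hTn
    have hdim := (hTn.sup (polarBilin_isRefl Q) hA' ho').2
    rw [hsum', hTd] at hdim
    have horth : ∀ z, (∀ t ∈ T, polar Q t z = 0) →
        (g' : V ≃ₗ[F] V) z = (R₂ : V ≃ₗ[F] V) ((R₁ : V ≃ₗ[F] V) (x z)) := fun z _ => by
      rw [H5.orth_mul_apply, H5.orth_mul_apply]; rfl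
    have hfix : ∀ z, (∀ t ∈ T, polar Q t z = 0) → (R₂ : V ≃ₗ[F] V) ((R₁ : V ≃ₗ[F] V) z) = z := fun z hz => by
      rw [H5.refl_apply_of_ortho (hz v (hT ▸ Submodule.mem_span_of_mem (by simp))),
        H5.refl_apply_of_ortho (hz _ (hT ▸ Submodule.sub_mem _ (Submodule.mem_span_of_mem (by simp))
          (Submodule.mem_span_of_mem (by simp))))]
    have hperpA' : ∀ a ∈ A', ∀ t ∈ T, polar Q t (x a) = 0 := fun a ha t ht => ho' t ht _ (hA'x ⟨a, ha, rfl⟩)
    have hgA' : ∀ a ∈ A', (g' : V ≃ₗ[F] V) a = x a := fun a ha => by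
      rw [horth a fun t ht => ho' t ht a ha, hfix _ (hperpA' a ha)]
    have hTv : ∀ t ∈ T, (g' : V ≃ₗ[F] V) t = t := by
      intro t ht
      rw [hT] at ht
      obtain ⟨c, e, rfl⟩ := mem_span_pair'.1 ht
      have hxQ : Q (x v) = Q v := g.2 v
      have h1 : (R₁ : V ≃ₗ[F] V) (x v) = x v := H5.refl_apply_of_ortho hxv
      have h3 : (R₂ : V ≃ₗ[F] V) v = x v := by
        rw [H5.refl_apply, hw, polar_sub_left, H5.polar_self', polar_comm Q (x v) v, hxv, sub_zero,
          inv_mul_cancel₀ (mul_ne_zero h2 hQv), one_smul]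
        abel
      have h4 : (R₂ : V ≃ₗ[F] V) (x v) = v := by
        rw [H5.refl_apply, hw, polar_sub_left, H5.polar_self', hxv, hxQ, zero_sub, mul_neg,
          inv_mul_cancel₀ (mul_ne_zero h2 hQv)]
        module
      have e1 : (g' : V ≃ₗ[F] V) v = v := by
        rw [H5.orth_mul_apply, H5.orth_mul_apply]
        show (R₂ : V ≃ₗ[F] V) ((R₁ : V ≃ₗ[F] V) (x v)) = v
        rw [h1, h4]
      have e2 : (g' : V ≃ₗ[F] V) (x v) = x v := by
        rw [H5.orth_mul_apply, H5.orth_mul_apply]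
        show (R₂ : V ≃ₗ[F] V) ((R₁ : V ≃ₗ[F] V) (x (x v))) = x v
        rw [hxx, map_neg, H5.refl_apply_self hQv, neg_neg, h3]
      rw [map_add, map_smul, map_smul, e1, e2]
    have hg' := ih g' A' (T ⊔ B) (by omega) hA'
      (by rw [← sup_assoc, sup_comm A' T, hsum', hsup]) (fun a ha b hb => by
        obtain ⟨t, ht, b', hb', rfl⟩ := Submodule.mem_sup.1 hb
        rw [polar_add_right, polar_comm Q a t, show polar Q t a = 0 from ho' t ht a ha,
          ho a (hA'A ha) b' hb', add_zero])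
      (fun b hb => by
        obtain ⟨t, ht, b', hb', rfl⟩ := Submodule.mem_sup.1 hb
        rw [map_add, hTv t ht, horth b' fun t ht => ho t (hTA ht) b' hb',
          show x b' = b' from hB b' hb', hfix b' fun t ht => ho t (hTA ht) b' hb'])
      (fun a ha => by
        have h1 : x a ∈ A' := hA'x ⟨a, ha, rfl⟩
        refine ⟨by rw [hgA' a ha]; exact h1, ?_⟩
        rw [hgA' a ha, hgA' _ h1]
        exact (hgA a (hA'A ha)).2)
    have hsp : H5.spin Q g' = H5.sqc (2 : F) * H5.spin Q g := by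
      rw [map_mul, map_mul, H5.spin_refl hw0, H5.spin_refl hQv, hw, H5.sqc_mul h2 hQv, mul_assoc (H5.sqc (2 : F)),
        Int.units_mul_self, mul_one]
    rw [hg'] at hsp
    rw [pow_succ', hsp, ← mul_assoc, Int.units_mul_self, one_mul]

variable {I : Type} [Fintype I] [DecidableEq I]

/-- Elements of `Ω` squaring to `-1` force an even half-dimension or a square two. -/
theorem omega_sq_spin (h2 : (2 : F) ≠ 0) {Q : QuadraticForm F (I → F)} (hQ : (polarBilin Q).Nondegenerate) {d : ℕ}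
    (hI : Fintype.card I = 2 * d) {x : GL I F} (hx : x ∈ Cfsg.Geo.omegaGL ⇑Q)
    (hxx : ∀ v, Matrix.toLin' (x : Matrix I I F) (Matrix.toLin' (x : Matrix I I F) v) = -v) :
    Even d ∨ IsSquare (2 : F) := by
  rw [H5.omegaGL_eq_map Q rfl] at hx
  obtain ⟨g, hg, rfl⟩ := hx
  have hgv : ∀ v, Matrix.toLin' ((H5.toGLHom Q rfl g : GL I F) : Matrix I I F) v =
      (g : (I → F) ≃ₗ[F] (I → F)) v := fun v => by rw [Matrix.toLin'_apply, H5.toGLHom_mulVec]
  have hs := spin_sq h2 d g ⊤ ⊥ (by rw [finrank_top, finrank_fintype_fun_eq_card, hI]) (nondegOn_top hQ)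
    (by simp) (fun a _ b hb => by rw [(Submodule.mem_bot F).1 hb, polar_zero_right])
    (fun b hb => by rw [(Submodule.mem_bot F).1 hb, map_zero])
    (fun a _ => ⟨Submodule.mem_top, by rw [← hgv, ← hgv, hxx]⟩)
  have hk : H5.spin Q g = 1 := Abelianization.commutator_subset_ker (H5.spin Q) hg
  rcases Nat.even_or_odd d with he | ho
  · exact Or.inl he
  · right
    rw [← H5.sqc_eq_one_iff]
    rcases Int.units_eq_one_or (H5.sqc (2 : F)) with h | h
    · exact h
    · rw [hk, h, ho.neg_one_pow] at hs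
      exact absurd hs (by decide)

omit [Fintype F] in
/-- With elements squaring to a scalar: either involutions or square roots of `-1`. -/
theorem sq_cases {Q : QuadraticForm F (I → F)} (hQ : (polarBilin Q).Nondegenerate) [Nonempty I] {x : GL I F}
    (hx : x ∈ Cfsg.Geo.omegaGL ⇑Q) {z : F}
    (hz : ((x ^ 2 : GL I F) : Matrix I I F) = z • (1 : Matrix I I F)) :
    (∀ v, Matrix.toLin' (x : Matrix I I F) (Matrix.toLin' (x : Matrix I I F) v) = v) ∨
    (∀ v, Matrix.toLin' (x : Matrix I I F) (Matrix.toLin' (x : Matrix I I F) v) = -v) := by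
  have hxx : ∀ v, Matrix.toLin' (x : Matrix I I F) (Matrix.toLin' (x : Matrix I I F) v) = z • v := fun v => by
    rw [Matrix.toLin'_apply, Matrix.toLin'_apply, Matrix.mulVec_mulVec, ← Units.val_mul, ← pow_two, hz,
      Matrix.smul_mulVec, Matrix.one_mulVec]
  obtain ⟨v, hv⟩ : ∃ v, Q v ≠ 0 := by
    by_contra h
    push Not at h
    obtain ⟨i⟩ := ‹Nonempty I›
    have := hQ.1 (Pi.single i 1) fun v => by simp [polar, h]
    simpa using congrFun this i
  have h1 : z * z * Q v = Q v := by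
    have h := (isometry_of_mem_omegaGL hx (Matrix.toLin' (x : Matrix I I F) v)).trans (isometry_of_mem_omegaGL hx v)
    rwa [hxx, QuadraticMap.map_smul, smul_eq_mul] at h
  rcases sq_eq_one_iff.1 (show z ^ 2 = 1 by rw [pow_two]; exact (mul_eq_right₀ hv).1 h1) with rfl | rfl
  · exact Or.inl fun v => by rw [hxx, one_smul]
  · exact Or.inr fun v => by rw [hxx, neg_one_smul]

end Cfsg.Agent.H97
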