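import Cfsg.Agent.H97.OrthUnipotent
import Cfsg.Agent.H97.OrthTwoOdd
import Cfsg.Agent.H4.WittExt

set_option autoImplicit false

/-! Elements of order `p` fixing no non-degenerate subspace of a given class. -/

universe u

namespace Cfsg.Agent.H97

open Module QuadraticMap

variable {F : Type u} [Field F] [Fintype F] {p : ℕ} [Fact p.Prime] [CharP F p]
variable {I : Type} [Fintype I] [DecidableEq I] {Q : QuadraticForm F (I → F)}

/-- Isometries of odd prime order `p` give elements of Ω. -/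
theorem exists_omega_elem (hp : p ≠ 2) (hQ : (polarBilin Q).Nondegenerate) (hI : 2 ≤ Fintype.card I)
    {f : End F (I → F)} (hfQ : ∀ v, Q (f v) = Q v) (hfp : f ^ p = 1) (hf1 : f ≠ 1) :
    ∃ x : GL I F, x ∈ Cfsg.Geo.omegaGL ⇑Q ∧ x ^ p = 1 ∧ orderOf x = p ∧
      (∀ c : F, (x : Matrix I I F) ≠ c • (1 : Matrix I I F)) ∧ Matrix.toLin' (x : Matrix I I F) = f := by
  classical
  have : Nonempty I := Fintype.card_pos_iff.1 (by omega)
  have h2 : (2 : F) ≠ 0 := fun h => hp (((Nat.prime_dvd_prime_iff_eq (Fact.out : p.Prime) Nat.prime_two).1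
    ((CharP.cast_eq_zero_iff F p 2).1 (by exact_mod_cast h))))
  let M := LinearMap.toMatrixAlgEquiv' f
  have hMp : M ^ p = 1 := by rw [← map_pow, hfp, map_one]
  have hp1 : 1 ≤ p := (Fact.out : p.Prime).one_le
  let x : GL I F := ⟨M, M ^ (p - 1), by rw [← pow_succ', Nat.sub_add_cancel hp1, hMp],
    by rw [← pow_succ, Nat.sub_add_cancel hp1, hMp]⟩
  have hxv : Matrix.toLin' (x : Matrix I I F) = f := Matrix.toLin'_toMatrix' f
  have hxp : x ^ p = 1 := Units.ext (by rw [Units.val_pow_eq_pow_val]; exact hMp)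
  have hns : ∀ c : F, (x : Matrix I I F) ≠ c • (1 : Matrix I I F) := by
    intro c hc
    have hfc : f = c • 1 := by rw [← hxv, hc, map_smul, Matrix.toLin'_one]; rfl
    have hcp : c ^ p = 1 := by
      rw [hfc, smul_pow, one_pow] at hfp
      simpa using congrArg (fun g : End F (I → F) => g (fun _ => 1) (Classical.arbitrary I)) hfp
    have hc1 : c = 1 := frobenius_inj F p (by simpa [frobenius_def] using hcp)
    exact hf1 (by rw [hfc, hc1, one_smul])
  have hxne : x ≠ 1 := fun h => hns 1 (by rw [h, one_smul]; rfl)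
  have hxiso : x ∈ Cfsg.isometryGroup F ⇑Q := H5.mem_isometryGroup.2 fun v => by
    rw [← Matrix.toLin'_apply, hxv]; exact hfQ v
  refine ⟨x, ⟨⟨x, hxiso⟩, ?_, rfl⟩, hxp, orderOf_eq_prime hxp hxne, hns, hxv⟩
  show (⟨x, hxiso⟩ : Cfsg.isometryGroup F ⇑Q) ∈ commutator _
  set C := commutator ↥(Cfsg.isometryGroup F ⇑Q) with hC
  have hidx : C.index = 4 := by
    show (Cfsg.Omega F ⇑Q).index = 4
    rw [H5.Omega_index Q rfl]
    exact H5.commutator_index_four h2 hQ (by rwa [finrank_fintype_fun_eq_card])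
  rw [← QuotientGroup.eq_one_iff (N := C), ← orderOf_eq_one_iff]
  have h1 : orderOf ((⟨x, hxiso⟩ : Cfsg.isometryGroup F ⇑Q) :
      ↥(Cfsg.isometryGroup F ⇑Q) ⧸ C) ∣ 4 := by
    rw [← hidx, Subgroup.index]
    exact orderOf_dvd_natCard _
  have h3 : orderOf ((⟨x, hxiso⟩ : Cfsg.isometryGroup F ⇑Q) :
      ↥(Cfsg.isometryGroup F ⇑Q) ⧸ C) ∣ p := by
    refine orderOf_dvd_of_pow_eq_one ?_
    rw [← QuotientGroup.mk_pow, show (⟨x, hxiso⟩ : Cfsg.isometryGroup F ⇑Q) ^ p = 1 from Subtype.ext hxp]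
    rfl
  have hco : Nat.Coprime 4 p := by
    refine ((Fact.out : p.Prime).coprime_iff_not_dvd.2 fun h => hp ?_).symm
    exact (Nat.prime_dvd_prime_iff_eq Fact.out Nat.prime_two).1
      ((Fact.out : p.Prime).dvd_of_dvd_pow (show p ∣ 2 ^ 2 from h))
  exact Nat.eq_one_of_dvd_coprimes hco h1 h3

/-- Unipotent isometries of every type with an odd part. -/
theorem exists_unipotent_isometry (hp : p ≠ 2) (hQ : (polarBilin Q).Nondegenerate) (hI : 2 ≤ Fintype.card I)
    (μ : Multiset ℕ) (hμ : ∀ a ∈ μ, 0 < a ∧ a ≤ p) (hev : ∀ a, Even a → Even (μ.count a)) {k : ℕ} (hk : k ∈ μ)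
    (hko : Odd k) (hne : ∃ a ∈ μ, a ≠ 1) (hsum : μ.sum = Fintype.card I) :
    ∃ f : End F (I → F), (∀ v, Q (f v) = Q v) ∧ f ^ p = 1 ∧ f ≠ 1 ∧ Blocks (f - 1) ⊤ μ := by
  classical
  have : Nonempty I := Fintype.card_pos_iff.1 (by omega)
  have h2 : (2 : F) ≠ 0 := fun h => hp (((Nat.prime_dvd_prime_iff_eq (Fact.out : p.Prime) Nat.prime_two).1
    ((CharP.cast_eq_zero_iff F p 2).1 (by exact_mod_cast h))))
  obtain ⟨K, hKb, hKs⟩ := exists_skew_blocks h2 Q hQ μ (fun a ha => (hμ a ha).1) hev hk hko hsum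
  obtain ⟨f, hf, hfp, hfb⟩ := cayley_unipotent (p := p) hp (fun a b => polarBilin Q a b) (by simp) (by simp)
    (by simp) (by simp) hKb (fun a ha => (hμ a ha).2) hKs
  refine ⟨f, fun v => ?_, hfp, ?_, hfb⟩
  · have h := hf v v
    simp only [polarBilin_apply_apply, polar_self] at h
    exact mul_left_cancel₀ h2 (by simpa using h)
  · rintro rfl
    obtain ⟨a, ha, ha1⟩ := hne
    have := hfb.le (m := 1) (by rw [pow_one, sub_self]) a ha
    have := (hμ a ha).1
    omega

section pieces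

variable {f : End F (I → F)} (hfQ : ∀ v, Q (f v) = Q v) (hfp : f ^ p = 1)

omit [Fintype F] [Fintype I] [DecidableEq I] in
include hfp in
theorem sub_one_pow_char : (f - 1) ^ p = 0 := by
  rcases isEmpty_or_nonempty I with h | h
  · exact LinearMap.ext fun v => funext fun i => isEmptyElim i
  have : CharP (End F (I → F)) p := charP_of_injective_algebraMap' F p
  rw [sub_pow_char_of_commute (p := p) (Commute.one_right _), hfp, one_pow, sub_self]

omit [Fintype F] [Fintype I] [DecidableEq I] in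
include hfQ in
theorem sub_one_iso (u v : I → F) :
    polarBilin Q (u + (f - 1) u) (v + (f - 1) v) = polarBilin Q u v := by
  simp only [polarBilin_apply_apply, polar, LinearMap.sub_apply, Module.End.one_apply, add_sub_cancel,
    ← map_add, hfQ]

omit [Fintype F] [CharP F p] [Fintype I] [DecidableEq I] in
include hfp in
theorem injective_of_pow_char : Function.Injective f :=
  Function.LeftInverse.injective (g := f ^ (p - 1)) fun v => by
    rw [← Module.End.mul_apply, ← pow_succ, Nat.sub_add_cancel (Fact.out : p.Prime).one_le, hfp]; rfl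

include hfQ hfp in
/-- The block types of an invariant non-degenerate subspace and of its complement. -/
theorem exists_blocks_compl (h2 : (2 : F) ≠ 0) (hQ : (polarBilin Q).Nondegenerate) {μ : Multiset ℕ}
    (hfb : Blocks (f - 1) ⊤ μ) {W : Submodule F (I → F)} (hW : NondegOn (polarBilin Q) W) (hWx : W.map f ≤ W) :
    ∃ (R : Submodule F (I → F)) (ν ρ : Multiset ℕ), NondegOn (polarBilin Q) R ∧ R.map f ≤ R ∧
      IsCompl W R ∧ (∀ a ∈ W, ∀ b ∈ R, polar Q a b = 0) ∧ ν + ρ = μ ∧
      Blocks (f - 1) W ν ∧ Blocks (f - 1) R ρ ∧ (∀ a, Even a → Even (ν.count a)) := by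
  have hS : ∀ a b, polarBilin Q a b = polarBilin Q b a := fun a b => by simp [polar_comm]
  have hWN : ∀ v ∈ W, (f - 1) v ∈ W := fun v hv => W.sub_mem (hWx ⟨v, hv, rfl⟩) hv
  obtain ⟨R, -, hRx, hR, hd', hsum', ho⟩ := nondegOn_split_inv (polarBilin_isRefl Q)
    (fun u v => isometry_polarBilin hfQ u v) (injective_of_pow_char hfp) le_top le_top hWx (nondegOn_top hQ) hW
  have hRN : ∀ v ∈ R, (f - 1) v ∈ R := fun v hv => R.sub_mem (hRx ⟨v, hv, rfl⟩) hv
  obtain ⟨ν, hν, hνe⟩ := exists_blocks_orth h2 hS (sub_one_iso hfQ) (sub_one_pow_char hfp) hWN hW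
  obtain ⟨ρ, hρ⟩ := exists_blocks (f - 1) (sub_one_pow_char hfp) R hRN
  have huniq := hfb.unique (hsum' ▸ hν.sup hρ hd')
  exact ⟨R, ν, ρ, hR, hRx, ⟨hd', codisjoint_iff.2 hsum'⟩, fun a ha b hb => ho a ha b hb, huniq.symm, hν, hρ, hνe⟩

omit [Fintype F] [DecidableEq I] in
include hfQ in
/-- Subspaces with all blocks of size two are of plus type. -/
theorem plusOn_of_twos (h2 : (2 : F) ≠ 0) {W : Submodule F (I → F)} {ν : Multiset ℕ}
    (hν : Blocks (f - 1) W ν) (hWN : ∀ v ∈ W, (f - 1) v ∈ W) (hall : ∀ a ∈ ν, a = 2) : PlusOn Q W := by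
  have hNN : ∀ v ∈ W, (f - 1) ((f - 1) v) = 0 := fun v hv => by
    have := hν.le_ker_pow (m := 2) (fun a ha => (hall a ha).le) hv
    rwa [LinearMap.mem_ker, pow_two] at this
  refine ⟨W.map (f - 1), fun y hy => ?_, ?_, fun y hy => ?_⟩
  · obtain ⟨v, hv, rfl⟩ := hy; exact hWN v hv
  · have h1 := hν.kerLayer_eq 1
    rw [kerLayer, pow_one, inf_eq_left.2 (by
      rintro _ ⟨v, hv, rfl⟩; exact hNN v hv)] at h1
    rw [h1, Multiset.filter_eq_self.2 fun a ha => by rw [hall a ha]; norm_num, hν.finrank_eq,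
      Multiset.eq_replicate_card.2 hall]
    simp [mul_comm]
  · obtain ⟨v, hv, rfl⟩ := hy
    have h := iso_relation (sub_one_iso hfQ) v ((f - 1) v)
    rw [hNN v hv, map_zero, map_zero, add_zero, add_zero] at h
    rw [polarBilin_apply_apply, polar_self] at h
    exact (mul_eq_zero.1 (by simpa using h)).resolve_left h2

omit [Fintype F] [Fintype I] [DecidableEq I] in
include hfQ in
/-- The image of `f - 1` is orthogonal to its kernel. -/
theorem polar_sub_one_ker {w : I → F} (hw : (f - 1) w = 0) (v : I → F) : polar Q ((f - 1) v) w = 0 := by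
  have h := iso_relation (sub_one_iso hfQ) v w
  rw [hw, map_zero, map_zero, add_zero, add_zero] at h
  exact h

include hfQ hfp in
/-- Subspaces with one block of size one and blocks of size two: an anisotropic fixed line and a plus part. -/
theorem exists_line_plus (h2 : (2 : F) ≠ 0) {W : Submodule F (I → F)} {j : ℕ}
    (hν : Blocks (f - 1) W (1 ::ₘ Multiset.replicate (2 * j) 2)) (hW : NondegOn (polarBilin Q) W)
    (hWx : W.map f ≤ W) :
    ∃ (w : I → F) (P : Submodule F (I → F)), (f - 1) w = 0 ∧ Q w ≠ 0 ∧ F ∙ w ⊔ P = W ∧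
      NondegOn (polarBilin Q) P ∧ finrank F P = 4 * j ∧ PlusOn Q P ∧ (∀ q ∈ P, polar Q w q = 0) := by
  classical
  have hd : finrank F W = 4 * j + 1 := by rw [hν.finrank_eq]; simp; omega
  obtain ⟨w, hwW, hw, hwQ⟩ : ∃ w ∈ W, (f - 1) w = 0 ∧ Q w ≠ 0 := by
    by_contra h
    push Not at h
    have h0 := hν.kerLayer_eq 0
    rw [kerLayer, pow_zero, show W.map (1 : End F (I → F)) = W from Submodule.map_id W,
      Multiset.filter_eq_self.2 fun a ha => by
        rcases Multiset.mem_cons.1 ha with rfl | ha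
        · omega
        · rw [Multiset.eq_of_mem_replicate ha]; omega] at h0
    have hle := H4.two_mul_finrank_le (restrictQ_nondegenerate hW)
      (W := (W ⊓ LinearMap.ker (f - 1)).comap W.subtype) fun v hv => h v hv.1 hv.2
    rw [(Submodule.comapSubtypeEquivOfLe inf_le_left).finrank_eq, h0, hd] at hle
    simp at hle
    omega
  have hwn : NondegOn (polarBilin Q) (F ∙ w) := by
    intro v hv hv0
    obtain ⟨s, rfl⟩ := Submodule.mem_span_singleton.1 hv
    have h := hv0 w (Submodule.mem_span_singleton_self w)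
    simp [polar_self, h2, hwQ] at h
    rw [h, zero_smul]
  have hfw : f w = w := sub_eq_zero.1 (by simpa using hw)
  obtain ⟨P, hPW, -, hP, hdisj, hsum, ho⟩ := nondegOn_split_inv (polarBilin_isRefl Q)
    (fun u v => isometry_polarBilin hfQ u v) (injective_of_pow_char hfp) ((Submodule.span_singleton_le_iff_mem w W).2 hwW)
    hWx (map_le_of_fixed fun v hv => by
      obtain ⟨s, rfl⟩ := Submodule.mem_span_singleton.1 hv
      rw [map_smul, hfw]) hW hwn
  have ho' : ∀ q ∈ P, polar Q w q = 0 := fun q hq => ho w (Submodule.mem_span_singleton_self w) q hq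
  have hPd : finrank F P = 4 * j := by
    have h1 := (hwn.sup (polarBilin_isRefl Q) hP ho).2
    rw [hsum, hd, finrank_span_singleton (fun h0 => hwQ (by rw [h0, map_zero]))] at h1
    omega
  have hNN : ∀ v ∈ W, (f - 1) ((f - 1) v) = 0 := fun v hv => by
    have := hν.le_ker_pow (m := 2) (fun a ha => by
      rcases Multiset.mem_cons.1 ha with rfl | ha
      · omega
      · rw [Multiset.eq_of_mem_replicate ha]) hv
    rwa [LinearMap.mem_ker, pow_two] at this
  refine ⟨w, P, hw, hwQ, hsum, hP, hPd, ⟨W.map (f - 1), fun y hy => ?_, ?_, fun y hy => ?_⟩, ho'⟩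
  · obtain ⟨v, hv, rfl⟩ := hy
    have hyW : (f - 1) v ∈ W := W.sub_mem (hWx ⟨v, hv, rfl⟩) hv
    rw [← hsum] at hyW
    obtain ⟨a, ha, q, hq, haq⟩ := Submodule.mem_sup.1 hyW
    obtain ⟨s, rfl⟩ := Submodule.mem_span_singleton.1 ha
    have h := polar_sub_one_ker hfQ hw v
    rw [← haq, polar_add_left, polar_smul_left, polar_self, polar_comm _ q, ho' q hq, add_zero] at h
    simp [h2, hwQ] at h
    rw [← haq, h, zero_smul, zero_add]
    exact hq
  · have h1 := hν.kerLayer_eq 1
    rw [kerLayer, pow_one, inf_eq_left.2 (by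
      rintro _ ⟨v, hv, rfl⟩; exact hNN v hv)] at h1
    rw [h1, hPd, Multiset.filter_cons_of_neg _ (lt_irrefl 1), Multiset.filter_eq_self.2 fun a ha => by
      rw [Multiset.eq_of_mem_replicate ha]; norm_num, Multiset.card_replicate]
    ring
  · obtain ⟨v, hv, rfl⟩ := hy
    have h := polar_sub_one_ker hfQ (hNN v hv) v
    rw [polar_self] at h
    exact (mul_eq_zero.1 (by simpa using h)).resolve_left h2

omit [DecidableEq I] in
/-- Lines plus plus-type spaces with square-equivalent lines are isometric. -/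
theorem isometric_line_plus (h2 : (2 : F) ≠ 0) {W₁ W₂ P₁ P₂ : Submodule F (I → F)} {w₁ w₂ : I → F}
    (hw₁ : Q w₁ ≠ 0) {s : F} (hs : s ≠ 0) (hq : Q w₂ = s ^ 2 * Q w₁) (h₁ : F ∙ w₁ ⊔ P₁ = W₁) (h₂ : F ∙ w₂ ⊔ P₂ = W₂)
    (hP₁ : NondegOn (polarBilin Q) P₁) (hP₂ : NondegOn (polarBilin Q) P₂) {a : ℕ} (hd₁ : finrank F P₁ = 2 * a)
    (hd₂ : finrank F P₂ = 2 * a) (hp₁ : PlusOn Q P₁) (hp₂ : PlusOn Q P₂)
    (ho₁ : ∀ q ∈ P₁, polar Q w₁ q = 0) (ho₂ : ∀ q ∈ P₂, polar Q w₂ q = 0) :
    ∃ e : W₁ ≃ₗ[F] W₂, ∀ w : W₁, Q ((e w : W₂) : I → F) = Q (w : I → F) := by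
  obtain ⟨g, hg⟩ := H67.isom_of_type (restrictQ_nondegenerate hP₁) (restrictQ_nondegenerate hP₂) hd₁ hd₂
    (iff_of_true ((plusOn_iff_hasSing Q P₁ hd₁).1 hp₁) ((plusOn_iff_hasSing Q P₂ hd₂).1 hp₂))
  let φ₁ : (F × P₁) →ₗ[F] (I → F) := (LinearMap.toSpanSingleton F _ w₁).coprod P₁.subtype
  let φ₂ : (F × P₁) →ₗ[F] (I → F) := (LinearMap.toSpanSingleton F _ (s⁻¹ • w₂)).coprod (P₂.subtype ∘ₗ g.toLinearMap)
  have hval : ∀ (c : F) (w q : I → F), polar Q w q = 0 → Q (c • w + q) = c * c * Q w + Q q := fun c w q h => by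
    have h' : polar Q (c • w) q = 0 := by rw [polar_smul_left, h, smul_zero]
    rw [polar, QuadraticMap.map_smul, smul_eq_mul] at h'
    linear_combination h'
  have hv₁ : ∀ z, Q (φ₁ z) = z.1 * z.1 * Q w₁ + Q (z.2 : I → F) := fun z => by
    simp only [φ₁, LinearMap.coprod_apply, LinearMap.toSpanSingleton_apply, Submodule.subtype_apply]
    exact hval _ _ _ (ho₁ _ z.2.2)
  have hv₂ : ∀ z, Q (φ₂ z) = z.1 * z.1 * Q w₁ + Q (z.2 : I → F) := fun z => by
    simp only [φ₂, LinearMap.coprod_apply, LinearMap.toSpanSingleton_apply, Submodule.subtype_apply,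
      LinearMap.comp_apply, LinearEquiv.coe_coe, smul_smul]
    rw [hval _ _ _ (ho₂ _ (g z.2).2), hq]
    have hg' : Q ((g z.2 : P₂) : I → F) = Q (z.2 : I → F) := hg z.2
    rw [hg']
    field_simp
  have hinj : ∀ ψ : (F × P₁) →ₗ[F] (I → F), (∀ z, Q (ψ z) = z.1 * z.1 * Q w₁ + Q (z.2 : I → F)) →
      Function.Injective ψ := fun ψ hψ => by
    rw [injective_iff_map_eq_zero]
    rintro ⟨c, q⟩ hz
    have key : ∀ y : F × P₁, polar Q (ψ (c, q)) (ψ y) = 2 * (c * y.1 * Q w₁) + polar Q (q : I → F) y.2 := fun y => by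
      simp only [polar, ← map_add, hψ, Prod.fst_add, Prod.snd_add, Submodule.coe_add]
      ring
    have h1 := key (1, 0)
    simp [hz, hw₁, h2] at h1
    have h2' : (q : I → F) = 0 := hP₁ _ q.2 fun y hy => by
      have h := key (0, ⟨y, hy⟩)
      simp [hz] at h
      simpa using h.symm
    exact Prod.ext h1 (Subtype.ext h2')
  have hr₁ : LinearMap.range φ₁ = W₁ := by
    rw [LinearMap.range_coprod, Submodule.range_subtype, LinearMap.range_toSpanSingleton, h₁]
  have hr₂ : LinearMap.range φ₂ = W₂ := by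
    rw [LinearMap.range_coprod, LinearMap.range_comp, LinearEquiv.range, Submodule.map_top,
      Submodule.range_subtype, LinearMap.range_toSpanSingleton,
      Submodule.span_singleton_smul_eq (IsUnit.mk0 _ (inv_ne_zero hs)), h₂]
  let e₁ := (LinearEquiv.ofInjective φ₁ (hinj φ₁ hv₁)).trans (LinearEquiv.ofEq _ _ hr₁)
  let e₂ := (LinearEquiv.ofInjective φ₂ (hinj φ₂ hv₂)).trans (LinearEquiv.ofEq _ _ hr₂)
  refine ⟨e₁.symm.trans e₂, fun w => ?_⟩
  obtain ⟨z, rfl⟩ := e₁.surjective w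
  rw [LinearEquiv.trans_apply, e₁.symm_apply_apply]
  exact (hv₂ z).trans (hv₁ z).symm

include hfQ hfp in
/-- For the type `{3, 1, 2, …, 2}`, invariant subspaces of dimension `4 j + 1` are pairwise isometric. -/
theorem unique_class (h2 : (2 : F) ≠ 0) (hQ : (polarBilin Q).Nondegenerate) {k : ℕ}
    (hfb : Blocks (f - 1) ⊤ (3 ::ₘ 1 ::ₘ Multiset.replicate (2 * k) 2)) {j : ℕ}
    {W₁ W₂ : Submodule F (I → F)} (hW₁ : NondegOn (polarBilin Q) W₁) (hx₁ : W₁.map f ≤ W₁)
    (hd₁ : finrank F W₁ = 4 * j + 1) (hW₂ : NondegOn (polarBilin Q) W₂) (hx₂ : W₂.map f ≤ W₂)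
    (hd₂ : finrank F W₂ = 4 * j + 1) :
    ∃ e : W₁ ≃ₗ[F] W₂, ∀ w : W₁, Q ((e w : W₂) : I → F) = Q (w : I → F) := by
  classical
  have htype : ∀ W : Submodule F (I → F), NondegOn (polarBilin Q) W → W.map f ≤ W → finrank F W = 4 * j + 1 →
      Blocks (f - 1) W (1 ::ₘ Multiset.replicate (2 * j) 2) := by
    intro W hW hx hd
    obtain ⟨R, ν, ρ, -, -, -, -, hνρ, hν, -, hνe⟩ := exists_blocks_compl hfQ hfp h2 hQ hfb hW hx
    have hle : ν ≤ 3 ::ₘ 1 ::ₘ Multiset.replicate (2 * k) 2 := hνρ ▸ Multiset.le_add_right _ _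
    have hc : ∀ a, ν.count a ≤ (if a = 3 then 1 else 0) + (if a = 1 then 1 else 0) + (if a = 2 then 2 * k else 0) := by
      intro a
      refine (Multiset.count_le_of_le a hle).trans ?_
      simp only [Multiset.count_cons, Multiset.count_replicate]
      split_ifs <;> omega
    have hν' : ν = Multiset.replicate (ν.count 3) 3 + Multiset.replicate (ν.count 1) 1 +
        Multiset.replicate (ν.count 2) 2 := by
      ext a
      have := hc a
      simp only [Multiset.count_add, Multiset.count_replicate]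
      by_cases h3 : a = 3
      · subst h3; simp
      by_cases h1 : a = 1
      · subst h1; simp
      by_cases h2 : a = 2
      · subst h2; simp
      simp [h3, h1, h2, Ne.symm h3, Ne.symm h1, Ne.symm h2] at this ⊢
      omega
    have hs := congrArg Multiset.sum hν'
    rw [← hν.finrank_eq, hd] at hs
    simp only [Multiset.sum_add, Multiset.sum_replicate, smul_eq_mul] at hs
    obtain ⟨c, hc2⟩ := hνe 2 even_two
    have h3 := hc 3
    have h1 := hc 1
    simp at h3 h1
    have e3 : ν.count 3 = 0 := by omega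
    have e1 : ν.count 1 = 1 := by omega
    have e2 : ν.count 2 = 2 * j := by omega
    rw [e3, e1, e2] at hν'
    rw [hν'] at hν
    simpa using hν
  obtain ⟨w₁, P₁, hw₁, hQ₁, hs₁, hP₁, hPd₁, hp₁, ho₁⟩ := exists_line_plus hfQ hfp h2 (htype W₁ hW₁ hx₁ hd₁) hW₁ hx₁
  obtain ⟨w₂, P₂, hw₂, hQ₂, hs₂, hP₂, hPd₂, hp₂, ho₂⟩ := exists_line_plus hfQ hfp h2 (htype W₂ hW₂ hx₂ hd₂) hW₂ hx₂
  set N := f - 1 with hN
  set Z := LinearMap.range N ⊓ LinearMap.ker N with hZ
  have hZd : finrank F Z = 2 * k + 1 := by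
    have h := hfb.kerLayer_eq 1
    rw [kerLayer, pow_one, Submodule.map_top] at h
    rw [hZ, h, Multiset.filter_cons_of_pos _ (by norm_num), Multiset.filter_cons_of_neg _ (lt_irrefl 1),
      Multiset.filter_eq_self.2 fun a ha => by rw [Multiset.eq_of_mem_replicate ha]; norm_num]
    simp
  have hKd : finrank F (LinearMap.ker N) = 2 * k + 2 := by
    have h := hfb.kerLayer_eq 0
    rw [kerLayer, pow_zero, show (⊤ : Submodule F (I → F)).map (1 : End F (I → F)) = ⊤ from Submodule.map_id _, top_inf_eq,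
      Multiset.filter_eq_self.2 fun a ha => by
        rcases Multiset.mem_cons.1 ha with rfl | ha
        · norm_num
        rcases Multiset.mem_cons.1 ha with rfl | ha
        · norm_num
        rw [Multiset.eq_of_mem_replicate ha]; norm_num] at h
    rw [h]
    simp
  have hlt : Z < F ∙ w₁ ⊔ Z := by
    refine lt_of_le_of_ne le_sup_right fun h => ?_
    obtain ⟨y, hy⟩ : w₁ ∈ LinearMap.range N :=
      (h ▸ Submodule.mem_sup_left (Submodule.mem_span_singleton_self w₁) : w₁ ∈ Z).1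
    have h0 := polar_sub_one_ker hfQ hw₁ y
    rw [← hN, hy, polar_self] at h0
    exact hQ₁ ((mul_eq_zero.1 (by simpa using h0)).resolve_left h2)
  have hK : F ∙ w₁ ⊔ Z = LinearMap.ker N := by
    refine Submodule.eq_of_le_of_finrank_le (sup_le ((Submodule.span_singleton_le_iff_mem _ _).2 hw₁) inf_le_right) ?_
    have := Submodule.finrank_lt_finrank_of_lt hlt
    omega
  obtain ⟨a, ha, z, ⟨⟨y, hy⟩, hz⟩, haz⟩ := Submodule.mem_sup.1 (hK.symm ▸ (hw₂ : w₂ ∈ LinearMap.ker N) : w₂ ∈ F ∙ w₁ ⊔ Z)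
  obtain ⟨s, rfl⟩ := Submodule.mem_span_singleton.1 ha
  have hzz : Q z = 0 := by
    have h0 := polar_sub_one_ker hfQ (LinearMap.mem_ker.1 hz) y
    rw [← hN, hy, polar_self] at h0
    exact (mul_eq_zero.1 (by simpa using h0)).resolve_left h2
  have hq : Q w₂ = s ^ 2 * Q w₁ := by
    have h0 : polar Q z (s • w₁) = 0 := by
      rw [polar_smul_right, ← hy]
      rw [show polar Q (N y) w₁ = 0 from polar_sub_one_ker hfQ hw₁ y, smul_zero]
    rw [polar, add_comm z, haz, hzz, QuadraticMap.map_smul, smul_eq_mul] at h0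
    linear_combination h0
  have hs : s ≠ 0 := fun h => hQ₂ (by rw [hq, h]; ring)
  exact isometric_line_plus h2 hQ₁ hs hq hs₁ hs₂ hP₁ hP₂ (a := 2 * j) (by omega) (by omega) hp₁ hp₂ ho₁ ho₂

end pieces

omit [Fintype F] [DecidableEq I] in
/-- An odd-dimensional non-degenerate space is not similar to itself with non-square multiplier. -/
theorem not_isometric_scaled (h2 : (2 : F) ≠ 0) {W : Submodule F (I → F)} (hW : NondegOn (polarBilin Q) W)
    (hodd : Odd (finrank F W)) {c : F} (hc : ¬ IsSquare c) (e : W ≃ₗ[F] W)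
    (he : ∀ w : W, Q ((e w : W) : I → F) = c * Q (w : I → F)) : False := by
  classical
  let B : LinearMap.BilinForm F W := polarBilin (Q.comp W.subtype)
  let b := Module.finBasis F W
  have hB : (LinearMap.BilinForm.toMatrix b B).det ≠ 0 :=
    (LinearMap.BilinForm.nondegenerate_iff_det_ne_zero (B := B) b).1 (restrictQ_nondegenerate hW)
  have hcomp : B.comp e.toLinearMap e.toLinearMap = c • B := by
    refine LinearMap.ext₂ fun x y => ?_
    simp only [B, LinearMap.BilinForm.comp_apply, LinearMap.smul_apply, polarBilin_apply_apply, polar,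
      QuadraticMap.comp_apply, LinearEquiv.coe_coe, ← map_add, Submodule.subtype_apply, he, smul_eq_mul]
    ring
  have hdet := congrArg (fun M => (LinearMap.BilinForm.toMatrix b M).det) hcomp
  simp only [LinearMap.BilinForm.toMatrix_comp b b, map_smul, Matrix.det_mul, Matrix.det_transpose, Matrix.det_smul,
    Fintype.card_fin] at hdet
  obtain ⟨l, hl⟩ := hodd
  set D := (LinearMap.toMatrix b b e.toLinearMap).det
  have hc0 : c ≠ 0 := fun h => hc (h ▸ IsSquare.zero)
  refine hc ⟨D / c ^ l, ?_⟩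
  have hpow : c ^ finrank F W = c ^ l * c ^ l * c := by rw [hl, pow_succ, two_mul, pow_add]
  rw [hpow] at hdet
  have h := mul_right_cancel₀ hB (show c ^ l * c ^ l * c * _ = D * D * _ by linear_combination -hdet)
  field_simp
  linear_combination h

omit [DecidableEq I] in
/-- Similitudes with arbitrary multiplier in even dimension. -/
theorem exists_similitude (h2 : (2 : F) ≠ 0) (hQ : (polarBilin Q).Nondegenerate) {d : ℕ}
    (hI : Fintype.card I = 2 * d) {c : F} (hc : c ≠ 0) :
    ∃ g : (I → F) ≃ₗ[F] (I → F), ∀ v, Q (g v) = c * Q v := by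
  classical
  have hQc : (polarBilin (c • Q)).Nondegenerate := by
    have h : ∀ x, (∀ y, polar ⇑(c • Q) x y = 0) → x = 0 := fun x hx => hQ.1 x fun y => by
      have := hx y
      rw [FunLike.coe_smul, polar_smul, smul_eq_mul] at this
      exact (mul_eq_zero.1 this).resolve_left hc
    exact ⟨h, fun y hy => h y fun x => (polar_comm _ _ _).trans (hy x)⟩
  let b := Pi.basisFun F I
  have hg : H4.gram (c • Q) b = c • H4.gram Q b := by
    ext i j
    simp [H4.gram, FunLike.coe_smul, polar_smul]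
  obtain ⟨g, hg'⟩ := H4.isom_of_disc h2 hQc hQ rfl b b (by
    rw [hg, Matrix.det_smul, hI]
    exact ⟨c ^ d * (H4.gram Q b).det, by ring⟩)
  exact ⟨g, fun v => (hg' v).trans (by simp)⟩

/-- For each class of dimension `1` modulo `4` there is an element of order `p` fixing no member. -/
theorem exists_elusive_one_mod_four (hp : p ≠ 2) (hQ : (polarBilin Q).Nondegenerate) {k : ℕ}
    (hI : Fintype.card I = 4 + 4 * k) {j : ℕ} {W₀ : Submodule F (I → F)} (hn₀ : NondegOn (polarBilin Q) W₀)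
    (hd₀ : finrank F W₀ = 4 * j + 1) :
    ∃ f : End F (I → F), (∀ v, Q (f v) = Q v) ∧ f ^ p = 1 ∧ f ≠ 1 ∧
      ∀ W : Submodule F (I → F), NondegOn (polarBilin Q) W → W.map f ≤ W →
        ¬ ∃ e : W ≃ₗ[F] W₀, ∀ w : W, Q ((e w : W₀) : I → F) = Q (w : I → F) := by
  classical
  have hp3 : 3 ≤ p := by have := (Fact.out : p.Prime).two_le; omega
  have h2 : (2 : F) ≠ 0 := fun h => hp (((Nat.prime_dvd_prime_iff_eq (Fact.out : p.Prime) Nat.prime_two).1
    ((CharP.cast_eq_zero_iff F p 2).1 (by exact_mod_cast h))))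
  obtain ⟨f, hfQ, hfp, hf1, hfb⟩ := exists_unipotent_isometry (p := p) hp hQ (by omega)
    (3 ::ₘ 1 ::ₘ Multiset.replicate (2 * k) 2)
    (fun a ha => by
      rcases Multiset.mem_cons.1 ha with rfl | ha
      · omega
      rcases Multiset.mem_cons.1 ha with rfl | ha
      · omega
      rw [Multiset.eq_of_mem_replicate ha]; omega)
    (fun a ha => by
      rw [Multiset.count_cons_of_ne (by rintro rfl; exact absurd ha (by decide)),
        Multiset.count_cons_of_ne (by rintro rfl; exact absurd ha (by decide)), Multiset.count_replicate]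
      split_ifs <;> simp)
    (Multiset.mem_cons_self 3 _) (by decide) ⟨3, Multiset.mem_cons_self _ _, by omega⟩
    (by rw [hI]; simp; omega)
  by_cases h : ∀ W : Submodule F (I → F), NondegOn (polarBilin Q) W → W.map f ≤ W →
      ¬ ∃ e : W ≃ₗ[F] W₀, ∀ w : W, Q ((e w : W₀) : I → F) = Q (w : I → F)
  · exact ⟨f, hfQ, hfp, hf1, h⟩
  push Not at h
  obtain ⟨W₁, hW₁, hx₁, e₁, he₁⟩ := h
  obtain ⟨c, hc⟩ := FiniteField.exists_nonsquare (F := F)
    (fun h => h2 (by haveI := ringChar.of_eq h; exact CharTwo.two_eq_zero))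
  have hc0 : c ≠ 0 := fun h => hc (h ▸ IsSquare.zero)
  obtain ⟨g, hg⟩ := exists_similitude h2 hQ (d := 2 + 2 * k) (by omega) hc0
  have hgs : ∀ v, c * Q (g.symm v) = Q v := fun v => by rw [← hg, g.apply_symm_apply]
  refine ⟨g.conj f, fun v => ?_, ?_, fun h => hf1 (g.conj.injective (h.trans (by simp [Module.End.one_eq_id, LinearEquiv.conj_id]))), ?_⟩
  · rw [LinearEquiv.conj_apply_apply, hg, hfQ, hgs]
  · rw [show g.conj f = g.conjAlgEquiv F f from rfl, ← map_pow, hfp, map_one]
  intro W hW hWx ⟨e, he⟩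
  have hW'n : NondegOn (polarBilin Q) (W.map g.symm.toLinearMap) := by
    rintro _ ⟨v, hv, rfl⟩ h0
    rw [hW v hv fun y hy => ?_, map_zero]
    have h := h0 _ ⟨y, hy, rfl⟩
    simp only [polarBilin_apply_apply, polar, ← map_add, LinearEquiv.coe_coe] at h ⊢
    rw [← hgs, ← hgs v, ← hgs y]
    linear_combination c * h
  have hW'x : (W.map g.symm.toLinearMap).map f ≤ W.map g.symm.toLinearMap := by
    rintro _ ⟨_, ⟨v, hv, rfl⟩, rfl⟩
    exact ⟨g.conj f v, hWx ⟨v, hv, rfl⟩, by simp [LinearEquiv.conj_apply_apply]⟩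
  have hd : finrank F W = 4 * j + 1 := e.finrank_eq.trans hd₀
  obtain ⟨u, hu⟩ := unique_class hfQ hfp h2 hQ hfb hW'n hW'x
    ((g.symm.finrank_map_eq W).trans hd) hW₁ hx₁ (e₁.finrank_eq.trans hd₀)
  let E := e.symm.trans ((g.symm.submoduleMap W).trans (u.trans e₁))
  refine not_isometric_scaled h2 hn₀ ⟨2 * j, by omega⟩ (c := c⁻¹)
    (fun h => hc (by simpa using h.inv)) E fun w => ?_
  have h1 := he (e.symm w)
  rw [e.apply_symm_apply] at h1
  rw [h1, ← hgs ((e.symm w : W) : I → F), ← mul_assoc, inv_mul_cancel₀ hc0, one_mul]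
  simp only [E, LinearEquiv.trans_apply]
  rw [he₁, hu]
  rfl

/-- For each odd-dimensional class there is an element of order `p` of Ω fixing no member. -/
theorem exists_elusive_odd (hp : p ≠ 2) (hQ : (polarBilin Q).Nondegenerate) {d m : ℕ}
    (hI : Fintype.card I = 2 * d) (hd : 3 ≤ d) (hm : Odd m) {W₀ : Submodule F (I → F)}
    (hn₀ : NondegOn (polarBilin Q) W₀) (hd₀ : finrank F W₀ = m) :
    ∃ x : GL I F, x ∈ Cfsg.Geo.omegaGL ⇑Q ∧ x ^ p = 1 ∧
      (∀ c : F, (x : Matrix I I F) ≠ c • (1 : Matrix I I F)) ∧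
      ∀ W : Submodule F (I → F), finrank F W = m → NondegOn (polarBilin Q) W →
        W.map (Matrix.toLin' (x : Matrix I I F)) ≤ W →
        ¬ ∃ e : W ≃ₗ[F] W₀, ∀ w : W, Q ((e w : W₀) : I → F) = Q (w : I → F) := by
  classical
  have hp3 : 3 ≤ p := by have := (Fact.out : p.Prime).two_le; omega
  have h2 : (2 : F) ≠ 0 := fun h => hp (((Nat.prime_dvd_prime_iff_eq (Fact.out : p.Prime) Nat.prime_two).1
    ((CharP.cast_eq_zero_iff F p 2).1 (by exact_mod_cast h))))
  obtain ⟨i, rfl⟩ := hm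
  rcases Nat.even_or_odd' d with ⟨k, rfl | rfl⟩
  · -- `d` even
    have key : ∃ f : End F (I → F), (∀ v, Q (f v) = Q v) ∧ f ^ p = 1 ∧ f ≠ 1 ∧
        ∀ W : Submodule F (I → F), NondegOn (polarBilin Q) W → W.map f ≤ W →
          ¬ ∃ e : W ≃ₗ[F] W₀, ∀ w : W, Q ((e w : W₀) : I → F) = Q (w : I → F) := by
      rcases Nat.even_or_odd' i with ⟨j, rfl | rfl⟩
      · exact exists_elusive_one_mod_four (p := p) hp hQ (k := k - 1) (by omega) hn₀ (j := j) (by omega)
      obtain ⟨R₀, -, -, hR₀, hdisj, hsum, ho⟩ := nondegOn_split_inv (polarBilin_isRefl Q)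
        (x := (1 : End F (I → F))) (fun a b => rfl) (fun a b h => h) le_top le_top
        (map_le_of_fixed fun v _ => rfl) (nondegOn_top hQ) hn₀
      have hdR := Submodule.finrank_add_eq_of_isCompl (⟨hdisj, codisjoint_iff.2 hsum⟩ : IsCompl W₀ R₀)
      rw [hd₀, finrank_fintype_fun_eq_card, hI] at hdR
      obtain ⟨f, hfQ, hfp, hf1, hf⟩ := exists_elusive_one_mod_four (p := p) hp hQ (k := k - 1) (by omega) hR₀
        (j := k - 1 - j) (by omega)
      refine ⟨f, hfQ, hfp, hf1, fun W hW hWx ⟨e, he⟩ => ?_⟩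
      obtain ⟨R, -, hRx, hR, hdW, hsW, hoW⟩ := nondegOn_split_inv (polarBilin_isRefl Q)
        (fun u v => isometry_polarBilin hfQ u v) (injective_of_pow_char hfp) le_top le_top hWx (nondegOn_top hQ) hW
      obtain ⟨g, hg, hgW⟩ := H4.witt_extension hQ W (W₀.subtype ∘ₗ e.toLinearMap)
        (W₀.subtype_injective.comp e.injective) he
      have hmap : R.map (g : (I → F) →ₗ[F] (I → F)) = R₀ := by
        refine Submodule.eq_of_le_of_finrank_eq ?_ ?_
        · rintro _ ⟨r, hr, rfl⟩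
          obtain ⟨a, ha, b, hb, hab⟩ := Submodule.mem_sup.1 (hsum ▸ Submodule.mem_top : g r ∈ W₀ ⊔ R₀)
          suffices a = 0 by rw [LinearEquiv.coe_coe, ← hab, this, zero_add]; exact hb
          refine hn₀ a ha fun y hy => ?_
          have h0 : polar Q (g (e.symm ⟨y, hy⟩ : W)) (g r) = 0 := by
            rw [H4.polar_map hg]; exact hoW _ (e.symm ⟨y, hy⟩).2 r hr
          rw [hgW, ← hab, LinearMap.comp_apply, LinearEquiv.coe_coe, e.apply_symm_apply, Submodule.subtype_apply,
            polar_add_right, show polar Q y b = 0 from ho y hy b hb, add_zero] at h0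
          rw [polarBilin_apply_apply, polar_comm]
          exact h0
        · rw [g.finrank_map_eq]
          have := Submodule.finrank_add_eq_of_isCompl (⟨hdW, codisjoint_iff.2 hsW⟩ : IsCompl W R)
          rw [e.finrank_eq, hd₀, finrank_fintype_fun_eq_card, hI] at this
          omega
      exact hf R hR hRx ⟨(g.submoduleMap R).trans (LinearEquiv.ofEq _ _ hmap), fun w => hg _⟩
    obtain ⟨f, hfQ, hfp, hf1, hf⟩ := key
    obtain ⟨x, hx, hxp, -, hns, hxv⟩ := exists_omega_elem hp hQ (by omega) hfQ hfp hf1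
    exact ⟨x, hx, hxp, hns, fun W _ hW hWx => hf W hW (hxv ▸ hWx)⟩
  · -- `d` odd
    obtain ⟨e, l, hel, hlk⟩ : ∃ e l, (e = 1 ∧ l = k ∧ Odd i ∨ e = 3 ∧ l + 1 = k ∧ Even i) ∧ e + 2 * l = 2 * k + 1 := by
      rcases Nat.even_or_odd i with h | h
      · exact ⟨3, k - 1, Or.inr ⟨rfl, by omega, h⟩, by omega⟩
      · exact ⟨1, k, Or.inl ⟨rfl, rfl, h⟩, by omega⟩
    have heo : Odd e := by rcases hel with ⟨rfl, -⟩ | ⟨rfl, -⟩ <;> decide
    have hne : ¬ Even e := Nat.not_even_iff_odd.2 heo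
    have hex : ∃ a ∈ e ::ₘ e ::ₘ Multiset.replicate (2 * l) 2, a ≠ 1 := by
      rcases hel with ⟨rfl, rfl, -⟩ | ⟨rfl, -⟩
      · exact ⟨2, Multiset.mem_cons_of_mem (Multiset.mem_cons_of_mem (Multiset.mem_replicate.2 ⟨by omega, rfl⟩)), by omega⟩
      · exact ⟨3, by simp, by omega⟩
    obtain ⟨x, hx, hxp, -, hns, hW⟩ := exists_unipotent_witness hp Q hQ (by omega)
      (e ::ₘ e ::ₘ Multiset.replicate (2 * l) 2)
      (fun a ha => by
        rcases Multiset.mem_cons.1 ha with rfl | ha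
        · rcases hel with ⟨rfl, -⟩ | ⟨rfl, -⟩ <;> omega
        rcases Multiset.mem_cons.1 ha with rfl | ha
        · rcases hel with ⟨rfl, -⟩ | ⟨rfl, -⟩ <;> omega
        rw [Multiset.eq_of_mem_replicate ha]; omega)
      (fun a ha => by
        rw [Multiset.count_cons_of_ne (by rintro rfl; exact hne ha),
          Multiset.count_cons_of_ne (by rintro rfl; exact hne ha), Multiset.count_replicate]
        split_ifs <;> simp)
      (Multiset.mem_cons_self e _) heo hex (by rw [hI]; simp; omega)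
    refine ⟨x, hx, hxp, hns, fun W hWd hWn hWx _ => ?_⟩
    obtain ⟨ν, hν, hνs, hνe, -⟩ := hW W ((isNondegenerateOn_iff_nondegOn Q W).2 hWn) hWx
    have hc : ∀ a, ν.count a ≤ (if a = e then 2 else 0) + (if a = 2 then 2 * l else 0) := by
      intro a
      refine (Multiset.count_le_of_le a hν).trans ?_
      simp only [Multiset.count_cons, Multiset.count_replicate]
      split_ifs <;> omega
    have hν' : ν = Multiset.replicate (ν.count e) e + Multiset.replicate (ν.count 2) 2 := by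
      have he2 : e ≠ 2 := by rintro rfl; exact hne even_two
      ext a
      have := hc a
      simp only [Multiset.count_add, Multiset.count_replicate]
      by_cases h3 : a = e
      · subst h3; simp [he2, Ne.symm he2]
      by_cases h1 : a = 2
      · subst h1; simp [he2, Ne.symm he2]
      simp [h3, h1, Ne.symm h3, Ne.symm h1] at this ⊢
      omega
    have hs := congrArg Multiset.sum hν'
    rw [hνs, hWd] at hs
    simp only [Multiset.sum_add, Multiset.sum_replicate, smul_eq_mul] at hs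
    obtain ⟨c, hc2⟩ := hνe 2 even_two
    have he' := hc e
    simp [show e ≠ 2 by rintro rfl; exact hne even_two] at he'
    rcases hel with ⟨rfl, -, hi⟩ | ⟨rfl, -, hi⟩ <;>
      (obtain ⟨t, rfl⟩ := hi; omega)

/-- In plus type there is an element of order `p` of Ω such that all invariant non-degenerate even-dimensional
subspaces are of plus type. -/
theorem exists_all_plus (hp : p ≠ 2) (hQ : (polarBilin Q).Nondegenerate) {d : ℕ}
    (hI : Fintype.card I = 2 * d) (hd : 3 ≤ d) (hplus : H67.HasSing Q d) :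
    ∃ x : GL I F, x ∈ Cfsg.Geo.omegaGL ⇑Q ∧ x ^ p = 1 ∧
      (∀ c : F, (x : Matrix I I F) ≠ c • (1 : Matrix I I F)) ∧
      ∀ W : Submodule F (I → F), Even (finrank F W) → NondegOn (polarBilin Q) W →
        W.map (Matrix.toLin' (x : Matrix I I F)) ≤ W → PlusOn Q W := by
  classical
  have hp3 : 3 ≤ p := by have := (Fact.out : p.Prime).two_le; omega
  have h2 : (2 : F) ≠ 0 := fun h => hp (((Nat.prime_dvd_prime_iff_eq (Fact.out : p.Prime) Nat.prime_two).1
    ((CharP.cast_eq_zero_iff F p 2).1 (by exact_mod_cast h))))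
  obtain ⟨a, l, ha, ha3, hal⟩ : ∃ a l, Odd a ∧ a ≤ 3 ∧ a + 1 + 4 * l = 2 * d := by
    rcases Nat.even_or_odd' d with ⟨k, rfl | rfl⟩
    · exact ⟨3, k - 1, by decide, le_rfl, by omega⟩
    · exact ⟨1, k, by decide, by omega, by omega⟩
  have hl : 0 < l := by omega
  have ha2 : a ≠ 2 := by rintro rfl; exact absurd ha (by decide)
  obtain ⟨f, hfQ, hfp, hf1, hfb⟩ := exists_unipotent_isometry (p := p) hp hQ (by omega)
    (a ::ₘ 1 ::ₘ Multiset.replicate (2 * l) 2)
    (fun b hb => by
      rcases Multiset.mem_cons.1 hb with rfl | hb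
      · exact ⟨ha.pos, by omega⟩
      rcases Multiset.mem_cons.1 hb with rfl | hb
      · omega
      rw [Multiset.eq_of_mem_replicate hb]; omega)
    (fun b hb => by
      rw [Multiset.count_cons_of_ne (by rintro rfl; exact Nat.not_even_iff_odd.2 ha hb),
        Multiset.count_cons_of_ne (by rintro rfl; exact absurd hb (by decide)), Multiset.count_replicate]
      split_ifs <;> simp)
    (Multiset.mem_cons_self a _) ha
    ⟨2, Multiset.mem_cons_of_mem (Multiset.mem_cons_of_mem (Multiset.mem_replicate.2 ⟨by omega, rfl⟩)), by omega⟩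
    (by rw [hI]; simp; omega)
  obtain ⟨x, hx, hxp, -, hns, hxv⟩ := exists_omega_elem hp hQ (by omega) hfQ hfp hf1
  refine ⟨x, hx, hxp, hns, fun W hWe hW hWx => ?_⟩
  rw [hxv] at hWx
  obtain ⟨R, ν, ρ, hR, hRx, hc, ho, hνρ, hν, hρ, -⟩ := exists_blocks_compl hfQ hfp h2 hQ hfb hW hWx
  have hN : ∀ {S : Submodule F (I → F)}, S.map f ≤ S → ∀ v ∈ S, (f - 1) v ∈ S := fun {S} hS v hv =>
    S.sub_mem (hS ⟨v, hv, rfl⟩) hv
  have hmem : ∀ b, b ∈ ν ∨ b ∈ ρ → b = a ∨ b = 1 ∨ b = 2 := fun b hb => by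
    have : b ∈ a ::ₘ 1 ::ₘ Multiset.replicate (2 * l) 2 := by rw [← hνρ]; exact Multiset.mem_add.2 hb
    simp only [Multiset.mem_cons, Multiset.mem_replicate] at this
    tauto
  have hodd : ∀ (τ : Multiset ℕ) (t : ℕ), (∀ b ∈ τ, b = 2 ∨ b = t) → τ.count t = 1 → Odd t → ¬ Even τ.sum := by
    intro τ t hτ hct ht
    obtain ⟨τ', rfl⟩ := Multiset.exists_cons_of_mem (Multiset.count_pos.1 (hct ▸ Nat.one_pos))
    rw [Multiset.count_cons_self] at hct
    have hτ' : ∀ b ∈ τ', b = 2 := fun b hb => (hτ b (Multiset.mem_cons_of_mem hb)).resolve_right fun h => by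
      subst h
      have := Multiset.count_pos.2 hb
      omega
    rw [Multiset.sum_cons, Multiset.eq_replicate_card.2 hτ', Multiset.sum_replicate, smul_eq_mul,
      Nat.not_even_iff_odd]
    exact ht.add_even ⟨τ'.card, by ring⟩
  have hall : (∀ b ∈ ν, b = 2) ∨ (∀ b ∈ ρ, b = 2) := by
    have hsa := congrArg (Multiset.count a) hνρ
    have hs1 := congrArg (Multiset.count 1) hνρ
    rw [Multiset.count_add] at hsa hs1
    simp only [Multiset.count_cons, Multiset.count_replicate, if_neg (Ne.symm ha2)] at hsa hs1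
    rw [hν.finrank_eq] at hWe
    have hz : ∀ (τ : Multiset ℕ), (∀ b ∈ τ, b = a ∨ b = 1 ∨ b = 2) → τ.count a = 0 → τ.count 1 = 0 →
        ∀ b ∈ τ, b = 2 := fun τ hτ h0 h1 b hb => by
      rcases hτ b hb with rfl | rfl | rfl
      · exact absurd (Multiset.count_pos.2 hb) (by omega)
      · exact absurd (Multiset.count_pos.2 hb) (by omega)
      · rfl
    by_cases ha1 : a = 1
    · subst ha1
      simp at hsa
      rcases Nat.lt_or_ge (ν.count 1) 1 with h | h
      · exact Or.inl (hz ν (fun b hb => hmem b (Or.inl hb)) (by omega) (by omega))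
      rcases Nat.lt_or_ge (ν.count 1) 2 with h' | h'
      · exact absurd hWe (hodd ν 1 (fun b hb => by rcases hmem b (Or.inl hb) with h | h | h <;> simp [h])
          (by omega) odd_one)
      · exact Or.inr (hz ρ (fun b hb => hmem b (Or.inr hb)) (by omega) (by omega))
    · simp [ha1, Ne.symm ha1] at hsa hs1
      by_cases hA : ν.count a = 0 <;> by_cases h1 : ν.count 1 = 0
      · exact Or.inl (hz ν (fun b hb => hmem b (Or.inl hb)) hA h1)
      · refine absurd hWe (hodd ν 1 (fun b hb => ?_) (by omega) odd_one)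
        rcases hmem b (Or.inl hb) with rfl | h | h
        · exact absurd (Multiset.count_pos.2 hb) (by omega)
        · exact Or.inr h
        · exact Or.inl h
      · refine absurd hWe (hodd ν a (fun b hb => ?_) (by omega) ha)
        rcases hmem b (Or.inl hb) with h | rfl | h
        · exact Or.inr h
        · exact absurd (Multiset.count_pos.2 hb) (by omega)
        · exact Or.inl h
      · exact Or.inr (hz ρ (fun b hb => hmem b (Or.inr hb)) (by omega) (by omega))
  rcases hall with h | h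
  · exact plusOn_of_twos hfQ h2 hν (hN hWx) h
  · have hRp := plusOn_of_twos hfQ h2 hρ (hN hRx) h
    have hV : finrank F (I → F) = 2 * d := by rw [finrank_fintype_fun_eq_card, hI]
    have hdim := Submodule.finrank_add_eq_of_isCompl hc
    have hRe : Even (finrank F R) := by
      rcases hWe with ⟨w, hw⟩
      exact ⟨d - w, by omega⟩
    have hsup := plusOn_sup hW hR ho hWe hRe
    rw [hc.sup_eq_top, plusOn_top Q hV] at hsup
    exact (hsup.1 hplus).2 hRp

end Cfsg.Agent.H97
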