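import Cfsg.Agent.H97.ExtQuadTwo
import Cfsg.Agent.H97.OrthBasic
import Cfsg.Agent.H97.OrthUnipotentOdd
import Cfsg.Agent.H97.OrthCount

set_option autoImplicit false
set_option linter.unusedSectionVars false
set_option linter.style.haveILetI false

/-!
# Elements of odd prime order and quadratic field structures on orthogonal spaces
-/

namespace Cfsg.Agent.H97.ExtQuad

open Module
open QuadraticMap hiding sq
open Cfsg.Geo (IsFieldSubalgebra subalgebraNormalizer)
open Cfsg.Agent.H98.ExtEl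
open Cfsg.Agent.H58.ExtField (FK)

universe u

/-- The index of an intersection with a normal subgroup. -/
theorem mul_card_dvd {G : Type*} [Group G] [Finite G] {N S U : Subgroup G} [S.Normal] (hU : U ≤ N) {r : ℕ}
    (h : r ∣ N.relIndex S) : r * Nat.card U ∣ Nat.card G := by
  have h1 : N.relIndex S * S.index = (N ⊓ S).index := by
    rw [← Subgroup.inf_relIndex_right N S]; exact Subgroup.relIndex_mul_index inf_le_right
  have h2 : S.relIndex N * N.index = (N ⊓ S).index := by
    rw [← Subgroup.inf_relIndex_right S N, inf_comm S N]; exact Subgroup.relIndex_mul_index inf_le_left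
  obtain ⟨e, he⟩ := Subgroup.relIndex_dvd_index_of_normal (H := S) (K := N)
  have hpos : 0 < S.relIndex N := Nat.pos_of_ne_zero fun h0 => by
    rw [h0, zero_mul] at he; exact Subgroup.index_ne_zero_of_finite he
  have h3 : N.index = N.relIndex S * e := by
    refine Nat.eq_of_mul_eq_mul_left hpos ?_
    rw [h2, ← h1, he]; ring
  rw [← Subgroup.index_mul_card N]
  exact mul_dvd_mul (h.trans ⟨e, h3⟩) (Subgroup.card_dvd_of_le hU)

variable {F : Type u} [Field F] [Fintype F] {ι : Type} [Fintype ι] [DecidableEq ι]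

theorem card_orth_eq {E : Type*} [Field E] {V : Type*} [AddCommGroup V] [Module E V] (Q : QuadraticForm E V) :
    Nat.card (H5.orth Q) = Nat.card (H4.qIsoms Q) :=
  Nat.card_congr (Equiv.subtypeEquivRight fun _ => Iff.rfl)

theorem gop_toGLHom (Q : QuadraticForm F (ι → F)) (g : H5.orth Q) (v : ι → F) :
    gop (H5.toGLHom Q rfl g) v = (g : (ι → F) ≃ₗ[F] (ι → F)) v := by
  rw [gop, Matrix.toLin'_apply, H5.toGLHom_mulVec]

theorem prod_range_two_mul {M : Type*} [CommMonoid M] (f : ℕ → M) (c : ℕ) :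
    ∏ i ∈ Finset.range (2 * c), f i =
      (∏ j ∈ Finset.range c, f (2 * j)) * ∏ j ∈ Finset.range c, f (2 * j + 1) := by
  induction c with
  | zero => simp
  | succ c ih =>
    rw [show 2 * (c + 1) = 2 * c + 1 + 1 by ring, Finset.prod_range_succ, Finset.prod_range_succ, ih,
      Finset.prod_range_succ, Finset.prod_range_succ]
    ac_rfl

variable {r : ℕ} [Fact r.Prime]

/-- The congruence attached to a prime dividing the order of the isometry group. -/
theorem exists_exponent (hr2 : r ≠ 2) (hr : (r : F) ≠ 0) {V : Type u} [AddCommGroup V] [Module F V]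
    [FiniteDimensional F V] {Q : QuadraticForm F V} (hQ : (polarBilin Q).Nondegenerate) {d : ℕ} (hd0 : 0 < d)
    (hd : finrank F V = 2 * d) (h : r ∣ Nat.card (H4.qIsoms Q)) :
    Nat.lcm 2 (orderOf (Nat.card F : ZMod r)) ≤ 2 * d ∧
      (Nat.lcm 2 (orderOf (Nat.card F : ZMod r)) = 2 * d →
        (H67.HasSing Q d ↔ Odd (orderOf (Nat.card F : ZMod r)))) := by
  classical
  set q : ZMod r := (Nat.card F : ZMod r) with hq
  set o := orderOf q with ho
  have hopos : 0 < o := H97.orderOf_pos_zmod (F := F) hr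
  obtain ⟨b, rfl⟩ : ∃ b, d = b + 1 := ⟨d - 1, by omega⟩
  have hz : ((Nat.card (H4.qIsoms Q) : ℤ) : ZMod r) = 0 :=
    (ZMod.intCast_zmod_eq_zero_iff_dvd _ _).2 (Int.natCast_dvd_natCast.2 h)
  rw [card_qIsoms_even hQ hd] at hz
  push_cast at hz
  have hqq : ((Fintype.card F : ℕ) : ZMod r) = q := by rw [hq, Nat.card_eq_fintype_card]
  rw [hqq] at hz
  have h20 : (2 : ZMod r) ≠ 0 := fun h => hr2 ((Nat.prime_dvd_prime_iff_eq (Fact.out : r.Prime) Nat.prime_two).1
    ((ZMod.natCast_eq_zero_iff 2 r).1 (by exact_mod_cast h)))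
  rcases mul_eq_zero.1 hz with h1 | h1
  · rcases mul_eq_zero.1 h1 with h1 | h1
    · exact absurd h1 (mul_ne_zero h20 (pow_ne_zero _ (H97.natCard_ne_zero_zmod hr)))
    have h2d : o ∣ 2 * (b + 1) := by
      refine orderOf_dvd_of_pow_eq_one ?_
      rw [mul_comm, pow_mul, sub_eq_zero.1 h1]
      split_ifs <;> simp
    have hl : Nat.lcm 2 o ∣ 2 * (b + 1) := Nat.lcm_dvd (dvd_mul_right _ _) h2d
    refine ⟨Nat.le_of_dvd (by omega) hl, fun heq => ?_⟩
    by_cases hs : H67.HasSing Q (b + 1)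
    · simp only [hs, true_iff]
      rw [if_pos hs] at h1
      have hod : o ∣ b + 1 := orderOf_dvd_of_pow_eq_one (sub_eq_zero.1 h1)
      rcases Nat.even_or_odd o with he | he
      · rw [Nat.lcm_eq_right (even_iff_two_dvd.1 he)] at heq
        have := Nat.le_of_dvd (by omega) hod
        omega
      · exact he
    · simp only [hs, false_iff, Nat.not_odd_iff_even]
      rw [if_neg hs] at h1
      by_contra he
      have hco : Nat.Coprime o 2 := (Nat.coprime_two_right).2 (Nat.not_even_iff_odd.1 he)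
      have hod : o ∣ b + 1 := hco.dvd_of_dvd_mul_left h2d
      rw [sub_eq_zero, (orderOf_dvd_iff_pow_eq_one.1 hod)] at h1
      exact H97.zmod_neg_one_ne_one hr2 h1.symm
  · obtain ⟨i, hi, h1⟩ := Finset.prod_eq_zero_iff.1 h1
    rw [Finset.mem_range] at hi
    have hl : Nat.lcm 2 o ∣ 2 * (i + 1) :=
      Nat.lcm_dvd (dvd_mul_right _ _) (orderOf_dvd_of_pow_eq_one (sub_eq_zero.1 h1))
    have := Nat.le_of_dvd (by omega) hl
    exact ⟨by omega, fun heq => by omega⟩

/-- A prime of residual order divisible by four does not divide the index. -/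
theorem no_dvd_of_four_dvd {E : Type u} [Field E] [Fintype E] [Algebra F E] {V : Type u} [AddCommGroup V]
    [Module F V] [Module E V] [IsScalarTower F E V] [Finite V] (hk : finrank F E = 2) (h2 : (2 : F) ≠ 0)
    (hr : (r : F) ≠ 0) {Q : QuadraticForm F V} (hQ : (polarBilin Q).Nondegenerate)
    {P : QuadraticForm E V} (hP : (polarBilin P).Nondegenerate) (hPQ : ∀ v, (trQ (F := F) P) v = Q v)
    {d : ℕ} (hd0 : 2 ≤ d) (hd : finrank F V = 2 * d)
    (h4 : 4 ∣ orderOf (Nat.card F : ZMod r)) (h : r * Nat.card (H4.qIsoms P) ∣ Nat.card (H4.qIsoms Q)) : False := by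
  classical
  haveI : Module.Finite F E := Module.Finite.of_finite
  haveI : Module.Finite E V := Module.Finite.of_finite
  haveI : Module.Finite F V := Module.Finite.of_finite
  set q : ZMod r := (Nat.card F : ZMod r) with hq
  have hQeq : trQ (F := F) P = Q := QuadraticMap.ext hPQ
  have hEd : finrank E V = d := by
    have := Module.finrank_mul_finrank F E V
    rw [hk, hd] at this
    omega
  have hcE : (Fintype.card E : ℤ) = (Fintype.card F : ℤ) ^ 2 := by
    rw [Module.card_eq_pow_finrank (K := F) (V := E), hk]; push_cast; rfl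
  set Z := (Fintype.card F : ℤ) with hZ
  have hZq : ((Z : ℤ) : ZMod r) = q := by rw [hZ, Int.cast_natCast, hq, Nat.card_eq_fintype_card]
  have hpow : ∀ m : ℕ, ¬ 4 ∣ m → q ^ m ≠ 1 := fun m hm he => hm (h4.trans (orderOf_dvd_of_pow_eq_one he))
  have hodd : ∀ j : ℕ, ((Z ^ (2 * (2 * j + 1)) - 1 : ℤ) : ZMod r) ≠ 0 := fun j he => by
    push_cast at he
    rw [hZq, sub_eq_zero] at he
    exact hpow _ (by omega) he
  have hOE0 : (Nat.card (H4.qIsoms P) : ℤ) ≠ 0 := by
    haveI : Finite (V ≃ₗ[E] V) := Finite.of_injective _ DFunLike.coe_injective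
    exact_mod_cast (Nat.card_pos (α := H4.qIsoms P)).ne'
  have hdiv : ((r : ℤ) * Nat.card (H4.qIsoms P)) ∣ (Nat.card (H4.qIsoms Q) : ℤ) := by exact_mod_cast h
  -- the cofactor is prime to `r`
  suffices hX : ∃ (X : ℤ) (n : ℕ), (Nat.card (H4.qIsoms Q) : ℤ) * Z ^ n = (Nat.card (H4.qIsoms P) : ℤ) * X ∧
      (X : ZMod r) ≠ 0 by
    obtain ⟨X, n, hX, hX0⟩ := hX
    refine hX0 ((ZMod.intCast_zmod_eq_zero_iff_dvd X r).2 ?_)
    have h1 := dvd_mul_of_dvd_left hdiv (Z ^ n)
    rw [hX, mul_comm (r : ℤ)] at h1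
    exact (mul_dvd_mul_iff_left hOE0).1 h1
  have hq0 : q ≠ 0 := H97.natCard_ne_zero_zmod hr
  rcases Nat.even_or_odd' d with ⟨c, rfl | rfl⟩
  · obtain ⟨c, rfl⟩ : ∃ c', c = c' + 1 := ⟨c - 1, by omega⟩
    have hiff : H67.HasSing Q (2 * (c + 1)) ↔ H67.HasSing P (c + 1) :=
      hQeq ▸ hasSing_trQ_even hk h2 hP hEd
    have hQc := card_qIsoms_even hQ (b := 2 * c + 1) (by rw [hd]; ring)
    have hPc := card_qIsoms_even hP (b := c) hEd
    rw [hcE] at hPc
    rw [show 2 * c + 1 + 1 = 2 * (c + 1) by ring, Finset.prod_range_succ, prod_range_two_mul] at hQc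
    refine ⟨Z ^ (2 * (c + 1) * (2 * c + 1)) * ((∏ j ∈ Finset.range c, (Z ^ (2 * (2 * j + 1)) - 1)) *
      (Z ^ (2 * (2 * c + 1)) - 1)), 2 * ((c + 1) * c), ?_, ?_⟩
    · rw [hQc, hPc]
      simp only [hiff, ← pow_mul, show ∀ j : ℕ, 2 * (2 * (j + 1)) = 2 * (2 * j + 1 + 1) from fun j => by ring]
      ring
    · push_cast
      rw [hZq]
      have e1 := hodd c
      push_cast at e1
      rw [hZq] at e1
      refine mul_ne_zero (pow_ne_zero _ hq0) (mul_ne_zero (Finset.prod_ne_zero_iff.2 fun j _ => ?_) e1)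
      have e2 := hodd j
      push_cast at e2
      rwa [hZq] at e2
  · have hQc := card_qIsoms_even hQ (b := 2 * c) (by rw [hd])
    have hPc := card_qIsoms_odd hP (b := c) hEd
    rw [hcE] at hPc
    rw [prod_range_two_mul] at hQc
    refine ⟨Z ^ ((2 * c + 1) * (2 * c)) * ((Z ^ (2 * c + 1) - if H67.HasSing Q (2 * c + 1) then 1 else -1) *
      ∏ j ∈ Finset.range c, (Z ^ (2 * (2 * j + 1)) - 1)), 2 * c ^ 2, ?_, ?_⟩
    · rw [hQc, hPc]
      simp only [← pow_mul, show ∀ j : ℕ, 2 * (2 * (j + 1)) = 2 * (2 * j + 1 + 1) from fun j => by ring]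
      ring
    · push_cast
      rw [hZq]
      refine mul_ne_zero (pow_ne_zero _ hq0) (mul_ne_zero (fun he => ?_) (Finset.prod_ne_zero_iff.2 fun j _ => ?_))
      · refine hpow (2 * (2 * c + 1)) (by omega) ?_
        rw [mul_comm, pow_mul, sub_eq_zero.1 he]
        split_ifs <;> simp
      · have e2 := hodd j
        push_cast at e2
        rwa [hZq] at e2

variable {p : ℕ} [Fact p.Prime] [CharP F p]

/-- An isometry of order `p` whose square from one has rank one. -/
theorem exists_rank_one_square (hp : p ≠ 2) {Q : QuadraticForm F (ι → F)} (hQ : (polarBilin Q).Nondegenerate)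
    (hI : 3 ≤ Fintype.card ι) :
    ∃ f : End F (ι → F), (∀ v, Q (f v) = Q v) ∧ f ^ p = 1 ∧ f ≠ 1 ∧
      finrank F (LinearMap.range ((f - 1) ^ 2)) = 1 := by
  haveI : Nonempty ι := Fintype.card_pos_iff.1 (by omega)
  have h2 : (2 : F) ≠ 0 := fun h => hp (((Nat.prime_dvd_prime_iff_eq (Fact.out : p.Prime) Nat.prime_two).1
    ((CharP.cast_eq_zero_iff F p 2).1 (by exact_mod_cast h))))
  obtain ⟨e, he0, he⟩ := H5.exists_singular hQ (by rwa [finrank_fintype_fun_eq_card])
  obtain ⟨u, hu, hQu⟩ : ∃ u, polar Q e u = 0 ∧ Q u ≠ 0 := by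
    by_contra hc
    push Not at hc
    have hall : ∀ x ∈ H5.perp Q (Submodule.span F {e}), Q x = 0 := fun x hx => hc x (H5.mem_perp_span.1 hx)
    have hle := Submodule.finrank_mono
      ((H5.le_perp_of_forall_eq_zero hall).trans (H5.perp_perp hQ _).le)
    have hsum := H5.finrank_perp_add hQ (Submodule.span F {e})
    rw [finrank_span_singleton he0, finrank_fintype_fun_eq_card] at hsum
    rw [finrank_span_singleton he0] at hle
    omega
  set E := H5.eich Q e u with hE
  let f : End F (ι → F) := ((E : (ι → F) ≃ₗ[F] (ι → F)) : (ι → F) →ₗ[F] (ι → F))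
  have hN : ∀ z, (f - 1) z = polar Q e z • u - polar Q u z • e - (Q u * polar Q e z) • e := fun z => by
    rw [LinearMap.sub_apply, Module.End.one_apply]
    show (E : (ι → F) ≃ₗ[F] (ι → F)) z - z = _
    rw [H5.eich_apply he hu]; abel
  have hN2 : ∀ z, (((f - 1) ^ 2 : End F (ι → F))) z = (-(2 * Q u * polar Q e z)) • e := fun z => by
    rw [sq, Module.End.mul_apply, hN, hN]
    simp only [polar_sub_right, polar_smul_right, H5.polar_self', he, hu, polar_comm Q u e, smul_eq_mul,
      mul_zero, sub_zero]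
    module
  have h3 : (f - 1) ^ 3 = 0 := LinearMap.ext fun z => by
    rw [pow_succ', Module.End.mul_apply, hN2, map_smul, hN]
    simp [polar_self, he, hu, polar_comm Q u e]
  have : CharP (End F (ι → F)) p := charP_of_injective_algebraMap' F p
  have hfp : f ^ p = 1 := by
    have hp3 : 3 ≤ p := by have := (Fact.out : p.Prime).two_le; omega
    have h := pow_eq_zero_of_le hp3 h3
    rwa [sub_pow_char_of_commute (p := p) (Commute.one_right _), one_pow, sub_eq_zero] at h
  obtain ⟨y, hy⟩ := H5.exists_polar_eq_one hQ he0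
  have hrange : LinearMap.range ((f - 1) ^ 2) = Submodule.span F {e} := by
    refine le_antisymm ?_ ?_
    · rintro _ ⟨z, rfl⟩
      rw [hN2]
      exact Submodule.smul_mem _ _ (Submodule.mem_span_singleton_self e)
    · rw [Submodule.span_singleton_le_iff_mem]
      refine ⟨(-(2 * Q u))⁻¹ • y, ?_⟩
      rw [map_smul, hN2, hy, mul_one, inv_smul_smul₀ (neg_ne_zero.2 (mul_ne_zero h2 hQu))]
  refine ⟨f, fun v => E.2 v, hfp, fun h => ?_, by rw [hrange, finrank_span_singleton he0]⟩
  rw [h, sub_self, zero_pow two_ne_zero, LinearMap.range_zero] at hrange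
  exact he0 (by simpa using hrange.symm)


/-- Conjugation preserves the rank of the square of the difference from one. -/
theorem finrank_range_sub_one_sq_conj (g x : GL ι F) :
    finrank F (LinearMap.range ((gop (g⁻¹ * x * g) - 1) ^ 2)) =
      finrank F (LinearMap.range ((gop x - 1) ^ 2)) := by
  have h1 : ∀ v, (gop (g⁻¹ * x * g) - 1) v = gop g⁻¹ ((gop x - 1) (gop g v)) := fun v => by
    rw [LinearMap.sub_apply, LinearMap.sub_apply, Module.End.one_apply, Module.End.one_apply, map_sub,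
      gop_inv_apply, gop_mul, gop_mul, Module.End.mul_apply, Module.End.mul_apply]
  have h2 : ∀ v, ((gop (g⁻¹ * x * g) - 1) ^ 2 : End F (ι → F)) v =
      gop g⁻¹ (((gop x - 1) ^ 2 : End F (ι → F)) (gop g v)) := fun v => by
    rw [sq, sq, Module.End.mul_apply, Module.End.mul_apply, h1, h1, gop_apply_inv]
  have h3 : LinearMap.range ((gop (g⁻¹ * x * g) - 1) ^ 2) =
      (LinearMap.range ((gop x - 1) ^ 2)).map (gop g⁻¹) := by
    refine le_antisymm ?_ ?_
    · rintro _ ⟨v, rfl⟩
      exact ⟨_, ⟨gop g v, rfl⟩, (h2 v).symm⟩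
    · rintro _ ⟨_, ⟨w, rfl⟩, rfl⟩
      exact ⟨gop g⁻¹ w, by rw [h2, gop_apply_inv]⟩
  rw [h3]
  exact (Submodule.equivMapOfInjective _ (Function.LeftInverse.injective (gop_apply_inv g)) _).finrank_eq.symm

set_option maxHeartbeats 800000 in
/-- An element of odd prime order fixing no point. -/
theorem exists_not_conj (p : ℕ) [Fact p.Prime] [CharP F p] {Q : QuadraticForm F (ι → F)} (hQ : (polarBilin Q).Nondegenerate) (h2 : (2 : F) ≠ 0)
    {d : ℕ} (hI : Fintype.card ι = 2 * d) (hd : 3 ≤ d) {K : Subalgebra F (Matrix ι ι F)}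
    (hK : IsFieldSubalgebra 2 K) (hKf : Cfsg.Geo.IsSelfAdjointFor (polar ⇑Q) K) (hr2 : r ≠ 2)
    (hΩ : r ∣ (subalgebraNormalizer K).relIndex (Cfsg.Geo.omegaGL ⇑Q)) :
    ∃ x ∈ Cfsg.Geo.omegaGL ⇑Q, (∃ z : F, ((x ^ r : GL ι F) : Matrix ι ι F) = z • (1 : Matrix ι ι F)) ∧
      (∀ z : F, (x : Matrix ι ι F) ≠ z • (1 : Matrix ι ι F)) ∧
      ∀ g ∈ Cfsg.Geo.omegaGL ⇑Q, g⁻¹ * x * g ∉ subalgebraNormalizer K := by
  classical
  haveI : Nonempty ι := Fintype.card_pos_iff.1 (by omega)
  have hrp : r.Prime := Fact.out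
  have hp : p ≠ 2 := fun h => h2 (by subst h; exact_mod_cast CharP.cast_eq_zero F 2)
  have hk := FK.finrank_eq hK
  have hsa : ∀ (c : FK hK) (u v : ι → F), polar Q (c • u) v = polar Q u (c • v) := fun c u v => by
    rw [FK.smul_eq, FK.smul_eq]
    exact hKf _ (c : ↥K).2 u v
  obtain ⟨P, hP, hPQ⟩ := exists_qf h2 Q hQ hsa
  -- conjugates inside the normaliser are linear
  have hlin : ∀ {x g : GL ι F}, x ^ r = 1 → g⁻¹ * x * g ∈ subalgebraNormalizer K →
      ∀ (a : FK hK) (v : ι → F), gop (g⁻¹ * x * g) (a • v) = a • gop (g⁻¹ * x * g) v := fun {x g} hx hN => by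
    have hxr : (g⁻¹ * x * g) ^ r = 1 := by
      have h1 := _root_.conj_pow (i := r) (a := g⁻¹) (b := x)
      rw [inv_inv, hx, mul_one, inv_mul_cancel] at h1
      exact h1
    rcases linear_or_semilinear Nat.prime_two hK hN hxr with h | ⟨h, -⟩
    · exact h
    · exact absurd h hr2
  by_cases hrp' : r = p
  · subst hrp'
    obtain ⟨f, hfQ, hfp, hf1, hrk⟩ := exists_rank_one_square hp hQ (by omega)
    obtain ⟨x, hxΩ, hxr, -, hns, hxf⟩ := exists_omega_elem hp hQ (by omega) hfQ hfp hf1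
    refine ⟨x, hxΩ, ⟨1, by rw [hxr, one_smul]; rfl⟩, hns, fun g _ hN => ?_⟩
    set h := g⁻¹ * x * g with hh
    have hl : ∀ (a : FK hK) (v : ι → F), gop h (a • v) = a • gop h v := hlin hxr hN
    have hdim : finrank F (LinearMap.range ((gop h - 1) ^ 2)) = 1 := by
      rw [hh, finrank_range_sub_one_sq_conj, show gop x = f from hxf, hrk]
    have hstab := dvd_finrank_stable (E := FK hK) (W := LinearMap.range ((gop h - 1) ^ 2)) fun a w hw => by
      obtain ⟨y, rfl⟩ := hw
      refine ⟨a • y, ?_⟩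
      simp only [sq, Module.End.mul_apply, LinearMap.sub_apply, Module.End.one_apply, smul_sub, hl, map_sub]
    rw [hk, hdim] at hstab
    omega
  have hr : (r : F) ≠ 0 := H67.cast_ne_zero_of_prime_ne hrp hrp'
  -- counting
  let ρ : H5.orth P →* H5.orth Q :=
    { toFun := fun g => ⟨g.1.restrictScalars F, fun v => by
        show Q (g.1 v) = Q v
        rw [← hPQ, ← hPQ, trQ_apply, trQ_apply, g.2 v]⟩
      map_one' := H5.orth_ext fun _ => rfl
      map_mul' := fun _ _ => H5.orth_ext fun _ => rfl }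
  have hρinj : Function.Injective ρ := fun a b h => H5.orth_ext fun v =>
    LinearEquiv.congr_fun (congrArg Subtype.val h) v
  have hU : ρ.range ≤ (subalgebraNormalizer K).comap (H5.toGLHom Q rfl) := by
    rintro _ ⟨g, rfl⟩
    exact mem_normalizer_of_semilinear hK fun a => ⟨a, fun v => by
      rw [gop_toGLHom, gop_toGLHom]
      exact map_smul g.1 a v⟩
  haveI : Finite (H5.orth Q) := by
    haveI : Finite ((ι → F) ≃ₗ[F] (ι → F)) := Finite.of_injective _ DFunLike.coe_injective
    infer_instance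
  have hcount : r * Nat.card (H4.qIsoms P) ∣ Nat.card (H4.qIsoms Q) := by
    rw [← card_orth_eq P, ← card_orth_eq Q, Nat.card_congr (MonoidHom.ofInjective hρinj).toEquiv]
    refine mul_card_dvd (S := commutator (H5.orth Q)) hU ?_
    rw [Subgroup.relIndex_comap]
    rwa [H5.omegaGL_eq_map Q rfl] at hΩ
  have hV : finrank F (ι → F) = 2 * d := by rw [finrank_fintype_fun_eq_card, hI]
  have h4 : ¬ 4 ∣ orderOf (Nat.card F : ZMod r) := fun h4 =>
    no_dvd_of_four_dvd hk h2 hr hQ hP hPQ (by omega) hV h4 hcount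
  obtain ⟨hfit, htype⟩ := exists_exponent hr2 hr hQ (by omega) hV ((dvd_mul_right r _).trans hcount)
  set o := orderOf (Nat.card F : ZMod r) with ho
  obtain ⟨f, hfQ, hfr, hfd⟩ := exists_orth_moved_dim (V := ι → F) (l := 1) hr2 hrp' hQ (Or.inl h2)
    (by rw [mul_one, hV]; exact hfit) fun heq d' hd' => by
      rw [mul_one, hV] at heq
      obtain rfl : d' = d := by omega
      rw [htype heq]
      simp [SgnPlus, ho]
  rw [mul_one, ← ho] at hfd
  obtain ⟨x, hxf⟩ := exists_gl f (Function.LeftInverse.injective (g := f ^ (r - 1)) fun v => by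
    rw [← Module.End.mul_apply, ← pow_succ, Nat.sub_add_cancel hrp.one_le, hfr]; rfl)
  have hxr : x ^ r = 1 := gop_inj (by rw [gop_pow, hxf, hfr, gop_one])
  have hxiso : x ∈ Cfsg.isometryGroup F ⇑Q := H5.mem_isometryGroup.2 fun v => by
    rw [← Matrix.toLin'_apply]
    show Q (gop x v) = Q v
    rw [hxf, hfQ]
  have hxΩ : x ∈ Cfsg.Geo.omegaGL ⇑Q :=
    mem_omegaGL_of_semisimple (p := p) hrp hrp' hr2 Q hQ ⟨x, hxiso⟩ (Subtype.ext hxr)
  have hLpos : 0 < Nat.lcm 2 o := Nat.lcm_pos two_pos (H97.orderOf_pos_zmod (F := F) hr)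
  refine ⟨x, hxΩ, ⟨1, by rw [hxr, one_smul]; rfl⟩, fun z hz => ?_, fun g hg hN => ?_⟩
  · have hfz : f = z • 1 := by
      rw [← hxf, gop, hz, map_smul, Matrix.toLin'_one]; rfl
    obtain ⟨v, hv⟩ : ∃ v, Q v ≠ 0 := by
      obtain ⟨i⟩ := ‹Nonempty ι›
      by_contra h
      push Not at h
      have := hQ.1 (Pi.single i 1) fun v => by simp [polar, h]
      simpa using congrFun this i
    have hz2 : z * z = 1 := by
      have h := hfQ v
      rw [hfz, LinearMap.smul_apply, Module.End.one_apply, QuadraticMap.map_smul, smul_eq_mul] at h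
      exact (mul_eq_right₀ hv).1 h
    have hzr : z ^ r = 1 := by
      rw [hfz, smul_pow, one_pow] at hfr
      obtain ⟨i⟩ := ‹Nonempty ι›
      simpa using congrArg (fun g : End F (ι → F) => g (fun _ => 1) i) hfr
    have hz1 : z = 1 := by
      obtain ⟨t, ht⟩ := hrp.odd_of_ne_two hr2
      rwa [ht, pow_succ, pow_mul, sq, hz2, one_pow, one_mul] at hzr
    rw [hfz, hz1, one_smul, movedSpace, sub_self, LinearMap.range_zero, finrank_bot] at hfd
    omega
  · set h := g⁻¹ * x * g with hh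
    have hl : ∀ (a : FK hK) (v : ι → F), gop h (a • v) = a • gop h v := hlin hxr hN
    have hhΩ : h ∈ Cfsg.Geo.omegaGL ⇑Q := mul_mem (mul_mem (inv_mem hg) hxΩ) hg
    have hhr : h ^ r = 1 := by
      have h1 := _root_.conj_pow (i := r) (a := g⁻¹) (b := x)
      rw [inv_inv, hxr, mul_one, inv_mul_cancel] at h1
      exact h1
    let hE : End (FK hK) (ι → F) :=
      { toFun := gop h, map_add' := map_add _, map_smul' := fun a v => hl a v }
    haveI : Module.Finite F (FK hK) := Module.Finite.of_finite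
    haveI : Module.Finite (FK hK) (ι → F) := Module.Finite.of_finite
    have hhP : ∀ v, P (hE v) = P v := by
      intro v
      refine sub_eq_zero.1 (H58.ExtField.eq_zero_of_trace (F := F) fun c => ?_)
      have key : ∀ a : FK hK, Algebra.trace F (FK hK) (a * a * (P (hE v) - P v)) = 0 := fun a => by
        have h1 : Q (gop h (a • v)) = Q (a • v) := isometry_of_mem_omegaGL hhΩ _
        rw [← hPQ, ← hPQ, hl, trQ_apply, trQ_apply, QuadraticMap.map_smul, QuadraticMap.map_smul,
          smul_eq_mul, smul_eq_mul] at h1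
        rw [mul_sub, map_sub]
        exact sub_eq_zero.2 h1
      set D := P (hE v) - P v with hD
      have h3 : Algebra.trace F (FK hK) ((2 : F) • (D * c)) = 0 := by
        rw [show (2 : F) • (D * c) = (c + 1) * (c + 1) * D - c * c * D - 1 * 1 * D by
          rw [Algebra.smul_def, map_ofNat]; ring, map_sub, map_sub, key, key, key]
        simp
      rw [map_smul, smul_eq_mul] at h3
      exact (mul_eq_zero.1 h3).resolve_left h2
    have hpowE : ∀ (n : ℕ) v, (hE ^ n) v = gop (h ^ n) v := by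
      intro n
      induction n with
      | zero => intro v; rw [pow_zero, pow_zero, gop_one]; rfl
      | succ n ih => intro v; rw [pow_succ', pow_succ', gop_mul, Module.End.mul_apply, Module.End.mul_apply, ← ih]; rfl
    have hEr : hE ^ r = 1 := LinearMap.ext fun v => by rw [hpowE, hhr, gop_one]; rfl
    have hrE : (r : FK hK) ≠ 0 := fun h0 => hr ((algebraMap F (FK hK)).injective (by rw [map_natCast, h0, map_zero]))
    obtain ⟨-, -, l, hl', -⟩ := orth_fixed_moved hrE hr2 hP hhP hEr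
    have hdim : finrank F (movedSpace (gop h)) = 2 * finrank (FK hK) (movedSpace hE) := by
      have h1 := Module.finrank_mul_finrank F (FK hK) (movedSpace hE)
      rw [hk] at h1
      rw [h1]
      rfl
    rw [finrank_moved_conj, hxf, hfd, hl'] at hdim
    obtain ⟨m, hm⟩ := Nat.dvd_lcm_left 2 (orderOf (Nat.card (FK hK) : ZMod r))
    rw [hm] at hdim
    rw [lcm_two_eq] at hdim
    split_ifs at hdim with he
    · exact h4 ⟨m * l, by rw [hdim]; ring⟩
    · have ho2 : Odd o := Nat.not_even_iff_odd.1 he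
      obtain ⟨t, ht⟩ := ho2
      have : 2 * o = 4 * (m * l) := by rw [hdim]; ring
      omega

/-- The criterion for quadratic field extension subgroups of orthogonal groups of even dimension. -/
theorem ext_quad_iff (p : ℕ) [Fact p.Prime] [CharP F p] {q : ℕ} (hq : Fintype.card F = q) (hodd : Odd q)
    {Q : QuadraticForm F (ι → F)} (hQ : (polarBilin Q).Nondegenerate) {Qf : (ι → F) → F} (hQf : ⇑Q = Qf) {d : ℕ}
    (hI : Fintype.card ι = 2 * d) (hd : 3 ≤ d) (K : Subalgebra F (Matrix ι ι F)) (hK : IsFieldSubalgebra 2 K)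
    (hKf : Cfsg.Geo.IsSelfAdjointFor (QuadraticMap.polar Qf) K)
    (hΩ : r ∣ (subalgebraNormalizer K).relIndex (Cfsg.Geo.omegaGL Qf)) :
    (∀ x ∈ Cfsg.Geo.omegaGL Qf, (∃ z : F, ((x ^ r : GL ι F) : Matrix ι ι F) = z • (1 : Matrix ι ι F)) →
      (∀ z : F, (x : Matrix ι ι F) ≠ z • (1 : Matrix ι ι F)) →
      ∃ g ∈ Cfsg.Geo.omegaGL Qf, g⁻¹ * x * g ∈ subalgebraNormalizer K) ↔ r = 2 := by
  subst hQf hq
  have h2 : (2 : F) ≠ 0 := Ring.two_ne_zero fun h =>
    Nat.not_even_iff_odd.2 hodd (Nat.even_iff.2 (FiniteField.even_card_iff_char_two.1 h))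
  constructor
  · intro Hall
    by_contra hr2
    obtain ⟨x, hx, hxr, hns, hno⟩ := exists_not_conj p hQ h2 hI hd hK hKf hr2 hΩ
    obtain ⟨g, hg, hgx⟩ := Hall x hx hxr hns
    exact hno g hg hgx
  · rintro rfl x hx ⟨z, hz⟩ _
    exact exists_conj_normalizer h2 hQ hI hd hK hKf hx hz

end Cfsg.Agent.H97.ExtQuad
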