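import Cfsg.Agent.H97.ExtQuadType
import Cfsg.Agent.H97.OrthTwoOdd
import Cfsg.Agent.H98.ExtElusive.Basic

set_option autoImplicit false
set_option linter.unusedSectionVars false
set_option linter.style.haveILetI false

/-!
# Elements with scalar square and quadratic field structures on orthogonal spaces
-/

namespace Cfsg.Agent.H97.ExtQuad

open Module QuadraticMap

universe u v w

variable {F : Type u} [Field F] [Fintype F]

section Transfer

variable {E : Type v} [Field E] [Fintype E] [Algebra F E]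
variable {V : Type w} [AddCommGroup V] [Module F V] [Module E V] [IsScalarTower F E V]

/-- A self-adjoint quadratic extension gives a form over it with the given trace. -/
theorem exists_qf [Finite V] (h2 : (2 : F) ≠ 0) (Q : QuadraticForm F V) (hQ : (polarBilin Q).Nondegenerate)
    (hsa : ∀ (c : E) (x y : V), polar Q (c • x) y = polar Q x (c • y)) :
    ∃ P : QuadraticForm E V, (polarBilin P).Nondegenerate ∧ ∀ v, (trQ (F := F) P) v = Q v := by
  obtain ⟨fB, hfB⟩ := H58.ExtField.Orth.exists_form Q hsa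
  have h2E : (2 : E) ≠ 0 := fun h => h2 ((algebraMap F E).injective (by rw [map_ofNat, h, map_zero]))
  have hcomm : ∀ x y, fB x y = fB y x := fun x y => H58.ExtField.Orth.trace_ext (F := F) fun c => by
    rw [hfB, hfB, hsa, polar_comm]
  have hpol : ∀ x y, polar (H58.ExtField.Orth.qf fB) x y = fB x y := fun x y => by
    rw [H58.ExtField.Orth.qf, LinearMap.BilinMap.polar_toQuadraticMap, LinearMap.smul_apply,
      LinearMap.smul_apply, LinearMap.smul_apply, LinearMap.smul_apply, hcomm y x, smul_eq_mul]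
    field_simp
    ring
  have htr : ∀ x y, polar Q x y = Algebra.trace F E (fB x y) := fun x y => by
    conv_lhs => rw [← one_smul E x, ← hfB, mul_one]
  refine ⟨H58.ExtField.Orth.qf fB, ?_, fun v => ?_⟩
  · have h : ∀ x, (∀ y, polar (H58.ExtField.Orth.qf fB) x y = 0) → x = 0 := fun x hx =>
      hQ.1 x fun y => by rw [polarBilin_apply_apply, htr, ← hpol, hx, map_zero]
    exact ⟨h, fun y hy => h y fun x => (polar_comm _ _ _).trans (hy x)⟩
  · refine mul_left_cancel₀ h2 ?_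
    rw [← H5.polar_self' Q, htr, ← hpol, trQ_apply, H5.polar_self',
      show (2 : E) * H58.ExtField.Orth.qf fB v = (2 : F) • H58.ExtField.Orth.qf fB v by
        rw [Algebra.smul_def, map_ofNat], map_smul, smul_eq_mul]

theorem pair_li {k : E} (hkn : ∀ c : F, k ≠ algebraMap F E c) : LinearIndependent F ![(1 : E), k] := by
  rw [LinearIndependent.pair_iff]
  intro s t hst
  have ht : t = 0 := by
    by_contra ht
    refine hkn (-(t⁻¹ * s)) ?_
    rw [Algebra.algebraMap_eq_smul_one]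
    have : t • k = -(s • (1 : E)) := eq_neg_of_add_eq_zero_right hst
    rw [← inv_smul_smul₀ ht k, this, smul_neg, smul_smul, neg_smul]
  refine ⟨?_, ht⟩
  rw [ht, zero_smul, add_zero] at hst
  exact (smul_eq_zero.1 hst).resolve_right one_ne_zero

/-- Coordinates for a quadratic extension. -/
theorem pair_dec (hk : finrank F E = 2) {k : E} (hkn : ∀ c : F, k ≠ algebraMap F E c) (a : E) :
    ∃ c e : F, a = c • (1 : E) + e • k := by
  haveI : Module.Finite F E := Module.Finite.of_finite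
  have := (pair_li hkn).span_eq_top_of_card_eq_finrank (by simp [hk])
  rw [Matrix.range_cons, Matrix.range_cons, Matrix.range_empty, Set.union_empty, Set.singleton_union] at this
  obtain ⟨c, e, h⟩ := Submodule.mem_span_pair.1 (this.ge (Submodule.mem_top (x := a)))
  exact ⟨c, e, h.symm⟩

/-- A square root of a scalar generating a quadratic extension. -/
theorem exists_sq_generator (hk : finrank F E = 2) (h2 : (2 : F) ≠ 0) :
    ∃ (k : E) (t : F), k * k = algebraMap F E t ∧ (∀ c : F, k ≠ algebraMap F E c) ∧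
      ∀ a : E, ∃ c e : F, a = c • (1 : E) + e • k := by
  haveI : Module.Finite F E := Module.Finite.of_finite
  obtain ⟨k₀, hk₀⟩ : ∃ k₀ : E, ∀ c : F, k₀ ≠ algebraMap F E c := by
    by_contra h
    push Not at h
    have : finrank F E ≤ 1 := finrank_le_one (1 : E) fun a => by
      obtain ⟨c, hc⟩ := h a
      exact ⟨c, by rw [hc, Algebra.algebraMap_eq_smul_one]⟩
    omega
  obtain ⟨c, e, hce⟩ := pair_dec hk hk₀ (k₀ * k₀)
  have hkn : ∀ s : F, k₀ - algebraMap F E (e / 2) ≠ algebraMap F E s := fun s hs =>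
    hk₀ (s + e / 2) (by rw [map_add, ← hs, sub_add_cancel])
  refine ⟨_, c + e / 2 * (e / 2), ?_, hkn, pair_dec hk hkn⟩
  rw [Algebra.smul_def, Algebra.smul_def, mul_one] at hce
  have he : algebraMap F E e = 2 * algebraMap F E (e / 2) := by
    rw [← map_ofNat (algebraMap F E) 2, ← map_mul, mul_div_cancel₀ _ h2]
  rw [map_add, map_mul]
  rw [he] at hce
  linear_combination hce

/-- The algebra map sending the generator to a square root of the same scalar. -/
theorem exists_algHom {k : E} {t : F} (hk : finrank F E = 2) (hkk : k * k = algebraMap F E t)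
    (hkn : ∀ c : F, k ≠ algebraMap F E c) {J : End F V} (hJ : ∀ v, J (J v) = t • v) :
    ∃ φ : E →ₐ[F] End F V, φ k = J := by
  haveI : Module.Finite F E := Module.Finite.of_finite
  have hli := pair_li hkn
  let b := basisOfLinearIndependentOfCardEqFinrank hli (by simp [hk])
  let f : E →ₗ[F] End F V := b.constr F ![1, J]
  have hb : ⇑b = ![(1 : E), k] := coe_basisOfLinearIndependentOfCardEqFinrank hli _
  have hf1 : f 1 = 1 := by
    rw [show (1 : E) = b 0 by rw [hb]; rfl, Basis.constr_basis]; rfl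
  have hfk : f k = J := by
    rw [show k = b 1 by rw [hb]; rfl, Basis.constr_basis]; rfl
  have hdec : ∀ a : E, ∃ c e : F, a = c • (1 : E) + e • k := fun a =>
    ⟨b.repr a 0, b.repr a 1, by
      conv_lhs => rw [← b.sum_repr a, Fin.sum_univ_two, hb]
      rfl⟩
  have hJJ : J * J = t • 1 := LinearMap.ext hJ
  refine ⟨AlgHom.ofLinearMap f hf1 fun a a' => ?_, hfk⟩
  obtain ⟨c, e, rfl⟩ := hdec a
  obtain ⟨c', e', rfl⟩ := hdec a'
  have hprod : (c • (1 : E) + e • k) * (c' • (1 : E) + e' • k) =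
      (c * c' + e * e' * t) • (1 : E) + (c * e' + e * c') • k := by
    simp only [Algebra.smul_def, mul_one, map_add, map_mul]
    linear_combination (algebraMap F E e * algebraMap F E e') * hkk
  rw [hprod]
  simp only [map_add, map_smul, hf1, hfk, add_mul, mul_add, smul_mul_assoc, mul_smul_comm, one_mul, mul_one,
    hJJ, smul_smul]
  module

/-- The space with the module structure of an algebra map. -/
def Syn (_φ : E →ₐ[F] End F V) : Type w := V

instance (φ : E →ₐ[F] End F V) : AddCommGroup (Syn φ) := inferInstanceAs (AddCommGroup V)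

instance (φ : E →ₐ[F] End F V) : Module F (Syn φ) := inferInstanceAs (Module F V)

instance (φ : E →ₐ[F] End F V) [Finite V] : Finite (Syn φ) := inferInstanceAs (Finite V)

noncomputable instance (φ : E →ₐ[F] End F V) : Module E (Syn φ) := Module.compHom V φ.toRingHom

instance (φ : E →ₐ[F] End F V) : IsScalarTower F E (Syn φ) :=
  ⟨fun a c x => LinearMap.congr_fun (map_smul φ a c) (x : V)⟩

/-- Self-adjoint square roots of the same scalar are carried to each other by isometries. -/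
theorem exists_transfer [Finite V] (hk : finrank F E = 2) (h2 : (2 : F) ≠ 0) {Q : QuadraticForm F V}
    (hQ : (polarBilin Q).Nondegenerate) (hsa : ∀ (c : E) (x y : V), polar Q (c • x) y = polar Q x (c • y))
    {k : E} {t : F} (hkk : k * k = algebraMap F E t) (hkn : ∀ c : F, k ≠ algebraMap F E c)
    {J : End F V} (hJ : ∀ v, J (J v) = t • v) (hJsa : ∀ u v, polar Q (J u) v = polar Q u (J v)) :
    ∃ g : H5.orth Q, ∀ v, (g : V ≃ₗ[F] V) (k • v) = J ((g : V ≃ₗ[F] V) v) := by
  obtain ⟨φ, hφ⟩ := exists_algHom hk hkk hkn hJ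
  have hadj : ∀ (c : E) (u v : V), polar Q (φ c u) v = polar Q u (φ c v) := by
    intro c u v
    obtain ⟨a, e, rfl⟩ := pair_dec hk hkn c
    simp only [map_add, map_smul, map_one, hφ, LinearMap.add_apply, LinearMap.smul_apply, Module.End.one_apply,
      polar_add_left, polar_add_right, polar_smul_left, polar_smul_right, hJsa]
  let Q' : QuadraticForm F (Syn φ) := Q
  obtain ⟨P, hP, hPQ⟩ := exists_qf h2 Q hQ hsa
  obtain ⟨P', hP', hPQ'⟩ := exists_qf (V := Syn φ) h2 Q' hQ fun c x y => hadj c x y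
  let e₀ : V ≃ₗ[F] Syn φ := LinearEquiv.refl F V
  obtain ⟨g, hg⟩ := isom_of_trQ hk h2 hP hP' e₀ fun v => (hPQ' _).trans (hPQ v).symm
  let g' : V ≃ₗ[F] V := (g.restrictScalars F).trans e₀.symm
  refine ⟨⟨g', fun v => ?_⟩, fun v => ?_⟩
  · show Q' (g v) = Q v
    rw [← hPQ', trQ_apply, hg, ← trQ_apply, hPQ]
  · show g (k • v) = J (g v : V)
    rw [map_smul]
    show φ k (g v : V) = _
    rw [hφ]

end Transfer

section Planes

variable {V : Type u} [AddCommGroup V] [Module F V] [FiniteDimensional F V]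

theorem span_pair_nondeg {Q : QuadraticForm F V} (h2 : (2 : F) ≠ 0) {v w : V} (hv : Q v ≠ 0) (hw : Q w ≠ 0)
    (hvw : polar Q v w = 0) :
    NondegOn (polarBilin Q) (Submodule.span F {v, w}) ∧ finrank F (Submodule.span F {v, w}) = 2 := by
  have hB : ∀ a b : F, polar Q (a • v + b • w) v = a * (2 * Q v) ∧ polar Q (a • v + b • w) w = b * (2 * Q w) := by
    intro a b
    constructor <;>
      simp only [polar_add_left, polar_smul_left, H5.polar_self', hvw, polar_comm Q w v, smul_eq_mul,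
        mul_zero, add_zero, zero_add]
  constructor
  · intro y hy h0
    obtain ⟨a, b, rfl⟩ := mem_span_pair'.1 hy
    have e1 : polar Q (a • v + b • w) v = 0 := h0 v (Submodule.mem_span_of_mem (by simp))
    have e2 : polar Q (a • v + b • w) w = 0 := h0 w (Submodule.mem_span_of_mem (by simp))
    rw [(hB a b).1] at e1
    rw [(hB a b).2] at e2
    obtain rfl : a = 0 := by simpa [h2, hv] using e1
    obtain rfl : b = 0 := by simpa [h2, hw] using e2
    simp
  · rw [show ({v, w} : Set V) = Set.range ![v, w] by simp [Set.pair_comm], finrank_span_eq_card,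
      Fintype.card_fin]
    refine LinearIndependent.pair_iff.2 fun a b hab => ?_
    have e1 := (hB a b).1
    have e2 := (hB a b).2
    rw [hab, polar_zero_left] at e1 e2
    exact ⟨by simpa [h2, hv] using e1.symm, by simpa [h2, hw] using e2.symm⟩

/-- Orthogonal families of planes in an invariant subspace. -/
theorem exists_planes (h2 : (2 : F) ≠ 0) {Q : QuadraticForm F V} {x : End F V} (hxQ : ∀ v, Q (x v) = Q v)
    (hinj : Function.Injective x) (Rel : V → V → Prop)
    (hRel : ∀ v w, Rel v w → x v ∈ Submodule.span F {v, w} ∧ x w ∈ Submodule.span F {v, w}) :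
    ∀ (n : ℕ) (P : Submodule F V), P.map x ≤ P → NondegOn (polarBilin Q) P → finrank F P = 2 * n →
      (∀ R : Submodule F V, R ≤ P → R.map x ≤ R → NondegOn (polarBilin Q) R → 2 ≤ finrank F R →
        ∃ v ∈ R, ∃ w ∈ R, Q v ≠ 0 ∧ Q w ≠ 0 ∧ polar Q v w = 0 ∧ Rel v w) →
      ∃ W : Fin n → Fin 2 → V, (∀ i j, W i j ∈ P) ∧
        (∀ p q : Fin n × Fin 2, p ≠ q → polar Q (W p.1 p.2) (W q.1 q.2) = 0) ∧
        (∀ i j, Q (W i j) ≠ 0) ∧ ∀ i, Rel (W i 0) (W i 1) := by
  intro n
  induction n with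
  | zero =>
    exact fun P _ _ _ _ => ⟨fun i => i.elim0, fun i => i.elim0, fun p => p.1.elim0, fun i => i.elim0,
      fun i => i.elim0⟩
  | succ n ih =>
    intro P hPx hP hn hstep
    obtain ⟨v, hv, w, hw, hQv, hQw, hvw, hr⟩ := hstep P le_rfl hPx hP (by omega)
    obtain ⟨hT, hTd⟩ := span_pair_nondeg h2 hQv hQw hvw
    set T := Submodule.span F {v, w} with hTdef
    have hTP : T ≤ P := Submodule.span_le.2 (Set.insert_subset hv (Set.singleton_subset_iff.2 hw))
    have hTx : T.map x ≤ T := by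
      rw [hTdef, Submodule.map_span_le]
      rintro y (rfl | hy)
      · exact (hRel _ _ hr).1
      · rw [Set.mem_singleton_iff.1 hy]; exact (hRel _ _ hr).2
    obtain ⟨R, hRP, hRx, hR, -, hsum, ho⟩ := nondegOn_split_inv (polarBilin_isRefl Q)
      (isometry_polarBilin hxQ) hinj hTP hPx hTx hP hT
    have hdim := (hT.sup (polarBilin_isRefl Q) hR ho).2
    rw [hsum, hTd] at hdim
    obtain ⟨W, hW, hWo, hWq, hWr⟩ := ih R hRx hR (by omega) fun S hS => hstep S (hS.trans hRP)
    have hTW : ∀ (i : Fin n) (j j' : Fin 2), polar Q (![v, w] j) (W i j') = 0 := fun i j j' => by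
      refine ho _ ?_ _ (hW i j')
      fin_cases j <;> exact Submodule.mem_span_of_mem (by simp)
    refine ⟨Fin.cons ![v, w] W, fun i j => ?_, fun p q hpq => ?_, fun i j => ?_, fun i => ?_⟩
    · refine Fin.cases ?_ (fun i => ?_) i
      · fin_cases j <;> assumption
      · exact hRP (hW i j)
    · obtain ⟨i, j⟩ := p
      obtain ⟨i', j'⟩ := q
      rcases Fin.eq_zero_or_eq_succ i with rfl | ⟨a, rfl⟩ <;>
        rcases Fin.eq_zero_or_eq_succ i' with rfl | ⟨a', rfl⟩
      · fin_cases j <;> fin_cases j' <;> first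
          | exact absurd rfl hpq
          | exact hvw
          | exact (polar_comm _ _ _).trans hvw
      · exact hTW a' j j'
      · exact (polar_comm _ _ _).trans (hTW a j' j)
      · exact hWo (a, j) (a', j') fun h => hpq (by rw [Prod.mk.injEq] at h; rw [h.1, h.2])
    · refine Fin.cases ?_ (fun i => ?_) i
      · fin_cases j <;> assumption
      · exact hWq i j
    · refine Fin.cases ?_ (fun i => ?_) i
      · exact hr
      · exact hWr i

variable {κ : Type} [Fintype κ] [DecidableEq κ]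

/-- A family of orthogonal planes spanning the space. -/
structure PlaneBasis (Q : QuadraticForm F V) (κ : Type) where
  b : Basis (κ × Fin 2) F V
  ortho : ∀ p q, p ≠ q → polar Q (b p) (b q) = 0
  ne : ∀ p, Q (b p) ≠ 0

theorem exists_planeBasis {Q : QuadraticForm F V} (h2 : (2 : F) ≠ 0) [Nonempty κ] (W : κ → Fin 2 → V)
    (ho : ∀ p q : κ × Fin 2, p ≠ q → polar Q (W p.1 p.2) (W q.1 q.2) = 0) (hq : ∀ i j, Q (W i j) ≠ 0)
    (hcard : 2 * Fintype.card κ = finrank F V) :
    ∃ D : PlaneBasis Q κ, ∀ i j, D.b (i, j) = W i j := by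
  have hli : LinearIndependent F fun p : κ × Fin 2 => W p.1 p.2 :=
    LinearMap.BilinForm.linearIndependent_of_iIsOrtho (B := polarBilin Q)
      (fun p q hpq => ho p q hpq) fun p h => by
        have h' : polar Q (W p.1 p.2) (W p.1 p.2) = 0 := h
        rw [H5.polar_self'] at h'
        exact hq p.1 p.2 ((mul_eq_zero.1 h').resolve_left h2)
  let b := basisOfLinearIndependentOfCardEqFinrank hli (by simp; omega)
  have hb : ∀ p, b p = W p.1 p.2 := fun p => by
    rw [coe_basisOfLinearIndependentOfCardEqFinrank hli]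
  exact ⟨⟨b, fun p q h => by rw [hb, hb]; exact ho p q h, fun p => by rw [hb]; exact hq _ _⟩,
    fun i j => hb (i, j)⟩

namespace PlaneBasis

variable {Q : QuadraticForm F V} (D : PlaneBasis Q κ)

/-- The planes. -/
def plane (i : κ) : Submodule F V := Submodule.span F {D.b (i, 0), D.b (i, 1)}

theorem mem_plane {i : κ} (j : Fin 2) : D.b (i, j) ∈ D.plane i := by
  fin_cases j <;> exact Submodule.mem_span_of_mem (by simp)

theorem polar_plane {i l : κ} (h : i ≠ l) {u w : V} (hu : u ∈ D.plane i) (hw : w ∈ D.plane l) :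
    polar Q u w = 0 := by
  obtain ⟨a, b, rfl⟩ := mem_span_pair'.1 hu
  obtain ⟨c, e, rfl⟩ := mem_span_pair'.1 hw
  have h0 : ∀ j j', polar Q (D.b (i, j)) (D.b (l, j')) = 0 := fun j j' =>
    D.ortho _ _ fun e => h (congrArg Prod.fst e)
  simp only [polar_add_left, polar_add_right, polar_smul_left, polar_smul_right, h0, smul_zero, add_zero]

theorem exists_sqrt (h2 : (2 : F) ≠ 0) (t : F) :
    ∀ i, ∃ α β γ : F, Q (D.b (i, 0)) * β = Q (D.b (i, 1)) * γ ∧ α ^ 2 + β * γ = t := by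
  intro i
  classical
  obtain ⟨α, γ, h⟩ := FiniteField.exists_root_sum_quadratic
    (f := Polynomial.X ^ 2 - Polynomial.C t)
    (g := Polynomial.C (Q (D.b (i, 1)) / Q (D.b (i, 0))) * Polynomial.X ^ 2)
    (Polynomial.degree_X_pow_sub_C (by norm_num) t)
    (by rw [Polynomial.degree_C_mul_X_pow 2 (div_ne_zero (D.ne _) (D.ne _))]; rfl)
    (H4.odd_card_of_two_ne_zero h2)
  simp only [Polynomial.eval_sub, Polynomial.eval_pow, Polynomial.eval_X, Polynomial.eval_C,
    Polynomial.eval_mul] at h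
  have h0 := D.ne (i, 0)
  refine ⟨α, Q (D.b (i, 1)) / Q (D.b (i, 0)) * γ, γ, by field_simp, ?_⟩
  linear_combination h

/-- The square root with prescribed coefficients on each plane. -/
noncomputable def root (α β γ : κ → F) : End F V :=
  D.b.constr F fun p => ![α p.1 • D.b (p.1, 0) + γ p.1 • D.b (p.1, 1),
    β p.1 • D.b (p.1, 0) - α p.1 • D.b (p.1, 1)] p.2

theorem root_zero (α β γ : κ → F) (i : κ) :
    D.root α β γ (D.b (i, 0)) = α i • D.b (i, 0) + γ i • D.b (i, 1) := by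
  rw [root, Basis.constr_basis]; rfl

theorem root_one (α β γ : κ → F) (i : κ) :
    D.root α β γ (D.b (i, 1)) = β i • D.b (i, 0) - α i • D.b (i, 1) := by
  rw [root, Basis.constr_basis]; rfl

theorem root_sq {α β γ : κ → F} {t : F} (h : ∀ i, α i ^ 2 + β i * γ i = t) (v : V) :
    D.root α β γ (D.root α β γ v) = t • v := by
  suffices D.root α β γ * D.root α β γ = t • 1 from LinearMap.congr_fun this v
  refine D.b.ext fun p => ?_
  obtain ⟨i, j⟩ := p
  rw [Module.End.mul_apply, LinearMap.smul_apply, Module.End.one_apply, ← h i]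
  fin_cases j <;> simp only [Fin.isValue, Fin.zero_eta, Fin.mk_one]
  · rw [root_zero, map_add, map_smul, map_smul, root_zero, root_one]
    match_scalars <;> ring
  · rw [root_one, map_sub, map_smul, map_smul, root_zero, root_one]
    match_scalars <;> ring

theorem root_mem (α β γ : κ → F) {i : κ} {v : V} (hv : v ∈ D.plane i) : D.root α β γ v ∈ D.plane i := by
  obtain ⟨a, b, rfl⟩ := mem_span_pair'.1 hv
  rw [map_add, map_smul, map_smul, root_zero, root_one]
  exact mem_span_pair'.2 ⟨a * α i + b * β i, a * γ i - b * α i, by module⟩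

theorem root_adj {α β γ : κ → F} (h : ∀ i, Q (D.b (i, 0)) * β i = Q (D.b (i, 1)) * γ i) (u v : V) :
    polar Q (D.root α β γ u) v = polar Q u (D.root α β γ v) := by
  suffices (polarBilin Q).comp (D.root α β γ) = (polarBilin Q).compl₂ (D.root α β γ) from
    LinearMap.congr_fun₂ this u v
  refine D.b.ext fun p => D.b.ext fun q => ?_
  show polar Q (D.root α β γ (D.b p)) (D.b q) = polar Q (D.b p) (D.root α β γ (D.b q))
  obtain ⟨i, j⟩ := p
  obtain ⟨l, j'⟩ := q
  by_cases hil : i = l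
  · subst hil
    have h01 : polar Q (D.b (i, 0)) (D.b (i, 1)) = 0 := D.ortho _ _ fun e => by simp at e
    have h10 : polar Q (D.b (i, 1)) (D.b (i, 0)) = 0 := (polar_comm _ _ _).trans h01
    fin_cases j <;> fin_cases j' <;>
      simp only [Fin.isValue, Fin.mk_one, Fin.zero_eta, root_zero, root_one, polar_add_left, polar_add_right,
        polar_sub_left, polar_sub_right, polar_smul_left, polar_smul_right, H5.polar_self', h01, h10,
        smul_eq_mul, mul_zero, add_zero, zero_add, sub_zero, zero_sub] <;>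
      first
        | ring1
        | linear_combination (2 : F) * h i
        | linear_combination (-2 : F) * h i
  · rw [D.polar_plane hil (D.root_mem α β γ (D.mem_plane j)) (D.mem_plane j'),
      D.polar_plane hil (D.mem_plane j) (D.root_mem α β γ (D.mem_plane j'))]

/-- Elements that agree with a given one up to a scalar on each plane. -/
def Twist (x y : H5.orth Q) : Prop :=
  ∃ δ : κ → F, ∀ (i : κ), ∀ v ∈ D.plane i, (y : V ≃ₗ[F] V) v = δ i • (x : V ≃ₗ[F] V) v

theorem twist_self (x : H5.orth Q) : D.Twist x x := ⟨fun _ => 1, fun _ _ _ => by rw [one_smul]⟩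

theorem twist_conj {x y : H5.orth Q} (hxP : ∀ i, ∀ v ∈ D.plane i, (x : V ≃ₗ[F] V) v ∈ D.plane i)
    {i₀ : κ} {a : V} (ha : a ∈ D.plane i₀)
    (hμ : ∃ μ : F, ∀ v ∈ D.plane i₀,
      (H5.refl Q a : V ≃ₗ[F] V) ((x : V ≃ₗ[F] V) ((H5.refl Q a : V ≃ₗ[F] V) v)) = μ • (x : V ≃ₗ[F] V) v)
    (h : D.Twist x y) : D.Twist x (H5.refl Q a * y * (H5.refl Q a)⁻¹) := by
  obtain ⟨δ, hδ⟩ := h
  obtain ⟨μ, hμ⟩ := hμ
  refine ⟨Function.update δ i₀ (δ i₀ * μ), fun i v hv => ?_⟩
  rw [H5.refl_inv, H5.orth_mul_apply, H5.orth_mul_apply]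
  by_cases hi : i = i₀
  · subst hi
    have hrv : (H5.refl Q a : V ≃ₗ[F] V) v ∈ D.plane i := by
      rw [H5.refl_apply]
      exact Submodule.sub_mem _ hv (Submodule.smul_mem _ _ ha)
    rw [Function.update_self, hδ i _ hrv, map_smul, hμ v hv, smul_smul]
  · have h1 : polar Q a v = 0 := D.polar_plane (Ne.symm hi) ha hv
    have h2 : polar Q a ((x : V ≃ₗ[F] V) v) = 0 := D.polar_plane (Ne.symm hi) ha (hxP i v hv)
    rw [Function.update_of_ne hi, H5.refl_apply_of_ortho h1, hδ i v hv, map_smul,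
      H5.refl_apply_of_ortho h2]

theorem twist_comm {x y : H5.orth Q} {J : End F V} (hJP : ∀ i, ∀ v ∈ D.plane i, J v ∈ D.plane i) {σ : F}
    (hxJ : ∀ p, (x : V ≃ₗ[F] V) (J (D.b p)) = σ • J ((x : V ≃ₗ[F] V) (D.b p))) (h : D.Twist x y) (v : V) :
    (y : V ≃ₗ[F] V) (J v) = σ • J ((y : V ≃ₗ[F] V) v) := by
  obtain ⟨δ, hδ⟩ := h
  suffices ((y : V ≃ₗ[F] V) : V →ₗ[F] V) ∘ₗ J = σ • (J ∘ₗ ((y : V ≃ₗ[F] V) : V →ₗ[F] V)) from
    LinearMap.congr_fun this v
  refine D.b.ext fun p => ?_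
  show (y : V ≃ₗ[F] V) (J (D.b p)) = σ • J ((y : V ≃ₗ[F] V) (D.b p))
  rw [hδ p.1 _ (hJP p.1 _ (D.mem_plane p.2)), hδ p.1 _ (D.mem_plane p.2), hxJ, map_smul, smul_comm]

/-- Conjugates of every class commuting up to the same sign. -/
theorem exists_cover [Finite V] (h2 : (2 : F) ≠ 0) (hQ : (polarBilin Q).Nondegenerate)
    (hF : Nat.card F ≠ 2 ∨ finrank F V ≠ 4) {x : H5.orth Q}
    (hxP : ∀ i, ∀ v ∈ D.plane i, (x : V ≃ₗ[F] V) v ∈ D.plane i) {J : End F V}
    (hJP : ∀ i, ∀ v ∈ D.plane i, J v ∈ D.plane i) {σ : F}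
    (hxJ : ∀ p, (x : V ≃ₗ[F] V) (J (D.b p)) = σ • J ((x : V ≃ₗ[F] V) (D.b p))) (i₀ : κ)
    (hμ : ∀ a ∈ D.plane i₀, Q a ≠ 0 → ∃ μ : F, ∀ v ∈ D.plane i₀,
      (H5.refl Q a : V ≃ₗ[F] V) ((x : V ≃ₗ[F] V) ((H5.refl Q a : V ≃ₗ[F] V) v)) = μ • (x : V ≃ₗ[F] V) v)
    (p : ℤˣ × ℤˣ) :
    ∃ s : H5.orth Q, H5.signPair hQ hF s = p ∧
      ∀ v, ((s * x * s⁻¹ : H5.orth Q) : V ≃ₗ[F] V) (J v) =
        σ • J (((s * x * s⁻¹ : H5.orth Q) : V ≃ₗ[F] V) v) := by
  classical
  obtain ⟨hPn, hPd⟩ := span_pair_nondeg h2 (D.ne (i₀, 0)) (D.ne (i₀, 1)) (D.ortho _ _ fun e => by simp at e)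
  have hrep : ∀ c : F, ∃ a ∈ D.plane i₀, Q a = c := fun c => by
    obtain ⟨a, ha⟩ := H5.exists_norm_eq (Q := Q.comp (D.plane i₀).subtype) h2
      (restrictQ_nondegenerate hPn) hPd.ge c
    exact ⟨a, a.2, ha⟩
  obtain ⟨n, hn⟩ := H5.exists_not_isSquare h2
  obtain ⟨a, haP, ha⟩ := hrep 1
  obtain ⟨b, hbP, hb⟩ := hrep n
  have ha0 : Q a ≠ 0 := by rw [ha]; exact one_ne_zero
  have hb0 : Q b ≠ 0 := by rw [hb]; rintro rfl; exact hn IsSquare.zero
  have hsa : H5.signPair hQ hF (H5.refl Q a) = (-1, 1) := by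
    rw [H5.signPair_apply, H5.dick_refl hQ ha0, H5.spin_refl ha0, ha, H5.sqc_one]
  have hsb : H5.signPair hQ hF (H5.refl Q b) = (-1, -1) := by
    rw [H5.signPair_apply, H5.dick_refl hQ hb0, H5.spin_refl hb0, hb, H5.sqc_eq_neg_one_iff.2 hn]
  have key : ∀ {y}, D.Twist x y → ∀ v, (y : V ≃ₗ[F] V) (J v) = σ • J ((y : V ≃ₗ[F] V) v) :=
    fun h v => D.twist_comm hJP hxJ h v
  have hA : ∀ {y}, D.Twist x y → D.Twist x (H5.refl Q a * y * (H5.refl Q a)⁻¹) :=
    fun h => D.twist_conj hxP haP (hμ a haP ha0) h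
  have hB : ∀ {y}, D.Twist x y → D.Twist x (H5.refl Q b * y * (H5.refl Q b)⁻¹) :=
    fun h => D.twist_conj hxP hbP (hμ b hbP hb0) h
  obtain ⟨p₁, p₂⟩ := p
  rcases Int.units_eq_one_or p₁ with rfl | rfl <;> rcases Int.units_eq_one_or p₂ with rfl | rfl
  · exact ⟨1, map_one _, key (by simpa using D.twist_self x)⟩
  · refine ⟨H5.refl Q a * H5.refl Q b, by rw [map_mul, hsa, hsb]; rfl, key ?_⟩
    have := hA (hB (D.twist_self x))
    simpa [mul_assoc, mul_inv_rev] using this
  · exact ⟨_, hsa, key (hA (D.twist_self x))⟩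
  · exact ⟨_, hsb, key (hB (D.twist_self x))⟩

end PlaneBasis

/-- A plane structure for an element squaring to `-1`. -/
theorem exists_neg_planes (h2 : (2 : F) ≠ 0) {Q : QuadraticForm F V} (hQ : (polarBilin Q).Nondegenerate)
    {d : ℕ} (hd : finrank F V = 2 * d) (hd0 : 0 < d) {x : End F V} (hxQ : ∀ v, Q (x v) = Q v)
    (hx : ∀ v, x (x v) = -v) :
    ∃ D : PlaneBasis Q (Fin d), ∀ i, x (D.b (i, 0)) = D.b (i, 1) ∧ x (D.b (i, 1)) = -D.b (i, 0) := by
  haveI : Nonempty (Fin d) := ⟨⟨0, hd0⟩⟩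
  have hinj : Function.Injective x := fun a b h => by
    have := congrArg x h; rw [hx, hx] at this; exact neg_inj.1 this
  obtain ⟨W, -, hWo, hWq, hWr⟩ := exists_planes h2 hxQ hinj (fun v w => x v = w)
    (fun v w h => ⟨by rw [h]; exact Submodule.mem_span_of_mem (by simp),
      by rw [← h, hx]; exact Submodule.neg_mem _ (Submodule.mem_span_of_mem (by simp))⟩)
    d ⊤ le_top (nondegOn_top hQ) (by rw [finrank_top, hd]) fun R _ hRx hR hR2 => by
      obtain ⟨v, hv, hQv, hxv, -⟩ := exists_plane_sq h2 hxQ hx hRx hR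
        (fun h => by rw [h, finrank_bot] at hR2; omega)
      exact ⟨v, hv, x v, hRx ⟨v, hv, rfl⟩, hQv, by rw [hxQ]; exact hQv, hxv, rfl⟩
  obtain ⟨D, hD⟩ := exists_planeBasis h2 W hWo hWq (by rw [Fintype.card_fin, hd])
  exact ⟨D, fun i => ⟨by rw [hD, hD]; exact hWr i, by rw [hD, hD, ← hWr i, hx]⟩⟩

/-- A plane structure for an involution with trivial Dickson invariant. -/
theorem exists_pos_planes (h2 : (2 : F) ≠ 0) {Q : QuadraticForm F V} (hQ : (polarBilin Q).Nondegenerate)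
    {d : ℕ} (hd : finrank F V = 2 * d) (hd0 : 0 < d) (x : H5.orth Q) (hdick : H5.dick x = 1)
    (hx : ∀ v, (x : V ≃ₗ[F] V) ((x : V ≃ₗ[F] V) v) = v) :
    ∃ (n m : ℕ) (D : PlaneBasis Q (Fin n ⊕ Fin m)) (ε : Fin n ⊕ Fin m → F),
      Nonempty (Fin n ⊕ Fin m) ∧ ∀ i j, (x : V ≃ₗ[F] V) (D.b (i, j)) = ε i • D.b (i, j) := by
  let f : End F V := ((x : V ≃ₗ[F] V) : V →ₗ[F] V)
  let A : Submodule F V := LinearMap.ker (f - 1)
  let B : Submodule F V := LinearMap.ker (f + 1)
  have hA' : ∀ v, v ∈ A ↔ f v = v := fun v => by simp [A, sub_eq_zero]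
  have hB' : ∀ v, v ∈ B ↔ f v = -v := fun v => by simp [B, add_eq_zero_iff_eq_neg]
  have hxx : ∀ v, f (f v) = v := hx
  have hsum : ∀ v, v + f v ∈ A ∧ v - f v ∈ B ∧ (2 : F)⁻¹ • (v + f v) + (2 : F)⁻¹ • (v - f v) = v := fun v => by
    refine ⟨(hA' _).2 (by rw [map_add, hxx]; abel), (hB' _).2 (by rw [map_sub, hxx]; abel), ?_⟩
    rw [← smul_add, show v + f v + (v - f v) = (2 : F) • v by rw [two_smul]; abel, smul_smul,
      inv_mul_cancel₀ h2, one_smul]
  have ho : ∀ a ∈ A, ∀ b ∈ B, polar Q a b = 0 := fun a ha b hb => by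
    have h : polar Q (f a) (f b) = polar Q a b := H5.orth_polar x a b
    rw [(hA' a).1 ha, (hB' b).1 hb, polar_neg_right] at h
    exact (mul_eq_zero.1 (show (2 : F) * polar Q a b = 0 by linear_combination -h)).resolve_left h2
  have hsup : ∀ w, ∃ a ∈ A, ∃ b ∈ B, a + b = w := fun w => by
    obtain ⟨h1, h2, h3⟩ := hsum w
    exact ⟨_, A.smul_mem _ h1, _, B.smul_mem _ h2, h3⟩
  have hnA : NondegOn (polarBilin Q) A := fun v hv h => hQ.1 v fun w => by
    obtain ⟨a, ha, b, hb, rfl⟩ := hsup w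
    have h1 : polar Q v a = 0 := h a ha
    rw [polarBilin_apply_apply, polar_add_right, h1, ho v hv b hb, add_zero]
  have hnB : NondegOn (polarBilin Q) B := fun v hv h => hQ.1 v fun w => by
    obtain ⟨a, ha, b, hb, rfl⟩ := hsup w
    have h1 : polar Q v b = 0 := h b hb
    rw [polarBilin_apply_apply, polar_add_right, h1, polar_comm, ho a ha v hv, add_zero]
  have hAB : finrank F A + finrank F B = finrank F V := by
    refine Submodule.finrank_add_eq_of_isCompl ⟨?_, codisjoint_iff.2 (eq_top_iff.2 fun w _ => ?_)⟩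
    · rw [Submodule.disjoint_def]
      intro v hv hv'
      have h1 : (2 : F) • v = 0 := by
        rw [two_smul]; nth_rw 1 [← (hA' v).1 hv]; rw [(hB' v).1 hv', neg_add_cancel]
      exact (smul_eq_zero.1 h1).resolve_left h2
    · obtain ⟨a, ha, b, hb, rfl⟩ := hsup w
      exact Submodule.add_mem_sup ha hb
  have hres : H5.resid x = B := by
    refine le_antisymm ?_ fun b hb => ⟨-((2 : F)⁻¹ • b), ?_⟩
    · rintro _ ⟨v, rfl⟩
      refine (hB' _).2 ?_
      rw [H5.dLin_apply]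
      show f (f v - v) = -(f v - v)
      rw [map_sub, hxx]; abel
    · rw [H5.dLin_apply]
      show f (-((2 : F)⁻¹ • b)) - -((2 : F)⁻¹ • b) = b
      rw [map_neg, map_smul, (hB' b).1 hb, smul_neg, neg_neg, sub_neg_eq_add, ← add_smul, ← two_mul,
        mul_inv_cancel₀ h2, one_smul]
  obtain ⟨m, hm⟩ : Even (finrank F B) := by
    by_contra hodd
    rw [H5.dick, H5.rk, hres, (Nat.not_even_iff_odd.1 hodd).neg_one_pow] at hdick
    exact absurd hdick (by decide)
  obtain ⟨n, hn⟩ : ∃ n, finrank F A = 2 * n := ⟨d - m, by omega⟩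
  have hfQ : ∀ v, Q (f v) = Q v := fun v => x.2 v
  have hinj : Function.Injective f := (x : V ≃ₗ[F] V).injective
  have pick : ∀ R : Submodule F V, NondegOn (polarBilin Q) R → 2 ≤ finrank F R →
      ∃ v ∈ R, ∃ w ∈ R, Q v ≠ 0 ∧ Q w ≠ 0 ∧ polar Q v w = 0 := by
    intro R hR hR2
    have key : ∀ S : Submodule F V, NondegOn (polarBilin Q) S → 0 < finrank F S → ∃ v ∈ S, Q v ≠ 0 := by
      intro S hS hS0
      by_contra h
      push Not at h
      obtain ⟨u, hu, hu0⟩ := (Submodule.ne_bot_iff S).1 fun h => by rw [h, finrank_bot] at hS0; omega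
      refine hu0 (hS u hu fun w hw => ?_)
      show polar Q u w = 0
      rw [polar, h _ (S.add_mem hu hw), h u hu, h w hw, sub_zero, sub_zero]
    obtain ⟨v, hv, hQv⟩ := key R hR (by omega)
    have hT : NondegOn (polarBilin Q) (F ∙ v) := by
      intro y hy h0
      obtain ⟨c, rfl⟩ := Submodule.mem_span_singleton.1 hy
      have h1 : polar Q (c • v) v = 0 := h0 v (Submodule.mem_span_singleton_self v)
      rw [polar_smul_left, H5.polar_self', smul_eq_mul] at h1
      rw [(mul_eq_zero.1 h1).resolve_right (mul_ne_zero h2 hQv), zero_smul]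
    obtain ⟨S, hSR, -, hS, -, hsumS, hoS⟩ := nondegOn_split_inv (polarBilin_isRefl Q) (x := (1 : End F V))
      (fun a b => rfl) (fun a b h => h) ((Submodule.span_singleton_le_iff_mem _ _).2 hv)
      (map_le_of_fixed fun v _ => rfl) (map_le_of_fixed fun v _ => rfl) hR hT
    have hdim := (hT.sup (polarBilin_isRefl Q) hS hoS).2
    rw [hsumS, finrank_span_singleton (fun h => hQv (by rw [h, QuadraticMap.map_zero]))] at hdim
    obtain ⟨w, hw, hQw⟩ := key S hS (by omega)
    exact ⟨v, hv, w, hSR hw, hQv, hQw, hoS v (Submodule.mem_span_singleton_self v) w hw⟩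
  have mem : ∀ (c : F) (v w : V), f v = c • v ∧ f w = c • w →
      f v ∈ Submodule.span F {v, w} ∧ f w ∈ Submodule.span F {v, w} := fun c v w h =>
    ⟨by rw [h.1]; exact Submodule.smul_mem _ _ (Submodule.mem_span_of_mem (by simp)),
      by rw [h.2]; exact Submodule.smul_mem _ _ (Submodule.mem_span_of_mem (by simp))⟩
  obtain ⟨WA, hWA, hWAo, hWAq, hWAr⟩ := exists_planes h2 hfQ hinj _ (mem 1) n A
    (map_le_of_fixed fun v hv => (hA' v).1 hv) hnA hn fun R hR _ hRn hR2 => by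
      obtain ⟨v, hv, w, hw, h3, h4, h5⟩ := pick R hRn hR2
      exact ⟨v, hv, w, hw, h3, h4, h5, by rw [one_smul]; exact (hA' v).1 (hR hv),
        by rw [one_smul]; exact (hA' w).1 (hR hw)⟩
  obtain ⟨WB, hWB, hWBo, hWBq, hWBr⟩ := exists_planes h2 hfQ hinj _ (mem (-1)) m B
    (by rintro _ ⟨v, hv, rfl⟩; rw [(hB' v).1 hv]; exact B.neg_mem hv) hnB (by omega) fun R hR _ hRn hR2 => by
      obtain ⟨v, hv, w, hw, h3, h4, h5⟩ := pick R hRn hR2
      exact ⟨v, hv, w, hw, h3, h4, h5, by rw [neg_one_smul]; exact (hB' v).1 (hR hv),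
        by rw [neg_one_smul]; exact (hB' w).1 (hR hw)⟩
  haveI : Nonempty (Fin n ⊕ Fin m) := by
    rcases Nat.eq_zero_or_pos n with h | h
    · exact ⟨Sum.inr ⟨0, by omega⟩⟩
    · exact ⟨Sum.inl ⟨0, h⟩⟩
  obtain ⟨D, hD⟩ := exists_planeBasis (Q := Q) h2 (Sum.elim WA WB)
    (by
      rintro ⟨i | i, j⟩ ⟨l | l, j'⟩ hpq
      · exact hWAo (i, j) (l, j') fun h => hpq (by rw [Prod.mk.injEq] at h; rw [h.1, h.2])
      · exact ho _ (hWA i j) _ (hWB l j')
      · exact (polar_comm _ _ _).trans (ho _ (hWA l j') _ (hWB i j))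
      · exact hWBo (i, j) (l, j') fun h => hpq (by rw [Prod.mk.injEq] at h; rw [h.1, h.2]))
    (by rintro (i | i) j; exacts [hWAq i j, hWBq i j])
    (by rw [Fintype.card_sum, Fintype.card_fin, Fintype.card_fin]; omega)
  refine ⟨n, m, D, Sum.elim (fun _ => 1) (fun _ => -1), inferInstance, fun i j => ?_⟩
  rw [hD]
  rcases i with i | i <;> fin_cases j
  exacts [(hWAr i).1, (hWAr i).2, (hWBr i).1, (hWBr i).2]

/-- Elements with scalar square are covered by self-adjoint square roots. -/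
theorem exists_root_cover [Finite V] (h2 : (2 : F) ≠ 0) {Q : QuadraticForm F V}
    (hQ : (polarBilin Q).Nondegenerate) (hF : Nat.card F ≠ 2 ∨ finrank F V ≠ 4)
    {d : ℕ} (hd : finrank F V = 2 * d) (hd0 : 0 < d) (x : H5.orth Q) (hdick : H5.dick x = 1)
    (hx : (∀ v, (x : V ≃ₗ[F] V) ((x : V ≃ₗ[F] V) v) = v) ∨
      ∀ v, (x : V ≃ₗ[F] V) ((x : V ≃ₗ[F] V) v) = -v) (t : F) :
    ∃ (J : End F V) (σ : F), (∀ v, J (J v) = t • v) ∧ (∀ u v, polar Q (J u) v = polar Q u (J v)) ∧
      ∀ p : ℤˣ × ℤˣ, ∃ s : H5.orth Q, H5.signPair hQ hF s = p ∧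
        ∀ v, ((s * x * s⁻¹ : H5.orth Q) : V ≃ₗ[F] V) (J v) =
          σ • J (((s * x * s⁻¹ : H5.orth Q) : V ≃ₗ[F] V) v) := by
  rcases hx with hx | hx
  · obtain ⟨n, m, D, ε, hne, hD⟩ := exists_pos_planes h2 hQ hd hd0 x hdick hx
    choose α β γ hab hsq using D.exists_sqrt h2 t
    have hplane : ∀ i, ∀ v ∈ D.plane i, (x : V ≃ₗ[F] V) v = ε i • v := by
      intro i v hv
      obtain ⟨a, b, rfl⟩ := mem_span_pair'.1 hv
      rw [map_add, map_smul, map_smul, hD, hD, smul_comm a, smul_comm b, ← smul_add]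
    have hxP : ∀ i, ∀ v ∈ D.plane i, (x : V ≃ₗ[F] V) v ∈ D.plane i := fun i v hv => by
      rw [hplane i v hv]; exact Submodule.smul_mem _ _ hv
    refine ⟨D.root α β γ, 1, D.root_sq hsq, D.root_adj hab, D.exists_cover h2 hQ hF hxP
      (fun i v hv => D.root_mem α β γ hv) (fun p => ?_) (Classical.arbitrary _) fun a ha hQa => ⟨1, fun v hv => ?_⟩⟩
    · rw [one_smul, hplane p.1 _ (D.root_mem α β γ (D.mem_plane p.2)), hplane p.1 _ (D.mem_plane p.2), map_smul]
    · have hrv : (H5.refl Q a : V ≃ₗ[F] V) v ∈ D.plane (Classical.arbitrary _) := by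
        rw [H5.refl_apply]
        exact Submodule.sub_mem _ hv (Submodule.smul_mem _ _ ha)
      rw [one_smul, hplane _ _ hrv, hplane _ _ hv, map_smul, ← H5.orth_mul_apply, H5.refl_mul_self]
      rfl
  · obtain ⟨D, hD⟩ := exists_neg_planes (x := ((x : V ≃ₗ[F] V) : V →ₗ[F] V)) h2 hQ hd hd0 (fun v => x.2 v) hx
    have hD0 : ∀ i, (x : V ≃ₗ[F] V) (D.b (i, 0)) = D.b (i, 1) := fun i => (hD i).1
    have hD1 : ∀ i, (x : V ≃ₗ[F] V) (D.b (i, 1)) = -D.b (i, 0) := fun i => (hD i).2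
    have hQQ : ∀ i, Q (D.b (i, 1)) = Q (D.b (i, 0)) := fun i => by rw [← hD0]; exact x.2 _
    choose α β γ hab hsq using D.exists_sqrt h2 t
    have hbg : ∀ i, β i = γ i := fun i => mul_left_cancel₀ (D.ne (i, 0)) (by rw [hab i, hQQ])
    have hxP : ∀ i, ∀ v ∈ D.plane i, (x : V ≃ₗ[F] V) v ∈ D.plane i := by
      intro i v hv
      obtain ⟨a, b, rfl⟩ := mem_span_pair'.1 hv
      rw [map_add, map_smul, map_smul, hD0, hD1]
      exact mem_span_pair'.2 ⟨-b, a, by module⟩
    let i₀ : Fin d := ⟨0, hd0⟩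
    refine ⟨D.root α β γ, -1, D.root_sq hsq, D.root_adj hab, D.exists_cover h2 hQ hF hxP
      (fun i v hv => D.root_mem α β γ hv) (fun p => ?_) i₀ fun a ha hQa => ⟨-1, fun v hv => ?_⟩⟩
    · obtain ⟨i, j⟩ := p
      fin_cases j <;> simp only [Fin.isValue, Fin.mk_one, Fin.zero_eta, D.root_zero, D.root_one, map_add,
        map_sub, map_smul, map_neg, hD0, hD1, hbg] <;> module
    · have h01 : polar Q (D.b (i₀, 0)) (D.b (i₀, 1)) = 0 := D.ortho _ _ fun e => by simp at e
      have h10 : polar Q (D.b (i₀, 1)) (D.b (i₀, 0)) = 0 := (polar_comm _ _ _).trans h01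
      obtain ⟨p, q, rfl⟩ := mem_span_pair'.1 ha
      obtain ⟨c, e, rfl⟩ := mem_span_pair'.1 hv
      have hQa' : Q (p • D.b (i₀, 0) + q • D.b (i₀, 1)) = (p * p + q * q) * Q (D.b (i₀, 0)) := by
        rw [H5.map_smul_add_smul, h01, hQQ]; ring
      have hpq : p * p + q * q ≠ 0 := fun h => hQa (by rw [hQa', h, zero_mul])
      have h0 := D.ne (i₀, 0)
      simp only [H5.refl_apply, hQa', map_add, map_sub, map_smul, map_neg, hD0, hD1, polar_add_left,
        polar_smul_left, H5.polar_self', h01, h10, hQQ, smul_eq_mul, mul_zero, add_zero, zero_add]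
      have hpq' : p ^ 2 + q ^ 2 ≠ 0 := by rwa [pow_two, pow_two]
      match_scalars <;> field_simp <;> ring

end Planes

section Main

open scoped Matrix
open Cfsg.Geo (IsFieldSubalgebra subalgebraNormalizer)
open Cfsg.Agent.H98.ExtEl

variable {ι : Type} [Fintype ι] [DecidableEq ι]

/-- Elements with scalar square fix a point. -/
theorem exists_conj_normalizer (h2 : (2 : F) ≠ 0) {Q : QuadraticForm F (ι → F)}
    (hQ : (polarBilin Q).Nondegenerate) {d : ℕ} (hI : Fintype.card ι = 2 * d) (hd : 3 ≤ d)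
    {K : Subalgebra F (Matrix ι ι F)} (hK : IsFieldSubalgebra 2 K)
    (hKf : Cfsg.Geo.IsSelfAdjointFor (polar ⇑Q) K) {x : GL ι F} (hx : x ∈ Cfsg.Geo.omegaGL ⇑Q) {z : F}
    (hz : ((x ^ 2 : GL ι F) : Matrix ι ι F) = z • (1 : Matrix ι ι F)) :
    ∃ g ∈ Cfsg.Geo.omegaGL ⇑Q, g⁻¹ * x * g ∈ subalgebraNormalizer K := by
  haveI : Nonempty ι := Fintype.card_pos_iff.1 (by omega)
  have hcases := sq_cases hQ hx hz
  rw [H5.omegaGL_eq_map Q rfl] at hx ⊢
  obtain ⟨x, hxΩ, rfl⟩ := hx
  have hgv : ∀ (g : H5.orth Q) v, gop (H5.toGLHom Q rfl g) v = (g : (ι → F) ≃ₗ[F] (ι → F)) v := fun g v => by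
    rw [gop, Matrix.toLin'_apply, H5.toGLHom_mulVec]
  have hx' : (∀ v, (x : (ι → F) ≃ₗ[F] (ι → F)) ((x : (ι → F) ≃ₗ[F] (ι → F)) v) = v) ∨
      ∀ v, (x : (ι → F) ≃ₗ[F] (ι → F)) ((x : (ι → F) ≃ₗ[F] (ι → F)) v) = -v := by
    refine hcases.imp (fun h v => ?_) fun h v => ?_ <;> rw [← hgv, ← hgv] <;> exact h v
  have hF : Nat.card F ≠ 2 ∨ finrank F (ι → F) ≠ 4 := Or.inr (by rw [finrank_fintype_fun_eq_card]; omega)
  have hdick : H5.dick x = 1 := ((H5.mem_commutator_iff hQ hF).1 hxΩ).1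
  have hk := H58.ExtField.FK.finrank_eq hK
  obtain ⟨k, t, hkk, hkn, hdec⟩ := exists_sq_generator (E := H58.ExtField.FK hK) hk h2
  obtain ⟨J, σ, hJ, hJsa, hcov⟩ := exists_root_cover h2 hQ hF (d := d)
    (by rw [finrank_fintype_fun_eq_card, hI]) (by omega) x hdick hx' t
  have hsa : ∀ (c : H58.ExtField.FK hK) (u v : ι → F), polar Q (c • u) v = polar Q u (c • v) := fun c u v => by
    rw [H58.ExtField.FK.smul_eq, H58.ExtField.FK.smul_eq]
    exact hKf _ (c : ↥K).2 u v
  obtain ⟨g, hg⟩ := exists_transfer hk h2 hQ hsa hkk hkn hJ hJsa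
  obtain ⟨s, hs, hsx⟩ := hcov (H5.signPair hQ hF g)
  have hg' : s⁻¹ * g ∈ commutator (H5.orth Q) := by
    rw [H5.commutator_eq_ker hQ hF, MonoidHom.mem_ker, map_mul, map_inv, hs, inv_mul_cancel]
  refine ⟨_, ⟨_, hg', rfl⟩, ?_⟩
  rw [← map_inv, ← map_mul, ← map_mul]
  refine mem_normalizer_of_semilinear hK fun a => ?_
  obtain ⟨c, e, rfl⟩ := hdec a
  refine ⟨c • 1 + (e * σ) • k, fun v => ?_⟩
  set y := (s⁻¹ * g)⁻¹ * x * (s⁻¹ * g) with hy
  have hy' : y = g⁻¹ * (s * x * s⁻¹) * g := by rw [hy]; group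
  have hky : ∀ u, (y : (ι → F) ≃ₗ[F] (ι → F)) (k • u) = σ • (k • (y : (ι → F) ≃ₗ[F] (ι → F)) u) := by
    intro u
    apply (g : (ι → F) ≃ₗ[F] (ι → F)).injective
    rw [hy', H5.orth_mul_apply, H5.orth_mul_apply, H5.orth_apply_inv_apply, hg, hsx, map_smul, hg]
    congr 2
    simp only [H5.orth_mul_apply, H5.orth_apply_inv_apply]
  rw [hgv, hgv, add_smul, add_smul, smul_assoc, smul_assoc, smul_assoc, smul_assoc, one_smul, one_smul, map_add,
    map_smul, map_smul, hky, smul_smul]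

end Main

end Cfsg.Agent.H97.ExtQuad
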