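import Cfsg.Agent.H97.OrthTypes
import Cfsg.Agent.H58.ExtField.Orth
import Cfsg.Agent.H4.SquareClass

set_option autoImplicit false
set_option linter.unusedSectionVars false
set_option linter.style.haveILetI false

/-!
# Types of trace forms over a quadratic extension
-/

namespace Cfsg.Agent.H97.ExtQuad

open Module QuadraticMap

universe u v w

variable {F : Type u} [Field F] [Fintype F] {E : Type v} [Field E] [Fintype E] [Algebra F E]
variable {X : Type w} [AddCommGroup X] [Module F X] [Module E X] [IsScalarTower F E X]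

/-- The trace of a quadratic form over the extension. -/
noncomputable def trQ (P : QuadraticForm E X) : QuadraticForm F X :=
  (Algebra.trace F E).compQuadraticMap (P.restrictScalars (S := F))

theorem trQ_apply (P : QuadraticForm E X) (v : X) : (trQ (F := F) P) v = Algebra.trace F E (P v) := rfl

theorem polar_trQ (P : QuadraticForm E X) (v w : X) :
    polar (trQ (F := F) P) v w = Algebra.trace F E (polar P v w) := by
  simp only [QuadraticMap.polar, trQ_apply, map_sub]

theorem trQ_nondegenerate {P : QuadraticForm E X} (hP : (polarBilin P).Nondegenerate) :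
    (polarBilin (trQ (F := F) P)).Nondegenerate := by
  have h : ∀ x, (∀ y, polar (trQ (F := F) P) x y = 0) → x = 0 := fun x hx =>
    hP.1 x fun y => H58.ExtField.eq_zero_of_trace (F := F) fun c => by
      have := hx (c • y)
      rwa [polar_trQ, polar_smul_right, smul_eq_mul, mul_comm] at this
  exact ⟨h, fun y hy => h y fun x => (polar_comm _ _ _).trans (hy x)⟩

variable (hk : finrank F E = 2) (h2 : (2 : F) ≠ 0)

include hk h2

theorem twoE : (2 : E) ≠ 0 := fun h => h2 ((algebraMap F E).injective (by rw [map_ofNat, h, map_zero]))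

theorem isSquare_algebraMap (s : F) : IsSquare (algebraMap F E s) := by
  haveI : Module.Finite F E := Module.Finite.of_finite
  rcases eq_or_ne s 0 with rfl | hs
  · exact ⟨0, by simp⟩
  have hchar : ringChar E ≠ 2 := fun h => twoE hk h2 (by
    haveI := ringChar.of_eq h
    exact CharTwo.two_eq_zero)
  rw [FiniteField.isSquare_iff hchar (by simpa using hs), ← map_pow]
  have hodd : Odd (Fintype.card F) := Nat.odd_iff.2 (H4.odd_card_of_two_ne_zero h2)
  obtain ⟨t, ht⟩ := hodd
  have hc : Fintype.card E / 2 = (Fintype.card F - 1) * (t + 1) := by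
    rw [Module.card_eq_pow_finrank (K := F) (V := E), hk, ht, show (2 * t + 1) ^ 2 = 1 + 2 * (2 * t * (t + 1)) by ring,
      Nat.add_mul_div_left _ _ two_pos, Nat.div_eq_of_lt one_lt_two, Nat.add_sub_cancel, zero_add]
  rw [hc, pow_mul, FiniteField.pow_card_sub_one_eq_one s hs, one_pow, map_one]

theorem exists_traceless : ∃ δ : E, δ ≠ 0 ∧ ∀ x : E, Algebra.trace F E x = 0 → ∃ s : F, x = algebraMap F E s * δ := by
  haveI : Module.Finite F E := Module.Finite.of_finite
  have hne : Algebra.trace F E ≠ 0 := Algebra.trace_ne_zero F E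
  have hker : finrank F (LinearMap.ker (Algebra.trace F E)) = 1 := by
    have h1 := Dual.finrank_ker_add_one_of_ne_zero (f := Algebra.trace F E) hne
    omega
  obtain ⟨δ, hδ0, hδ⟩ := finrank_eq_one_iff'.1 hker
  refine ⟨δ, fun h => hδ0 (Subtype.ext h), fun x hx => ?_⟩
  obtain ⟨s, hs⟩ := hδ ⟨x, hx⟩
  exact ⟨s, by
    have := congrArg Subtype.val hs
    rw [Submodule.coe_smul, Algebra.smul_def] at this
    exact this.symm⟩

/-- The traceless element. -/
noncomputable def delta : E := Classical.choose (exists_traceless hk h2)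

theorem delta_ne_zero : delta hk h2 ≠ 0 := (Classical.choose_spec (exists_traceless hk h2)).1

theorem eq_delta {x : E} (hx : Algebra.trace F E x = 0) : ∃ s : F, x = algebraMap F E s * delta hk h2 :=
  (Classical.choose_spec (exists_traceless hk h2)).2 x hx

theorem trace_delta : Algebra.trace F E (delta hk h2) = 0 := by
  haveI : Module.Finite F E := Module.Finite.of_finite
  obtain ⟨x, hx, hx0⟩ := Submodule.exists_mem_ne_zero_of_ne_bot (p := LinearMap.ker (Algebra.trace F E))
    (LinearMap.ker_ne_bot_of_finrank_lt (by rw [finrank_self, hk]; exact one_lt_two))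
  obtain ⟨s, hs⟩ := eq_delta hk h2 hx
  have hs0 : s ≠ 0 := fun h => hx0 (by rw [hs, h, map_zero, zero_mul])
  have : Algebra.trace F E x = 0 := hx
  rw [hs, ← Algebra.smul_def, map_smul, smul_eq_mul] at this
  exact (mul_eq_zero.1 this).resolve_left hs0

/-- The trace of a line is isotropic exactly for the square class of the traceless element. -/
theorem exists_isotropic_line {c : E} (hc : c ≠ 0) :
    (∃ a : E, a ≠ 0 ∧ Algebra.trace F E (c * (a * a)) = 0) ↔ IsSquare (c * delta hk h2) := by
  constructor
  · rintro ⟨a, ha, h⟩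
    obtain ⟨s, hs⟩ := eq_delta hk h2 h
    obtain ⟨m, hm⟩ := isSquare_algebraMap hk h2 s
    refine ⟨m * delta hk h2 / a, ?_⟩
    rw [hm] at hs
    field_simp
    linear_combination (delta hk h2) * hs
  · rintro ⟨m, hm⟩
    have hm0 : m ≠ 0 := fun h => mul_ne_zero hc (delta_ne_zero hk h2) (by rw [hm, h, mul_zero])
    refine ⟨delta hk h2 / m, div_ne_zero (delta_ne_zero hk h2) hm0, ?_⟩
    convert trace_delta hk h2 using 2
    field_simp
    linear_combination (delta hk h2) * hm

/-- An anisotropic plane over the extension carries no totally singular plane over the base field. -/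
theorem not_hasSing_plane [Finite X] {P : QuadraticForm E X} (hX : finrank E X = 2)
    (han : ∀ v, P v = 0 → v = 0) : ¬ H67.HasSing (trQ (F := F) P) 2 := by
  haveI : Module.Finite F E := Module.Finite.of_finite
  haveI : Module.Finite E X := Module.Finite.of_finite
  haveI : Module.Finite F X := Module.Finite.of_finite
  rintro ⟨W, hW, hWd⟩
  have hW' : ∀ u ∈ W, Algebra.trace F E (P u) = 0 := hW
  obtain ⟨u, hu, hu0⟩ := Submodule.exists_mem_ne_zero_of_ne_bot (p := W) fun h => by
    rw [h, finrank_bot] at hWd; omega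
  by_cases hall : ∀ v ∈ W, v ∈ E ∙ u
  · have hline : ((E ∙ u).restrictScalars F) = W := by
      refine (Submodule.eq_of_le_of_finrank_le (fun (v : X) (hv : v ∈ W) => hall v hv) ?_).symm
      have h1 := Module.finrank_mul_finrank F E (E ∙ u)
      rw [hk, finrank_span_singleton hu0] at h1
      change finrank F (E ∙ u) ≤ _
      omega
    refine hu0 (han u (H58.ExtField.eq_zero_of_trace (F := F) fun c => ?_))
    have key : ∀ a : E, Algebra.trace F E (a * a * P u) = 0 := fun a => by
      have := hW' (a • u) (hline ▸ Submodule.smul_mem _ a (Submodule.mem_span_singleton_self u))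
      rwa [QuadraticMap.map_smul, smul_eq_mul] at this
    have h1 := key (c + 1)
    have h3 : Algebra.trace F E ((2 : F) • (P u * c)) = 0 := by
      rw [show (2 : F) • (P u * c) = (c + 1) * (c + 1) * P u - c * c * P u - 1 * 1 * P u by
        rw [Algebra.smul_def, map_ofNat]; ring, map_sub, map_sub, key, key, key]
      simp
    rw [map_smul, smul_eq_mul] at h3
    exact (mul_eq_zero.1 h3).resolve_left h2
  · push Not at hall
    obtain ⟨v, hv, hvu⟩ := hall
    obtain ⟨s, hs⟩ := eq_delta hk h2 (hW' u hu)
    obtain ⟨t, ht⟩ := eq_delta hk h2 (hW' v hv)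
    have hm : Algebra.trace F E (polar P u v) = 0 := by
      rw [QuadraticMap.polar, map_sub, map_sub, hW' _ (W.add_mem hu hv), hW' u hu, hW' v hv]; simp
    obtain ⟨m, hm⟩ := eq_delta hk h2 hm
    have hs0 : algebraMap F E s ≠ 0 := fun h => hu0 (han u (by rw [hs, h, zero_mul]))
    obtain ⟨w, hw⟩ := isSquare_algebraMap hk h2 (m * m - 4 * s * t)
    rw [map_sub, map_mul, map_mul, map_mul, map_ofNat] at hw
    have h2E := twoE hk h2
    set x := (w - algebraMap F E m) / (2 * algebraMap F E s) with hx
    have hzero : P (x • u + v) = 0 := by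
      rw [H4.qf_add, QuadraticMap.map_smul, polar_smul_left, smul_eq_mul, smul_eq_mul, hs, ht, hm]
      have hx2 : x * (2 * algebraMap F E s) = w - algebraMap F E m :=
        div_mul_cancel₀ _ (mul_ne_zero h2E hs0)
      have : 4 * algebraMap F E s * (algebraMap F E s * x * x + algebraMap F E m * x + algebraMap F E t) = 0 := by
        linear_combination (x * (2 * algebraMap F E s) + w + algebraMap F E m) * hx2 - hw
      have h4 : (4 : E) * algebraMap F E s ≠ 0 := by
        rw [show (4 : E) = 2 * 2 by norm_num]; exact mul_ne_zero (mul_ne_zero h2E h2E) hs0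
      linear_combination (delta hk h2) * (mul_eq_zero.1 this).resolve_left h4
    have := han _ hzero
    refine hvu (Submodule.mem_span_singleton.2 ⟨-x, ?_⟩)
    rw [neg_smul]
    exact (eq_neg_of_add_eq_zero_right this).symm

/-- Totally singular subspaces of half dimension are inherited. -/
theorem hasSing_trQ [Finite X] {P : QuadraticForm E X} {b : ℕ} (h : H67.HasSing P b) :
    H67.HasSing (trQ (F := F) P) (2 * b) := by
  obtain ⟨W, hW, hd⟩ := h
  refine ⟨W.restrictScalars F, fun v hv => by rw [trQ_apply, hW v hv, map_zero], ?_⟩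
  haveI : Module.Finite E X := Module.Finite.of_finite
  have h1 := Module.finrank_mul_finrank F E W
  rw [hk, hd] at h1
  exact h1.symm

/-- Cancellation of a split summand. -/
theorem hasSing_trQ_split {Y : Type*} [AddCommGroup Y] [Module F Y] [Module E Y] [IsScalarTower F E Y]
    {Z : Type*} [AddCommGroup Z] [Module F Z] [Module E Z] [IsScalarTower F E Z] [Finite Y] [Finite Z]
    {P : QuadraticForm E X} {A : QuadraticForm E Y} {B : QuadraticForm E Z}
    (hA : (polarBilin A).Nondegenerate) (hB : (polarBilin B).Nondegenerate)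
    (g : X ≃ₗ[E] Y × Z) (hg : ∀ x, P x = A (g x).1 + B (g x).2) {a b : ℕ}
    (ha : finrank E Y = 2 * a) (hb : finrank E Z = b) (hAs : H67.HasSing A a) :
    H67.HasSing (trQ (F := F) P) (2 * a + b) ↔ H67.HasSing (trQ (F := F) B) b := by
  haveI : Module.Finite F E := Module.Finite.of_finite
  haveI : Module.Finite F Y := Module.Finite.of_finite
  haveI : Module.Finite F Z := Module.Finite.of_finite
  haveI : Module.Finite E Y := Module.Finite.of_finite
  haveI : Module.Finite E Z := Module.Finite.of_finite
  have hYd : finrank F Y = 2 * (2 * a) := by rw [← Module.finrank_mul_finrank F E Y, hk, ha]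
  have hZd : finrank F Z = 2 * b := by rw [← Module.finrank_mul_finrank F E Z, hk, hb]
  have key : ∀ m, H67.HasSing (trQ (F := F) P) m ↔
      H67.HasSing ((trQ (F := F) B).prod (trQ (F := F) A)) m := fun m => by
    let e : X ≃ₗ[F] Z × Y := (g.restrictScalars F).trans (LinearEquiv.prodComm F Y Z)
    have he : ∀ x, ((trQ (F := F) B).prod (trQ (F := F) A)) (e x) = (trQ (F := F) P) x := fun x => by
      rw [QuadraticMap.prod_apply, trQ_apply, trQ_apply, trQ_apply, ← map_add, hg, add_comm]; rfl
    exact ⟨fun h => h.of_isom e he, fun h => h.of_isom e.symm fun z => by rw [← he, e.apply_symm_apply]⟩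
  rw [key, add_comm (2 * a) b]
  exact ⟨fun h => H67.hasSing_of_prod (trQ_nondegenerate hB) (trQ_nondegenerate hA) hZd hYd
    (hasSing_trQ hk h2 hAs) h, fun h => H67.hasSing_prod h (hasSing_trQ hk h2 hAs)⟩

/-- In even dimension the types agree. -/
theorem hasSing_trQ_even [Finite X] {P : QuadraticForm E X} (hP : (polarBilin P).Nondegenerate) {b : ℕ}
    (hX : finrank E X = 2 * b) : H67.HasSing (trQ (F := F) P) (2 * b) ↔ H67.HasSing P b := by
  haveI : Module.Finite E X := Module.Finite.of_finite
  refine ⟨fun h => ?_, hasSing_trQ hk h2⟩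
  by_contra hno
  obtain ⟨hb, ζ, hζ, g, hg⟩ := H67.exists_isom_qMinus hP hX hno
  have hab := H67.aniso_of_one hζ
  obtain ⟨n, rfl⟩ : ∃ n, b = n + 1 := ⟨b - 1, by omega⟩
  let g' := g.trans (LinearEquiv.sumArrowLequivProdArrow _ _ E E)
  let B : QuadraticForm E (Fin 2 → E) := QuadraticMap.linMulLin (LinearMap.proj 0) (LinearMap.proj 0) +
    (1 : E) • QuadraticMap.linMulLin (LinearMap.proj 0) (LinearMap.proj 1) +
    ζ • QuadraticMap.linMulLin (LinearMap.proj 1) (LinearMap.proj 1)
  have hB : ∀ v, B v = v 0 ^ 2 + 1 * v 0 * v 1 + ζ * v 1 ^ 2 := fun v => by simp [B, pow_two]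
  have hAB : ∀ x, P x = H4.qPlus n E (g' x).1 + B (g' x).2 := fun x => by
    rw [← hg, H4.coe_qMinus, H4.coe_qPlus, hB]
    simp only [g', Cfsg.quadFormMinus, Cfsg.quadFormPlus, LinearEquiv.trans_apply]
    rfl
  have han : ∀ v, B v = 0 → v = 0 := fun v hv => by
    obtain ⟨h0, h1⟩ := hab _ _ (by rw [← hB]; exact hv)
    funext i
    fin_cases i
    · exact h0
    · exact h1
  have hBn : (polarBilin B).Nondegenerate := by
    have h : ∀ x, (∀ y, polar B x y = 0) → x = 0 := fun x hx => han x (by
      have h1 := hx x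
      rw [polar_self, two_nsmul, ← two_mul] at h1
      exact (mul_eq_zero.1 h1).resolve_left (twoE hk h2))
    exact ⟨h, fun y hy => h y fun x => (polar_comm _ _ _).trans (hy x)⟩
  rw [show 2 * (n + 1) = 2 * n + 2 by ring, hasSing_trQ_split hk h2 (H4.qPlus_nondegenerate (F := E) n) hBn g'
    hAB (by simp [finrank_fintype_fun_eq_card]; omega) (by simp) (H67.hasSing_qPlus n)] at h
  exact not_hasSing_plane hk h2 (by simp) han h

/-- In odd dimension the type is given by the square class of the scale. -/
theorem hasSing_trQ_odd [Finite X] {P : QuadraticForm E X} {b : ℕ} {c : E} (hc : c ≠ 0)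
    (g : X ≃ₗ[E] (Unit ⊕ (Fin b ⊕ Fin b) → E)) (hg : ∀ v, c * H4.qOdd b E (g v) = P v) :
    H67.HasSing (trQ (F := F) P) (2 * b + 1) ↔ IsSquare (c * delta hk h2) := by
  let g' := (g.trans (LinearEquiv.sumArrowLequivProdArrow _ _ E E)).trans (LinearEquiv.prodComm E _ _)
  let B : QuadraticForm E (Unit → E) := c • QuadraticMap.linMulLin (LinearMap.proj ()) (LinearMap.proj ())
  have hB : ∀ v, B v = c * (v () * v ()) := fun v => by simp [B]
  have hAB : ∀ x, P x = (c • H4.qPlus b E) (g' x).1 + B (g' x).2 := fun x => by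
    rw [← hg, H4.coe_qOdd, hB, QuadraticMap.smul_apply, H4.coe_qPlus, smul_eq_mul]
    simp only [g', Cfsg.quadFormOdd, Cfsg.quadFormPlus, LinearEquiv.trans_apply]
    rw [mul_add, add_comm, pow_two]
    rfl
  have hBn : (polarBilin B).Nondegenerate := by
    have h : ∀ x, (∀ y, polar B x y = 0) → x = 0 := fun x hx => by
      have h1 := hx x
      rw [polar_self, two_nsmul, ← two_mul, hB] at h1
      funext i
      exact mul_self_eq_zero.1 (((mul_eq_zero.1 ((mul_eq_zero.1 h1).resolve_left (twoE hk h2))).resolve_left hc))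
    exact ⟨h, fun y hy => h y fun x => (polar_comm _ _ _).trans (hy x)⟩
  have hA : H67.HasSing (c • H4.qPlus b E) b := by
    obtain ⟨W, hW, hd⟩ := H67.hasSing_qPlus (F := E) b
    exact ⟨W, fun w hw => by rw [QuadraticMap.smul_apply, hW w hw, smul_zero], hd⟩
  rw [hasSing_trQ_split hk h2 (H4.nondegenerate_smul hc (H4.qPlus_nondegenerate (F := E) b)) hBn g' hAB
    (by simp [finrank_fintype_fun_eq_card]; omega) (by simp) hA, ← exists_isotropic_line hk h2 hc]
  haveI : Module.Finite F E := Module.Finite.of_finite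
  haveI : Module.Finite F (Unit → E) := Module.Finite.of_finite
  constructor
  · rintro ⟨W, hW, hd⟩
    obtain ⟨u, hu, hu0⟩ := Submodule.exists_mem_ne_zero_of_ne_bot (p := W) fun h => by
      rw [h, finrank_bot] at hd; omega
    refine ⟨u (), fun h => hu0 (funext fun _ => h), ?_⟩
    rw [← hB]
    exact hW u hu
  · rintro ⟨a, ha, h⟩
    refine ⟨F ∙ (fun _ => a), fun w hw => ?_, finrank_span_singleton fun e => ha (congrFun e ())⟩
    obtain ⟨s, rfl⟩ := Submodule.mem_span_singleton.1 hw
    rw [QuadraticMap.map_smul, trQ_apply, hB, h, smul_zero]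

/-- Forms over the extension with isometric traces are isometric. -/
theorem isom_of_trQ {X' : Type*} [AddCommGroup X'] [Module F X'] [Module E X'] [IsScalarTower F E X']
    [Finite X] [Finite X'] {P : QuadraticForm E X} {P' : QuadraticForm E X'}
    (hP : (polarBilin P).Nondegenerate) (hP' : (polarBilin P').Nondegenerate)
    (e : X ≃ₗ[F] X') (he : ∀ v, (trQ (F := F) P') (e v) = (trQ (F := F) P) v) :
    ∃ g : X ≃ₗ[E] X', ∀ v, P' (g v) = P v := by
  haveI : Module.Finite F E := Module.Finite.of_finite
  haveI : Module.Finite E X := Module.Finite.of_finite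
  haveI : Module.Finite E X' := Module.Finite.of_finite
  have hd : finrank E X' = finrank E X := by
    have h1 := Module.finrank_mul_finrank F E X
    have h1' := Module.finrank_mul_finrank F E X'
    rw [hk] at h1 h1'
    have := e.finrank_eq
    omega
  have hiff : ∀ m, H67.HasSing (trQ (F := F) P) m ↔ H67.HasSing (trQ (F := F) P') m := fun m =>
    ⟨fun h => h.of_isom e he, fun h => h.of_isom e.symm fun z => by rw [← he, e.apply_symm_apply]⟩
  rcases Nat.even_or_odd' (finrank E X) with ⟨b, hb | hb⟩
  · exact H67.isom_of_type hP hP' hb (hd.trans hb)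
      ((hasSing_trQ_even hk h2 hP hb).symm.trans ((hiff _).trans (hasSing_trQ_even hk h2 hP' (hd.trans hb))))
  · obtain ⟨-, c, hc, g, hg⟩ := H4.isom_std_odd hP hb
    obtain ⟨-, c', hc', g', hg'⟩ := H4.isom_std_odd hP' (hd.trans hb)
    have hsq : IsSquare (c * delta hk h2) ↔ IsSquare (c' * delta hk h2) :=
      (hasSing_trQ_odd hk h2 hc g hg).symm.trans ((hiff _).trans (hasSing_trQ_odd hk h2 hc' g' hg'))
    obtain ⟨m, hm⟩ : IsSquare (c / c') := by
      have h0 := delta_ne_zero hk h2
      by_cases h : IsSquare (c * delta hk h2)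
      · have := h.div (hsq.1 h)
        rwa [mul_div_mul_right _ _ h0] at this
      · obtain ⟨r, hr⟩ := H4.isSquare_mul_of_not h (fun h' => h (hsq.2 h'))
        refine ⟨r / (c' * delta hk h2), ?_⟩
        field_simp
        linear_combination hr
    have hm0 : m ≠ 0 := fun h => div_ne_zero hc hc' (by rw [hm, h, mul_zero])
    refine ⟨g.trans ((LinearEquiv.smulOfUnit (Units.mk0 m hm0)).trans g'.symm), fun v => ?_⟩
    rw [← hg', ← hg, LinearEquiv.trans_apply, LinearEquiv.trans_apply, g'.apply_symm_apply]
    show c' * H4.qOdd b E (m • g v) = _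
    rw [QuadraticMap.map_smul, smul_eq_mul, ← mul_assoc, ← hm, mul_div_cancel₀ _ hc']

end Cfsg.Agent.H97.ExtQuad
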