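import Cfsg.Agent.H97.OrthBasic

set_option autoImplicit false

/-!
# Multiplicities of fixed-point-free elements of a prescribed type
-/

namespace Cfsg.Agent.H97

open Module

universe u

variable {K : Type u} [Field K] [Fintype K] {r p : ℕ} [Fact p.Prime] [CharP K p]

theorem cycFac_nonempty (hr : (r : K) ≠ 0) (hrp : r.Prime) : Nonempty (H67.CycFac r K) := by
  by_contra hc
  rw [not_nonempty_iff] at hc
  have := H67.card_cycFac (K := K) hr hrp
  rw [Fintype.card_eq_zero, zero_mul] at this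
  have := hrp.two_le
  omega

/-- `q ^ d = 1`: a full self-dual multiplicity function of plus type. -/
theorem exists_full_plus (hrp : r.Prime) (hne : r ≠ p) {d : ℕ}
    (hx : (Fintype.card K : ZMod r) ^ d = 1) :
    ∃ a : H67.CycFac r K → ℕ, (∀ P, a (H67.dualId hrp hne P) = a P) ∧
      orderOf (Fintype.card K : ZMod r) * ∑ P, a P = 2 * d ∧ H67.mvPlus a := by
  classical
  have hr := H67.cast_ne_zero_of_prime_ne (K := K) hrp hne
  obtain ⟨k, hk⟩ : orderOf (Fintype.card K : ZMod r) ∣ d := orderOf_dvd_of_pow_eq_one hx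
  obtain ⟨P0⟩ := cycFac_nonempty (K := K) hr hrp
  let D := H67.dualId (K := K) hrp hne
  have hDD : ∀ P, D (D P) = P := H67.cycDual_cycDual _ _ _ _
  let m : H67.CycFac r K → ℕ := fun P =>
    (if P = P0 then k else 0) + if P = D P0 then k else 0
  have hsum : ∑ P, m P = k + k := by simp [m, Finset.sum_add_distrib]
  refine ⟨m, fun P => ?_, by rw [hsum, mul_add, ← hk, two_mul], Or.inr (hsum ▸ ⟨k, rfl⟩)⟩
  have e1 : D P = P0 ↔ P = D P0 := ⟨fun h => by rw [← h, hDD], fun h => by rw [h, hDD]⟩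
  have e2 : D P = D P0 ↔ P = P0 := ⟨fun h => by rw [← hDD P, h, hDD], fun h => by rw [h]⟩
  show (if D P = P0 then k else 0) + (if D P = D P0 then k else 0) = _
  simp only [m, e1, e2]
  exact add_comm _ _

/-- `q ^ d = -1`: a full self-dual multiplicity function of minus type. -/
theorem exists_full_minus (hrp : r.Prime) (hne : r ≠ p) (hr2 : r ≠ 2) {d : ℕ}
    (hx : (Fintype.card K : ZMod r) ^ d = -1) :
    ∃ a : H67.CycFac r K → ℕ, (∀ P, a (H67.dualId hrp hne P) = a P) ∧
      orderOf (Fintype.card K : ZMod r) * ∑ P, a P = 2 * d ∧ ¬ H67.mvPlus a := by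
  classical
  haveI := Fact.mk hrp
  haveI : Fact (2 < r) := ⟨by have := hrp.two_le; omega⟩
  have hr := H67.cast_ne_zero_of_prime_ne (K := K) hrp hne
  set i := orderOf (Fintype.card K : ZMod r) with hidef
  have hipos : 0 < i := H67.orderOf_card_pos (K := K) hr hrp
  have hiev : ¬ Odd i := (H67.exists_pow_eq_neg_one_iff hrp hr2 hipos).1 ⟨d, hx⟩
  have hnd : ¬ i ∣ d := fun h => ZMod.neg_one_ne_one
    (hx.symm.trans (orderOf_dvd_iff_pow_eq_one.1 h))
  obtain ⟨L, hL⟩ : i ∣ 2 * d :=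
    orderOf_dvd_of_pow_eq_one (by rw [mul_comm, pow_mul, hx]; ring)
  obtain ⟨P0⟩ := cycFac_nonempty (K := K) hr hrp
  let m : H67.CycFac r K → ℕ := fun P => if P = P0 then L else 0
  have hsum : ∑ P, m P = L := by simp [m]
  refine ⟨m, fun P => by rw [(H67.dualId_eq_self_iff hrp hne hr2 P).2 hiev],
    by rw [hsum, ← hL], ?_⟩
  rintro (h | h)
  · exact hiev h
  · rw [hsum] at h
    obtain ⟨L', rfl⟩ := h
    refine hnd ⟨L', ?_⟩
    rw [mul_add] at hL
    omega

/-- A conjugate of a fixed-point-free element determines the type. -/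
theorem type_of_conj (hrp : r.Prime) (hne : r ≠ p) (hr2 : r ≠ 2) {I : Type} [Fintype I]
    [DecidableEq I] {d : ℕ} (Q : QuadraticForm K (I → K))
    (hQ : (QuadraticMap.polarBilin Q).Nondegenerate) {f : (I → K) → K} (hf : ⇑Q = f)
    (hI : Fintype.card I = 2 * d) (x g : GL I K) (hmem : g⁻¹ * x * g ∈ Cfsg.isometryGroup K f)
    (hxr : x ^ r = 1) (a : H67.CycFac r K → ℕ)
    (hc : (x : Matrix I I K).charpoly = H67.polyOf (Fintype.card I) a)
    (ha : ∀ P, a (H67.dualId hrp hne P) = a P)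
    (hfull : orderOf (Fintype.card K : ZMod r) * ∑ P, a P = 2 * d) :
    H67.HasSing Q d ↔ H67.mvPlus a := by
  subst hf
  have hyr : (g⁻¹ * x * g) ^ r = 1 := by
    rw [show g⁻¹ * x * g = g⁻¹ * x * g⁻¹⁻¹ by rw [inv_inv], conj_pow, hxr, mul_one, mul_inv_cancel]
  have hyc : ((g⁻¹ * x * g : GL I K) : Matrix I I K).charpoly = H67.polyOf (Fintype.card I) a := by
    rw [← hc, Units.val_mul, Units.val_mul]
    simpa only [Matrix.coe_units_inv] using Matrix.charpoly_units_conj' g (x : Matrix I I K)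
  exact H67.type_of_full_moved hrp hne hr2 Q hQ hI ⟨g⁻¹ * x * g, hmem⟩ (Subtype.ext hyr) a hyc ha hfull

end Cfsg.Agent.H97
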