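import Cfsg.Agent.H3.Geometry

set_option autoImplicit false

/-!
# Arithmetic for totally isotropic subspaces of Hermitian spaces
-/

namespace Cfsg.Agent.H97

open Module Finset

variable {F : Type*} [Field F] [Fintype F] {q : ℕ}

/-- The number of nonzero isotropic vectors in `N` variables, divided by the frame factor. -/
def hermFactor (q N : ℕ) : ℤ := ((q : ℤ) ^ N - (-1) ^ N) * ((q : ℤ) ^ (N - 1) + (-1) ^ N)

/-- The number of totally isotropic frames. -/
theorem card_isoFrame_int (hF : Fintype.card F = q ^ 2) :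
    ∀ k n : ℕ, 2 * k ≤ n → (Nat.card (H3.IsoFrame n F q k) : ℤ) =
      ((q : ℤ) ^ 2) ^ (∑ j ∈ range k, j) * ∏ j ∈ range k, hermFactor q (n - 2 * j) := by
  intro k
  induction k with
  | zero => intro n _; simp [H3.card_isoFrame_zero]
  | succ k ih =>
    intro n hn
    obtain ⟨n, rfl⟩ : ∃ n', n = n' + 2 := ⟨n - 2, by omega⟩
    have hz := H3.card_isotropic_int hF (n + 2)
    have hpos : 1 ≤ Nat.card {v : Fin (n + 2) → F // Cfsg.hermForm (n + 2) F q v v = 0} := by
      have : Nonempty {v : Fin (n + 2) → F // Cfsg.hermForm (n + 2) F q v v = 0} :=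
        ⟨⟨0, H3.hermForm_zero_left hF 0⟩⟩
      exact Nat.card_pos
    have hfac : ((Nat.card {v : Fin (n + 2) → F // Cfsg.hermForm (n + 2) F q v v = 0} : ℤ) - 1) =
        hermFactor q (n + 2) := by
      have hq0 : (q : ℤ) ≠ 0 := by have := H3.two_le_q hF; omega
      apply mul_left_cancel₀ hq0
      rw [mul_sub, hz, hermFactor, show n + 2 - 1 = n + 1 by omega]
      have h1 : ((-1 : ℤ) ^ (n + 2)) * (-1) ^ (n + 2) = 1 := by rw [← mul_pow]; simp
      ring_nf at h1 ⊢
      linear_combination (q : ℤ) * h1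
    rw [H3.card_isoFrame_succ hF, Nat.cast_mul, Nat.cast_sub hpos, Nat.cast_one, hfac, Nat.cast_mul,
      ih n (by omega), prod_range_succ', sum_range_succ]
    push_cast
    rw [Finset.prod_congr rfl (fun j _ => by
      rw [show n + 2 - 2 * (j + 1) = n - 2 * j by omega] :
      ∀ j ∈ range k, hermFactor q (n + 2 - 2 * (j + 1)) = hermFactor q (n - 2 * j))]
    rw [pow_add]
    ring

/-- The number of totally isotropic subspaces. -/
theorem card_isotropic_herm_int (hF : Fintype.card F = q ^ 2) {n m : ℕ} (hmn : 2 * m ≤ n) :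
    (Nat.card {W : Submodule F (Fin n → F) // finrank F W = m ∧
        ∀ u ∈ W, ∀ v ∈ W, Cfsg.hermForm n F q u v = 0} : ℤ) *
      ∏ i ∈ range m, (((q : ℤ) ^ 2) ^ (m - i) - 1) = ∏ j ∈ range m, hermFactor q (n - 2 * j) := by
  have hq := H3.two_le_q hF
  have h := congrArg (Nat.cast : ℕ → ℤ) (H3.card_isotropic_subspaces hF n m)
  rw [card_isoFrame_int hF m n hmn, Fin.prod_univ_eq_prod_range (fun i => (q ^ 2) ^ m - (q ^ 2) ^ i) m,
    Nat.cast_mul, Nat.cast_prod] at h
  have e : ∏ i ∈ range m, (((q ^ 2) ^ m - (q ^ 2) ^ i : ℕ) : ℤ) =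
      ((q : ℤ) ^ 2) ^ (∑ j ∈ range m, j) * ∏ i ∈ range m, (((q : ℤ) ^ 2) ^ (m - i) - 1) := by
    rw [← prod_pow_eq_pow_sum, ← prod_mul_distrib]
    refine prod_congr rfl fun i hi => ?_
    have hi' := (mem_range.1 hi).le
    rw [Nat.cast_sub (Nat.pow_le_pow_right (by positivity) hi'), mul_sub, mul_one, ← pow_add,
      Nat.add_sub_cancel' hi']
    push_cast
    ring
  rw [e, mul_left_comm] at h
  exact mul_left_cancel₀ (pow_ne_zero _ (pow_ne_zero _ (by omega))) h

/-- The characteristic does not divide the number of totally isotropic subspaces. -/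
theorem not_dvd_char_isotropic_herm (hF : Fintype.card F = q ^ 2) (p : ℕ) [Fact p.Prime] [CharP F p]
    {n m : ℕ} (hmn : 2 * m ≤ n) :
    ¬ p ∣ Nat.card {W : Submodule F (Fin n → F) // finrank F W = m ∧
        ∀ u ∈ W, ∀ v ∈ W, Cfsg.hermForm n F q u v = 0} := by
  intro hd
  have hpq : (q : ZMod p) = 0 := by
    rw [ZMod.natCast_eq_zero_iff]
    obtain ⟨e, hp, he⟩ := FiniteField.card F p
    have : p ∣ q ^ 2 := by rw [← hF, he]; exact dvd_pow_self p e.ne_zero
    exact hp.dvd_of_dvd_pow this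
  have h := congrArg (Int.cast : ℤ → ZMod p) (card_isotropic_herm_int hF hmn)
  rw [Int.cast_mul, Int.cast_natCast, (ZMod.natCast_eq_zero_iff _ _).2 hd, zero_mul, Int.cast_prod] at h
  refine Finset.prod_ne_zero_iff.2 (fun j hj => ?_) h.symm
  have := mem_range.1 hj
  simp only [hermFactor, Int.cast_mul, Int.cast_sub, Int.cast_add, Int.cast_pow, Int.cast_natCast, hpq,
    Int.cast_neg, Int.cast_one]
  rw [zero_pow (by omega), zero_pow (by omega), zero_sub, zero_add]
  exact mul_ne_zero (neg_ne_zero.2 (pow_ne_zero _ (neg_ne_zero.2 one_ne_zero)))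
    (pow_ne_zero _ (neg_ne_zero.2 one_ne_zero))

variable {r : ℕ} [Fact r.Prime]

/-- A prime dividing the number of totally isotropic subspaces. -/
theorem exists_neg_pow_of_dvd_isotropic (hF : Fintype.card F = q ^ 2) {n m : ℕ} (hmn : 2 * m ≤ n)
    (hd : r ∣ Nat.card {W : Submodule F (Fin n → F) // finrank F W = m ∧
        ∀ u ∈ W, ∀ v ∈ W, Cfsg.hermForm n F q u v = 0}) :
    ∃ e, e < 2 * m ∧ e < n ∧ (-(q : ZMod r)) ^ (n - e) = 1 := by
  have h := congrArg (Int.cast : ℤ → ZMod r) (card_isotropic_herm_int hF hmn)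
  rw [Int.cast_mul, Int.cast_natCast, (ZMod.natCast_eq_zero_iff _ _).2 hd, zero_mul, Int.cast_prod] at h
  obtain ⟨j, hj, hj0⟩ := Finset.prod_eq_zero_iff.1 h.symm
  have := mem_range.1 hj
  simp only [hermFactor, Int.cast_mul, Int.cast_sub, Int.cast_add, Int.cast_pow, Int.cast_natCast,
    Int.cast_neg, Int.cast_one] at hj0
  have hsq : ∀ N : ℕ, ((-1 : ZMod r) ^ N) * (-1) ^ N = 1 := fun N => by rw [← mul_pow]; simp
  rcases mul_eq_zero.1 hj0 with h0 | h0
  · refine ⟨2 * j, by omega, by omega, ?_⟩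
    rw [neg_pow, sub_eq_zero.1 h0, hsq]
  · refine ⟨2 * j + 1, by omega, by omega, ?_⟩
    have hN : n - 2 * j = n - (2 * j + 1) + 1 := by omega
    rw [show n - (2 * j + 1) = n - 2 * j - 1 by omega] at hN ⊢
    rw [hN, pow_succ] at h0
    rw [neg_pow]
    rw [show (q : ZMod r) ^ (n - 2 * j - 1) = (-1) ^ (n - 2 * j - 1) by
      rw [show n - 2 * j - 1 + 1 - 1 = n - 2 * j - 1 by omega] at h0
      linear_combination h0, hsq]

/-- The orders of `q ^ 2` and of `-q`. -/
theorem herm_orders (hq : (q : ZMod r) ≠ 0) (hr2 : r ≠ 2) {i b c : ℕ} (hi : i = orderOf (q : ZMod r))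
    (hb : b = if Even i then i / 2 else i)
    (hc : c = if i % 4 = 0 then i else if i % 4 = 2 then i / 2 else 2 * i) :
    0 < i ∧ b = orderOf ((q ^ 2 : ℕ) : ZMod r) ∧ 0 < b ∧ (i % 4 = 2 → c = b) ∧ (i % 4 ≠ 2 → c = 2 * b) ∧
      ((∃ j : ℕ, ((q ^ 2 : ℕ) : ZMod r) ^ j = -(q : ZMod r)) ↔ i % 4 = 2) ∧
      ∀ e, (-(q : ZMod r)) ^ e = 1 → c ∣ e := by
  have hr : r.Prime := Fact.out
  have : Fact (2 < r) := ⟨by have := hr.two_le; omega⟩
  have hpos : 0 < i := by
    rw [hi, orderOf_pos_iff, isOfFinOrder_iff_pow_eq_one]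
    exact ⟨r - 1, by have := hr.two_le; omega, ZMod.pow_card_sub_one_eq_one hq⟩
  have hneg : (-1 : ZMod r) ≠ 1 := ZMod.neg_one_ne_one
  have hhalf : ∀ {h : ℕ}, i = 2 * h → (q : ZMod r) ^ h = -1 := fun {h} e => by
    have h1 : ((q : ZMod r) ^ h) ^ 2 = 1 := by rw [← pow_mul, mul_comm, ← e, hi, pow_orderOf_eq_one]
    rcases sq_eq_one_iff.1 h1 with h2 | h2
    · have := Nat.le_of_dvd (by omega) (hi ▸ orderOf_dvd_iff_pow_eq_one.2 h2 : i ∣ h)
      omega
    · exact h2
  have hbQ : b = orderOf ((q ^ 2 : ℕ) : ZMod r) := by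
    rw [Nat.cast_pow, orderOf_pow' _ two_ne_zero, ← hi, hb]
    by_cases he : Even i
    · rw [if_pos he, Nat.gcd_eq_right he.two_dvd]
    · rw [if_neg he, Nat.coprime_iff_gcd_eq_one.1 ((Nat.prime_two.coprime_iff_not_dvd.2
        fun h => he (even_iff_two_dvd.2 h)).symm), Nat.div_one]
  have hbpos : 0 < b := by
    rw [hb]; split_ifs with he
    · obtain ⟨t, ht⟩ := he; omega
    · exact hpos
  have hc2 : i % 4 = 2 → c = b := fun h => by
    rw [hc, hb, if_neg (by omega), if_pos h, if_pos (Nat.even_iff.2 (by omega))]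
  have hc4 : i % 4 ≠ 2 → c = 2 * b := fun h => by
    rw [hc, hb]
    by_cases h0 : i % 4 = 0
    · rw [if_pos h0, if_pos (Nat.even_iff.2 (by omega))]; omega
    · rw [if_neg h0, if_neg h, if_neg (by rw [Nat.even_iff]; omega)]
  refine ⟨hpos, hbQ, hbpos, hc2, hc4, ⟨?_, fun h => ?_⟩, fun e he => ?_⟩
  · rintro ⟨j, hj⟩
    rw [Nat.cast_pow, ← pow_mul] at hj
    have h1 : (q : ZMod r) ^ (2 * j + (i - 1)) = -1 := by
      rw [pow_add, hj, neg_mul, ← pow_succ', show i - 1 + 1 = i by omega, hi, pow_orderOf_eq_one]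
    rcases Nat.even_or_odd i with hev | hodd
    · obtain ⟨h, hh⟩ := hev
      have hh' : i = 2 * h := by omega
      by_contra h4
      have hdvd : i ∣ 2 * (2 * j + (i - 1)) := by
        rw [hi, orderOf_dvd_iff_pow_eq_one, mul_comm, pow_mul, ← hi, h1, neg_one_sq]
      obtain ⟨t, ht⟩ := hdvd
      have hev' : Even h := Nat.even_iff.2 (by omega)
      obtain ⟨u, rfl⟩ := hev'
      have : 2 * j + (i - 1) = 2 * (u * t) := by
        rw [hh', show 2 * (u + u) * t = 4 * (u * t) by ring] at ht; omega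
      omega
    · have hdvd : i ∣ 2 * (2 * j + (i - 1)) := by
        rw [hi, orderOf_dvd_iff_pow_eq_one, mul_comm, pow_mul, ← hi, h1, neg_one_sq]
      have h2 := (Nat.prime_two.coprime_iff_not_dvd.2 (by
        obtain ⟨t, ht⟩ := hodd; omega : ¬ 2 ∣ i)).symm.dvd_of_dvd_mul_left hdvd
      rw [hi, orderOf_dvd_iff_pow_eq_one, ← hi, h1] at h2
      exact absurd h2 hneg
  · refine ⟨i / 4 + 1, ?_⟩
    rw [Nat.cast_pow, ← pow_mul, show 2 * (i / 4 + 1) = i / 2 + 1 by omega, pow_succ,
      hhalf (show i = 2 * (i / 2) by omega), neg_one_mul]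
  · obtain ⟨t, rfl⟩ : b ∣ e := by
      rw [hbQ, orderOf_dvd_iff_pow_eq_one, Nat.cast_pow, ← neg_sq, ← pow_mul, mul_comm, pow_mul, he, one_pow]
    by_cases h4 : i % 4 = 2
    · rw [hc2 h4]; exact Dvd.intro t rfl
    · have hm : (-(q : ZMod r)) ^ b = -1 := by
        rw [neg_pow]
        by_cases hev : Even i
        · rw [hb, if_pos hev, hhalf (show i = 2 * (i / 2) by obtain ⟨u, hu⟩ := hev; omega),
            Even.neg_one_pow (Nat.even_iff.2 (by obtain ⟨u, hu⟩ := hev; omega)), one_mul]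
        · rw [hb, if_neg hev, (Nat.not_even_iff_odd.1 hev).neg_one_pow, hi, pow_orderOf_eq_one, mul_one]
      rw [pow_mul, hm] at he
      obtain ⟨u, rfl⟩ : Even t := by
        by_contra h
        rw [(Nat.not_even_iff_odd.1 h).neg_one_pow] at he
        exact hneg he
      rw [hc4 h4]
      exact ⟨u, by ring⟩

/-- Divisibility of the number of totally isotropic subspaces bounds `c`. -/
theorem herm_bound {n m c : ℕ} (h : ∀ e, (-(q : ZMod r)) ^ e = 1 → c ∣ e)
    (hd : ∃ e, e < 2 * m ∧ e < n ∧ (-(q : ZMod r)) ^ (n - e) = 1) : c ≤ n ∧ n % c < 2 * m := by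
  obtain ⟨e, he, hen, hpow⟩ := hd
  obtain ⟨t, ht⟩ := h _ hpow
  have h1 : c ≤ n - e := by
    rcases Nat.eq_zero_or_pos t with rfl | ht0
    · omega
    · rw [ht]; exact Nat.le_mul_of_pos_right c ht0
  refine ⟨by omega, ?_⟩
  rw [show n = e + c * t by omega, Nat.add_mul_mod_self_left]
  exact lt_of_le_of_lt (Nat.mod_le _ _) he

/-- The arithmetic of the criterion for isotropic subspaces; `P` says that the factors are self-dual. -/
theorem herm_iso_arith {P : Prop} [Decidable P] {N b t m c : ℕ} (hb0 : 0 < b)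
    (hc : c = if P then b else 2 * b) (hmN : 2 * m ≤ N) (hbig : c ≤ N ∧ N % c < 2 * m) :
    (∀ L, 0 < L → b * L ≤ N → (¬ P → Even L) →
      ∃ j, j ≤ (if P then (L + 1 - t) / 2 else L / 2) ∧ b * j ≤ m ∧ b * L + 2 * (m - b * j) ≤ N) ↔
    (b ≤ m ∧ 2 * (m % b) ≤ N % c ∧ (P → t + 2 * (m / b) ≤ N / b)) := by
  have hm := Nat.div_add_mod m b
  have hl := Nat.mod_lt m hb0
  have hmul : ∀ {x y : ℕ}, x ≤ y → b * x ≤ b * y := fun h => Nat.mul_le_mul_left b h
  by_cases hP : P
  · rw [if_pos hP] at hc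
    subst hc
    simp only [hP, if_true, forall_const, not_true_eq_false, false_imp_iff]
    have hn := Nat.div_add_mod N c
    have hk := Nat.mod_lt N hb0
    constructor
    · intro H
      have hn0 : 0 < N / c := Nat.div_pos hbig.1 hb0
      obtain ⟨j, hj, hjm, hle⟩ := H _ hn0 (by omega)
      have hjm' : j ≤ m / c := (Nat.le_div_iff_mul_le hb0).2 (by rw [mul_comm]; exact hjm)
      have him : c ≤ m := by
        by_contra h
        have h0 : m / c = 0 := Nat.div_eq_of_lt (by omega)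
        have := hbig.2
        have : j = 0 := by omega
        subst this
        simp at hle
        omega
      have hm1 : 1 ≤ m / c := Nat.div_pos him hb0
      have hjeq : j = m / c := by
        by_contra h
        have := hmul (show j + 1 ≤ m / c by omega)
        rw [mul_add, mul_one] at this
        omega
      subst hjeq
      have h2n : 2 ≤ N / c := by
        rw [Nat.le_div_iff_mul_le hb0]
        omega
      obtain ⟨j', hj', hjm'', hle'⟩ := H (N / c - 1) (by omega) (by
        have := hmul (show N / c - 1 ≤ N / c by omega); omega)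
      refine ⟨him, by omega, ?_⟩
      by_contra hlt
      have h1 := hmul (show j' + 1 ≤ m / c by omega)
      have h2 : c * (N / c - 1) + c = c * (N / c) := by
        rw [← mul_add_one, Nat.sub_add_cancel (by omega)]
      rw [mul_add, mul_one] at h1
      omega
    · rintro ⟨him, h2l, htn⟩ L hL hLN
      have hLn : L ≤ N / c := (Nat.le_div_iff_mul_le hb0).2 (by rw [mul_comm]; exact hLN)
      rcases le_or_gt (m / c) ((L + 1 - t) / 2) with h | h
      · exact ⟨m / c, h, by omega, by have := hmul hLn; omega⟩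
      · refine ⟨(L + 1 - t) / 2, le_rfl, by have := hmul h.le; omega, ?_⟩
        have h1 := hmul (show L + 2 * (m / c - (L + 1 - t) / 2) ≤ N / c by omega)
        have h2 : c * (m / c - (L + 1 - t) / 2) + c * ((L + 1 - t) / 2) = c * (m / c) := by
          rw [← mul_add, Nat.sub_add_cancel h.le]
        rw [mul_add, mul_left_comm] at h1
        omega
  · rw [if_neg hP] at hc
    subst hc
    simp only [hP, if_false, false_imp_iff, and_true, not_false_eq_true, forall_const]
    have hn := Nat.div_add_mod N (2 * b)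
    constructor
    · intro H
      have hn0 : 0 < N / (2 * b) := Nat.div_pos hbig.1 (by omega)
      have h2 : b * (2 * (N / (2 * b))) = 2 * b * (N / (2 * b)) := by ring
      obtain ⟨j, hj, hjm, hle⟩ := H (2 * (N / (2 * b))) (by omega) (by omega) (even_two_mul _)
      have hjm' : j ≤ m / b := (Nat.le_div_iff_mul_le hb0).2 (by rw [mul_comm]; exact hjm)
      have := hmul hjm'
      refine ⟨?_, by omega⟩
      by_contra h
      have := hbig.2
      have : m / b = 0 := Nat.div_eq_of_lt (by omega)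
      have : j = 0 := by omega
      subst this
      simp at hle
      omega
    · rintro ⟨him, h2l⟩ L hL hLN hLe
      obtain ⟨l, rfl⟩ := hLe
      have hll : l ≤ N / (2 * b) := (Nat.le_div_iff_mul_le (by omega)).2 (by
        rw [show l * (2 * b) = b * (l + l) by ring]; exact hLN)
      have h2 := hmul hll
      have h4 : b * (l + l) = 2 * (b * l) := by ring
      have h5 : 2 * b * (N / (2 * b)) = 2 * (b * (N / (2 * b))) := by ring
      rcases le_or_gt (m / b) l with h | h
      · exact ⟨m / b, by omega, by omega, by omega⟩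
      · exact ⟨l, by omega, by have := hmul h.le; omega, by have := hmul h.le; omega⟩

end Cfsg.Agent.H97
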