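import Cfsg.Agent.H97.IsotropicMult
import Cfsg.Agent.H66.Unitary
import Cfsg.Agent.H66.SemisimpleGL
import Cfsg.Agent.H67.UnitarySimilar
import Cfsg.Agent.H3.Unitary

set_option autoImplicit false

/-!
# The standard Hermitian space and models with an invariant totally isotropic subspace
-/

namespace Cfsg.Agent.H97

open Module Polynomial
open scoped Matrix

variable {F : Type*} [Field F] [Fintype F] {q : ℕ}

/-- The standard Hermitian form, linear in the first variable. -/
def herm (hF : Fintype.card F = q ^ 2) (n : ℕ) :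
    (Fin n → F) →ₗ[F] (Fin n → F) →ₛₗ[H3.conjQ hF] F :=
  (H3.hermB hF n).flip

@[simp] theorem herm_apply (hF : Fintype.card F = q ^ 2) (n : ℕ) (u v : Fin n → F) :
    herm hF n u v = Cfsg.hermForm n F q u v := rfl

theorem herm_hrefl (hF : Fintype.card F = q ^ 2) (n : ℕ) :
    ∀ u v, herm hF n u v = 0 → herm hF n v u = 0 := fun u v h => by
  rw [herm_apply] at h ⊢
  exact (H3.hermForm_eq_zero_comm hF).1 h

theorem herm_hnd (hF : Fintype.card F = q ^ 2) (n : ℕ) :
    ∀ u, (∀ v, herm hF n u v = 0) → u = 0 := fun u h =>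
  (H3.isHerm_hermB hF n).sep u fun v => by
    rw [H3.hermB_apply]
    exact (H3.hermForm_eq_zero_comm hF).1 (by simpa using h v)

/-- The conjugation is a power of the Frobenius map. -/
theorem exists_conjQ_pow (hF : Fintype.card F = q ^ 2) (p : ℕ) [Fact p.Prime] [CharP F p] :
    ∃ k, q = p ^ k ∧ ∀ x : F, H3.conjQ hF x = x ^ p ^ k := by
  obtain ⟨e, hp, he⟩ := FiniteField.card F p
  have hdvd : q ∣ p ^ (e : ℕ) := by rw [← he, hF]; exact dvd_pow_self q two_ne_zero
  obtain ⟨k, -, hk⟩ := (Nat.dvd_prime_pow hp).1 hdvd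
  exact ⟨k, hk, fun x => by rw [← hk]; rfl⟩

omit [Fintype F] in
/-- The dual of `X ^ N - c`. -/
theorem dualPoly_X_pow_sub_C (σ : F →+* F) {N : ℕ} (hN : 0 < N) {c : F} (hc : c ≠ 0) :
    H67.dualPoly σ (X ^ N - C c) = X ^ N - C (σ c)⁻¹ := by
  have hd : ((X ^ N - C c : F[X]).map σ).natDegree = N := by
    rw [natDegree_map, natDegree_X_pow_sub_C]
  rw [H67.dualPoly, reverse, hd, Polynomial.map_sub, Polynomial.map_pow, map_X, map_C, reflect_sub,
    reflect_C, ← one_mul (X ^ N : F[X]), ← C_1, reflect_C_mul_X_pow, revAt_le le_rfl, Nat.sub_self,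
    pow_zero, mul_one, C_1, one_mul, coeff_sub, coeff_X_pow, if_neg hN.ne, coeff_C_zero, zero_sub,
    map_neg, inv_neg, mul_sub, mul_one, ← mul_assoc, ← map_mul, neg_mul,
    inv_mul_cancel₀ ((_root_.map_ne_zero σ).2 hc), map_neg, map_neg, map_one]
  ring

/-- Self-dual polynomials are characteristic polynomials of semisimple unitary elements. -/
theorem exists_gu_charpoly (hF : Fintype.card F = q ^ 2) (p : ℕ) [Fact p.Prime] [CharP F p] {k : ℕ}
    {f : F[X]} (hf : f.Monic) (hdeg : f.natDegree = k) (h0 : f.coeff 0 ≠ 0)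
    (hdual : H67.dualPoly (H3.conjQ hF) f = f) :
    ∃ y : Cfsg.GU k F q, ((y : GL (Fin k) F) : Matrix (Fin k) (Fin k) F).charpoly = f ∧
      (orderOf y).Coprime p := by
  obtain ⟨A, hA, hco⟩ := H66.exists_gl_charpoly_eq p hf hdeg h0
  have hco' : (orderOf (H67.contraHom (H3.conjQ hF) (Fin k) A)).Coprime p :=
    hco.coprime_dvd_left (orderOf_map_dvd _ A)
  have hconj := H66.isConj_of_charpoly_eq p hco hco' (by
    show _ = (H67.contraMat (H3.conjQ hF) A).charpoly
    rw [H67.charpoly_contraMat, hA, hdual])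
  obtain ⟨y, hy⟩ := H67.exists_GU_isConj hF A (H66.gl_isConj_iff.1 hconj)
  obtain ⟨c, hc⟩ := isConj_iff.1 hy
  refine ⟨y, ?_, ?_⟩
  · rw [← hc, Units.val_mul, Units.val_mul, Matrix.charpoly_mul_comm, ← mul_assoc, ← Units.val_mul, inv_mul_cancel, Units.val_one, one_mul, hA]
  · rw [← Subgroup.orderOf_coe, ← hc]
    rw [show c * A * c⁻¹ = (MulAut.conj c).toMonoidHom A from rfl,
      orderOf_injective _ (MulAut.conj c).injective]
    exact hco

/-- Semisimple unitary elements fix the totally isotropic subspaces of their models. -/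
theorem exists_isotropic_of_charpoly (hF : Fintype.card F = q ^ 2) (p : ℕ) [Fact p.Prime] [CharP F p]
    {n m k : ℕ} (hn : 2 * m + k = n) {x : Cfsg.GU n F q} (hx : (orderOf x).Coprime p)
    {g : GL (Fin m) F} (hg : (orderOf g).Coprime p) {y : Cfsg.GU k F q} (hy : (orderOf y).Coprime p)
    (hc : ((x : GL (Fin n) F) : Matrix (Fin n) (Fin n) F).charpoly =
      (g : Matrix (Fin m) (Fin m) F).charpoly *
        (H67.dualPoly (H3.conjQ hF) (g : Matrix (Fin m) (Fin m) F).charpoly *
          ((y : GL (Fin k) F) : Matrix (Fin k) (Fin k) F).charpoly)) :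
    ∃ W : Submodule F (Fin n → F), finrank F W = m ∧
      (∀ u ∈ W, ∀ v ∈ W, Cfsg.hermForm n F q u v = 0) ∧
      W.map (Matrix.toLin' ((x : GL (Fin n) F) : Matrix (Fin n) (Fin n) F)) ≤ W := by
  classical
  set σ := H3.conjQ hF
  let H : ((Fin m → F) × (Fin m → F) × (Fin k → F)) →ₛₗ[σ]
      ((Fin m → F) × (Fin m → F) × (Fin k → F)) →ₗ[F] F :=
    LinearMap.mk₂'ₛₗ σ (RingHom.id F)
      (fun v u => (u.1 ⬝ᵥ fun a => σ (v.2.1 a)) + (u.2.1 ⬝ᵥ fun a => σ (v.1 a)) + H3.hermB hF k v.2.2 u.2.2)
      (fun v v' u => by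
        simp only [Prod.fst_add, Prod.snd_add, Pi.add_apply, map_add, LinearMap.add_apply, dotProduct,
          mul_add, Finset.sum_add_distrib]
        ring)
      (fun c v u => by
        simp only [Prod.smul_fst, Prod.smul_snd, Pi.smul_apply, map_mul, smul_eq_mul, LinearMap.map_smulₛₗ,
          LinearMap.smul_apply, dotProduct, mul_add, Finset.mul_sum]
        congr 1
        congr 1 <;> exact Finset.sum_congr rfl fun a _ => by ring)
      (fun v u u' => by
        simp only [Prod.fst_add, Prod.snd_add, map_add, add_dotProduct]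
        ring)
      (fun c v u => by
        simp only [Prod.smul_fst, Prod.smul_snd, map_smul, smul_eq_mul, smul_dotProduct, mul_add,
          RingHom.id_apply])
  have hH : ∀ v u, H v u = (u.1 ⬝ᵥ fun a => σ (v.2.1 a)) + (u.2.1 ⬝ᵥ fun a => σ (v.1 a)) +
      H3.hermB hF k v.2.2 u.2.2 := fun _ _ => rfl
  have hσσ : ∀ z, σ (σ z) = z := H3.conjQ_conjQ hF
  have hdot : ∀ u v : Fin m → F, σ (u ⬝ᵥ fun a => σ (v a)) = v ⬝ᵥ fun a => σ (u a) := fun u v => by
    simp only [dotProduct, map_sum, map_mul, hσσ]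
    exact Finset.sum_congr rfl fun a _ => mul_comm _ _
  have hsingle : ∀ (u : Fin m → F) (j : Fin m), (u ⬝ᵥ fun a => σ ((Pi.single j 1 : Fin m → F) a)) = u j := by
    intro u j
    rw [dotProduct, Finset.sum_eq_single j (fun a _ ha => by simp [Pi.single_eq_of_ne ha]) (by simp)]
    simp
  have hherm : H3.IsHerm H q :=
    { card_eq := hF
      sigma_apply := fun z => rfl
      symm := fun v u => by
        rw [hH, hH, map_add, map_add, hdot, hdot, (H3.isHerm_hermB hF k).symm]
        ring
      sep := fun v hv => by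
        have h1 : ∀ j, v.2.1 j = 0 := fun j => by
          simpa [hH, single_dotProduct, H3.hermForm_zero_left hF] using hv (Pi.single j 1, 0, 0)
        have h2 : ∀ j, v.1 j = 0 := fun j => by
          simpa [hH, single_dotProduct, H3.hermForm_zero_left hF] using hv (0, Pi.single j 1, 0)
        have h3 : v.2.2 = 0 := (H3.isHerm_hermB hF k).sep _ fun w => by
          simpa [hH] using hv (0, 0, w)
        exact Prod.ext (_root_.funext h2) (Prod.ext (_root_.funext h1) h3) }
  have hV : finrank F ((Fin m → F) × (Fin m → F) × (Fin k → F)) = n := by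
    rw [finrank_prod, finrank_prod, finrank_fin_fun, finrank_fin_fun]; omega
  obtain ⟨b, hb⟩ := hherm.exists_orth_basis (n := n) hV
  set E : ((Fin m → F) × (Fin m → F) × (Fin k → F)) ≃ₗ[F] (Fin n → F) := b.equivFun
  have hE : ∀ u v, Cfsg.hermForm n F q (E u) (E v) = H v u := by
    intro u v
    have key : ((H3.hermB hF n).comp E.toLinearMap).compl₂ E.toLinearMap = H := by
      refine b.ext fun i => b.ext fun j => ?_
      rw [hb i j]
      simp only [LinearMap.compl₂_apply, LinearMap.comp_apply, LinearEquiv.coe_coe, E,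
        H3.hermB_apply]
      rw [Cfsg.hermForm, Finset.sum_eq_single j (fun l _ hl => by simp [Ne.symm hl]) (by simp)]
      have := H3.two_le_q hF
      rcases eq_or_ne i j with rfl | hij
      · simp
      · simp [hij, zero_pow (show q ≠ 0 by omega)]
    rw [← key]; rfl
  -- the model isometry
  let G : Matrix (Fin m) (Fin m) F := g
  let C' : Matrix (Fin m) (Fin m) F := H67.contraMat σ g
  let Y : Matrix (Fin k) (Fin k) F := (y : GL (Fin k) F)
  have hGC : ∀ u v : Fin m → F, (G.mulVec u ⬝ᵥ fun a => σ (C'.mulVec v a)) = u ⬝ᵥ fun a => σ (v a) := by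
    intro u v
    have h1 : G.transpose * C'.map σ = 1 := by
      have hgu : IsUnit (((g : Matrix (Fin m) (Fin m) F).map σ).transpose).det := by
        rw [Matrix.det_transpose, ← RingHom.mapMatrix_apply, ← RingHom.map_det]
        exact ((Matrix.isUnit_iff_isUnit_det _).1 g.isUnit).map σ
      have h2 : ((g : Matrix (Fin m) (Fin m) F).map σ).transpose * C' = 1 := by
        simp only [C', H67.contraMat_eq]
        exact Matrix.mul_nonsing_inv _ hgu
      have h3 := congrArg (fun M => M.map σ) h2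
      simp only [Matrix.map_mul, Matrix.transpose_map, Matrix.map_map,
        Matrix.map_one _ (map_zero σ) (map_one σ)] at h3
      rw [show (σ : F → F) ∘ σ = id from _root_.funext hσσ, Matrix.map_id] at h3
      exact h3
    rw [show (fun a => σ (C'.mulVec v a)) = (C'.map σ).mulVec (fun a => σ (v a)) from
      _root_.funext fun a => σ.map_mulVec C' v a, ← Matrix.vecMul_transpose, ← Matrix.dotProduct_mulVec,
      Matrix.mulVec_mulVec, h1, Matrix.one_mulVec]
  let T : End F ((Fin m → F) × (Fin m → F) × (Fin k → F)) :=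
    (Matrix.toLin' G).prodMap ((Matrix.toLin' C').prodMap (Matrix.toLin' Y))
  have hT : ∀ u v, H (T v) (T u) = H v u := fun u v => by
    rw [hH, hH]
    simp only [T, LinearMap.prodMap_apply, Matrix.toLin'_apply, H3.hermB_apply]
    rw [hGC, ← hdot (G.mulVec v.1) (C'.mulVec u.2.1), hGC, hdot]
    rw [show Cfsg.hermForm k F q (Y.mulVec u.2.2) (Y.mulVec v.2.2) = _ from H3.GU_preserves y _ _]
  have hinj : Function.Injective T := by
    rw [injective_iff_map_eq_zero]
    intro v hv
    exact hherm.sep v fun u => by rw [← hT u v, hv, map_zero, LinearMap.zero_apply]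
  let e := (E.symm.trans (LinearEquiv.ofInjectiveEndo T hinj)).trans E
  have hpres : ∀ u v, Cfsg.hermForm n F q (e u) (e v) = Cfsg.hermForm n F q u v := fun u v => by
    show Cfsg.hermForm n F q (E (T (E.symm u))) (E (T (E.symm v))) = _
    rw [hE, hT, ← hE, E.apply_symm_apply, E.apply_symm_apply]
  let z : Cfsg.GU n F q := H3.guOfEquiv e hpres
  have hz : ∀ u, ((z : GL (Fin n) F) : Matrix (Fin n) (Fin n) F).mulVec u = E (T (E.symm u)) :=
    fun u => H3.guOfEquiv_mulVec e hpres u
  have hzc : ((z : GL (Fin n) F) : Matrix (Fin n) (Fin n) F).charpoly =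
      ((x : GL (Fin n) F) : Matrix (Fin n) (Fin n) F).charpoly := by
    rw [← Matrix.charpoly_toLin', show Matrix.toLin' ((z : GL (Fin n) F) : Matrix (Fin n) (Fin n) F) = E.conj T
      from LinearMap.ext fun u => by rw [Matrix.toLin'_apply, hz]; rfl, LinearEquiv.charpoly_conj]
    simp only [T, LinearMap.charpoly_prodMap, Matrix.charpoly_toLin']
    rw [hc]
    simp only [G, C', Y, H67.charpoly_contraMat, σ]
  have hzo : (orderOf z).Coprime p := by
    refine Nat.Coprime.coprime_dvd_left (orderOf_dvd_of_pow_eq_one ?_)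
      (Nat.Coprime.mul_left (Nat.Coprime.mul_left hg hy) hg)
    set N := orderOf g * orderOf y * orderOf g with hN
    have hgN : g ^ N = 1 := orderOf_dvd_iff_pow_eq_one.1 ⟨orderOf y * orderOf g, by rw [hN]; ring⟩
    have hyN : y ^ N = 1 := orderOf_dvd_iff_pow_eq_one.1 ⟨orderOf g * orderOf g, by rw [hN]; ring⟩
    have hGN : G ^ N = 1 := by rw [← Units.val_pow_eq_pow_val, hgN, Units.val_one]
    have hYN : Y ^ N = 1 := by
      rw [← Units.val_pow_eq_pow_val, ← SubgroupClass.coe_pow, hyN]; rfl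
    have hCN : C' ^ N = 1 := by
      show ((H67.contraHom σ (Fin m) g : GL (Fin m) F) : Matrix (Fin m) (Fin m) F) ^ N = 1
      rw [← Units.val_pow_eq_pow_val, ← map_pow, hgN, map_one, Units.val_one]
    have hpw : ∀ (j : ℕ) v, (T ^ j) v = ((G ^ j).mulVec v.1, (C' ^ j).mulVec v.2.1, (Y ^ j).mulVec v.2.2) := by
      intro j
      induction j with
      | zero => intro v; simp
      | succ j ih =>
        intro v
        rw [pow_succ', Module.End.mul_apply, ih]
        simp [T, pow_succ', Matrix.mulVec_mulVec]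
    have hzj : ∀ (j : ℕ) u,
        ((z : GL (Fin n) F) : Matrix (Fin n) (Fin n) F) ^ j *ᵥ u = E ((T ^ j) (E.symm u)) := by
      intro j
      induction j with
      | zero => intro u; simp
      | succ j ih =>
        intro u
        rw [pow_succ', ← Matrix.mulVec_mulVec, ih, hz, E.symm_apply_apply, ← Module.End.mul_apply, ← pow_succ']
    refine Subtype.ext (Units.ext (Matrix.ext_iff_mulVec.2 fun u => ?_))
    rw [SubgroupClass.coe_pow, Units.val_pow_eq_pow_val, hzj, hpw, hGN, hCN, hYN]
    simp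
  obtain ⟨c, hcj⟩ := isConj_iff.1 (H66.gu_isConj_of_isConj hF z x
    (H66.isConj_of_charpoly_eq p (by rwa [Subgroup.orderOf_coe]) (by rwa [Subgroup.orderOf_coe]) hzc))
  set P : Matrix (Fin n) (Fin n) F := ((c : GL (Fin n) F) : Matrix (Fin n) (Fin n) F) with hP
  let L : (Fin m → F) →ₗ[F] (Fin n → F) :=
    (Matrix.toLin' P).comp (E.toLinearMap.comp (LinearMap.inl F (Fin m → F) ((Fin m → F) × (Fin k → F))))
  have hL : ∀ u, L u = P *ᵥ E (u, 0) := fun u => rfl
  refine ⟨LinearMap.range L, ?_, ?_, ?_⟩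
  · rw [LinearMap.finrank_range_of_inj, finrank_fin_fun]
    intro u v huv
    rw [hL, hL] at huv
    have h1 := E.injective (Matrix.mulVec_injective_of_isUnit (A := P) ((c : GL (Fin n) F).isUnit) huv)
    exact congrArg Prod.fst h1
  · rintro _ ⟨u, rfl⟩ _ ⟨v, rfl⟩
    rw [hL, hL, show Cfsg.hermForm n F q (P *ᵥ E (u, 0)) (P *ᵥ E (v, 0)) = _ from H3.GU_preserves c _ _,
      hE, hH]
    simp
  · rintro _ ⟨_, ⟨u, rfl⟩, rfl⟩
    refine ⟨G.mulVec u, ?_⟩
    have hxP : ((x : GL (Fin n) F) : Matrix (Fin n) (Fin n) F) * P =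
        P * ((z : GL (Fin n) F) : Matrix (Fin n) (Fin n) F) := by
      have h1 : c * z = x * c := by rw [← hcj]; group
      exact (congrArg (fun w : Cfsg.GU n F q => ((w : GL (Fin n) F) : Matrix (Fin n) (Fin n) F)) h1).symm
    rw [Matrix.toLin'_apply, hL, hL, Matrix.mulVec_mulVec, hxP, ← Matrix.mulVec_mulVec, hz, E.symm_apply_apply]
    simp [T]
    rfl

end Cfsg.Agent.H97
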