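import Cfsg.Agent.H97.Nilpotent
import Cfsg.Agent.H97.SympSemisimple

/-! Unipotent isometries of alternating forms: orthogonal pieces and models of every block type. -/

universe u v

namespace Cfsg.Agent.H97

open Module

section pieces

variable {F : Type u} {V : Type v} [Field F] [AddCommGroup V] [Module F V] [FiniteDimensional F V]
variable {B : LinearMap.BilinForm F V} {N : End F V} {P : Submodule F V}

/-- An orthogonal family of nondegenerate invariant pieces with given block types. -/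
inductive SymPieces (B : LinearMap.BilinForm F V) (N : End F V) : Submodule F V → Multiset (Multiset ℕ) → Prop
  | bot : SymPieces B N ⊥ 0
  | cons {P T : Submodule F V} {π : Multiset (Multiset ℕ)} {τ : Multiset ℕ} (hT : Blocks N T τ)
      (hn : NondegOn B T) (ho : ∀ t ∈ T, ∀ p ∈ P, B t p = 0) (h : SymPieces B N P π) :
      SymPieces B N (T ⊔ P) (τ ::ₘ π)

theorem SymPieces.nondeg_blocks (hA : B.IsAlt) {π : Multiset (Multiset ℕ)} (h : SymPieces B N P π) :
    NondegOn B P ∧ Blocks N P π.join := by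
  induction h with
  | bot => exact ⟨fun v hv _ => (Submodule.mem_bot F).1 hv, by simpa using Blocks.bot⟩
  | @cons P T π τ hT hn ho _ ih =>
    refine ⟨(hn.sup hA.isRefl ih.1 ho).1, ?_⟩
    rw [Multiset.join_cons]
    refine hT.sup ih.2 ?_
    rw [Submodule.disjoint_def]
    exact fun v hv hv' => hn v hv fun w hw => hA.isRefl _ _ (ho w hw v hv')

/-- Any sub-family of pieces spans a nondegenerate invariant subspace. -/
theorem SymPieces.exists_sub (hA : B.IsAlt) {π : Multiset (Multiset ℕ)} (h : SymPieces B N P π) :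
    ∀ π' ≤ π, ∃ W, W ≤ P ∧ SymPieces B N W π' := by
  classical
  induction h with
  | bot => exact fun π' hπ' => ⟨⊥, le_rfl, Multiset.le_zero.1 hπ' ▸ .bot⟩
  | @cons P T π τ hT hn ho hP ih =>
    intro π' hπ'
    by_cases hτ : τ ∈ π'
    · obtain ⟨π'', rfl⟩ := Multiset.exists_cons_of_mem hτ
      obtain ⟨W, hW, hWp⟩ := ih π'' ((Multiset.cons_le_cons_iff τ).1 hπ')
      exact ⟨T ⊔ W, sup_le_sup_left hW T, .cons hT hn (fun t ht p hp => ho t ht p (hW hp)) hWp⟩
    · obtain ⟨W, hW, hWp⟩ := ih π' ((Multiset.le_cons_of_notMem hτ).1 hπ')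
      exact ⟨W, hW.trans le_sup_right, hWp⟩

omit [FiniteDimensional F V] in
/-- The defining relation of a unipotent isometry. -/
theorem iso_relation (hx : ∀ u v, B (u + N u) (v + N v) = B u v) (u v : V) :
    B (N u) v + B u (N v) + B (N u) (N v) = 0 := by
  have := hx u v
  simp only [map_add, LinearMap.add_apply] at this
  linear_combination this

omit [FiniteDimensional F V] in
/-- Pairings of iterates vanish beyond the nilpotency index. -/
theorem pow_pair_eq_zero (hx : ∀ u v, B (u + N u) (v + N v) = B u v) {k : ℕ} (hk : ∀ v ∈ P, (N ^ k) v = 0)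
    {a b : V} (ha : a ∈ P) (hb : b ∈ P) :
    ∀ i j, k ≤ i + j → B ((N ^ i) a) ((N ^ j) b) = 0 := by
  suffices h : ∀ l i j, k ≤ i + l → k ≤ i + j → B ((N ^ i) a) ((N ^ j) b) = 0 from
    fun i j hij => h j i j hij hij
  intro l
  induction l with
  | zero =>
    intro i j hi _
    rw [show i = (i - k) + k by omega, pow_add, Module.End.mul_apply, hk a ha, map_zero, map_zero,
      LinearMap.zero_apply]
  | succ l ih =>
    intro i j hi hij
    rcases Nat.eq_zero_or_pos j with rfl | hj
    · rw [show i = (i - k) + k by omega, pow_add, Module.End.mul_apply, hk a ha, map_zero, map_zero,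
        LinearMap.zero_apply]
    · obtain ⟨j', rfl⟩ : ∃ j', j = j' + 1 := ⟨j - 1, by omega⟩
      have h1 := ih (i + 1) j' (by omega) (by omega)
      have h2 := ih (i + 1) (j' + 1) (by omega) (by omega)
      have h3 := iso_relation hx ((N ^ i) a) ((N ^ j') b)
      simp only [← Module.End.mul_apply, ← pow_succ'] at h3
      linear_combination h3 - h1 - h2

omit [FiniteDimensional F V] in
/-- Pairings of iterates on the antidiagonal. -/
theorem pow_pair_top (hx : ∀ u v, B (u + N u) (v + N v) = B u v) {k : ℕ} (hk : ∀ v ∈ P, (N ^ k) v = 0)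
    {a b : V} (ha : a ∈ P) (hb : b ∈ P) :
    ∀ j i, i + j + 1 = k → B ((N ^ i) a) ((N ^ j) b) = (-1) ^ j * B ((N ^ (k - 1)) a) b := by
  intro j
  induction j with
  | zero => intro i hi; simp [show i = k - 1 by omega]
  | succ j ih =>
    intro i hi
    have h2 := pow_pair_eq_zero hx hk ha hb (i + 1) (j + 1) (by omega)
    have h3 := iso_relation hx ((N ^ i) a) ((N ^ j) b)
    simp only [← Module.End.mul_apply, ← pow_succ'] at h3
    have h1 := ih (i + 1) (by omega)
    rw [pow_succ (-1 : F)]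
    linear_combination h3 - h2 - h1

omit [FiniteDimensional F V] in
/-- The symmetry of the top pairing. -/
theorem top_pair_symm (hA : B.IsAlt) (hx : ∀ u v, B (u + N u) (v + N v) = B u v) {k : ℕ} (hk0 : 0 < k)
    (hk : ∀ v ∈ P, (N ^ k) v = 0) {a b : V} (ha : a ∈ P) (hb : b ∈ P) :
    B ((N ^ (k - 1)) b) a = (-1) ^ k * B ((N ^ (k - 1)) a) b := by
  have h := pow_pair_top hx hk ha hb (k - 1) 0 (by omega)
  rw [pow_zero, Module.End.one_apply, ← hA.neg_eq] at h
  obtain ⟨k', rfl⟩ : ∃ k', k = k' + 1 := ⟨k - 1, by omega⟩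
  simp only [Nat.add_sub_cancel] at h ⊢
  rw [pow_succ]
  linear_combination -h

omit [FiniteDimensional F V] in
/-- A family whose top pairing matrix is nondegenerate has independent, nondegenerate iterates. -/
theorem gram_family (hx : ∀ u v, B (u + N u) (v + N v) = B u v) {k : ℕ} (hk : ∀ v ∈ P, (N ^ k) v = 0)
    {ι : Type*} [Fintype ι] (v : ι → V) (hv : ∀ s, v s ∈ P)
    (hnd : ∀ c : ι → F, (∀ t, ∑ s, c s * B ((N ^ (k - 1)) (v s)) (v t) = 0) → c = 0)
    (c : Fin k → ι → F) (hc : ∀ (j : ℕ) (t : ι), B (∑ i, ∑ s, c i s • (N ^ (i : ℕ)) (v s)) ((N ^ j) (v t)) = 0) :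
    c = 0 := by
  funext i
  obtain ⟨i, hi⟩ := i
  induction i using Nat.strong_induction_on with
  | _ i ih =>
    refine hnd _ fun t => ?_
    have h := hc (k - 1 - i) t
    simp only [map_sum, LinearMap.sum_apply, map_smul, LinearMap.smul_apply, smul_eq_mul] at h
    rw [Finset.sum_eq_single (⟨i, hi⟩ : Fin k)] at h
    · have h1 : ∀ s, c ⟨i, hi⟩ s * B ((N ^ i) (v s)) ((N ^ (k - 1 - i)) (v t)) =
          (-1) ^ (k - 1 - i) * (c ⟨i, hi⟩ s * B ((N ^ (k - 1)) (v s)) (v t)) := fun s => by
        rw [pow_pair_top hx hk (hv s) (hv t) (k - 1 - i) i (by omega)]; ring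
      rw [Finset.sum_congr rfl fun s _ => h1 s, ← Finset.mul_sum] at h
      exact (mul_eq_zero.1 h).resolve_left (pow_ne_zero _ (neg_ne_zero.2 one_ne_zero))
    · intro j _ hj
      rcases Nat.lt_trichotomy (j : ℕ) i with hlt | heq | hgt
      · simp [show c j = 0 from ih j hlt j.2]
      · exact absurd (Fin.ext heq) hj
      · exact Finset.sum_eq_zero fun s _ => by
          rw [pow_pair_eq_zero hx hk (hv s) (hv t) j (k - 1 - i) (by omega), mul_zero]
    · exact fun hn => absurd (Finset.mem_univ _) hn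

/-- A piece of highest block size. -/
theorem exists_piece (hA : B.IsAlt) (hx : ∀ u v, B (u + N u) (v + N v) = B u v) {m : ℕ} (hN : N ^ m = 0)
    (hPN : ∀ v ∈ P, N v ∈ P) (hP : NondegOn B P) (hP0 : P ≠ ⊥) :
    ∃ (k : ℕ) (T : Submodule F V) (τ : Multiset ℕ), 0 < k ∧ k ≤ m ∧ (∀ v ∈ P, (N ^ k) v = 0) ∧ T ≤ P ∧ T ≠ ⊥ ∧
      Blocks N T τ ∧ NondegOn B T ∧
      ((τ = {k} ∧ ∃ v ∈ P, B ((N ^ (k - 1)) v) v ≠ 0) ∨
        (τ = {k, k} ∧ (∀ v ∈ P, B ((N ^ (k - 1)) v) v = 0) ∧
          ∃ v ∈ P, ∃ w ∈ P, B ((N ^ (k - 1)) v) w ≠ 0)) := by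
  classical
  obtain ⟨v₀, hv₀, hv₀0⟩ := (Submodule.ne_bot_iff P).1 hP0
  have hex : ∃ k, ∀ v ∈ P, (N ^ k) v = 0 := ⟨m, fun v _ => by rw [hN]; rfl⟩
  set k := Nat.find hex
  have hk : ∀ v ∈ P, (N ^ k) v = 0 := Nat.find_spec hex
  have hkm : k ≤ m := Nat.find_min' hex fun v _ => by rw [hN]; rfl
  have hkpos : 0 < k := Nat.pos_of_ne_zero fun h => hv₀0 (by simpa [h] using hk v₀ hv₀)
  have hpowP : ∀ (i : ℕ), ∀ v ∈ P, (N ^ i) v ∈ P := by
    intro i
    induction i with
    | zero => exact fun v hv => hv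
    | succ i ih => intro v hv; rw [pow_succ', Module.End.mul_apply]; exact hPN _ (ih v hv)
  obtain ⟨v, hv, hlast⟩ : ∃ v ∈ P, (N ^ (k - 1)) v ≠ 0 := by
    have h := Nat.find_min hex (show k - 1 < k by omega)
    push Not at h; exact h
  obtain ⟨w, hw, hvw⟩ : ∃ w ∈ P, B ((N ^ (k - 1)) v) w ≠ 0 := by
    by_contra h; push Not at h; exact hlast (hP _ (hpowP _ v hv) h)
  have hlast' : ∀ a b, B ((N ^ (k - 1)) a) b ≠ 0 → (N ^ (k - 1)) a ≠ 0 := fun a b h h0 => h (by simp [h0])
  have hspanP : ∀ a ∈ P, blockSpan N a k ≤ P := fun a ha =>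
    Submodule.span_le.2 (by rintro _ ⟨i, rfl⟩; exact hpowP _ a ha)
  by_cases hsingle : ∃ u ∈ P, B ((N ^ (k - 1)) u) u ≠ 0
  · obtain ⟨u, hu, hne⟩ := hsingle
    have hb := Blocks.cons u k hkpos (hk u hu) (hlast' u u hne) disjoint_bot_right (Blocks.bot (N := N))
    rw [sup_bot_eq] at hb
    refine ⟨k, blockSpan N u k, {k}, hkpos, hkm, hk, hspanP u hu, fun h0 => ?_, hb, fun y hy hy0 => ?_,
      Or.inl ⟨rfl, u, hu, hne⟩⟩
    · exact hlast' u u hne ((Submodule.mem_bot F).1 (h0 ▸ mem_blockSpan (hk u hu)))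
    · obtain ⟨g, rfl⟩ := (Submodule.mem_span_range_iff_exists_fun F).1 hy
      have hg := gram_family hx hk (fun _ : Unit => u) (fun _ => hu)
        (fun c hc => funext fun _ => by
          have := hc ()
          simp only [Finset.univ_unique, Finset.sum_singleton, mul_eq_zero, hne, or_false] at this
          exact this)
        (fun i _ => g i) (fun j _ => by
          simpa using hy0 _ (mem_blockSpan (i := j) (hk u hu)))
      exact Finset.sum_eq_zero fun i _ => by rw [show g i = 0 from congr_fun (congr_fun hg i) (), zero_smul]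
  · push Not at hsingle
    have hwv : B ((N ^ (k - 1)) w) v ≠ 0 := by
      rw [top_pair_symm hA hx hkpos hk hv hw]
      exact mul_ne_zero (pow_ne_zero _ (neg_ne_zero.2 one_ne_zero)) hvw
    have hgram : ∀ c : Fin 2 → Fin k → F,
        (∀ y ∈ blockSpan N v k ⊔ blockSpan N w k, B (∑ i, c 0 i • (N ^ (i : ℕ)) v + ∑ i, c 1 i • (N ^ (i : ℕ)) w) y = 0) →
        c = 0 := by
      intro c hc
      have hg := gram_family hx hk ![v, w] (fun s => by fin_cases s <;> simpa)
        (fun d hd => by
          have h0 := hd 0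
          have h1 := hd 1
          simp [Fin.sum_univ_two, hsingle v hv, hsingle w hw, hvw, hwv] at h0 h1
          funext s; fin_cases s <;> simp [h0, h1])
        (fun i s => c s i) (fun j t => by
          have hmem : (N ^ j) (![v, w] t) ∈ blockSpan N v k ⊔ blockSpan N w k := by
            fin_cases t
            · exact Submodule.mem_sup_left (mem_blockSpan (hk v hv))
            · exact Submodule.mem_sup_right (mem_blockSpan (hk w hw))
          have := hc _ hmem
          simp only [Fin.sum_univ_two, Finset.sum_add_distrib] at this ⊢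
          simpa using this)
      funext s i
      exact congr_fun (congr_fun hg i) s
    have hd : Disjoint (blockSpan N v k) (blockSpan N w k ⊔ ⊥) := by
      rw [sup_bot_eq, Submodule.disjoint_def]
      intro y hy hy'
      obtain ⟨g, rfl⟩ := (Submodule.mem_span_range_iff_exists_fun F).1 hy
      obtain ⟨g', hg'⟩ := (Submodule.mem_span_range_iff_exists_fun F).1 hy'
      have h := hgram ![g, -g'] fun y _ => by simp [neg_smul, hg']
      exact Finset.sum_eq_zero fun i _ => by rw [show g i = 0 from congr_fun (congr_fun h 0) i, zero_smul]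
    have hb := Blocks.cons v k hkpos (hk v hv) hlast hd
      (Blocks.cons w k hkpos (hk w hw) (hlast' w v hwv) disjoint_bot_right (Blocks.bot (N := N)))
    rw [sup_bot_eq] at hb
    refine ⟨k, blockSpan N v k ⊔ blockSpan N w k, {k, k}, hkpos, hkm, hk, sup_le (hspanP v hv) (hspanP w hw),
      fun h0 => ?_, hb, fun y hy hy0 => ?_, Or.inr ⟨rfl, hsingle, v, hv, w, hw, hvw⟩⟩
    · exact hlast ((Submodule.mem_bot F).1 (h0 ▸ Submodule.mem_sup_left (mem_blockSpan (hk v hv))))
    · obtain ⟨a, ha, b, hb', rfl⟩ := Submodule.mem_sup.1 hy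
      obtain ⟨g, rfl⟩ := (Submodule.mem_span_range_iff_exists_fun F).1 ha
      obtain ⟨g', rfl⟩ := (Submodule.mem_span_range_iff_exists_fun F).1 hb'
      have h := hgram ![g, g'] fun y hy => by simpa using hy0 y hy
      have h0 : g = 0 := congr_fun h 0
      have h1 : g' = 0 := congr_fun h 1
      simp [h0, h1]

/-- Decomposition into pieces satisfying a predicate inherited from `exists_piece`. -/
theorem exists_pieces_of (hA : B.IsAlt) (hx : ∀ u v, B (u + N u) (v + N v) = B u v) {m : ℕ} (hN : N ^ m = 0)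
    (good : Multiset ℕ → Prop)
    (hgood : ∀ (Q : Submodule F V) (k : ℕ) (τ : Multiset ℕ), Q ≤ P → (∀ v ∈ Q, N v ∈ Q) → NondegOn B Q → Q ≠ ⊥ →
      0 < k → k ≤ m → (∀ v ∈ Q, (N ^ k) v = 0) →
      ((τ = {k} ∧ ∃ v ∈ Q, B ((N ^ (k - 1)) v) v ≠ 0) ∨
        (τ = {k, k} ∧ (∀ v ∈ Q, B ((N ^ (k - 1)) v) v = 0) ∧
          ∃ v ∈ Q, ∃ w ∈ Q, B ((N ^ (k - 1)) v) w ≠ 0)) → good τ)
    (hPN : ∀ v ∈ P, N v ∈ P) (hP : NondegOn B P) : ∃ π, SymPieces B N P π ∧ ∀ τ ∈ π, good τ := by
  induction hn : finrank F P using Nat.strong_induction_on generalizing P with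
  | _ n ih =>
    subst hn
    by_cases hP0 : P = ⊥
    · exact ⟨0, hP0 ▸ .bot, by simp⟩
    obtain ⟨k, T, τ, hk0, hkm, hk, hTP, hT0, hTb, hT, hτ⟩ := exists_piece hA hx hN hPN hP hP0
    have hinj : Function.Injective (1 + N : End F V) := by
      refine (injective_iff_map_eq_zero _).2 fun v hv => ?_
      have h1 : ∀ i, (N ^ i) v = ((-1 : F) ^ i) • v := fun i => by
        induction i with
        | zero => simp
        | succ i ih =>
          have h2 : N v = -v := eq_neg_of_add_eq_zero_right (hv : v + N v = 0)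
          rw [pow_succ, Module.End.mul_apply, h2, map_neg, ih, pow_succ]; simp
      have h3 := h1 m
      rw [hN, LinearMap.zero_apply] at h3
      exact (smul_eq_zero.1 h3.symm).resolve_left (pow_ne_zero _ (neg_ne_zero.2 one_ne_zero))
    have hinv : ∀ {A : Submodule F V}, (∀ v ∈ A, N v ∈ A) → A.map (1 + N : End F V) ≤ A := by
      rintro A hA' _ ⟨v, hv, rfl⟩; exact A.add_mem hv (hA' v hv)
    obtain ⟨Q, hQP, hQx, hQ, hd, hsum, ho⟩ := nondegOn_split_inv hA.isRefl (x := 1 + N) (fun u v => hx u v) hinj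
      hTP (hinv hPN) (hinv fun v hv => hTb.inv ⟨v, hv, rfl⟩) hP hT
    have hQN : ∀ v ∈ Q, N v ∈ Q := fun v hv => by
      have := hQx ⟨v, hv, rfl⟩
      exact (Submodule.add_mem_iff_right Q hv).1 this
    have hlt : finrank F Q < finrank F P :=
      Submodule.finrank_lt_finrank_of_lt (lt_of_le_of_ne hQP fun he =>
        hT0 (le_bot_iff.1 (hd (le_refl T) (he ▸ hTP))))
    obtain ⟨π, hπ, hgπ⟩ := ih _ hlt (fun Q' k τ h => hgood Q' k τ (h.trans hQP)) hQN hQ rfl
    refine ⟨τ ::ₘ π, hsum ▸ .cons hTb hT ho hπ, fun σ hσ => ?_⟩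
    rcases Multiset.mem_cons.1 hσ with rfl | hσ
    exacts [hgood P k _ le_rfl hPN hP hP0 hk0 hkm hk hτ, hgπ σ hσ]

end pieces

section combinatorics

/-- A multiset has sub-multisets of every smaller cardinality. -/
theorem exists_le_card_eq {α : Type*} (s : Multiset α) {k : ℕ} (hk : k ≤ s.card) : ∃ t ≤ s, t.card = k := by
  refine ⟨(s.toList.take k : List α), ?_, by simpa using hk⟩
  conv_rhs => rw [← s.coe_toList]
  exact (List.take_sublist k s.toList).subperm

/-- Sub-families realising a sub-multiset with even multiplicities of odd parts. -/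
theorem exists_sub_join (π : Multiset (Multiset ℕ))
    (hπ : ∀ τ ∈ π, ∃ k, (Odd k ∧ τ = {k, k}) ∨ (Even k ∧ τ = {k})) :
    ∀ ν ≤ π.join, (∀ a, Odd a → Even (ν.count a)) → ∃ π' ≤ π, π'.join = ν := by
  induction π using Multiset.induction with
  | empty => intro ν hν _; exact ⟨0, le_rfl, by simpa [eq_comm] using hν⟩
  | cons τ π ih =>
    intro ν hν hev
    rw [Multiset.join_cons] at hν
    have ih' := ih fun σ hσ => hπ σ (Multiset.mem_cons_of_mem hσ)
    obtain ⟨k, hk⟩ := hπ τ (Multiset.mem_cons_self τ π)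
    by_cases hmem : k ∈ ν
    · have hτν : τ ≤ ν := by
        rcases hk with ⟨hodd, rfl⟩ | ⟨-, rfl⟩
        · obtain ⟨j, hj⟩ := hev k hodd
          have := Multiset.count_pos.2 hmem
          refine Multiset.le_iff_count.2 fun a => ?_
          by_cases ha : a = k <;> simp [ha] <;> omega
        · simpa using hmem
      obtain ⟨ν', rfl⟩ := Multiset.le_iff_exists_add.1 hτν
      obtain ⟨π', hπ', hj⟩ := ih' ν' ((add_le_add_iff_left τ).1 hν) (fun a ha => by
        have h1 := hev a ha
        rw [Multiset.count_add, Nat.even_add] at h1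
        refine h1.1 ?_
        rcases hk with ⟨-, rfl⟩ | ⟨hke, rfl⟩
        · by_cases hak : a = k <;> simp [hak]
        · rw [Multiset.count_eq_zero.2 (by
            simp only [Multiset.mem_singleton]
            rintro rfl
            exact Nat.not_even_iff_odd.2 ha hke)]
          exact Even.zero)
      exact ⟨τ ::ₘ π', (Multiset.cons_le_cons_iff τ).2 hπ', by rw [Multiset.join_cons, hj]⟩
    · obtain ⟨π', hπ', hj⟩ := ih' ν (Multiset.le_iff_count.2 fun a => by
        have h1 := Multiset.le_iff_count.1 hν a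
        rw [Multiset.count_add] at h1
        by_cases hak : a = k
        · subst hak; rw [Multiset.count_eq_zero.2 hmem]; exact Nat.zero_le _
        · have : τ.count a = 0 := Multiset.count_eq_zero.2 (by
            rcases hk with ⟨-, rfl⟩ | ⟨-, rfl⟩ <;> simp [hak])
          omega) hev
      exact ⟨π', hπ'.trans (Multiset.le_cons_self π τ), hj⟩

/-- Sub-families of pieces of sizes two and four. -/
theorem exists_sub_sum (π : Multiset (Multiset ℕ)) (hπ : ∀ τ ∈ π, τ.sum = 2 ∨ τ.sum = 4) {m : ℕ} (hm : Even m)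
    (hle : m ≤ π.join.sum) (hc : π.join.sum % 4 = 2 ∨ m % 4 = 0) : ∃ π' ≤ π, π'.join.sum = m := by
  classical
  have hs : ∀ ρ : Multiset (Multiset ℕ), ρ.join.sum = (ρ.map Multiset.sum).sum := fun ρ => by
    induction ρ using Multiset.induction with
    | empty => simp
    | cons a ρ ih => simp [ih]
  have hcst : ∀ (ρ : Multiset (Multiset ℕ)) (j : ℕ), (∀ τ ∈ ρ, τ.sum = j) → (ρ.map Multiset.sum).sum = ρ.card * j := by
    intro ρ j h
    rw [Multiset.map_congr rfl h, Multiset.map_const', Multiset.sum_replicate, smul_eq_mul]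
  set P2 := π.filter fun τ => τ.sum = 2
  set P4 := π.filter fun τ => ¬ τ.sum = 2
  have hsplit : P2 + P4 = π := Multiset.filter_add_not _ π
  have h2 : ∀ τ ∈ P2, τ.sum = 2 := fun τ h => (Multiset.mem_filter.1 h).2
  have h4 : ∀ τ ∈ P4, τ.sum = 4 := fun τ h =>
    (hπ τ (Multiset.mem_filter.1 h).1).resolve_left (Multiset.mem_filter.1 h).2
  have htot : π.join.sum = P2.card * 2 + P4.card * 4 := by
    rw [hs, ← hsplit, Multiset.map_add, Multiset.sum_add, hcst P2 2 h2, hcst P4 4 h4]
  obtain ⟨l, hl⟩ := hm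
  obtain ⟨t4, ht4, hc4⟩ := exists_le_card_eq P4 (k := min P4.card (m / 4)) (min_le_left _ _)
  obtain ⟨t2, ht2, hc2⟩ := exists_le_card_eq P2 (k := l - 2 * min P4.card (m / 4)) (by omega)
  refine ⟨t2 + t4, hsplit ▸ add_le_add ht2 ht4, ?_⟩
  rw [hs, Multiset.map_add, Multiset.sum_add, hcst t2 2 fun τ h => h2 τ (Multiset.mem_of_le ht2 h),
    hcst t4 4 fun τ h => h4 τ (Multiset.mem_of_le ht4 h), hc2, hc4]
  omega

end combinatorics

section models

variable {F : Type u} [Field F]

/-- A nondegenerate alternating form with a skew nilpotent operator of given block type. -/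
def IsSympModel {V : Type v} [AddCommGroup V] [Module F V] (B : LinearMap.BilinForm F V) (N : End F V)
    (μ : Multiset ℕ) : Prop :=
  B.Nondegenerate ∧ B.IsAlt ∧ (∀ a b, B (N a) b = -B a (N b)) ∧ Blocks N ⊤ μ

/-- Models transfer along equivalences. -/
theorem IsSympModel.congr {V : Type v} [AddCommGroup V] [Module F V] [FiniteDimensional F V]
    {W : Type*} [AddCommGroup W] [Module F W] {B : LinearMap.BilinForm F V} {N : End F V} {μ : Multiset ℕ}
    (h : IsSympModel B N μ) (e : W ≃ₗ[F] V) :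
    IsSympModel (B.compl₁₂ e.toLinearMap e.toLinearMap) (e.symm.conj N) μ ∧
      ((∀ a, B (N a) a = 0) → ∀ a, B.compl₁₂ e.toLinearMap e.toLinearMap (e.symm.conj N a) a = 0) := by
  obtain ⟨hB, hA, hs, hb⟩ := h
  refine ⟨⟨⟨fun a ha => ?_, fun b hb' => ?_⟩, fun a => hA (e a), fun a b => by
    simp [LinearEquiv.conj_apply, hs], ?_⟩, fun hz a => by simp [LinearEquiv.conj_apply, hz]⟩
  · refine e.injective ?_
    rw [map_zero]
    exact hB.1 _ fun v => by simpa using ha (e.symm v)
  · refine e.injective ?_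
    rw [map_zero]
    exact hB.2 _ fun v => by simpa using hb' (e.symm v)
  · have h1 := hb.map (N' := e.symm.conj N) e.symm.toLinearMap e.symm.injective
      (fun x => by simp [LinearEquiv.conj_apply])
    rwa [Submodule.map_top, LinearEquiv.range] at h1

/-- Models add. -/
theorem IsSympModel.prod {V : Type v} [AddCommGroup V] [Module F V] [FiniteDimensional F V]
    {W : Type*} [AddCommGroup W] [Module F W] [FiniteDimensional F W]
    {B : LinearMap.BilinForm F V} {N : End F V} {μ : Multiset ℕ}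
    {B' : LinearMap.BilinForm F W} {N' : End F W} {ν : Multiset ℕ}
    (h : IsSympModel B N μ) (h' : IsSympModel B' N' ν) :
    IsSympModel (B.compl₁₂ (LinearMap.fst F V W) (LinearMap.fst F V W) +
        B'.compl₁₂ (LinearMap.snd F V W) (LinearMap.snd F V W)) (N.prodMap N') (μ + ν) ∧
      ((∀ a, B (N a) a = 0) → (∀ a, B' (N' a) a = 0) → ∀ a : V × W, (B.compl₁₂ (LinearMap.fst F V W) (LinearMap.fst F V W) +
        B'.compl₁₂ (LinearMap.snd F V W) (LinearMap.snd F V W)) (N.prodMap N' a) a = 0) := by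
  obtain ⟨hB, hA, hs, hb⟩ := h
  obtain ⟨hB', hA', hs', hb'⟩ := h'
  refine ⟨⟨⟨fun a ha => ?_, fun b hz => ?_⟩, fun a => by simp [hA a.1, hA' a.2], fun a b => by
    simp [hs, hs']; ring, ?_⟩, fun hz hz' a => by simp [hz, hz']⟩
  · exact Prod.ext (hB.1 _ fun v => by simpa using ha (v, 0)) (hB'.1 _ fun w => by simpa using ha (0, w))
  · exact Prod.ext (hB.2 _ fun v => by simpa using hz (v, 0)) (hB'.2 _ fun w => by simpa using hz (0, w))
  · have h1 := hb.map (N' := N.prodMap N') (LinearMap.inl F V W) LinearMap.inl_injective (fun x => by simp)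
    have h2 := hb'.map (N' := N.prodMap N') (LinearMap.inr F V W) LinearMap.inr_injective (fun x => by simp)
    have h3 := h1.sup h2 (by
      rw [Submodule.map_top, Submodule.map_top]
      exact (LinearMap.isCompl_range_inl_inr).disjoint)
    rwa [Submodule.map_top, Submodule.map_top, LinearMap.isCompl_range_inl_inr.sup_eq_top] at h3

/-- The alternating antidiagonal form. -/
def antiForm (F : Type u) [Field F] (k : ℕ) : LinearMap.BilinForm F (Fin k → F) :=
  LinearMap.mk₂ F (fun a b => ∑ i : Fin k, (-1) ^ (i : ℕ) * a i * b i.rev)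
    (fun a a' b => by rw [← Finset.sum_add_distrib]; exact Finset.sum_congr rfl fun i _ => by simp; ring)
    (fun c a b => by rw [Finset.smul_sum]; exact Finset.sum_congr rfl fun i _ => by simp; ring)
    (fun a b b' => by rw [← Finset.sum_add_distrib]; exact Finset.sum_congr rfl fun i _ => by simp; ring)
    (fun c a b => by rw [Finset.smul_sum]; exact Finset.sum_congr rfl fun i _ => by simp; ring)

/-- The antidiagonal form is skew for the shift and nondegenerate. -/
theorem antiForm_props (F : Type u) [Field F] (k : ℕ) :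
    (∀ a b, antiForm F k (shiftEnd F k a) b = -antiForm F k a (shiftEnd F k b)) ∧
      (∀ a, (∀ b, antiForm F k a b = 0) → a = 0) ∧ (∀ b, (∀ a, antiForm F k a b = 0) → b = 0) := by
  classical
  refine ⟨fun a b => ?_, fun a ha => ?_, fun b hb => ?_⟩
  · cases k with
    | zero => simp [antiForm]
    | succ k =>
      simp only [antiForm, LinearMap.mk₂_apply]
      rw [Fin.sum_univ_succ, Fin.sum_univ_castSucc]
      simp only [shiftEnd, LinearMap.coe_mk, AddHom.coe_mk, Fin.val_zero, ↓reduceIte, mul_zero, zero_mul, zero_add,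
        Fin.rev_last, add_zero, Fin.val_succ, Nat.succ_ne_zero, Fin.rev_castSucc, Fin.val_castSucc]
      rw [← Finset.sum_neg_distrib]
      refine Finset.sum_congr rfl fun i _ => ?_
      rw [show (⟨(i : ℕ) + 1 - 1, _⟩ : Fin (k + 1)) = i.castSucc from Fin.ext (by simp),
        show (⟨(i.rev : ℕ) + 1 - 1, _⟩ : Fin (k + 1)) = i.succ.rev from Fin.ext (by simp [Fin.rev_succ])]
      rw [pow_succ]
      ring
  · funext i
    have h := ha (Pi.single i.rev 1)
    simpa [antiForm, Pi.single_apply] using h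
  · funext i
    have h := hb (Pi.single i.rev 1)
    simpa [antiForm, Pi.single_apply] using h

/-- The single even block. -/
theorem isSympModel_single (F : Type u) [Field F] {k : ℕ} (hk : 0 < k) (he : Even k) :
    IsSympModel (antiForm F k) (shiftEnd F k) {k} := by
  obtain ⟨hs, hl, hr⟩ := antiForm_props F k
  refine ⟨⟨hl, hr⟩, fun a => ?_, hs, shiftEnd_blocks F hk⟩
  refine Finset.sum_involution (fun i _ => i.rev) (fun i _ => ?_) (fun i _ _ h => ?_) (fun i _ => Finset.mem_univ _)
    (fun i _ => Fin.rev_rev i)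
  · obtain ⟨l, hl⟩ := he
    have hpar : (-1 : F) ^ (i.rev : ℕ) = -(-1) ^ (i : ℕ) := by
      have h1 : (-1 : F) ^ (i.rev : ℕ) * (-1) ^ (i : ℕ) = -1 := by
        rw [← pow_add, Odd.neg_one_pow ⟨l - 1, by rw [Fin.val_rev]; omega⟩]
      have h2 : (-1 : F) ^ (i : ℕ) * (-1) ^ (i : ℕ) = 1 := by rw [← pow_add, Even.neg_one_pow ⟨i, rfl⟩]
      linear_combination (-1 : F) ^ (i : ℕ) * h1 - (-1 : F) ^ (i.rev : ℕ) * h2
    rw [Fin.rev_rev, hpar]; ring
  · have h1 := congrArg Fin.val h
    rw [Fin.val_rev] at h1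
    obtain ⟨l, hl⟩ := he
    omega

/-- A pair of equal blocks. -/
theorem isSympModel_pair (F : Type u) [Field F] {k : ℕ} (hk : 0 < k) :
    let B : LinearMap.BilinForm F ((Fin k → F) × (Fin k → F)) :=
      (antiForm F k).compl₁₂ (LinearMap.fst F _ _) (LinearMap.snd F _ _) -
        ((antiForm F k).compl₁₂ (LinearMap.fst F _ _) (LinearMap.snd F _ _)).flip
    IsSympModel B ((shiftEnd F k).prodMap (shiftEnd F k)) {k, k} ∧
      ((2 : F) = 0 → ∀ a, B ((shiftEnd F k).prodMap (shiftEnd F k) a) a = 0) := by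
  intro B
  obtain ⟨hs, hl, hr⟩ := antiForm_props F k
  have hBv : ∀ a b, B a b = antiForm F k a.1 b.2 - antiForm F k b.1 a.2 := fun a b => by simp [B]
  refine ⟨⟨⟨fun a ha => ?_, fun b hb => ?_⟩, fun a => by rw [hBv, sub_self], fun a b => ?_, ?_⟩, fun h2 a => ?_⟩
  · refine Prod.ext (hl _ fun w => ?_) (hr _ fun w => ?_)
    · simpa [hBv] using ha (0, w)
    · simpa [hBv] using ha (w, 0)
  · refine Prod.ext (hl _ fun w => ?_) (hr _ fun w => ?_)
    · simpa [hBv] using hb (0, w)
    · simpa [hBv] using hb (w, 0)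
  · simp only [hBv, LinearMap.prodMap_apply]
    rw [hs a.1 b.2, ← neg_eq_iff_eq_neg.2 (hs b.1 a.2)]
    ring
  · have h1 := (shiftEnd_blocks F hk).map (N' := (shiftEnd F k).prodMap (shiftEnd F k))
      (LinearMap.inl F _ _) LinearMap.inl_injective (fun x => by simp)
    have h2 := (shiftEnd_blocks F hk).map (N' := (shiftEnd F k).prodMap (shiftEnd F k))
      (LinearMap.inr F _ _) LinearMap.inr_injective (fun x => by simp)
    have h3 := h1.sup h2 (by
      rw [Submodule.map_top, Submodule.map_top]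
      exact (LinearMap.isCompl_range_inl_inr).disjoint)
    rwa [Submodule.map_top, Submodule.map_top, LinearMap.isCompl_range_inl_inr.sup_eq_top] at h3
  · simp only [hBv, LinearMap.prodMap_apply]
    linear_combination antiForm F k (shiftEnd F k a.1) a.2 * h2 - hs a.1 a.2

/-- Models of every admissible type. -/
theorem exists_sympModel (F : Type u) [Field F] :
    ∀ μ : Multiset ℕ, (∀ a ∈ μ, 0 < a) → (∀ a, Odd a → Even (μ.count a)) →
      ∃ (B : LinearMap.BilinForm F (Fin μ.sum → F)) (N : End F (Fin μ.sum → F)), IsSympModel B N μ := by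
  intro μ
  induction hc : μ.card using Nat.strong_induction_on generalizing μ with
  | _ n ih =>
    subst hc
    intro hpos hev
    rcases Multiset.empty_or_exists_mem μ with rfl | ⟨k, hk⟩
    · haveI : Subsingleton (Fin (Multiset.sum (0 : Multiset ℕ)) → F) := ⟨fun a b => funext fun i => absurd i.2 (by simp)⟩
      refine ⟨0, 0, ⟨fun a _ => Subsingleton.elim _ _, fun a _ => Subsingleton.elim _ _⟩, fun a => rfl,
        fun a b => (neg_zero).symm, ?_⟩
      rw [show (⊤ : Submodule F (Fin (Multiset.sum (0 : Multiset ℕ)) → F)) = ⊥ from Subsingleton.elim _ _]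
      exact .bot
    rcases Nat.even_or_odd k with hke | hko
    · obtain ⟨μ', rfl⟩ := Multiset.exists_cons_of_mem hk
      obtain ⟨B, N, hm⟩ := ih μ'.card (by simp) μ' rfl (fun a ha => hpos a (Multiset.mem_cons_of_mem ha))
        (fun a ha => by
          have := hev a ha
          rwa [Multiset.count_cons_of_ne (by rintro rfl; exact Nat.not_even_iff_odd.2 ha hke)] at this)
      have h := ((isSympModel_single F (hpos k hk) hke).prod hm).1
      rw [Multiset.singleton_add] at h
      exact ⟨_, _, (h.congr (LinearEquiv.ofFinrankEq (Fin (k ::ₘ μ').sum → F) _ (by simp [Module.finrank_prod]))).1⟩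
    · have h2 : ({k, k} : Multiset ℕ) ≤ μ := by
        obtain ⟨j, hj⟩ := hev k hko
        have := Multiset.count_pos.2 hk
        refine Multiset.le_iff_count.2 fun a => ?_
        by_cases ha : a = k <;> simp [ha] <;> omega
      obtain ⟨μ', rfl⟩ := Multiset.le_iff_exists_add.1 h2
      obtain ⟨B, N, hm⟩ := ih μ'.card (by simp) μ' rfl (fun a ha => hpos a (Multiset.mem_add.2 (Or.inr ha)))
        (fun a ha => by
          have := hev a ha
          rw [Multiset.count_add, Nat.even_add] at this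
          refine this.1 ?_
          by_cases hak : a = k <;> simp [hak])
      have h := ((isSympModel_pair F (hpos k hk)).1.prod hm).1
      exact ⟨_, _, (h.congr (LinearEquiv.ofFinrankEq (Fin (({k, k} : Multiset ℕ) + μ').sum → F) _
        (by simp [Module.finrank_prod]; omega))).1⟩

/-- Models with all blocks of size two in alternating pairs. -/
theorem exists_sympModel_two (F : Type u) [Field F] (h2 : (2 : F) = 0) :
    ∀ l : ℕ, ∃ (B : LinearMap.BilinForm F (Fin (4 * l) → F)) (N : End F (Fin (4 * l) → F)),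
      IsSympModel B N (Multiset.replicate (2 * l) 2) ∧ ∀ a, B (N a) a = 0 := by
  intro l
  induction l with
  | zero =>
    haveI : Subsingleton (Fin (4 * 0) → F) := ⟨fun a b => funext fun i => absurd i.2 (by simp)⟩
    refine ⟨0, 0, ⟨⟨fun a _ => Subsingleton.elim _ _, fun a _ => Subsingleton.elim _ _⟩, fun a => rfl,
      fun a b => (neg_zero).symm, ?_⟩, fun a => rfl⟩
    rw [show (⊤ : Submodule F (Fin (4 * 0) → F)) = ⊥ from Subsingleton.elim _ _]
    exact .bot
  | succ l ih =>
    obtain ⟨B, N, hm, hz⟩ := ih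
    obtain ⟨hp, hpz⟩ := isSympModel_pair F (k := 2) two_pos
    obtain ⟨h, hprop⟩ := hp.prod hm
    obtain ⟨g, gprop⟩ := h.congr (LinearEquiv.ofFinrankEq (Fin (4 * (l + 1)) → F) _
      (by simp [Module.finrank_prod]; omega))
    refine ⟨_, _, ?_, gprop (hprop (hpz h2) hz)⟩
    rwa [show Multiset.replicate (2 * (l + 1)) 2 = ({2, 2} : Multiset ℕ) + Multiset.replicate (2 * l) 2 by
      rw [show 2 * (l + 1) = (2 * l + 1) + 1 by omega, Multiset.replicate_succ, Multiset.replicate_succ]; rfl]

end models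

end Cfsg.Agent.H97
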