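import Cfsg.Agent.H97.SympElusive
import Cfsg.Agent.H97.SympUnipotent
import Cfsg.Agent.H97.SympPlanes
import Cfsg.Agent.H2.Center

/-! The criteria for `PSp_n(q)` on nondegenerate subspaces. -/

namespace Cfsg.Agent.H97

open Module

variable {F : Type*} [Field F] [Finite F] {d : ℕ}

/-- The hypothesis of the symplectic elusiveness statements. -/
def SpElusiveFor (r d : ℕ) (Q : End F (Fin d ⊕ Fin d → F) → Prop) : Prop :=
  ∀ x : ↥(Matrix.symplecticGroup (Fin d) F),
    (∃ z : F, ((x ^ r : ↥(Matrix.symplecticGroup (Fin d) F)) : Matrix (Fin d ⊕ Fin d) (Fin d ⊕ Fin d) F) =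
      z • (1 : Matrix (Fin d ⊕ Fin d) (Fin d ⊕ Fin d) F)) →
    (∀ z : F, (x : Matrix (Fin d ⊕ Fin d) (Fin d ⊕ Fin d) F) ≠ z • (1 : Matrix (Fin d ⊕ Fin d) (Fin d ⊕ Fin d) F)) →
    Q (Matrix.toLin' (x : Matrix (Fin d ⊕ Fin d) (Fin d ⊕ Fin d) F))

omit [Finite F] in
theorem sympBilin_nondegOn_top : NondegOn (H2.sympBilin d F) (⊤ : Submodule F (Fin d ⊕ Fin d → F)) :=
  fun v _ hv => H2.sympForm_eq_zero_forall fun w => by simpa using hv w Submodule.mem_top

omit [Finite F] in
theorem finrank_symp : finrank F (Fin d ⊕ Fin d → F) = 2 * d := by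
  rw [Module.finrank_fintype_fun_eq_card, Fintype.card_sum, Fintype.card_fin, two_mul]

omit [Finite F] in
theorem nondegOn_iff (W : Submodule F (Fin d ⊕ Fin d → F)) :
    NondegOn (H2.sympBilin d F) W ↔ ∀ u ∈ W, u ≠ 0 → ∃ v ∈ W, Cfsg.sympForm d F u v ≠ 0 := by
  constructor
  · intro h u hu hu0
    by_contra hc; push Not at hc
    exact hu0 (h u hu fun w hw => by simpa using hc w hw)
  · intro h u hu h0
    by_contra hu0
    obtain ⟨v, hv, hne⟩ := h u hu hu0
    exact hne (by simpa using h0 v hv)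

omit [Finite F] in
/-- Reduction of an element of order `r` modulo scalars of `Sp` to an isometry of order `r`. -/
theorem sp_setup {r : ℕ} (hd : 1 ≤ d) (hr : Odd r ∨ (r = 2 ∧ (2 : F) = 0))
    (x : ↥(Matrix.symplecticGroup (Fin d) F))
    (hx : ∃ z : F, ((x ^ r : ↥(Matrix.symplecticGroup (Fin d) F)) : Matrix (Fin d ⊕ Fin d) (Fin d ⊕ Fin d) F) =
      z • (1 : Matrix (Fin d ⊕ Fin d) (Fin d ⊕ Fin d) F)) :
    ∃ (w : F) (f : End F (Fin d ⊕ Fin d → F)), w ≠ 0 ∧ f ^ r = 1 ∧
      (∀ u v, H2.sympBilin d F (f u) (f v) = H2.sympBilin d F u v) ∧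
      (Matrix.toLin' (x : Matrix (Fin d ⊕ Fin d) (Fin d ⊕ Fin d) F) : End F (Fin d ⊕ Fin d → F)) = w • f := by
  obtain ⟨z, hz⟩ := hx
  set g : End F (Fin d ⊕ Fin d → F) := Matrix.toLin' (x : Matrix (Fin d ⊕ Fin d) (Fin d ⊕ Fin d) F) with hg
  have hgB : ∀ u v, H2.sympBilin d F (g u) (g v) = H2.sympBilin d F u v := fun u v => by
    simp [g, Matrix.toLin'_apply]
  have hgr : g ^ r = z • 1 := by
    rw [hg, show (Matrix.toLin' (x : Matrix (Fin d ⊕ Fin d) (Fin d ⊕ Fin d) F) :
      End F (Fin d ⊕ Fin d → F)) = H2.spRho d F x from rfl, ← map_pow]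
    show Matrix.toLin' _ = _
    rw [hz, map_smul, Matrix.toLin'_one]; rfl
  have hzz : z = 1 ∨ z = -1 := by
    haveI : Nonempty (Fin d ⊕ Fin d) := ⟨Sum.inl ⟨0, hd⟩⟩
    rcases H2.scalar_mem_eq hd (x ^ r).2 hz with h | h <;> rw [hz] at h
    · left
      have := congr_fun (congr_fun h (Sum.inl ⟨0, hd⟩)) (Sum.inl ⟨0, hd⟩)
      simpa using this
    · right
      have := congr_fun (congr_fun h (Sum.inl ⟨0, hd⟩)) (Sum.inl ⟨0, hd⟩)
      simpa using this
  rcases hr with hodd | ⟨rfl, h2⟩
  · refine ⟨z, z • g, by rcases hzz with h | h <;> simp [h], ?_, fun u v => ?_, ?_⟩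
    · rw [smul_pow, hgr, smul_smul]
      rcases hzz with h | h <;> simp [h, hodd.neg_one_pow]
    · simp only [LinearMap.smul_apply, map_smul, smul_eq_mul, hgB]
      rcases hzz with h | h <;> rw [h] <;> ring
    · rw [smul_smul]
      rcases hzz with h | h <;> simp [h]
  · refine ⟨1, g, one_ne_zero, ?_, hgB, by rw [one_smul]⟩
    rw [hgr]
    have hneg : (-1 : F) = 1 := by linear_combination -h2
    rcases hzz with h | h <;> simp [h, hneg]

omit [Finite F] in
/-- Symplectic matrices from isometries. -/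
theorem exists_sp_of_isometry {r : ℕ} (f : End F (Fin d ⊕ Fin d → F))
    (hf : ∀ u v, H2.sympBilin d F (f u) (f v) = H2.sympBilin d F u v) (hfr : f ^ r = 1) :
    ∃ x : ↥(Matrix.symplecticGroup (Fin d) F),
      (Matrix.toLin' (x : Matrix (Fin d ⊕ Fin d) (Fin d ⊕ Fin d) F) : End F (Fin d ⊕ Fin d → F)) = f ∧
      (∃ z : F, ((x ^ r : ↥(Matrix.symplecticGroup (Fin d) F)) : Matrix (Fin d ⊕ Fin d) (Fin d ⊕ Fin d) F) =
        z • (1 : Matrix (Fin d ⊕ Fin d) (Fin d ⊕ Fin d) F)) := by
  have hmat : LinearMap.toMatrix' f ∈ Matrix.symplecticGroup (Fin d) F := by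
    rw [H2.mem_symplecticGroup_iff]
    intro u v
    rw [← Matrix.toLin'_apply, ← Matrix.toLin'_apply, Matrix.toLin'_toMatrix']
    simpa using hf u v
  let x : ↥(Matrix.symplecticGroup (Fin d) F) := ⟨LinearMap.toMatrix' f, hmat⟩
  have hxf : H2.spRho d F x = f := Matrix.toLin'_toMatrix' f
  have h1 : H2.spRho d F (x ^ r) = H2.spRho d F 1 := by rw [map_pow, map_one, hxf, hfr]
  exact ⟨x, hxf, 1, by rw [show x ^ r = 1 from Subtype.ext (Matrix.toLin'.injective h1), one_smul]; rfl⟩

omit [Finite F] in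
/-- A scalar isometry of order dividing `r` is trivial for odd `r`. -/
theorem nonscalar_of_isometry {r : ℕ} (hd : 1 ≤ d) (hr : Odd r) {f : End F (Fin d ⊕ Fin d → F)}
    (hf : ∀ u v, H2.sympBilin d F (f u) (f v) = H2.sympBilin d F u v) (hfr : f ^ r = 1) (hne : f ≠ 1) (c : F) :
    f ≠ c • 1 := by
  intro hfc
  let i : Fin d := ⟨0, hd⟩
  have hcc : c * c = 1 := by
    have h := hf (Pi.single (.inr i) 1) (Pi.single (.inl i) 1)
    simp [hfc, H2.sympForm_single_inr] at h
    linear_combination h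
  have hcr : c ^ r = 1 := by
    rw [hfc, smul_pow, one_pow] at hfr
    have := congrArg (fun g : End F (Fin d ⊕ Fin d → F) => g (fun _ => 1) (Sum.inl i)) hfr
    simpa using this
  obtain ⟨k, hk⟩ := hr
  rw [hk, pow_succ, pow_mul, pow_two, hcc, one_pow, one_mul] at hcr
  exact hne (by rw [hfc, hcr, one_smul])

/-- The criterion at odd primes other than the characteristic. -/
theorem sp_elusive_nondeg_iff {r : ℕ} [Fact r.Prime] (hr : (r : F) ≠ 0) (hr2 : r ≠ 2) {m : ℕ} (hd : 1 ≤ d)
    (hm : 2 ≤ m) (hme : Even m) (hmd : m < d)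
    (hdvd : r ∣ Nat.card {W : Submodule F (Fin d ⊕ Fin d → F) //
      finrank F W = m ∧ NondegOn (H2.sympBilin d F) W}) :
    SpElusiveFor r d (fun f : End F (Fin d ⊕ Fin d → F) => ∃ W : Submodule F (Fin d ⊕ Fin d → F), finrank F W = m ∧
        NondegOn (H2.sympBilin d F) W ∧ W.map f ≤ W) ↔
      (Nat.lcm 2 (orderOf (Nat.card F : ZMod r)) ≤ m ∧
        m % Nat.lcm 2 (orderOf (Nat.card F : ZMod r)) ≤ (2 * d) % Nat.lcm 2 (orderOf (Nat.card F : ZMod r))) := by
  have hA := H2.sympBilin_isAlt d F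
  have hodd := (Fact.out : r.Prime).odd_of_ne_two hr2
  have hip := orderOf_pos_zmod (F := F) (r := r) hr
  have hcpos : 0 < Nat.lcm 2 (orderOf (Nat.card F : ZMod r)) := Nat.lcm_pos two_pos hip
  constructor
  · intro h
    have hV := finrank_symp (F := F) (d := d)
    obtain ⟨a, ha⟩ := hme
    have hcount := exists_dvd_of_dvd_card_nondeg (r := r) hr (H2.sympBilin_nondegenerate d F) hA hV
      (a := a) (by omega) (by rwa [show 2 * a = m by omega])
    -- an element with minimal fixed space
    have key : Nat.lcm 2 (orderOf (Nat.card F : ZMod r)) ≤ 2 * d →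
        m % Nat.lcm 2 (orderOf (Nat.card F : ZMod r)) ≤ (2 * d) % Nat.lcm 2 (orderOf (Nat.card F : ZMod r)) ∧
        (m < Nat.lcm 2 (orderOf (Nat.card F : ZMod r)) → m ≤ (2 * d) % Nat.lcm 2 (orderOf (Nat.card F : ZMod r))) := by
      intro hcn
      obtain ⟨f, hfB, hfr, hfd⟩ := exists_isometry_moved (r := r) hr
        (2 * d / Nat.lcm 2 (orderOf (Nat.card F : ZMod r))) (Fin d ⊕ Fin d → F) (H2.sympBilin d F)
        (H2.sympBilin_nondegenerate d F) hA (by rw [hV]; exact Nat.mul_div_le _ _)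
      have hne : f ≠ 1 := fun h1 => by
        rw [h1, movedSpace, sub_self, LinearMap.range_zero, finrank_bot] at hfd
        have := Nat.mul_pos hcpos (Nat.div_pos hcn hcpos)
        omega
      obtain ⟨x, hxf, hxz⟩ := exists_sp_of_isometry f hfB hfr
      obtain ⟨W, hWd, hW, hWx⟩ := h x hxz fun c hc => nonscalar_of_isometry hd hodd hfB hfr hne c (by
        rw [← hxf, hc, map_smul, Matrix.toLin'_one]; rfl)
      rw [hxf] at hWx
      have hsum := Submodule.finrank_add_eq_of_isCompl (isCompl_fixed_moved hr f hfr)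
      rw [hV, hfd] at hsum
      have hmod := Nat.mod_add_div (2 * d) (Nat.lcm 2 (orderOf (Nat.card F : ZMod r)))
      have hfix : finrank F (fixedSpace f) = (2 * d) % Nat.lcm 2 (orderOf (Nat.card F : ZMod r)) := by omega
      have h1 := nondeg_inv_mod_le hr hA hfB hfr hWx hW (by rw [hfix]; exact Nat.mod_lt _ hcpos)
      rwa [hWd, hfix] at h1
    obtain ⟨j, hj, hjd⟩ := hcount
    have hcn := Nat.le_of_dvd (by omega) hjd
    obtain ⟨k1, k2⟩ := key (by omega)
    refine ⟨?_, k1⟩
    by_contra hlt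
    have h3 := k2 (by omega)
    obtain ⟨t, ht⟩ := hjd
    generalize Nat.lcm 2 (orderOf (Nat.card F : ZMod r)) = c at *
    have h4 : (2 * d) % c = 2 * j := by
      rw [show 2 * d = 2 * j + c * t by omega, Nat.add_mul_mod_self_left, Nat.mod_eq_of_lt (by omega)]
    omega
  · intro hc x hx hxc
    obtain ⟨w, f, hw, hfr, hfB, hxf⟩ := sp_setup hd (Or.inl hodd) x hx
    obtain ⟨W, hWd, hW, hWx⟩ := exists_nondeg_inv hr hr2 hA sympBilin_nondegOn_top hfB hfr hme hc.1
      (by rw [finrank_symp]; omega) (by rw [finrank_symp]; exact hc.2)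
    exact ⟨W, hWd, hW, by rw [hxf]; exact (map_le_smul_iff f hw W).2 hWx⟩

omit [Finite F] in
/-- Blocks of an operator with the same layers. -/
theorem Blocks.unique_of_layers {V : Type*} [AddCommGroup V] [Module F V] [FiniteDimensional F V]
    {N M : End F V} {μ ν : Multiset ℕ} {P : Submodule F V} (h : Blocks N P μ) (h' : Blocks M P ν)
    (he : ∀ j, kerLayer N P j = kerLayer M P j) : μ = ν := by
  ext b
  rcases Nat.eq_zero_or_pos b with rfl | hb
  · rw [Multiset.count_eq_zero.2 fun hm => lt_irrefl 0 (h.pos 0 hm),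
      Multiset.count_eq_zero.2 fun hm => lt_irrefl 0 (h'.pos 0 hm)]
  · have key : ∀ ρ : Multiset ℕ, Multiset.card (ρ.filter fun k => b - 1 < k) =
        ρ.count b + Multiset.card (ρ.filter fun k => b < k) := by
      intro ρ
      induction ρ using Multiset.induction with
      | empty => simp
      | cons a ρ ih =>
        simp only [Multiset.filter_cons, Multiset.count_cons, Multiset.card_add]
        rw [apply_ite Multiset.card, apply_ite Multiset.card]
        simp only [Multiset.card_singleton, Multiset.card_zero]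
        split_ifs <;> omega
    have h1 := key μ
    have h2 := key ν
    rw [← h.kerLayer_eq, ← h.kerLayer_eq, he, he] at h1
    rw [← h'.kerLayer_eq, ← h'.kerLayer_eq] at h2
    omega

variable {p : ℕ} [Fact p.Prime] [CharP F p]

omit [Finite F] in
/-- An isometry of order `p` is unipotent. -/
theorem unipotent_of_pow (hd : 1 ≤ d) {f : End F (Fin d ⊕ Fin d → F)} (hf : f ^ p = 1) : (f - 1) ^ p = 0 := by
  haveI : Nonempty (Fin d ⊕ Fin d) := ⟨Sum.inl ⟨0, hd⟩⟩
  haveI : CharP (End F (Fin d ⊕ Fin d → F)) p := charP_of_injective_algebraMap' F p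
  rw [sub_pow_char_of_commute (p := p) (Commute.one_right _), hf, one_pow, sub_self]

omit [Finite F] in
/-- An element of order `p` with prescribed block type. -/
theorem exists_sp_unipotent (hp : p ≠ 2) (hd : 1 ≤ d) (μ : Multiset ℕ) (hμ : ∀ a ∈ μ, 0 < a ∧ a ≤ p)
    (hev : ∀ a, Odd a → Even (μ.count a)) (hsum : μ.sum = 2 * d) :
    ∃ f : End F (Fin d ⊕ Fin d → F), (∀ u v, H2.sympBilin d F (f u) (f v) = H2.sympBilin d F u v) ∧ f ^ p = 1 ∧
      Blocks (f - 1) ⊤ μ := by
  have h2 : (2 : F) ≠ 0 := fun h => hp (((Nat.prime_dvd_prime_iff_eq (Fact.out : p.Prime) Nat.prime_two).1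
    ((CharP.cast_eq_zero_iff F p 2).1 (by exact_mod_cast h))))
  obtain ⟨B, N, hB⟩ := exists_sympModel F μ (fun a ha => (hμ a ha).1) hev
  obtain ⟨hBn, hBA, hskew, hNb⟩ := hB
  obtain ⟨m, e, hm, he⟩ := H2.exists_equiv_std B hBn hBA
  rw [Module.finrank_fin_fun, hsum] at hm
  obtain rfl : m = d := by omega
  -- transfer to the standard space
  let K : End F (Fin m ⊕ Fin m → F) := e.conj N
  have hKb : Blocks K ⊤ μ := by
    have h1 := hNb.map (N' := K) e.toLinearMap e.injective (fun x => by simp [K, LinearEquiv.conj_apply])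
    rwa [Submodule.map_top, LinearEquiv.range] at h1
  have hKs : ∀ a b, H2.sympBilin m F (K a) b = -H2.sympBilin m F a (K b) := fun a b => by
    obtain ⟨a, rfl⟩ := e.surjective a
    obtain ⟨b, rfl⟩ := e.surjective b
    simpa [K, LinearEquiv.conj_apply, he] using hskew a b
  have hKp : K ^ p = 0 := by
    refine LinearMap.ker_eq_top.1 (eq_top_iff.2 ?_)
    intro v _
    have key : ∀ {P : Submodule F (Fin m ⊕ Fin m → F)} {ν : Multiset ℕ}, Blocks K P ν → (∀ a ∈ ν, a ≤ p) →
        P ≤ LinearMap.ker (K ^ p) := by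
      intro P ν hP hν
      induction hP with
      | bot => exact bot_le
      | @cons P ν v k hk htop hlast hd hB ih =>
        refine sup_le ?_ (ih fun a ha => hν a (Multiset.mem_cons_of_mem ha))
        rw [blockSpan, Submodule.span_le]
        rintro _ ⟨i, rfl⟩
        show (K ^ p) ((K ^ (i : ℕ)) v) = 0
        have := hν k (Multiset.mem_cons_self k ν)
        rw [← Module.End.mul_apply, ← pow_add, show p + (i : ℕ) = (p + i - k) + k by omega, pow_add,
          Module.End.mul_apply, htop, map_zero]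
    exact key hKb (fun a ha => (hμ a ha).2) Submodule.mem_top
  set U : End F (Fin m ⊕ Fin m → F) := ∑ i ∈ Finset.range p, K ^ i with hU
  have hU1 : (1 - K) * U = 1 := by rw [hU, mul_neg_geom_sum, hKp, sub_zero]
  have hU2 : U * (1 - K) = 1 := by rw [hU, geom_sum_mul_neg, hKp, sub_zero]
  have hcom : Commute (1 + K) U := by
    rw [hU]
    exact Commute.sum_right _ _ _ fun i _ => ((Commute.one_left _).add_left (Commute.refl K)).pow_right i
  haveI : Nonempty (Fin m ⊕ Fin m) := ⟨Sum.inl ⟨0, hd⟩⟩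
  haveI : CharP (End F (Fin m ⊕ Fin m → F)) p := charP_of_injective_algebraMap' F p
  have hUp : U ^ p = 1 := by
    have h1 : (1 - K) ^ p = 1 := by
      rw [sub_pow_char_of_commute (p := p) (Commute.one_left _), hKp, one_pow, sub_zero]
    have h3 : ((1 - K) * U) ^ p = (1 - K) ^ p * U ^ p := (show Commute (1 - K) U from hU1.trans hU2.symm).mul_pow p
    rw [hU1, one_pow, h1, one_mul] at h3
    exact h3.symm
  refine ⟨(1 + K) * U, fun u v => ?_, ?_, ?_⟩
  · have hu : (1 - K) (U u) = u := by rw [← Module.End.mul_apply, hU1]; rfl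
    have hv : (1 - K) (U v) = v := by rw [← Module.End.mul_apply, hU1]; rfl
    conv_rhs => rw [← hu, ← hv]
    simp only [Module.End.mul_apply, LinearMap.add_apply, LinearMap.sub_apply, Module.End.one_apply, map_add,
      map_sub]
    rw [hKs (U u) (U v)]
    ring
  · rw [hcom.mul_pow, hUp, mul_one, add_pow_char_of_commute (p := p) (Commute.one_left _), hKp, one_pow, add_zero]
  · have hM : (1 + K) * U - 1 = (2 : F) • (K * U) := by
      rw [show (1 + K) * U - 1 = (1 + K) * U - (1 - K) * U by rw [hU1], ← sub_mul,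
        show (1 + K) - (1 - K) = K + K by abel, add_mul, two_smul]
    have hKU : Commute K U := by
      rw [hU]; exact Commute.sum_right _ _ _ fun i _ => (Commute.refl K).pow_right i
    have hMnil : ((1 + K) * U - 1) ^ p = 0 := by
      rw [hM, smul_pow, hKU.mul_pow, hKp, zero_mul, smul_zero]
    obtain ⟨ν, hν⟩ := exists_blocks _ hMnil ⊤ fun _ _ => Submodule.mem_top
    have hUbij : Function.Bijective U :=
      ⟨Function.LeftInverse.injective (g := ((1 - K : End F (Fin m ⊕ Fin m → F)) : _ → _)) fun v => by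
          rw [← Module.End.mul_apply, hU1]; rfl,
        Function.RightInverse.surjective (g := ((1 - K : End F (Fin m ⊕ Fin m → F)) : _ → _)) fun v => by
          rw [← Module.End.mul_apply, hU2]; rfl⟩
    have hlayer : ∀ j, kerLayer K ⊤ j = kerLayer ((1 + K) * U - 1) ⊤ j := by
      intro j
      unfold kerLayer
      have hpow : ((1 + K) * U - 1) ^ j = (2 : F) ^ j • (K ^ j * U ^ j) := by rw [hM, smul_pow, hKU.mul_pow]
      have hr1 : Submodule.map (((1 + K) * U - 1) ^ j) ⊤ = Submodule.map (K ^ j) ⊤ := by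
        rw [hpow, Submodule.map_smul _ _ _ (pow_ne_zero j h2), Module.End.mul_eq_comp, Submodule.map_comp]
        congr 1
        rw [Submodule.map_top, LinearMap.range_eq_top]
        rw [Module.End.coe_pow]
        exact hUbij.2.iterate j
      have hk1 : LinearMap.ker ((1 + K) * U - 1) = LinearMap.ker K := by
        rw [hM, LinearMap.ker_smul _ _ h2, hKU.eq]
        ext v
        simp only [LinearMap.mem_ker, Module.End.mul_apply]
        exact ⟨fun h => hUbij.1 (h.trans (map_zero U).symm), fun h => by rw [h, map_zero]⟩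
      rw [hr1, hk1]
    exact (hKb.unique_of_layers hν hlayer) ▸ hν

omit [Finite F] in
/-- The criterion at `r = p > 2`. -/
theorem sp_elusive_nondeg_char_iff (hp : p ≠ 2) {m : ℕ} (hd : 1 ≤ d) (hme : Even m) (hmd : m ≤ 2 * d) :
    SpElusiveFor p d (fun f : End F (Fin d ⊕ Fin d → F) => ∃ W : Submodule F (Fin d ⊕ Fin d → F), finrank F W = m ∧
        NondegOn (H2.sympBilin d F) W ∧ W.map f ≤ W) ↔
      ∀ μ : Multiset ℕ, (∀ a ∈ μ, 0 < a ∧ a ≤ p) → (∀ a : ℕ, Odd a → Even (μ.count a)) → μ.sum = 2 * d →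
        ∃ ν : Multiset ℕ, ν ≤ μ ∧ ν.sum = m ∧ ∀ a : ℕ, Odd a → Even (ν.count a) := by
  have hA := H2.sympBilin_isAlt d F
  have hodd := (Fact.out : p.Prime).odd_of_ne_two hp
  have h2 : (2 : F) ≠ 0 := fun h => hp (((Nat.prime_dvd_prime_iff_eq (Fact.out : p.Prime) Nat.prime_two).1
    ((CharP.cast_eq_zero_iff F p 2).1 (by exact_mod_cast h))))
  -- pieces in odd characteristic
  have hpieces : ∀ {N : End F (Fin d ⊕ Fin d → F)},
      (∀ u v, H2.sympBilin d F (u + N u) (v + N v) = H2.sympBilin d F u v) → N ^ p = 0 →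
      ∀ P : Submodule F (Fin d ⊕ Fin d → F), (∀ v ∈ P, N v ∈ P) → NondegOn (H2.sympBilin d F) P →
        ∃ π, SymPieces (H2.sympBilin d F) N P π ∧ ∀ τ ∈ π, ∃ k, (Odd k ∧ τ = {k, k}) ∨ (Even k ∧ τ = {k}) := by
    intro N hN hNp P hPN hP
    refine exists_pieces_of hA hN hNp (fun τ => ∃ k, (Odd k ∧ τ = {k, k}) ∨ (Even k ∧ τ = {k}))
      (fun Q k τ _ hQN hQ hQ0 hk0 hkp hk hτ => ⟨k, ?_⟩) hPN hP
    rcases hτ with ⟨rfl, u, hu, hne⟩ | ⟨rfl, hall, v, hv, w, hw, hvw⟩
    · refine Or.inr ⟨?_, rfl⟩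
      by_contra hko
      have := top_pair_symm hA hN hk0 hk hu hu
      rw [(Nat.not_even_iff_odd.1 hko).neg_one_pow] at this
      exact hne (mul_left_cancel₀ h2 (by linear_combination this))
    · refine Or.inl ⟨?_, rfl⟩
      by_contra hke
      rw [Nat.not_odd_iff_even] at hke
      -- the top pairing would vanish
      have hzero : ∀ a ∈ Q, ∀ b ∈ Q, H2.sympBilin d F ((N ^ (k - 1)) a) b = 0 := by
        intro a ha b hb
        have h := hall (a + b) (Q.add_mem ha hb)
        simp only [map_add, LinearMap.add_apply, hall a ha, hall b hb] at h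
        rw [top_pair_symm hA hN hk0 hk ha hb, hke.neg_one_pow] at h
        exact mul_left_cancel₀ h2 (by linear_combination h)
      have hpowQ : ∀ (i : ℕ), ∀ v ∈ Q, (N ^ i) v ∈ Q := by
        intro i
        induction i with
        | zero => exact fun v hv => hv
        | succ i ih => intro v hv; rw [pow_succ', Module.End.mul_apply]; exact hQN _ (ih v hv)
      exact hvw (hzero v hv w hw)
  constructor
  · intro h μ hμ hev hsum
    obtain ⟨f, hfB, hfr, hfb⟩ := exists_sp_unipotent (F := F) hp hd μ hμ hev hsum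
    by_cases hne : f = 1
    · subst hne
      have hall : ∀ a ∈ μ, a = 1 := fun a ha => by
        have := hfb.le (m := 1) (by rw [pow_one, sub_self]) a ha
        have := (hμ a ha).1
        omega
      have hμ1 : μ = Multiset.replicate μ.card 1 := Multiset.eq_replicate_card.2 hall
      have hcard : μ.card = 2 * d := by rw [← hsum, congrArg Multiset.sum hμ1]; simp
      refine ⟨Multiset.replicate m 1, by rw [hμ1]; exact (Multiset.replicate_le_replicate 1).2 (hcard ▸ hmd),
        by simp, fun a _ => ?_⟩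
      rw [Multiset.count_replicate]
      split_ifs
      exacts [hme, Even.zero]
    obtain ⟨x, hxf, hxz⟩ := exists_sp_of_isometry f hfB hfr
    obtain ⟨W, hWd, hW, hWx⟩ := h x hxz fun c hc => nonscalar_of_isometry hd hodd hfB hfr hne c (by
      rw [← hxf, hc, map_smul, Matrix.toLin'_one]; rfl)
    rw [hxf] at hWx
    set N := f - 1 with hN
    have hfN : ∀ v, f v = v + N v := fun v => by simp [hN]
    have hNiso : ∀ u v, H2.sympBilin d F (u + N u) (v + N v) = H2.sympBilin d F u v := fun u v => by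
      rw [← hfN, ← hfN]; exact hfB u v
    have hWN : ∀ v ∈ W, N v ∈ W := fun v hv => W.sub_mem (hWx ⟨v, hv, rfl⟩) hv
    obtain ⟨Q, -, hQx, hQ, hd', hsum', ho⟩ := nondegOn_split_inv hA.isRefl hfB
      (Function.LeftInverse.injective (g := f ^ (p - 1)) fun v => by
        rw [← Module.End.mul_apply, ← pow_succ, Nat.sub_add_cancel (Fact.out : p.Prime).one_le, hfr]; rfl)
      le_top le_top hWx sympBilin_nondegOn_top hW
    have hQN : ∀ v ∈ Q, N v ∈ Q := fun v hv => Q.sub_mem (hQx ⟨v, hv, rfl⟩) hv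
    obtain ⟨π, hπ, hgood⟩ := hpieces hNiso (unipotent_of_pow hd hfr) W hWN hW
    obtain ⟨ρ, hρ⟩ := exists_blocks N (unipotent_of_pow hd hfr) Q hQN
    obtain ⟨-, hπb⟩ := hπ.nondeg_blocks hA
    have := hfb.unique (hsum' ▸ hπb.sup hρ hd')
    refine ⟨π.join, this ▸ Multiset.le_add_right _ _, hπb.finrank_eq.symm.trans hWd, fun a ha => ?_⟩
    clear hπ hπb this
    induction π using Multiset.induction with
    | empty => simp
    | cons τ π ih =>
      rw [Multiset.join_cons, Multiset.count_add]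
      refine Even.add ?_ (ih fun σ hσ => hgood σ (Multiset.mem_cons_of_mem hσ))
      obtain ⟨k, ⟨-, rfl⟩ | ⟨hk, rfl⟩⟩ := hgood τ (Multiset.mem_cons_self τ π)
      · by_cases hak : a = k <;> simp [hak]
      · rw [Multiset.count_eq_zero.2 (by
          simp only [Multiset.mem_singleton]
          rintro rfl
          exact Nat.not_even_iff_odd.2 ha hk)]
        exact Even.zero
  · intro h x hx _
    obtain ⟨w, f, hw, hfr, hfB, hxf⟩ := sp_setup hd (Or.inl hodd) x hx
    set N := f - 1 with hN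
    have hfN : ∀ v, f v = v + N v := fun v => by simp [hN]
    have hNiso : ∀ u v, H2.sympBilin d F (u + N u) (v + N v) = H2.sympBilin d F u v := fun u v => by
      rw [← hfN, ← hfN]; exact hfB u v
    obtain ⟨π, hπ, hgood⟩ := hpieces hNiso (unipotent_of_pow hd hfr) ⊤ (fun _ _ => Submodule.mem_top)
      sympBilin_nondegOn_top
    obtain ⟨-, hb⟩ := hπ.nondeg_blocks hA
    have hev : ∀ a, Odd a → Even (π.join.count a) := by
      intro a ha
      clear hb hπ
      induction π using Multiset.induction with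
      | empty => simp
      | cons τ π ih =>
        rw [Multiset.join_cons, Multiset.count_add]
        refine Even.add ?_ (ih fun σ hσ => hgood σ (Multiset.mem_cons_of_mem hσ))
        obtain ⟨k, ⟨-, rfl⟩ | ⟨hk, rfl⟩⟩ := hgood τ (Multiset.mem_cons_self τ π)
        · by_cases hak : a = k <;> simp [hak]
        · rw [Multiset.count_eq_zero.2 (by
            simp only [Multiset.mem_singleton]
            rintro rfl
            exact Nat.not_even_iff_odd.2 ha hk)]
          exact Even.zero
    obtain ⟨ν, hν, hνs, hνe⟩ := h π.join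
      (fun a ha => ⟨hb.pos a ha, hb.le (unipotent_of_pow hd hfr) a ha⟩) hev
      (by rw [← hb.finrank_eq, finrank_top, finrank_symp])
    obtain ⟨π', hπ', rfl⟩ := exists_sub_join π hgood ν hν hνe
    obtain ⟨W, -, hWp⟩ := hπ.exists_sub hA π' hπ'
    obtain ⟨hW, hWb⟩ := hWp.nondeg_blocks hA
    refine ⟨W, hWb.finrank_eq.trans hνs, hW, ?_⟩
    rw [hxf, map_le_smul_iff f hw]
    rintro _ ⟨v, hv, rfl⟩
    rw [hfN]
    exact W.add_mem hv (hWb.inv ⟨v, hv, rfl⟩)

omit [Finite F] in
/-- The criterion at `r = p = 2`. -/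
theorem sp_elusive_nondeg_two_iff (hp : p = 2) {m : ℕ} (hd : 2 ≤ d) (hme : Even m) (hmd : m ≤ 2 * d) :
    SpElusiveFor 2 d (fun f : End F (Fin d ⊕ Fin d → F) => ∃ W : Submodule F (Fin d ⊕ Fin d → F), finrank F W = m ∧
        NondegOn (H2.sympBilin d F) W ∧ W.map f ≤ W) ↔ ((2 * d) % 4 = 2 ∨ m % 4 = 0) := by
  subst hp
  have hA := H2.sympBilin_isAlt d F
  have h2 : (2 : F) = 0 := by exact_mod_cast CharP.cast_eq_zero F 2
  constructor
  · intro h
    by_contra hne
    push Not at hne
    obtain ⟨l, hl⟩ : 4 ∣ 2 * d := by omega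
    obtain ⟨B, N, ⟨hBn, hBA, hskew, hNb⟩, hz⟩ := exists_sympModel_two F h2 l
    obtain ⟨m', e, hm', he⟩ := H2.exists_equiv_std B hBn hBA
    rw [Module.finrank_fin_fun] at hm'
    obtain rfl : m' = d := by omega
    let K : End F (Fin m' ⊕ Fin m' → F) := e.conj N
    have hKb : Blocks K ⊤ (Multiset.replicate (2 * l) 2) := by
      have h1 := hNb.map (N' := K) e.toLinearMap e.injective (fun x => by simp [K, LinearEquiv.conj_apply])
      rwa [Submodule.map_top, LinearEquiv.range] at h1
    have hKz : ∀ a, H2.sympBilin m' F (K a) a = 0 := fun a => by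
      obtain ⟨a, rfl⟩ := e.surjective a
      simpa [K, LinearEquiv.conj_apply, he] using hz a
    have hKs : ∀ a b, H2.sympBilin m' F (K a) b = -H2.sympBilin m' F a (K b) := fun a b => by
      obtain ⟨a, rfl⟩ := e.surjective a
      obtain ⟨b, rfl⟩ := e.surjective b
      simpa [K, LinearEquiv.conj_apply, he] using hskew a b
    have hK2 : K ^ 2 = 0 := by
      have hN2 : ∀ {P : Submodule F (Fin m' ⊕ Fin m' → F)} {ν : Multiset ℕ}, Blocks K P ν → (∀ a ∈ ν, a = 2) →
          P ≤ LinearMap.ker (K ^ 2) := by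
        intro P ν hP hν
        induction hP with
        | bot => exact bot_le
        | @cons P ν v k hk htop hlast hd hB ih =>
          refine sup_le ?_ (ih fun a ha => hν a (Multiset.mem_cons_of_mem ha))
          obtain rfl := hν k (Multiset.mem_cons_self k ν)
          rw [blockSpan, Submodule.span_le]
          rintro _ ⟨i, rfl⟩
          show (K ^ 2) ((K ^ (i : ℕ)) v) = 0
          rw [← Module.End.mul_apply, ← pow_mul_comm, Module.End.mul_apply, htop, map_zero]
      exact LinearMap.ker_eq_top.1 (top_le_iff.1 (hN2 hKb fun a ha => Multiset.eq_of_mem_replicate ha))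
    have hker : LinearMap.ker K ≤ LinearMap.range K := by
      have hle : LinearMap.range K ≤ LinearMap.ker K := by
        rintro _ ⟨v, rfl⟩
        show K (K v) = 0
        rw [← Module.End.mul_apply, ← pow_two, hK2]; rfl
      have k1 := hKb.kerLayer_eq 1
      have k0 := hKb.kerLayer_eq 0
      unfold kerLayer at k0 k1
      rw [pow_one, Submodule.map_top, inf_eq_left.2 hle] at k1
      rw [pow_zero, Module.End.one_eq_id, Submodule.map_id, top_inf_eq] at k0
      have hf : ∀ j < 2, (Multiset.replicate (2 * l) 2).filter (fun k => j < k) = Multiset.replicate (2 * l) 2 :=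
        fun j hj => Multiset.filter_eq_self.2 fun a ha => by rw [Multiset.eq_of_mem_replicate ha]; exact hj
      rw [hf 0 (by omega)] at k0
      rw [hf 1 (by omega)] at k1
      exact (Submodule.eq_of_le_of_finrank_eq hle (k1.trans k0.symm)).ge
    have hiso : ∀ u v, H2.sympBilin m' F ((1 + K : End F _) u) ((1 + K : End F _) v) = H2.sympBilin m' F u v := by
      intro u v
      have h3 : H2.sympBilin m' F (K u) (K v) = 0 := by
        rw [hKs, ← Module.End.mul_apply, ← pow_two, hK2, LinearMap.zero_apply, map_zero, neg_zero]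
      simp only [LinearMap.add_apply, Module.End.one_apply, map_add, h3]
      linear_combination hKs u v
    have hfr : (1 + K) ^ 2 = 1 := by
      haveI : Nonempty (Fin m' ⊕ Fin m') := ⟨Sum.inl ⟨0, by omega⟩⟩
      haveI : CharP (End F (Fin m' ⊕ Fin m' → F)) 2 := charP_of_injective_algebraMap' F 2
      rw [add_pow_char_of_commute (p := 2) (Commute.one_left _), hK2, one_pow, add_zero]
    obtain ⟨x, hxf, hxz⟩ := exists_sp_of_isometry _ hiso hfr
    obtain ⟨W, hWd, hW, hWx⟩ := h x hxz fun c hc => by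
      have hKc : K = (c - 1) • 1 := by
        have h1 : (1 + K) = c • (1 : End F (Fin m' ⊕ Fin m' → F)) := by
          rw [← hxf, hc, map_smul, Matrix.toLin'_one]; rfl
        refine (eq_sub_iff_add_eq'.2 h1).trans (LinearMap.ext fun v => ?_)
        simp [sub_smul]
      have hc1 : c - 1 = 0 := by
        haveI : Nonempty (Fin m' ⊕ Fin m') := ⟨Sum.inl ⟨0, by omega⟩⟩
        have h4 := hK2
        rw [hKc, smul_pow, one_pow, smul_eq_zero] at h4
        exact eq_zero_of_pow_eq_zero (h4.resolve_right one_ne_zero)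
      have := hKb.le (m := 1) (by rw [pow_one, hKc, hc1, zero_smul]) 2 (Multiset.mem_replicate.2 ⟨by omega, rfl⟩)
      omega
    rw [hxf] at hWx
    have hWK : ∀ v ∈ W, K v ∈ W := fun v hv => by
      have := hWx ⟨v, hv, rfl⟩
      exact (Submodule.add_mem_iff_right W hv).1 this
    obtain ⟨π, hπ, hgood⟩ := exists_pieces_of (N := K) hA (fun u v => hiso u v) hK2 (fun τ => τ.sum = 4)
      (fun Q k τ _ hQN hQ hQ0 hk0 hk2 hk hτ => by
        have hkeq : k = 2 := by
          by_contra hne'
          obtain rfl : k = 1 := by omega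
          obtain ⟨v, hv, hv0⟩ := (Submodule.ne_bot_iff Q).1 hQ0
          obtain ⟨y, rfl⟩ := hker (show K v = 0 by simpa using hk v hv)
          refine hv0 (hQ _ hv fun q hq => ?_)
          rw [hKs, show K q = 0 by simpa using hk q hq, map_zero, neg_zero]
        subst hkeq
        rcases hτ with ⟨-, u, -, hne'⟩ | ⟨rfl, -⟩
        · exact absurd (by simpa using hKz u) hne'
        · rfl) hWK hW
    have hs : π.join.sum = 4 * π.card := by
      clear hπ
      induction π using Multiset.induction with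
      | empty => simp
      | cons τ π ih =>
        rw [Multiset.join_cons, Multiset.sum_add, hgood τ (Multiset.mem_cons_self τ π),
          ih fun σ hσ => hgood σ (Multiset.mem_cons_of_mem hσ), Multiset.card_cons]
        ring
    have := (hπ.nondeg_blocks hA).2.finrank_eq
    omega
  · intro hc x hx _
    obtain ⟨w, f, hw, hfr, hfB, hxf⟩ := sp_setup (r := 2) (by omega) (Or.inr ⟨rfl, h2⟩) x hx
    set N := f - 1 with hN
    have hfN : ∀ v, f v = v + N v := fun v => by simp [hN]
    have hNiso : ∀ u v, H2.sympBilin d F (u + N u) (v + N v) = H2.sympBilin d F u v := fun u v => by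
      rw [← hfN, ← hfN]; exact hfB u v
    obtain ⟨π, hπ, hgood⟩ := exists_pieces_of (N := N) hA hNiso (unipotent_of_pow (p := 2) (by omega) hfr)
      (fun τ => τ.sum = 2 ∨ τ.sum = 4)
      (fun Q k τ _ hQN hQ hQ0 hk0 hk2 hk hτ => by
        rcases hτ with ⟨rfl, u, hu, hne⟩ | ⟨rfl, -⟩
        · refine Or.inl ?_
          rcases Nat.lt_or_ge k 2 with h1 | h1
          · obtain rfl : k = 1 := by omega
            exact absurd (by simpa using hA u) hne
          · obtain rfl : k = 2 := by omega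
            rfl
        · interval_cases k <;> simp)
      (P := ⊤) (fun _ _ => Submodule.mem_top) sympBilin_nondegOn_top
    have hn := (hπ.nondeg_blocks hA).2.finrank_eq
    rw [finrank_top, finrank_symp] at hn
    obtain ⟨π', hπ', hs⟩ := exists_sub_sum π hgood hme (by omega) (by rw [← hn]; exact hc)
    obtain ⟨W, -, hWp⟩ := hπ.exists_sub hA π' hπ'
    obtain ⟨hW, hWb⟩ := hWp.nondeg_blocks hA
    refine ⟨W, hWb.finrank_eq.trans hs, hW, ?_⟩
    rw [hxf, map_le_smul_iff f hw]
    rintro _ ⟨v, hv, rfl⟩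
    rw [hfN]
    exact W.add_mem hv (hWb.inv ⟨v, hv, rfl⟩)

end Cfsg.Agent.H97
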