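import Cfsg.Agent.H97.IsotropicMult
import Cfsg.Agent.H97.SympNondegCriteria
import Cfsg.Agent.H67.IsometryConjMatrix
import Cfsg.Agent.H67.MultCount
import Cfsg.Agent.H67.OrthMoved
import Cfsg.Agent.H2.Stab

set_option autoImplicit false

/-!
# Invariant totally isotropic subspaces of symplectic elements of odd prime order
-/

namespace Cfsg.Agent.H97

open Module Polynomial

variable {F : Type*} [Field F] [Fintype F]

section dual

variable {V : Type*} [AddCommGroup V] [Module F V] [FiniteDimensional F V] {r p k : ℕ} [Fact r.Prime]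
  [Fact p.Prime] [CharP F p] {σ : F →+* F}

/-- Multiplicities of isometries are self-dual. -/
theorem mult_selfDual (hr : (r : F) ≠ 0) (hσ : ∀ x, σ x = x ^ p ^ k) (hσσ : ∀ x, σ (σ x) = x)
    {B : V →ₗ[F] V →ₛₗ[σ] F} (hrefl : ∀ u v, B u v = 0 → B v u = 0) (hnd : ∀ u, (∀ v, B u v = 0) → u = 0)
    {T : End F V} (hTB : ∀ u v, B (T u) (T v) = B u v) (hT : T ^ r = 1) (P : H67.CycFac r F) :
    multEnd r T (H67.cycDual hr Fact.out hσ hσσ P) = multEnd r T P := by
  obtain ⟨-, h⟩ := charpoly_dual_of_pairing hσσ hTB (W := ⊤) (W' := ⊤) (fun _ _ => Submodule.mem_top)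
    (fun _ _ => Submodule.mem_top) (fun u _ hu => hnd u fun v => hu v Submodule.mem_top)
    (fun w _ hw => hnd w fun v => hrefl _ _ (hw v Submodule.mem_top))
  rw [charpoly_restrict_top, (charpoly_eq_polyOf_mult hr hT).1, H67.dualPoly_polyOf hr Fact.out hσ hσσ] at h
  have h' := congrArg (fun f => H67.multOf (r := r) f P) h
  simp only [H67.multOf_polyOf hr (Fact.out : r.Prime), Function.comp_apply] at h'
  exact h'.symm

end dual

/-- The largest guaranteed number of isotropic pieces among `L` pieces of `t` types. -/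
def isoPieces (i t L : ℕ) : ℕ := if Odd i then L / 2 else (L + 1 - t) / 2

section combinatorics

variable {α : Type*} [Fintype α]

/-- Subfunctions of prescribed sum. -/
theorem exists_sub_of_sum (f : α → ℕ) {j : ℕ} (hj : j ≤ ∑ x, f x) :
    ∃ b : α → ℕ, (∀ x, b x ≤ f x) ∧ ∑ x, b x = j := by
  classical
  induction j with
  | zero => exact ⟨0, fun _ => Nat.zero_le _, by simp⟩
  | succ j ih =>
    obtain ⟨b, hb, hsum⟩ := ih (by omega)
    obtain ⟨x, hx⟩ : ∃ x, b x < f x := by
      by_contra h
      push Not at h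
      have := Finset.sum_le_sum (s := Finset.univ) fun x _ => h x
      omega
    refine ⟨Function.update b x (b x + 1), fun y => ?_, ?_⟩
    · rcases eq_or_ne y x with rfl | hy
      · simp; omega
      · simp [Function.update_of_ne hy, hb y]
    · rw [Finset.sum_update_of_mem (Finset.mem_univ x)]
      rw [← Finset.sum_sdiff (Finset.subset_univ {x}), Finset.sum_singleton] at hsum
      omega

variable {π : α → α} (hππ : ∀ x, π (π x) = x) {i t : ℕ} (ht : Fintype.card α = t)
  (heven : Even i → ∀ x, π x = x) (hodd : Odd i → ∀ x, π x ≠ x)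

include hππ ht heven hodd in
/-- Isotropic multiplicities exist up to the guaranteed number. -/
theorem exists_iso_mult {a : α → ℕ} (ha : ∀ x, a (π x) = a x) {j : ℕ} (hj : j ≤ isoPieces i t (∑ x, a x)) :
    ∃ b : α → ℕ, (∀ x, b x + b (π x) ≤ a x) ∧ ∑ x, b x = j := by
  classical
  rcases Nat.even_or_odd i with he | ho
  · rw [isoPieces, if_neg (Nat.not_odd_iff_even.2 he)] at hj
    have h : ∑ x, a x ≤ 2 * ∑ x, a x / 2 + t := by
      rw [Finset.mul_sum, ← ht, Fintype.card_eq_sum_ones, ← Finset.sum_add_distrib]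
      exact Finset.sum_le_sum fun x _ => by omega
    obtain ⟨b, hb, hs⟩ := exists_sub_of_sum (fun x => a x / 2) (j := j) (by omega)
    exact ⟨b, fun x => by rw [heven he]; have := hb x; omega, hs⟩
  · rw [isoPieces, if_pos ho] at hj
    obtain ⟨R, hR, -⟩ := H67.exists_reps π hππ (hodd ho)
    have hsum : ∑ x, (if R x then a x else 0) + ∑ x, (if R x then a x else 0) = ∑ x, a x := by
      have h1 : ∑ x, (if R x then a x else 0) = ∑ x, (if R x then 0 else a x) :=
        Fintype.sum_equiv ⟨π, π, hππ, hππ⟩ _ _ fun x => by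
          show _ = if R (π x) then 0 else a (π x)
          by_cases hx : R x <;> simp [hR, hx, ha]
      nth_rw 2 [h1]
      rw [← Finset.sum_add_distrib]
      exact Finset.sum_congr rfl fun x _ => by split_ifs <;> simp
    obtain ⟨b, hb, hs⟩ := exists_sub_of_sum (fun x => if R x then a x else 0) (j := j) (by omega)
    refine ⟨b, fun x => ?_, hs⟩
    have h1 := hb x
    have h2 := hb (π x)
    simp only [hR, ha] at h1 h2
    split_ifs at h1 h2 <;> omega

include hππ ht heven hodd in
/-- Multiplicities with no more isotropic pieces than guaranteed. -/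
theorem exists_worst_mult [Nonempty α] {L : ℕ} (hL : Odd i → Even L) :
    ∃ a : α → ℕ, (∀ x, a (π x) = a x) ∧ ∑ x, a x = L ∧
      ∀ b : α → ℕ, (∀ x, b x + b (π x) ≤ a x) → ∑ x, b x ≤ isoPieces i t L := by
  classical
  obtain ⟨x₀⟩ := ‹Nonempty α›
  rcases Nat.even_or_odd i with he | ho
  · simp only [heven he, isoPieces, if_neg (Nat.not_odd_iff_even.2 he)]
    rcases le_or_gt L t with hLt | hLt
    · obtain ⟨s, -, hs⟩ := Finset.exists_subset_card_eq (s := (Finset.univ : Finset α)) (n := L)
        (by rw [Finset.card_univ, ht]; exact hLt)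
      refine ⟨fun x => if x ∈ s then 1 else 0, fun _ => trivial, by simp [hs], fun b hb => ?_⟩
      rw [Finset.sum_eq_zero fun x _ => ?_]
      · exact Nat.zero_le _
      · have := hb x
        simp only at this
        split_ifs at this <;> omega
    · have ht0 : 0 < t := ht ▸ Fintype.card_pos
      refine ⟨fun x => if x = x₀ then L + 1 - t else 1, fun _ => trivial, ?_, fun b hb => ?_⟩
      · rw [← Finset.add_sum_erase _ _ (Finset.mem_univ x₀), if_pos rfl,
          Finset.sum_congr rfl fun x hx => if_neg (Finset.ne_of_mem_erase hx)]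
        simp [ht]; omega
      · rw [Finset.sum_eq_single x₀ (fun x _ hx => ?_) (by simp)]
        · have := hb x₀; simp at this; omega
        · have := hb x; simp [hx] at this; omega
  · obtain ⟨l, rfl⟩ := hL ho
    refine ⟨fun x => if x = x₀ ∨ x = π x₀ then l else 0, fun x => ?_, ?_, fun b hb => ?_⟩
    · have h : (π x = x₀ ∨ π x = π x₀) ↔ (x = x₀ ∨ x = π x₀) := by
        constructor
        · rintro (h | h)
          · exact Or.inr (by rw [← h, hππ])
          · exact Or.inl (by rw [← hππ x, h, hππ])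
        · rintro (rfl | rfl)
          · exact Or.inr rfl
          · exact Or.inl (hππ x₀)
      simp only [h]
    · rw [Finset.sum_ite, Finset.sum_const_zero, add_zero, Finset.sum_const, smul_eq_mul,
        show Finset.univ.filter (fun x => x = x₀ ∨ x = π x₀) = {x₀, π x₀} by ext x; simp,
        Finset.card_pair (Ne.symm (hodd ho x₀))]
      ring
    · have h := Finset.sum_le_sum (s := Finset.univ) fun x _ => hb x
      rw [Finset.sum_add_distrib, Finset.sum_ite, Finset.sum_const_zero, add_zero, Finset.sum_const, smul_eq_mul,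
        show Finset.univ.filter (fun x => x = x₀ ∨ x = π x₀) = {x₀, π x₀} by ext x; simp,
        Finset.card_pair (Ne.symm (hodd ho x₀))] at h
      have : ∑ x, b (π x) = ∑ x, b x := Fintype.sum_equiv ⟨π, π, hππ, hππ⟩ (fun x => b (π x)) b fun x => rfl
      simp only [isoPieces, if_pos ho]
      omega

end combinatorics

variable {r p : ℕ} [Fact r.Prime] [Fact p.Prime] [CharP F p]

/-- The duality on the factors. -/
noncomputable abbrev dualF (hr : (r : F) ≠ 0) : H67.CycFac r F → H67.CycFac r F :=
  H67.cycDual hr Fact.out (σ := RingHom.id F) (p := p) (k := 0) (fun x => by simp) fun _ => rfl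

theorem dualF_parity (hr : (r : F) ≠ 0) (hr2 : r ≠ 2) :
    (Even (orderOf (Nat.card F : ZMod r)) → ∀ P, dualF (p := p) hr P = P) ∧
      (Odd (orderOf (Nat.card F : ZMod r)) → ∀ P, dualF (p := p) hr P ≠ P) := by
  have hne : r ≠ p := fun h => hr (by rw [h]; exact CharP.cast_eq_zero F p)
  have h : ∀ P, dualF (p := p) hr P = P ↔ ¬ Odd (orderOf (Nat.card F : ZMod r)) := fun P => by
    rw [Nat.card_eq_fintype_card]
    exact H67.dualId_eq_self_iff Fact.out hne hr2 P
  exact ⟨fun he P => (h P).2 (Nat.not_odd_iff_even.2 he), fun ho P => fun hP => (h P).1 hP ho⟩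

/-- The block embedding of two symplectic spaces. -/
def sumSp (m k : ℕ) : (Fin m ⊕ Fin m) ⊕ (Fin k ⊕ Fin k) ≃ Fin (m + k) ⊕ Fin (m + k) :=
  (Equiv.sumSumSumComm _ _ _ _).trans (Equiv.sumCongr finSumFinEquiv finSumFinEquiv)

/-- Symplectic elements with given multiplicities and an invariant totally isotropic subspace. -/
theorem exists_sp_model (hr : (r : F) ≠ 0) (hr2 : r ≠ 2) {m k : ℕ} (b a' : H67.CycFac r F → ℕ)
    (hb : orderOf (Nat.card F : ZMod r) * ∑ P, b P ≤ m) (ha'd : ∀ P, a' (dualF (p := p) hr P) = a' P)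
    (ha' : orderOf (Nat.card F : ZMod r) * ∑ P, a' P ≤ 2 * k) :
    ∃ y : Matrix.symplecticGroup (Fin (m + k)) F, y ^ r = 1 ∧
      (y : Matrix (Fin (m + k) ⊕ Fin (m + k)) (Fin (m + k) ⊕ Fin (m + k)) F).charpoly =
        H67.polyOf (2 * (m + k)) (b + b ∘ dualF (p := p) hr + a') ∧
      ∃ U : Submodule F (Fin (m + k) ⊕ Fin (m + k) → F), finrank F U = m ∧
        (∀ u ∈ U, ∀ v ∈ U, Cfsg.sympForm (m + k) F u v = 0) ∧
        ∀ u ∈ U, (y : Matrix (Fin (m + k) ⊕ Fin (m + k)) (Fin (m + k) ⊕ Fin (m + k)) F).mulVec u ∈ U := by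
  classical
  have hne : r ≠ p := fun h => hr (by rw [h]; exact CharP.cast_eq_zero F p)
  have hsum : ∑ P, (b ∘ dualF (p := p) hr) P = ∑ P, b P :=
    Fintype.sum_equiv ⟨dualF (p := p) hr, dualF (p := p) hr, H67.cycDual_cycDual _ _ _ _,
      H67.cycDual_cycDual _ _ _ _⟩ _ _ fun P => rfl
  rw [Nat.card_eq_fintype_card] at hb ha'
  obtain ⟨g, hg, hgc⟩ := H67.exists_gl_polyOf (p := p) (Fact.out : r.Prime) hne hb
  obtain ⟨z, hz, hzc⟩ := H67.exists_sp_polyOf (p := p) (Fact.out : r.Prime) hne hr2 (fun x => by simp) (m := k) a' ha'd ha'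
  let G : Matrix (Fin m) (Fin m) F := g
  let H : Matrix (Fin m) (Fin m) F := H67.contraMat (RingHom.id F) g
  have hH : H = ((g⁻¹ : GL (Fin m) F) : Matrix (Fin m) (Fin m) F).transpose := by
    simp [H, H67.contraMat]
  let Z : Matrix (Fin k ⊕ Fin k) (Fin k ⊕ Fin k) F := z
  let e := sumSp m k
  let M₀ := Matrix.fromBlocks (Matrix.fromBlocks G 0 0 H) 0 0 Z
  let M := Matrix.reindexAlgEquiv F F e M₀
  have hJ : Matrix.J (Fin (m + k)) F = Matrix.reindexAlgEquiv F F e
      (Matrix.fromBlocks (Matrix.J (Fin m) F) 0 0 (Matrix.J (Fin k) F)) := by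
    ext u v
    obtain ⟨u, rfl⟩ := e.surjective u
    obtain ⟨v, rfl⟩ := e.surjective v
    simp only [Matrix.coe_reindexAlgEquiv, Matrix.reindex_apply, Matrix.submatrix_apply, Equiv.symm_apply_apply]
    rcases u with (u | u) | (u | u) <;> rcases v with (v | v) | (v | v) <;>
      simp [e, sumSp, Matrix.J, Matrix.one_apply, Fin.ext_iff] <;> omega
  have hHG : G.transpose * H = 1 := by
    rw [hH, ← Matrix.transpose_mul, ← Units.val_mul, inv_mul_cancel, Units.val_one, Matrix.transpose_one]
  have hGH : H.transpose * G = 1 := by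
    rw [hH, Matrix.transpose_transpose, ← Units.val_mul, inv_mul_cancel, Units.val_one]
  have hblock : Matrix.fromBlocks G.transpose 0 0 H.transpose * Matrix.J (Fin m) F * Matrix.fromBlocks G 0 0 H =
      Matrix.J (Fin m) F := by
    simp only [Matrix.J, Matrix.fromBlocks_multiply,
      Matrix.zero_mul, Matrix.mul_zero, add_zero, zero_add, Matrix.mul_one, mul_neg, Matrix.neg_mul,
      hHG, hGH, neg_zero]
  have hMem : M ∈ Matrix.symplecticGroup (Fin (m + k)) F := by
    rw [SymplecticGroup.mem_iff', hJ]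
    have ht : M.transpose = Matrix.reindexAlgEquiv F F e M₀.transpose := by
      simp only [M, Matrix.coe_reindexAlgEquiv, Matrix.transpose_reindex]
    rw [ht, ← map_mul, ← map_mul]
    congr 1
    simp only [M₀, Matrix.fromBlocks_transpose, Matrix.fromBlocks_multiply, Matrix.transpose_zero, Matrix.zero_mul,
      Matrix.mul_zero, add_zero, zero_add]
    rw [hblock, SymplecticGroup.mem_iff'.1 z.2]
  have hGr : G ^ r = 1 := by rw [← Units.val_pow_eq_pow_val, hg, Units.val_one]
  have hHr : H ^ r = 1 := by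
    rw [hH, ← Matrix.transpose_pow, ← Units.val_pow_eq_pow_val, inv_pow, hg, inv_one, Units.val_one,
      Matrix.transpose_one]
  have hZr : Z ^ r = 1 := congrArg Subtype.val hz
  have hM₀r : M₀ ^ r = 1 := by
    simp only [M₀, Matrix.fromBlocks_diagonal_pow, hGr, hHr, hZr, Matrix.fromBlocks_one]
  refine ⟨⟨M, hMem⟩, Subtype.ext ?_, ?_, ?_⟩
  · show M ^ r = 1
    rw [← map_pow, hM₀r, map_one]
  · show M.charpoly = _
    simp only [M]
    rw [Matrix.coe_reindexAlgEquiv, Matrix.charpoly_reindex, Matrix.charpoly_fromBlocks_zero₁₂,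
      Matrix.charpoly_fromBlocks_zero₁₂, hgc, H67.charpoly_contraMat, hgc,
      H67.dualPoly_polyOf hr (Fact.out : r.Prime) (p := p) (k := 0) (fun x => by simp) (fun _ => rfl), hzc,
      polyOf_mul (by rwa [Nat.card_eq_fintype_card]) (by rw [Nat.card_eq_fintype_card, hsum]; exact hb),
      polyOf_mul (by
        rw [Nat.card_eq_fintype_card]
        simp only [Pi.add_apply, Finset.sum_add_distrib, mul_add, hsum]
        omega) (by rwa [Nat.card_eq_fintype_card])]
    congr 1
    omega
  · let ι : (Fin m → F) →ₗ[F] (Fin (m + k) ⊕ Fin (m + k) → F) :=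
      { toFun := fun x => Sum.elim (Sum.elim x 0) 0 ∘ e.symm
        map_add' := fun x y => funext fun u => by
          obtain ⟨u, rfl⟩ := e.surjective u
          rcases u with (u | u) | u <;> simp
        map_smul' := fun c x => funext fun u => by
          obtain ⟨u, rfl⟩ := e.surjective u
          rcases u with (u | u) | u <;> simp }
    refine ⟨LinearMap.range ι, ?_, ?_, ?_⟩
    · rw [LinearMap.finrank_range_of_inj fun x y h => _root_.funext fun u => by
        simpa [ι] using congrFun h (e (Sum.inl (Sum.inl u))), finrank_fintype_fun_eq_card, Fintype.card_fin]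
    · rintro _ ⟨x, rfl⟩ _ ⟨y, rfl⟩
      rw [Cfsg.sympForm, hJ, Matrix.coe_reindexAlgEquiv, Matrix.reindex_apply]
      simp only [ι, LinearMap.coe_mk, AddHom.coe_mk, Matrix.submatrix_mulVec_equiv, Function.comp_assoc,
        Equiv.symm_symm, Equiv.symm_comp_self, Function.comp_id, comp_equiv_dotProduct_comp_equiv]
      rw [Matrix.fromBlocks_mulVec]
      simp [Matrix.J, Matrix.fromBlocks_mulVec, dotProduct, Fintype.sum_sum_type]
    · rintro _ ⟨x, rfl⟩
      refine ⟨G.mulVec x, ?_⟩
      show _ = M.mulVec _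
      simp only [M]
      rw [Matrix.coe_reindexAlgEquiv, Matrix.reindex_apply]
      simp only [ι, LinearMap.coe_mk, AddHom.coe_mk, Matrix.submatrix_mulVec_equiv, Function.comp_assoc,
        Equiv.symm_symm, Equiv.symm_comp_self, Function.comp_id]
      funext u
      obtain ⟨u, rfl⟩ := e.surjective u
      rcases u with (u | u) | u <;> simp [M₀, Matrix.fromBlocks_mulVec]

end Cfsg.Agent.H97
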