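import Cfsg.Agent.H97.HermBasic
import Cfsg.Agent.H97.HermArith
import Cfsg.Agent.H97.SympIsotropic

set_option autoImplicit false

/-!
# Criteria for invariant totally isotropic subspaces of unitary elements of prime order
-/

namespace Cfsg.Agent.H97

open Module Polynomial
open scoped Matrix

variable {F : Type*} [Field F] [Fintype F] {q p r : ℕ} [Fact p.Prime] [CharP F p] [Fact r.Prime]

omit [Fact r.Prime] in
/-- Isometries from unitary elements. -/
theorem gu_end_isometry (hF : Fintype.card F = q ^ 2) {n : ℕ} (f : Cfsg.GU n F q) (u v : Fin n → F) :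
    herm hF n (Matrix.toLin' ((f : GL (Fin n) F) : Matrix (Fin n) (Fin n) F) u)
      (Matrix.toLin' ((f : GL (Fin n) F) : Matrix (Fin n) (Fin n) F) v) = herm hF n u v := by
  rw [herm_apply, herm_apply, Matrix.toLin'_apply, Matrix.toLin'_apply]
  exact H3.GU_preserves f u v

omit [Fintype F] [Fact p.Prime] [CharP F p] [Fact r.Prime] in
/-- Powers of unitary elements as operators. -/
theorem gu_end_pow {n : ℕ} (f : Cfsg.GU n F q) (hf : f ^ r = 1) :
    (Matrix.toLin' ((f : GL (Fin n) F) : Matrix (Fin n) (Fin n) F)) ^ r = 1 := by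
  rw [← Matrix.toLin'_pow, ← Units.val_pow_eq_pow_val, ← SubgroupClass.coe_pow, hf]
  simp [Module.End.one_eq_id]

/-- Fixed totally isotropic subspaces of unitary elements of order `r` in terms of multiplicities. -/
theorem gu_isotropic_criterion (hF : Fintype.card F = q ^ 2) (hne : r ≠ p)
    {P : Prop} [Decidable P] (hP : (∃ j : ℕ, ((q ^ 2 : ℕ) : ZMod r) ^ j = -(q : ZMod r)) ↔ P)
    {n m b : ℕ} (hb : b = orderOf ((q ^ 2 : ℕ) : ZMod r)) (hmn : 2 * m ≤ n) :
    (∀ f : Cfsg.GU n F q, f ^ r = 1 → f ≠ 1 →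
      ∃ W : Submodule F (Fin n → F), finrank F W = m ∧ (∀ u ∈ W, ∀ v ∈ W, Cfsg.hermForm n F q u v = 0) ∧
        W.map (Matrix.toLin' ((f : GL (Fin n) F) : Matrix (Fin n) (Fin n) F)) ≤ W) ↔
    ∀ L, 0 < L → b * L ≤ n → (¬ P → Even L) →
      ∃ j, j ≤ (if P then (L + 1 - (r - 1) / b) / 2 else L / 2) ∧ b * j ≤ m ∧
        b * L + 2 * (m - b * j) ≤ n := by
  classical
  have hrp : r.Prime := Fact.out
  have hr : (r : F) ≠ 0 := H67.cast_ne_zero_of_prime_ne (K := F) hrp hne
  obtain ⟨k, hqk, hσ⟩ := exists_conjQ_pow hF p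
  have hσσ := H3.conjQ_conjQ hF
  let π : H67.CycFac r F → H67.CycFac r F := H67.cycDual hr hrp hσ hσσ
  have hππ : ∀ Q, π (π Q) = Q := H67.cycDual_cycDual hr hrp hσ hσσ
  have hb' : b = orderOf (Nat.card F : ZMod r) := by rw [hb, Nat.card_eq_fintype_card, hF]
  have hbc : b = orderOf (Fintype.card F : ZMod r) := by rw [hb, hF]
  have hbpos : 0 < b := hbc ▸ H67.orderOf_card_pos hr hrp
  have hself : ∀ Q, π Q = Q ↔ P := fun Q => by
    rw [← hP]
    refine Subtype.ext_iff.trans ((H67.dual_eq_self_iff hr hrp hσ hσσ Q).trans ?_)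
    rw [hF, hqk]
  set i' := if P then 0 else 1 with hi'
  have heven : Even i' → ∀ Q, π Q = Q := fun he Q => (hself Q).2 (by
    by_contra h; rw [hi', if_neg h] at he; exact Nat.not_even_one he)
  have hodd : Odd i' → ∀ Q, π Q ≠ Q := fun ho Q h => by
    rw [hi', if_pos ((hself Q).1 h)] at ho; exact Nat.not_odd_zero ho
  have ht : Fintype.card (H67.CycFac r F) = (r - 1) / b := by
    rw [← H67.card_cycFac (K := F) hr hrp, hbc, Nat.mul_div_cancel _ (hbc ▸ hbpos)]
  have hiso : ∀ L, isoPieces i' ((r - 1) / b) L = if P then (L + 1 - (r - 1) / b) / 2 else L / 2 := fun L => by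
    by_cases h : P <;> simp [isoPieces, hi', h]
  have hperm : ∀ d : H67.CycFac r F → ℕ, ∑ Q, d (π Q) = ∑ Q, d Q := fun d =>
    Fintype.sum_equiv ⟨π, π, hππ, hππ⟩ (fun Q => d (π Q)) d fun _ => rfl
  constructor
  · intro H L hL hLn hLe
    have : Nonempty (H67.CycFac r F) := by
      refine Fintype.card_pos_iff.1 ?_
      have h := H67.card_cycFac (K := F) hr hrp
      have := hrp.two_le
      rcases Nat.eq_zero_or_pos (Fintype.card (H67.CycFac r F)) with h0 | h0
      · rw [h0, zero_mul] at h; omega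
      · exact h0
    obtain ⟨a, had, has, hamax⟩ := exists_worst_mult (π := π) hππ ht heven hodd (L := L) (fun ho => hLe fun hp => by
      rw [hi', if_pos hp] at ho; exact Nat.not_odd_zero ho)
    have hle : orderOf (Fintype.card F : ZMod r) * ∑ Q, a Q ≤ n := by rw [has, ← hbc]; exact hLn
    obtain ⟨f, hfc, hfo⟩ := exists_gu_charpoly hF p (H67.polyOf_monic n a) (H67.polyOf_natDegree hr hrp hle)
      (H67.polyOf_coeff_zero hr hrp n a) (by
        rw [H67.dualPoly_polyOf hr hrp hσ hσσ, show a ∘ H67.cycDual hr hrp hσ hσσ = a from _root_.funext had])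
    have hfr : f ^ r = 1 := by
      have h := H67.pow_eq_one_of_charpoly (p := p) hr hrp (g := (f : GL (Fin n) F))
        (by rwa [Subgroup.orderOf_coe]) hfc
      exact Subtype.ext (by rw [SubgroupClass.coe_pow, h]; rfl)
    have hfm : multEnd r (Matrix.toLin' ((f : GL (Fin n) F) : Matrix (Fin n) (Fin n) F)) = a := by
      rw [multEnd, Matrix.charpoly_toLin', hfc, H67.multOf_polyOf hr hrp]
    have hf1 : f ≠ 1 := by
      rintro rfl
      have h1 : H67.polyOf (r := r) n (0 : H67.CycFac r F → ℕ) =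
          (((1 : Cfsg.GU n F q) : GL (Fin n) F) : Matrix (Fin n) (Fin n) F).charpoly := by
        simp [H67.polyOf, Matrix.charpoly_one]
      rw [multEnd, Matrix.charpoly_toLin', ← h1, H67.multOf_polyOf hr hrp] at hfm
      rw [← hfm] at has
      simp at has
      omega
    obtain ⟨W, hWd, hWi, hWf⟩ := H f hfr hf1
    obtain ⟨d, hdm, hda, hdn⟩ := isotropic_mult_le (r := r) hr hσ hσσ (herm_hrefl hF n) (herm_hnd hF n)
      (gu_end_isometry hF f) (gu_end_pow f hfr) (W := W) (fun v hv => hWf ⟨v, hv, rfl⟩)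
      (fun u hu v hv => by rw [herm_apply]; exact hWi u hu v hv)
    rw [hfm, has, hWd, finrank_fin_fun, ← hb'] at hdn
    rw [hWd, ← hb'] at hdm
    exact ⟨∑ Q, d Q, hiso L ▸ hamax d (fun Q => by have := hda Q; rwa [hfm] at this), hdm, hdn⟩
  · intro H f hfr hf1
    set M : Matrix (Fin n) (Fin n) F := ((f : GL (Fin n) F) : Matrix (Fin n) (Fin n) F)
    set T := Matrix.toLin' M
    have hTr : T ^ r = 1 := gu_end_pow f hfr
    obtain ⟨hc, hle⟩ := charpoly_eq_polyOf_mult hr hTr
    rw [finrank_fin_fun] at hc hle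
    set a := multEnd r T
    have hpos : 0 < ∑ Q, a Q := by
      refine Nat.pos_of_ne_zero fun h => hf1 ?_
      have h1 := finrank_fixed_add_mult (r := r) hr hTr
      rw [h, mul_zero, add_zero] at h1
      have htop : ∀ v, T v = v := fun v =>
        mem_fixedSpace.1 (Submodule.eq_top_of_finrank_eq h1 ▸ Submodule.mem_top : v ∈ fixedSpace T)
      refine Subtype.ext (Units.ext (Matrix.ext_iff_mulVec.2 fun v => ?_))
      rw [← Matrix.toLin'_apply, htop]
      simp
    have had : ∀ Q, a (π Q) = a Q := fun Q =>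
      mult_selfDual hr hσ hσσ (herm_hrefl hF n) (herm_hnd hF n) (gu_end_isometry hF f) hTr Q
    have hev : ¬ P → Even (∑ Q, a Q) := fun hp => by
      obtain ⟨R, hR, -⟩ := H67.exists_reps π hππ (hodd (by rw [hi', if_neg hp]; exact odd_one))
      refine ⟨∑ Q, if R Q then a Q else 0, ?_⟩
      nth_rw 2 [← hperm]
      rw [← Finset.sum_add_distrib]
      exact Finset.sum_congr rfl fun Q _ => by by_cases hQ : R Q <;> simp [hR, hQ, had]
    obtain ⟨j, hj, hjm, hjn⟩ := H _ hpos (hb' ▸ hle) hev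
    rw [← hiso] at hj
    obtain ⟨d, hd, hds⟩ := exists_iso_mult (π := π) hππ ht heven hodd had hj
    set a' : H67.CycFac r F → ℕ := fun Q => a Q - (d Q + d (π Q)) with ha'
    have hsum : ∑ Q, a' Q + 2 * j = ∑ Q, a Q := by
      rw [two_mul, ← hds]
      nth_rw 2 [← hperm d]
      rw [← Finset.sum_add_distrib, ← Finset.sum_add_distrib]
      exact Finset.sum_congr rfl fun Q _ => by simp only [ha']; have := hd Q; omega
    have hd' : orderOf (Fintype.card F : ZMod r) * ∑ Q, d Q ≤ m := by rw [hds, ← hbc]; exact hjm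
    have ha'' : orderOf (Fintype.card F : ZMod r) * ∑ Q, a' Q ≤ n - 2 * m := by
      rw [← hbc]
      have h1 : b * (∑ Q, a' Q + 2 * j) = b * ∑ Q, a Q := by rw [hsum]
      rw [mul_add, mul_left_comm] at h1
      omega
    obtain ⟨g, hg, hgc⟩ := H67.exists_gl_polyOf (p := p) hrp hne hd'
    obtain ⟨y, hyc, hyo⟩ := exists_gu_charpoly hF p (H67.polyOf_monic (n - 2 * m) a')
      (H67.polyOf_natDegree hr hrp ha'') (H67.polyOf_coeff_zero hr hrp _ a') (by
        rw [H67.dualPoly_polyOf hr hrp hσ hσσ]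
        congr 1
        funext Q
        show a' (π Q) = a' Q
        simp only [ha', hππ, had]
        rw [add_comm (d (π Q))])
    refine exists_isotropic_of_charpoly hF p (show 2 * m + (n - 2 * m) = n by omega)
      (Nat.Coprime.coprime_dvd_left (orderOf_dvd_of_pow_eq_one hfr) ((Nat.coprime_primes hrp Fact.out).2 hne))
      (H67.coprime_of_pow_eq_one hrp hne hg) hyo ?_
    rw [hgc, hyc, H67.dualPoly_polyOf hr hrp hσ hσσ, ← Matrix.charpoly_toLin', hc]
    have hbd : orderOf (Nat.card F : ZMod r) * ∑ Q, d Q ≤ m := by rwa [Nat.card_eq_fintype_card]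
    have hbd' : orderOf (Nat.card F : ZMod r) * ∑ Q, (d ∘ π) Q ≤ m := by
      simp only [Function.comp_apply, hperm]; exact hbd
    have hba : orderOf (Nat.card F : ZMod r) * ∑ Q, a' Q ≤ n - 2 * m := by rwa [Nat.card_eq_fintype_card]
    rw [show d ∘ H67.cycDual hr hrp hσ hσσ = d ∘ π from rfl, polyOf_mul hbd' hba,
      polyOf_mul hbd (by simp only [Pi.add_apply, Finset.sum_add_distrib, mul_add]; omega),
      show m + (m + (n - 2 * m)) = n by omega]
    congr 1
    funext Q
    simp only [Pi.add_apply, Function.comp_apply, ha']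
    have := hd Q
    omega

end Cfsg.Agent.H97
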