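import Cfsg.Agent.H97.HermCriteria
import Cfsg.Agent.H3.Count
import Cfsg.Agent.H66.SemisimpleUnitary

set_option autoImplicit false

/-!
# Unitary elements with scalar prime powers and invariant totally isotropic subspaces
-/

namespace Cfsg.Agent.H97

open Module Polynomial
open scoped Matrix

variable {F : Type*} [Field F]

/-- An irreducible factor of the characteristic polynomial divides every annihilating polynomial. -/
theorem dvd_of_dvd_charpoly_of_aeval {ι : Type*} [Fintype ι] [DecidableEq ι] {A : Matrix ι ι F}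
    {P Q : F[X]} (hA : aeval A P = 0) (hQ : Irreducible Q) (h : Q ∣ A.charpoly) : Q ∣ P := by
  have := Fact.mk hQ
  let φ := algebraMap F (AdjoinRoot Q)
  have h0 : (A.map φ).charpoly.IsRoot (AdjoinRoot.root Q) := by
    rw [IsRoot.def, Matrix.charpoly_map, eval_map_algebraMap, AdjoinRoot.aeval_eq, AdjoinRoot.mk_eq_zero]
    exact h
  let T : Module.End (AdjoinRoot Q) (ι → AdjoinRoot Q) := Matrix.toLinAlgEquiv' (A.map φ)
  have hc : T.charpoly = (A.map φ).charpoly := Matrix.charpoly_toLin' _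
  have heig : T.HasEigenvalue (AdjoinRoot.root Q) :=
    (Module.End.hasEigenvalue_iff_isRoot_charpoly T _).2 (hc ▸ h0)
  have hroot := Module.End.isRoot_of_hasEigenvalue heig
  have hann : aeval T (P.map φ) = 0 := by
    have h1 := congrArg (fun M => M.map φ) hA
    rw [show T = Matrix.toLinAlgEquiv'.toAlgHom (A.map φ) from rfl, aeval_algHom_apply]
    rw [aeval_map_algebraMap]
    have h2 : aeval (A.map φ) P = (aeval A P).map φ := by
      rw [show A.map φ = (Algebra.ofId F (AdjoinRoot Q)).mapMatrix A from rfl, aeval_algHom_apply]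
      rfl
    rw [h2, hA, Matrix.map_zero _ (map_zero φ), map_zero]
  have hP0 := Polynomial.IsRoot.dvd hroot (minpoly.dvd _ T hann)
  rwa [IsRoot.def, eval_map_algebraMap, AdjoinRoot.aeval_eq, AdjoinRoot.mk_eq_zero] at hP0

/-- A monic polynomial with monic irreducible divisors among `S`. -/
theorem exists_eq_prod_pow {f : F[X]} (hf : f.Monic) {ι : Type*} [Fintype ι] (S : ι → F[X])
    (hS : Function.Injective S)
    (h : ∀ Q : F[X], Q.Monic → Irreducible Q → Q ∣ f → ∃ i, Q = S i) :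
    ∃ a : ι → ℕ, f = ∏ i, S i ^ a i := by
  classical
  open UniqueFactorizationMonoid in
  refine ⟨fun i => (normalizedFactors f).count (S i), ?_⟩
  open UniqueFactorizationMonoid in
  have hsub : (normalizedFactors f).toFinset ⊆ Finset.univ.image S := fun Q hQ => by
    rw [Multiset.mem_toFinset] at hQ
    have hm : Q.Monic := by
      rw [← normalize_normalized_factor _ hQ]
      exact monic_normalize (irreducible_of_normalized_factor _ hQ).ne_zero
    obtain ⟨i, hi⟩ := h Q hm (irreducible_of_normalized_factor _ hQ) (dvd_of_mem_normalizedFactors hQ)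
    exact Finset.mem_image.2 ⟨i, Finset.mem_univ _, hi.symm⟩
  conv_lhs => rw [← hf.normalize_eq_self, ← UniqueFactorizationMonoid.prod_normalizedFactors_eq hf.ne_zero,
    Finset.prod_multiset_count, Finset.prod_subset hsub (fun Q _ hQ => by
      rw [Multiset.mem_toFinset, ← Multiset.count_eq_zero] at hQ
      rw [hQ, pow_zero]), Finset.prod_image hS.injOn]

section finite

variable [Fintype F]

/-- Elements of each admissible order. -/
theorem exists_orderOf_field {N : ℕ} (hN : N ∣ Fintype.card F - 1) : ∃ ζ : F, orderOf ζ = N := by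
  classical
  obtain ⟨g, hg⟩ := IsCyclic.exists_ofOrder_eq_natCard (α := Fˣ)
  rw [Nat.card_eq_fintype_card, Fintype.card_units] at hg
  obtain ⟨t, ht⟩ := hN
  have hpos : 0 < Fintype.card F - 1 := by have := Fintype.one_lt_card (α := F); omega
  refine ⟨((g ^ t : Fˣ) : F), ?_⟩
  have ht0 : t ≠ 0 := by rintro rfl; rw [mul_zero] at ht; omega
  rw [orderOf_units, orderOf_pow' _ ht0, hg, ht, Nat.gcd_eq_right (Dvd.intro_left N rfl),
    Nat.mul_div_cancel _ (Nat.pos_of_ne_zero ht0)]

/-- Roots from the order criterion. -/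
theorem exists_pow_eq_of_pow_eq_one {r t : ℕ} (hrt : Fintype.card F - 1 = r * t) {z : F}
    (hz0 : z ≠ 0) (hz : z ^ t = 1) : ∃ u : F, u ^ r = z := by
  classical
  obtain ⟨g, hg⟩ := IsCyclic.exists_generator (α := Fˣ)
  obtain ⟨e, he⟩ : ∃ e : ℕ, g ^ e = Units.mk0 z hz0 := (mem_powers_iff_mem_zpowers.2 (hg _))
  have hord : orderOf g = r * t := by
    rw [orderOf_eq_card_of_forall_mem_zpowers hg, Nat.card_eq_fintype_card, Fintype.card_units, hrt]
  have h1 : g ^ (e * t) = 1 := by
    rw [pow_mul, he]; exact Units.ext (by simp [hz])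
  have hpos : 0 < Fintype.card F - 1 := by have := Fintype.one_lt_card (α := F); omega
  have ht0 : 0 < t := Nat.pos_of_ne_zero fun h => by rw [h, mul_zero] at hrt; omega
  have hdvd : r * t ∣ e * t := hord ▸ orderOf_dvd_of_pow_eq_one h1
  obtain ⟨d, rfl⟩ := Nat.dvd_of_mul_dvd_mul_right ht0 hdvd
  refine ⟨((g ^ d : Fˣ) : F), ?_⟩
  rw [← Units.val_pow_eq_pow_val, ← pow_mul, mul_comm, he]
  rfl

variable {q : ℕ}

omit [Field F] in
theorem card_sub_one_factor (hF : Fintype.card F = q ^ 2) : Fintype.card F - 1 = (q + 1) * (q - 1) := by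
  rw [hF, ← Nat.sq_sub_sq, one_pow]

/-- Totally isotropic subspaces have at most half the dimension. -/
theorem herm_isotropic_bound (hF : Fintype.card F = q ^ 2) {n : ℕ} (W : Submodule F (Fin n → F))
    (hW : ∀ u ∈ W, ∀ v ∈ W, Cfsg.hermForm n F q u v = 0) : 2 * finrank F W ≤ n := by
  obtain ⟨C, hC⟩ := Submodule.exists_isCompl W
  let b := Module.finBasis F C
  let L : W →ₗ[F] (Fin (finrank F C) → F) :=
    LinearMap.pi fun i => ((herm hF n).flip (b i : Fin n → F)).comp W.subtype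
  have hL : Function.Injective L := by
    rw [injective_iff_map_eq_zero]
    intro u hu
    refine Subtype.ext (herm_hnd hF n _ fun x => ?_)
    obtain ⟨w, hw, c, hc, rfl⟩ := Submodule.mem_sup.1 (hC.sup_eq_top.ge (Submodule.mem_top (x := x)))
    have h1 : herm hF n (u : Fin n → F) w = 0 := by rw [herm_apply]; exact hW u u.2 w hw
    have h2 : herm hF n (u : Fin n → F) ((⟨c, hc⟩ : C) : Fin n → F) = 0 := by
      rw [← b.sum_repr ⟨c, hc⟩]
      simp only [Submodule.coe_sum, Submodule.coe_smul, map_sum, LinearMap.map_smulₛₗ]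
      exact Finset.sum_eq_zero fun i _ => by
        rw [show herm hF n (u : Fin n → F) (b i : Fin n → F) = 0 from congrFun hu i, smul_zero]
    rw [map_add, h1, h2, add_zero]
  have h1 := LinearMap.finrank_le_finrank_of_injective hL
  have h2 := Submodule.finrank_add_eq_of_isCompl hC
  rw [finrank_fin_fun] at h1 h2
  omega

/-- Invariant totally isotropic subspaces of diagonal isometries avoid simple eigenvalues. -/
theorem isotropic_diag_bound (hF : Fintype.card F = q ^ 2) {n : ℕ} (d : Fin n → F) (S : Finset (Fin n))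
    (hS : ∀ j ∈ S, ∀ i, i ≠ j → d i ≠ d j) {W : Submodule F (Fin n → F)}
    (hW : ∀ u ∈ W, ∀ v ∈ W, Cfsg.hermForm n F q u v = 0)
    (hWd : W.map (Matrix.toLin' (Matrix.diagonal d)) ≤ W) : 2 * finrank F W + S.card ≤ n := by
  classical
  have hmul : ∀ u ∈ W, (fun i => d i * u i) ∈ W := fun u hu => by
    have h := hWd ⟨u, hu, rfl⟩
    rwa [Matrix.toLin'_apply, funext (Matrix.mulVec_diagonal d u)] at h
  have hzero : ∀ u ∈ W, ∀ j ∈ S, u j = 0 := fun u hu j hj => by
    have hprod : ∀ s : Finset F, (fun i => (∏ v ∈ s, (d i - v)) * u i) ∈ W := by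
      intro s
      induction s using Finset.induction_on with
      | empty => simpa using hu
      | insert v s hv ih =>
        have h1 := W.sub_mem (hmul _ ih) (W.smul_mem v ih)
        convert h1 using 1
        funext i
        rw [Finset.prod_insert hv]
        simp only [Pi.sub_apply, Pi.smul_apply, smul_eq_mul]
        ring
    set s := (Finset.univ.image d).erase (d j)
    have hmem := hprod s
    have hother : ∀ i, i ≠ j → ∏ v ∈ s, (d i - v) = 0 := fun i hi =>
      Finset.prod_eq_zero (Finset.mem_erase.2 ⟨hS j hj i hi, Finset.mem_image.2 ⟨i, Finset.mem_univ _, rfl⟩⟩)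
        (sub_self _)
    have hj0 : ∏ v ∈ s, (d j - v) ≠ 0 := Finset.prod_ne_zero_iff.2 fun v hv =>
      sub_ne_zero.2 (Finset.ne_of_mem_erase hv).symm
    have h := hW _ hmem _ hmem
    rw [Cfsg.hermForm, Finset.sum_eq_single j (fun i _ hi => by rw [hother i hi]; simp) (by simp)] at h
    rcases mul_eq_zero.1 h with h1 | h1
    · exact (mul_eq_zero.1 h1).resolve_left hj0
    · exact (mul_eq_zero.1 (pow_eq_zero_iff (by have := H3.two_le_q hF; omega) |>.1 h1)).resolve_left hj0
  let e : Fin (n - S.card) ≃ ↥(Sᶜ : Finset (Fin n)) :=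
    (Finset.equivFinOfCardEq (by rw [Finset.card_compl, Fintype.card_fin])).symm
  let π : (Fin n → F) →ₗ[F] (Fin (n - S.card) → F) := LinearMap.funLeft F F fun a => (e a).1
  have hsum : ∀ u ∈ W, ∀ v, Cfsg.hermForm (n - S.card) F q (π u) (π v) = Cfsg.hermForm n F q u v := by
    intro u hu v
    simp only [Cfsg.hermForm, π, LinearMap.funLeft_apply]
    rw [Fintype.sum_equiv e _ (fun a : ↥(Sᶜ : Finset (Fin n)) => u a.1 * v a.1 ^ q) (fun _ => rfl),
      Finset.sum_coe_sort Sᶜ (fun a => u a * v a ^ q)]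
    refine Finset.sum_subset (Finset.subset_univ _) fun a _ ha => ?_
    rw [hzero u hu a (by simpa using ha), zero_mul]
  have hinj : Function.Injective (π.comp W.subtype) := by
    rw [injective_iff_map_eq_zero]
    intro u hu
    refine Subtype.ext (funext fun i => ?_)
    by_cases hi : i ∈ S
    · exact hzero u u.2 i hi
    · have := congrFun hu (e.symm ⟨i, by simpa using hi⟩)
      simpa [π] using this
  have h := herm_isotropic_bound hF (W.map π) (by
    rintro _ ⟨u, hu, rfl⟩ _ ⟨v, hv, rfl⟩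
    rw [hsum u hu v]; exact hW u hu v hv)
  have h' : finrank F (W.map π) = finrank F W := by
    rw [← Submodule.range_subtype W, ← LinearMap.range_comp, LinearMap.finrank_range_of_inj hinj,
      Submodule.range_subtype]
  have := Finset.card_le_univ S
  rw [Fintype.card_fin] at this
  omega

/-- The scalar of a unitary element with scalar power has norm one. -/
theorem norm_of_scalar (hF : Fintype.card F = q ^ 2) {n : ℕ} (hn : 1 ≤ n) (g : Cfsg.GU n F q) {z : F}
    (h : ((g : GL (Fin n) F) : Matrix (Fin n) (Fin n) F) = z • 1) : z ^ (q + 1) = 1 := by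
  have h1 := H3.GU_preserves g (Pi.single ⟨0, hn⟩ 1) (Pi.single ⟨0, hn⟩ 1)
  rw [h, Matrix.smul_mulVec, Matrix.one_mulVec, H3.hermForm_smul_left hF, H3.hermForm_smul_right hF] at h1
  have hone : Cfsg.hermForm n F q (Pi.single ⟨0, hn⟩ 1) (Pi.single ⟨0, hn⟩ 1) = (1 : F) := by
    rw [Cfsg.hermForm, Finset.sum_eq_single ⟨0, hn⟩ (fun i _ hi => by simp [Pi.single_eq_of_ne hi]) (by simp)]
    simp
  rwa [hone, mul_one, ← pow_succ'] at h1

omit [Fintype F] in
/-- Scaling a unitary element by a scalar of norm one. -/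
theorem exists_gu_scale {n : ℕ} (g : Cfsg.GU n F q) {w : F} (hw : w ^ (q + 1) = 1) :
    ∃ f : Cfsg.GU n F q, ((f : GL (Fin n) F) : Matrix (Fin n) (Fin n) F) =
      w • ((g : GL (Fin n) F) : Matrix (Fin n) (Fin n) F) := by
  refine ⟨H3.guDiag (fun _ => w) (fun _ => hw) * g, ?_⟩
  have e : ((H3.guDiag (n := n) (fun _ => w) (fun _ => hw) : GL (Fin n) F) : Matrix (Fin n) (Fin n) F) =
      Matrix.diagonal fun _ => w := rfl
  rw [Subgroup.coe_mul, Units.val_mul, e, ← Matrix.smul_eq_diagonal_mul]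

omit [Fintype F] in
/-- Invariance under scaled elements. -/
theorem map_le_of_smul {n : ℕ} {A : Matrix (Fin n) (Fin n) F} {w : F} (hw : w ≠ 0)
    {W : Submodule F (Fin n → F)} (h : W.map (Matrix.toLin' (w • A)) ≤ W) :
    W.map (Matrix.toLin' A) ≤ W := by
  rwa [map_smul, Submodule.map_smul _ _ _ hw] at h

omit [Fintype F] in
/-- Determinants of unitary matrices from their characteristic polynomials. -/
theorem det_eq_charpoly_eval {n : ℕ} (A : Matrix (Fin n) (Fin n) F) :
    A.det = (-1) ^ n * A.charpoly.eval 0 := by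
  rw [Matrix.det_eq_sign_charpoly_coeff, Fintype.card_fin, coeff_zero_eq_eval_zero]

variable {p : ℕ} [Fact p.Prime] [CharP F p]

/-- Unitary elements with scalar square fix the totally isotropic subspaces. -/
theorem exists_isotropic_sq (hF : Fintype.card F = q ^ 2) (hp2 : p ≠ 2) {n m : ℕ} (hn : 1 ≤ n)
    (hmn : 2 * m ≤ n) (hcond : 2 * m < n ∨ padicValNat 2 (q + 1) ≤ padicValNat 2 n) (x : Cfsg.GU n F q)
    (hdet : ((x : GL (Fin n) F) : Matrix (Fin n) (Fin n) F).det = 1) {z : F}
    (hz : ((x ^ 2 : Cfsg.GU n F q) : GL (Fin n) F).1 = z • 1) :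
    ∃ W : Submodule F (Fin n → F), finrank F W = m ∧ (∀ u ∈ W, ∀ v ∈ W, Cfsg.hermForm n F q u v = 0) ∧
      W.map (Matrix.toLin' ((x : GL (Fin n) F) : Matrix (Fin n) (Fin n) F)) ≤ W := by
  classical
  set M : Matrix (Fin n) (Fin n) F := ((x : GL (Fin n) F) : Matrix (Fin n) (Fin n) F)
  have hz1 := norm_of_scalar hF hn (x ^ 2) hz
  have hMM : M ^ 2 = z • 1 := by
    rw [← hz, SubgroupClass.coe_pow, Units.val_pow_eq_pow_val]
  have hz0 : z ≠ 0 := fun h => by rw [h, zero_pow (by omega)] at hz1; exact zero_ne_one hz1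
  have hqodd : Odd q := by
    obtain ⟨k, hk, -⟩ := exists_conjQ_pow hF p
    rw [hk]; exact ((Fact.out : p.Prime).odd_of_ne_two hp2).pow
  obtain ⟨t, ht⟩ : Odd q := hqodd
  obtain ⟨s, hs⟩ := exists_pow_eq_of_pow_eq_one (r := 2) (t := t * (q + 1))
    (by rw [card_sub_one_factor hF, show q - 1 = 2 * t by omega]; ring) hz0
    (by rw [mul_comm, pow_mul, hz1, one_pow])
  have h2 : (2 : F) ≠ 0 := fun h => hp2 ((Nat.prime_dvd_prime_iff_eq (Fact.out : p.Prime) Nat.prime_two).1
    ((CharP.cast_eq_zero_iff F p 2).1 (by exact_mod_cast h)))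
  have hs0 : s ≠ 0 := fun h => by rw [h, zero_pow two_ne_zero] at hs; exact hz0 hs.symm
  have hss : -s ≠ s := fun h => by
    have h3 : (2 : F) * s = 0 := by linear_combination -h
    exact hs0 ((mul_eq_zero.1 h3).resolve_left h2)
  have hannih : aeval M ((X - C s) * (X - C (-s)) : F[X]) = 0 := by
    rw [show (X - C s) * (X - C (-s)) = (X ^ 2 - C z : F[X]) by
      rw [← hs]; simp only [map_neg, map_pow]; ring]
    simp [hMM, Algebra.algebraMap_eq_smul_one]
  obtain ⟨a, ha⟩ := exists_eq_prod_pow M.charpoly_monic ![X - C s, X - C (-s)] (by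
      intro i j h
      have hne : (X - C s : F[X]) ≠ X - C (-s) := fun e => hss (C_inj.1 (sub_right_inj.1 e)).symm
      fin_cases i <;> fin_cases j
      · rfl
      · exact absurd h hne
      · exact absurd h.symm hne
      · rfl) (by
    intro Q hQm hQ hQd
    rcases hQ.prime.dvd_mul.1 (dvd_of_dvd_charpoly_of_aeval hannih hQ hQd) with h | h
    · exact ⟨0, eq_of_monic_of_associated hQm (monic_X_sub_C s)
        (hQ.associated_of_dvd (irreducible_X_sub_C s) h)⟩
    · exact ⟨1, eq_of_monic_of_associated hQm (monic_X_sub_C (-s))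
        (hQ.associated_of_dvd (irreducible_X_sub_C (-s)) h)⟩)
  rw [Fin.prod_univ_two] at ha
  simp only [Matrix.cons_val_zero, Matrix.cons_val_one] at ha
  set e₁ := a 0
  set e₂ := a 1
  have hdeg : e₁ + e₂ = n := by
    have h := M.charpoly_natDegree_eq_dim
    rw [ha, ((monic_X_sub_C s).pow _).natDegree_mul ((monic_X_sub_C (-s)).pow _), natDegree_pow, natDegree_pow,
      natDegree_X_sub_C, natDegree_X_sub_C, Fintype.card_fin] at h
    omega
  have hxo : (orderOf x).Coprime p := by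
    refine Nat.Coprime.coprime_dvd_left (orderOf_dvd_of_pow_eq_one (x := x) (n := 2 * (q + 1)) ?_) ?_
    · refine Subtype.ext (Units.ext ?_)
      rw [SubgroupClass.coe_pow, Units.val_pow_eq_pow_val, pow_mul, hMM, _root_.smul_pow, one_pow, hz1, one_smul]
      rfl
    · refine Nat.Coprime.mul_left ((Nat.coprime_primes Nat.prime_two Fact.out).2 (Ne.symm hp2)) ?_
      obtain ⟨k, hk, -⟩ := exists_conjQ_pow hF p
      refine ((Fact.out : p.Prime).coprime_iff_not_dvd.2 fun hd => ?_).symm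
      have hk0 : k ≠ 0 := by rintro rfl; have := H3.two_le_q hF; rw [pow_zero] at hk; omega
      exact (Fact.out : p.Prime).not_dvd_one ((Nat.dvd_add_right (hk ▸ dvd_pow_self p hk0)).1 hd)
  have hnorm : s ^ (q + 1) = 1 ∨ s ^ (q + 1) = -1 :=
    sq_eq_one_iff.1 (by rw [← pow_mul, mul_comm, pow_mul, hs, hz1])
  have hdual1 : ∀ u : F, u ≠ 0 → H67.dualPoly (H3.conjQ hF) (X - C u) = X - C (u ^ q)⁻¹ := fun u hu => by
    have := dualPoly_X_pow_sub_C (H3.conjQ hF) Nat.one_pos hu
    simpa using this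
  have finish : ∀ (g₁ g₂ y₁ y₂ : ℕ), g₁ + g₂ = m → y₁ + y₂ = n - 2 * m →
      H67.dualPoly (H3.conjQ hF) ((X - C s) ^ y₁ * (X - C (-s)) ^ y₂) = (X - C s) ^ y₁ * (X - C (-s)) ^ y₂ →
      M.charpoly = (X - C s) ^ g₁ * (X - C (-s)) ^ g₂ *
        (H67.dualPoly (H3.conjQ hF) ((X - C s) ^ g₁ * (X - C (-s)) ^ g₂) *
          ((X - C s) ^ y₁ * (X - C (-s)) ^ y₂)) →
      ∃ W : Submodule F (Fin n → F), finrank F W = m ∧ (∀ u ∈ W, ∀ v ∈ W, Cfsg.hermForm n F q u v = 0) ∧
        W.map (Matrix.toLin' M) ≤ W := by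
    intro g₁ g₂ y₁ y₂ hg hy hyd hc
    have hmon : ∀ u v : ℕ, ((X - C s) ^ u * (X - C (-s)) ^ v).Monic := fun u v =>
      ((monic_X_sub_C s).pow u).mul ((monic_X_sub_C (-s)).pow v)
    have hnd : ∀ u v : ℕ, ((X - C s) ^ u * (X - C (-s)) ^ v).natDegree = u + v := fun u v => by
      rw [((monic_X_sub_C s).pow _).natDegree_mul ((monic_X_sub_C (-s)).pow _), natDegree_pow, natDegree_pow,
        natDegree_X_sub_C, natDegree_X_sub_C, mul_one, mul_one]
    have hc0 : ∀ u v : ℕ, ((X - C s) ^ u * (X - C (-s)) ^ v).coeff 0 ≠ 0 := fun u v => by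
      rw [coeff_zero_eq_eval_zero]
      simp [hs0]
    obtain ⟨g, hgc, hgo⟩ := H66.exists_gl_charpoly_eq p (hmon g₁ g₂) ((hnd g₁ g₂).trans hg) (hc0 _ _)
    obtain ⟨y, hyc, hyo⟩ := exists_gu_charpoly hF p (hmon y₁ y₂) ((hnd y₁ y₂).trans hy) (hc0 _ _) hyd
    exact exists_isotropic_of_charpoly hF p (show 2 * m + (n - 2 * m) = n by omega) hxo hgo hyo
      (by rw [hgc, hyc]; exact hc)
  rcases hnorm with h | h
  · have hinv : (s ^ q)⁻¹ = s := inv_eq_of_mul_eq_one_right (by rw [← pow_succ, h])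
    have hd1 : H67.dualPoly (H3.conjQ hF) (X - C s) = X - C s := by rw [hdual1 s hs0, hinv]
    have hd2 : H67.dualPoly (H3.conjQ hF) (X - C (-s)) = X - C (-s) := by
      rw [hdual1 _ (neg_ne_zero.2 hs0), Odd.neg_pow ⟨t, ht⟩, inv_neg, hinv]
    have hparity : 2 * m < n ∨ (Even e₁ ∧ Even e₂) := by
      refine hcond.imp id fun hv => ?_
      have hd : (-1 : F) ^ e₂ * s ^ n = 1 := by
        refine Eq.trans ?_ hdet
        rw [det_eq_charpoly_eval, ha]
        simp only [eval_mul, eval_pow, eval_sub, eval_X, eval_C, zero_sub, neg_neg]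
        rw [neg_pow s e₁, ← hdeg, pow_add, pow_add]
        have h1 : ((-1 : F) ^ e₁) * (-1) ^ e₁ = 1 := by rw [← mul_pow]; simp
        linear_combination -((-1 : F) ^ e₂ * s ^ e₁ * s ^ e₂) * h1
      set α := padicValNat 2 (q + 1)
      obtain ⟨u, hu⟩ : 2 ^ α ∣ q + 1 := pow_padicValNat_dvd
      obtain ⟨v, hv'⟩ : 2 ^ α ∣ n := (pow_dvd_pow 2 hv).trans pow_padicValNat_dvd
      have huodd : Odd u := by
        rw [← Nat.not_even_iff_odd]
        rintro ⟨u', rfl⟩
        exact pow_succ_padicValNat_not_dvd (p := 2) (n := q + 1) (by omega)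
          ⟨u', by rw [show padicValNat 2 (q + 1) = α from rfl, pow_succ, hu]; ring⟩
      have h3 : s ^ (n * u) = 1 := by
        rw [show n * u = (q + 1) * v by rw [hu, hv']; ring, pow_mul, h, one_pow]
      have h4 := congrArg (· ^ u) hd
      simp only [mul_pow, ← pow_mul, h3, mul_one, one_pow] at h4
      have h5 : Even (e₂ * u) := by
        by_contra h6
        rw [(Nat.not_even_iff_odd.1 h6).neg_one_pow] at h4
        exact h2 (by linear_combination -h4)
      have he2 : Even e₂ := (Nat.even_mul.1 h5).resolve_right (Nat.not_even_iff_odd.2 huodd)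
      have hne : Even n := by
        rw [hv']
        have hα : α ≠ 0 := fun h0 => by
          rw [h0, pow_zero, one_mul] at hu
          rw [← hu] at huodd
          obtain ⟨w, hw⟩ := huodd
          omega
        exact (Nat.even_pow.2 ⟨even_two, hα⟩).mul_right v
      exact ⟨(Nat.even_add.1 (hdeg ▸ hne)).2 he2, he2⟩
    have hj : ∃ j, j ≤ m ∧ 2 * j ≤ e₁ ∧ 2 * (m - j) ≤ e₂ := by
      refine ⟨min m (e₁ / 2), min_le_left _ _, by omega, ?_⟩
      rcases hparity with h1 | ⟨⟨u, hu⟩, ⟨v, hv⟩⟩ <;> omega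
    obtain ⟨j, hjm, hj1, hj2⟩ := hj
    refine finish j (m - j) (e₁ - 2 * j) (e₂ - 2 * (m - j)) (by omega) (by omega) ?_ ?_
    · rw [H67.dualPoly_mul, H67.dualPoly_pow, H67.dualPoly_pow, hd1, hd2]
    · rw [H67.dualPoly_mul, H67.dualPoly_pow, H67.dualPoly_pow, hd1, hd2, ha]
      obtain ⟨r₁, hr₁⟩ : ∃ r₁, e₁ = j + (j + r₁) := ⟨e₁ - 2 * j, by omega⟩
      obtain ⟨r₂, hr₂⟩ : ∃ r₂, e₂ = (m - j) + ((m - j) + r₂) := ⟨e₂ - 2 * (m - j), by omega⟩
      rw [show e₁ - 2 * j = r₁ by omega, show e₂ - 2 * (m - j) = r₂ by omega, hr₁, hr₂]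
      simp only [pow_add]
      ring
  · have hinv : (s ^ q)⁻¹ = -s := inv_eq_of_mul_eq_one_right (by rw [mul_neg, ← pow_succ, h, neg_neg])
    have hd1 : H67.dualPoly (H3.conjQ hF) (X - C s) = X - C (-s) := by rw [hdual1 s hs0, hinv]
    have hd2 : H67.dualPoly (H3.conjQ hF) (X - C (-s)) = X - C s := by
      rw [hdual1 _ (neg_ne_zero.2 hs0), Odd.neg_pow ⟨t, ht⟩, inv_neg, hinv, neg_neg]
    have heq : e₁ = e₂ := by
      have hself : H67.dualPoly (H3.conjQ hF) M.charpoly = M.charpoly :=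
        H66.dualPoly_charpoly_of_mem_GU hF x.2
      rw [ha, H67.dualPoly_mul, H67.dualPoly_pow, H67.dualPoly_pow, hd1, hd2] at hself
      have hco : IsCoprime (X - C s) (X - C (-s)) := isCoprime_X_sub_C_of_isUnit_sub (by
        rw [sub_neg_eq_add, ← two_mul]; exact (mul_ne_zero h2 hs0).isUnit)
      have key : ∀ u v : ℕ, (X - C (-s)) ^ u * (X - C s) ^ v = (X - C s) ^ u * (X - C (-s)) ^ v → u ≤ v := by
        intro u v huv
        have h1 : (X - C s) ^ u ∣ (X - C (-s)) ^ u * (X - C s) ^ v := huv ▸ dvd_mul_right _ _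
        have h2 := natDegree_le_of_dvd ((hco.pow (m := u) (n := u)).dvd_of_dvd_mul_left h1)
          (pow_ne_zero _ (X_sub_C_ne_zero s))
        rwa [natDegree_pow, natDegree_pow, natDegree_X_sub_C, mul_one, mul_one] at h2
      exact le_antisymm (key _ _ hself) (key _ _ (by rw [mul_comm, ← hself]; ring))
    refine finish m 0 (e₁ - m) (e₂ - m) (by omega) (by omega) ?_ ?_
    · rw [H67.dualPoly_mul, H67.dualPoly_pow, H67.dualPoly_pow, hd1, hd2, heq, mul_comm]
    · rw [pow_zero, mul_one, H67.dualPoly_pow, hd1, ha, heq, ← mul_assoc, mul_mul_mul_comm, ← pow_add,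
        ← pow_add]
      congr 2 <;> omega

variable {r : ℕ} [Fact r.Prime]

/-- Unitary elements whose `r`-th power is a scalar without `r`-th root. -/
theorem exists_isotropic_nonpower (hF : Fintype.card F = q ^ 2) (hne : r ≠ p) (hr2 : r ≠ 2)
    {n m : ℕ} (hn : 1 ≤ n) (hmn : 2 * m ≤ n)
    (hcond : r ∣ m ∨ padicValNat r n ≤ padicValNat r (q + 1)) (x : Cfsg.GU n F q)
    (hdet : ((x : GL (Fin n) F) : Matrix (Fin n) (Fin n) F).det = 1) {z : F}
    (hz : ((x ^ r : Cfsg.GU n F q) : GL (Fin n) F).1 = z • 1) (hnp : ∀ u : F, u ^ r ≠ z) :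
    ∃ W : Submodule F (Fin n → F), finrank F W = m ∧ (∀ u ∈ W, ∀ v ∈ W, Cfsg.hermForm n F q u v = 0) ∧
      W.map (Matrix.toLin' ((x : GL (Fin n) F) : Matrix (Fin n) (Fin n) F)) ≤ W := by
  classical
  have hrp : r.Prime := Fact.out
  set M : Matrix (Fin n) (Fin n) F := ((x : GL (Fin n) F) : Matrix (Fin n) (Fin n) F)
  have hz1 := norm_of_scalar hF hn (x ^ r) hz
  have hMM : M ^ r = z • 1 := by rw [← hz, SubgroupClass.coe_pow, Units.val_pow_eq_pow_val]
  have hz0 : z ≠ 0 := fun h => by rw [h, zero_pow (by omega)] at hz1; exact zero_ne_one hz1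
  set P : F[X] := X ^ r - C z with hP
  have hPi : Irreducible P := X_pow_sub_C_irreducible_of_prime hrp hnp
  have hPm : P.Monic := monic_X_pow_sub_C z hrp.ne_zero
  have hannih : aeval M P = 0 := by
    simp [hP, hMM, Algebra.algebraMap_eq_smul_one]
  obtain ⟨a, ha⟩ := exists_eq_prod_pow M.charpoly_monic (fun _ : Unit => P) (fun _ _ _ => rfl)
    (fun Q hQm hQ hQd => ⟨(), eq_of_monic_of_associated hQm hPm
      (hQ.associated_of_dvd hPi (dvd_of_dvd_charpoly_of_aeval hannih hQ hQd))⟩)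
  rw [Fintype.prod_unique] at ha
  set k := a default
  have hdeg : r * k = n := by
    have h := M.charpoly_natDegree_eq_dim
    rw [ha, natDegree_pow, natDegree_X_pow_sub_C, Fintype.card_fin] at h
    rw [mul_comm]; exact h
  have hk0 : 0 < k := Nat.pos_of_ne_zero fun h => by rw [h, mul_zero] at hdeg; omega
  have hzk : z ^ k = 1 := by
    rw [← hdet, det_eq_charpoly_eval, ha, eval_pow, eval_sub, eval_pow, eval_X, eval_C,
      zero_pow hrp.ne_zero, zero_sub, neg_pow z k, ← mul_assoc, ← pow_add, ← hdeg]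
    obtain ⟨t, ht⟩ := hrp.odd_of_ne_two hr2
    rw [Even.neg_one_pow ⟨(t + 1) * k, by rw [ht]; ring⟩, one_mul]
  have hrm : r ∣ m := by
    refine hcond.resolve_right fun hv => ?_
    set g := Nat.gcd k (q + 1)
    have hzg : z ^ g = 1 := pow_gcd_eq_one.2 ⟨hzk, hz1⟩
    obtain ⟨u, hu⟩ : g ∣ q + 1 := Nat.gcd_dvd_right _ _
    by_cases hru : r ∣ u
    · obtain ⟨u', rfl⟩ := hru
      obtain ⟨w, hw⟩ := exists_pow_eq_of_pow_eq_one (r := r) (t := g * u' * (q - 1))
        (by rw [card_sub_one_factor hF, hu]; ring) hz0 (by rw [mul_assoc, pow_mul, hzg, one_pow])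
      exact hnp w hw
    · have h1 : r ^ padicValNat r (q + 1) ∣ g * u := hu ▸ pow_padicValNat_dvd
      have h2 : r ^ padicValNat r (q + 1) ∣ g :=
        ((hrp.coprime_iff_not_dvd.2 hru).pow_left _).dvd_of_dvd_mul_right h1
      have h3 : r ^ (padicValNat r (q + 1) + 1) ∣ n := by
        rw [pow_succ, mul_comm, ← hdeg]
        exact mul_dvd_mul_left r (h2.trans (Nat.gcd_dvd_left _ _))
      have h4 := (padicValNat_dvd_iff_le (by omega : n ≠ 0)).1 h3
      omega
  obtain ⟨j, hj⟩ := hrm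
  have hjk : 2 * j ≤ k := Nat.le_of_mul_le_mul_left (by rw [hdeg, mul_left_comm, ← hj]; exact hmn) hrp.pos
  have hdual : H67.dualPoly (H3.conjQ hF) P = P := by
    rw [hP, dualPoly_X_pow_sub_C _ hrp.pos hz0, H3.conjQ_apply]
    rw [inv_eq_of_mul_eq_one_right (show z ^ q * z = 1 by rw [← pow_succ, hz1])]
  have hnd : ∀ t : ℕ, (P ^ t).natDegree = r * t := fun t => by
    rw [natDegree_pow, natDegree_X_pow_sub_C, mul_comm]
  have hc0 : ∀ t : ℕ, (P ^ t).coeff 0 ≠ 0 := fun t => by
    rw [coeff_zero_eq_eval_zero]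
    simp [hP, zero_pow hrp.ne_zero, hz0]
  have hxo : (orderOf x).Coprime p := by
    refine Nat.Coprime.coprime_dvd_left (orderOf_dvd_of_pow_eq_one (x := x) (n := r * (q + 1)) ?_) ?_
    · refine Subtype.ext (Units.ext ?_)
      rw [SubgroupClass.coe_pow, Units.val_pow_eq_pow_val, pow_mul, hMM, _root_.smul_pow, one_pow, hz1, one_smul]
      rfl
    · refine Nat.Coprime.mul_left ((Nat.coprime_primes hrp Fact.out).2 hne) ?_
      obtain ⟨e, he, -⟩ := exists_conjQ_pow hF p
      refine ((Fact.out : p.Prime).coprime_iff_not_dvd.2 fun hd => ?_).symm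
      have he0 : e ≠ 0 := by rintro rfl; have := H3.two_le_q hF; rw [pow_zero] at he; omega
      exact (Fact.out : p.Prime).not_dvd_one ((Nat.dvd_add_right (he ▸ dvd_pow_self p he0)).1 hd)
  obtain ⟨g, hgc, hgo⟩ := H66.exists_gl_charpoly_eq p (hPm.pow j) ((hnd j).trans hj.symm) (hc0 j)
  obtain ⟨y, hyc, hyo⟩ := exists_gu_charpoly (k := n - 2 * m) hF p (hPm.pow (k - 2 * j))
    ((hnd _).trans (by rw [Nat.mul_sub, hdeg, mul_left_comm, hj])) (hc0 _) (by rw [H67.dualPoly_pow, hdual])
  refine exists_isotropic_of_charpoly hF p (show 2 * m + (n - 2 * m) = n by omega) hxo hgo hyo ?_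
  rw [hgc, hyc, H67.dualPoly_pow, hdual, ← pow_add, ← pow_add, show (M : Matrix _ _ F).charpoly = _ from ha]
  congr 1
  omega

/-- An element of determinant one fixing no totally isotropic subspace of dimension prime to `r`. -/
theorem exists_nonpower_no_isotropic (hF : Fintype.card F = q ^ 2) (p : ℕ) [Fact p.Prime] [CharP F p] (hr2 : r ≠ 2)
    (hrq : r ∣ q + 1) {n m : ℕ} (hn : 1 ≤ n) (hrm : ¬ r ∣ m)
    (hv : padicValNat r (q + 1) < padicValNat r n) :
    ∃ (x : Cfsg.GU n F q) (z : F), ((x : GL (Fin n) F) : Matrix (Fin n) (Fin n) F).det = 1 ∧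
      ((x ^ r : Cfsg.GU n F q) : GL (Fin n) F).1 = z • 1 ∧ (∀ u : F, u ^ r ≠ z) ∧
      ∀ W : Submodule F (Fin n → F), finrank F W = m →
        ¬ W.map (Matrix.toLin' ((x : GL (Fin n) F) : Matrix (Fin n) (Fin n) F)) ≤ W := by
  classical
  have hrp : r.Prime := Fact.out
  set α := padicValNat r (q + 1)
  have hdvd : r ^ α ∣ q + 1 := pow_padicValNat_dvd
  obtain ⟨z, hz⟩ := exists_orderOf_field (F := F) (N := r ^ α)
    (by rw [card_sub_one_factor hF]; exact dvd_mul_of_dvd_left hdvd _)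
  have hα : α ≠ 0 := fun h => by
    have := (padicValNat_dvd_iff_le (p := r) (n := 1) (by omega : q + 1 ≠ 0)).1 (by rw [pow_one]; exact hrq)
    omega
  have hz1 : z ^ (q + 1) = 1 := orderOf_dvd_iff_pow_eq_one.1 (hz ▸ hdvd)
  have hz0 : z ≠ 0 := fun h => by rw [h, zero_pow (by omega)] at hz1; exact zero_ne_one hz1
  have hrq' : ¬ r ∣ q - 1 := fun h => by
    have := H3.two_le_q hF
    have h2 := Nat.dvd_sub hrq h
    rw [show q + 1 - (q - 1) = 2 by omega] at h2
    exact hr2 ((Nat.prime_dvd_prime_iff_eq hrp Nat.prime_two).1 h2)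
  have hnp : ∀ u : F, u ^ r ≠ z := fun u hu => by
    have hu0 : u ≠ 0 := fun h => by rw [h, zero_pow hrp.ne_zero] at hu; exact hz0 hu.symm
    have hord : orderOf u = r ^ (α + 1) := by
      refine orderOf_eq_prime_pow (fun h => ?_) ?_
      · rw [← Nat.sub_add_cancel (Nat.one_le_iff_ne_zero.2 hα), pow_succ', pow_mul, hu] at h
        have h1 := orderOf_dvd_of_pow_eq_one h
        rw [hz] at h1
        have := (Nat.pow_dvd_pow_iff_le_right hrp.one_lt).1 h1
        omega
      · rw [pow_succ', pow_mul, hu, ← hz, pow_orderOf_eq_one]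
    have h1 : r ^ (α + 1) ∣ (q + 1) * (q - 1) := by
      rw [← card_sub_one_factor hF, ← hord]
      exact orderOf_dvd_of_pow_eq_one (FiniteField.pow_card_sub_one_eq_one u hu0)
    exact pow_succ_padicValNat_not_dvd (p := r) (n := q + 1) (by omega)
      (((hrp.coprime_iff_not_dvd.2 hrq').pow_left _).dvd_of_dvd_mul_right h1)
  obtain ⟨k, hk⟩ : r ^ (α + 1) ∣ n := (padicValNat_dvd_iff_le (by omega : n ≠ 0)).2 hv
  set P : F[X] := X ^ r - C z with hP
  have hPm : P.Monic := monic_X_pow_sub_C z hrp.ne_zero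
  have hdual : H67.dualPoly (H3.conjQ hF) P = P := by
    rw [hP, dualPoly_X_pow_sub_C _ hrp.pos hz0, H3.conjQ_apply]
    rw [inv_eq_of_mul_eq_one_right (show z ^ q * z = 1 by rw [← pow_succ, hz1])]
  obtain ⟨x, hxc, hxo⟩ := exists_gu_charpoly (k := n) hF p (hPm.pow (r ^ α * k))
    (by rw [natDegree_pow, natDegree_X_pow_sub_C, hk, pow_succ]; ring)
    (by rw [coeff_zero_eq_eval_zero]; simp [hP, zero_pow hrp.ne_zero, hz0])
    (by rw [H67.dualPoly_pow, hdual])
  set M : Matrix (Fin n) (Fin n) F := ((x : GL (Fin n) F) : Matrix (Fin n) (Fin n) F)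
  have hMr : M ^ r = z • 1 := by
    obtain ⟨s, hs, hs0⟩ := H66.exists_squarefree_aeval_toLin' p
      (show M ^ orderOf x = 1 by
        rw [← Units.val_pow_eq_pow_val, ← SubgroupClass.coe_pow, pow_orderOf_eq_one]; rfl) hxo
    have hsM : aeval M s = 0 := by
      have h := hs0
      rw [H66.aeval_toLin'] at h
      exact Matrix.toLin'.injective (h.trans (map_zero _).symm)
    have h1 : minpoly F M ∣ P := by
      refine (Squarefree.squarefree_of_dvd (minpoly.dvd F M hsM) hs).isRadical (r ^ α * k) _ ?_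
      exact minpoly.dvd F M (by rw [← hxc]; exact Matrix.aeval_self_charpoly M)
    obtain ⟨w, hw⟩ := h1
    have h2 : aeval M P = 0 := by rw [hw, map_mul, minpoly.aeval, zero_mul]
    simp only [hP, map_sub, map_pow, aeval_X, aeval_C, Algebra.algebraMap_eq_smul_one, sub_eq_zero] at h2
    exact h2
  refine ⟨x, z, ?_, ?_, hnp, fun W hWd hW => ?_⟩
  · rw [det_eq_charpoly_eval, hxc, eval_pow]
    simp only [hP, eval_sub, eval_pow, eval_X, eval_C, zero_pow hrp.ne_zero, zero_sub]
    rw [neg_pow z (r ^ α * k), ← mul_assoc, ← pow_add, pow_mul z, ← hz, pow_orderOf_eq_one, one_pow, mul_one]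
    obtain ⟨t, ht⟩ := hrp.odd_of_ne_two hr2
    refine Even.neg_one_pow ⟨(t + 1) * (r ^ α * k), ?_⟩
    rw [hk, hz, pow_succ, ht]; ring
  · rw [SubgroupClass.coe_pow, Units.val_pow_eq_pow_val, hMr]
  · let f := (Matrix.toLin' M).restrict (p := W) (q := W) fun v hv => hW ⟨v, hv, rfl⟩
    have hf : f ^ r = z • (LinearMap.id : End F W) := by
      refine LinearMap.ext fun v => Subtype.ext ?_
      rw [Module.End.pow_restrict r, LinearMap.coe_restrict_apply, ← Matrix.toLin'_pow, hMr]
      simp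
    have hd := congrArg LinearMap.det hf
    rw [map_pow, LinearMap.det_smul, LinearMap.det_id, mul_one, hWd] at hd
    obtain ⟨a, ha⟩ := Nat.exists_mul_mod_eq_one_of_coprime ((hrp.coprime_iff_not_dvd.2 hrm).symm) hrp.one_lt
    have hdiv := Nat.div_add_mod (m * a) r
    rw [ha.2] at hdiv
    refine hnp (LinearMap.det f ^ a / z ^ (m * a / r)) ?_
    rw [div_pow, ← pow_mul, mul_comm a r, pow_mul, hd, ← pow_mul, ← pow_mul,
      div_eq_iff (pow_ne_zero _ hz0), ← pow_succ', mul_comm (m * a / r) r, hdiv]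

end finite

end Cfsg.Agent.H97
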