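import Cfsg.Prelude.Def_GeometricClasses
import Cfsg.Agent.H97.OrthBasic
import Cfsg.Agent.H2.Basis

set_option autoImplicit false

/-!
# Involutions of quadratic spaces in characteristic two; shears
-/

namespace Cfsg.Agent.H97

open Module Matrix

variable {F : Type*} [Field F]

/-- If the fixed space of an involution is totally singular, half the dimension is even. -/
theorem even_of_fixed_singular [CharP F 2] {V : Type*} [AddCommGroup V] [Module F V]
    [FiniteDimensional F V] (Q : QuadraticForm F V) (hQ : (QuadraticMap.polarBilin Q).Nondegenerate)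
    {d : ℕ} (hV : finrank F V = 2 * d) (T : Module.End F V) (hT : T * T = 1)
    (hTQ : ∀ v, Q (T v) = Q v) (hK : ∀ v ∈ LinearMap.ker (T - 1), Q v = 0) : Even d := by
  classical
  set N := T - 1 with hN
  have h1 := finrank_fixed_of_involution T hT
  have h2 := H4.two_mul_finrank_le hQ hK
  rw [← hN] at h1
  have hk : finrank F ↥(LinearMap.ker N) = d := by omega
  have hTT : ∀ v, T (T v) = v := fun v => LinearMap.congr_fun hT v
  have hdbl : ∀ u : V, u + u = 0 := fun u => by
    rw [← two_smul F u, CharTwo.two_eq_zero, zero_smul]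
  have hNN : ∀ v, N v ∈ LinearMap.ker N := fun v => by
    rw [LinearMap.mem_ker, hN]
    simp only [LinearMap.sub_apply, Module.End.one_apply, map_sub, hTT]
    rw [show v - T v - (T v - v) = (v + v) - (T v + T v) by abel, hdbl, hdbl, sub_self]
  let B : LinearMap.BilinForm F V := (QuadraticMap.polarBilin Q).comp N
  have hB : ∀ u v, B u v = QuadraticMap.polar Q (N u) v := fun u v => rfl
  have halt : B.IsAlt := fun u => by
    have hQN : Q (N u) = 0 := hK _ (hNN u)
    have h3 : QuadraticMap.polar Q (N u) u = Q (N u + u) - Q (N u) - Q u := rfl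
    rw [hB, h3, hQN, hN]
    simp [hTQ]
  obtain ⟨C, hC⟩ := (LinearMap.ker N).exists_isCompl
  have hker : ∀ u, (∀ v ∈ C, B u v = 0) → u ∈ LinearMap.ker N := by
    intro u hu
    rw [LinearMap.mem_ker]
    refine hQ.1 _ fun v => ?_
    obtain ⟨k, hk', c, hc, rfl⟩ : ∃ k ∈ LinearMap.ker N, ∃ c ∈ C, k + c = v :=
      Submodule.mem_sup.1 (hC.sup_eq_top ▸ Submodule.mem_top)
    show B u (k + c) = 0
    rw [map_add, hu c hc, add_zero, ← halt.neg_eq k u, neg_eq_zero]
    show QuadraticMap.polarBilin Q (N k) u = 0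
    rw [LinearMap.mem_ker.1 hk', map_zero, LinearMap.zero_apply]
  have hnd : (B.compl₁₂ C.subtype C.subtype).Nondegenerate := by
    have hl : ∀ u : C, (∀ v : C, B u v = 0) → u = 0 := fun u hu => Subtype.ext
      (Submodule.disjoint_def.1 hC.disjoint u (hker u fun v hv => hu ⟨v, hv⟩) u.2)
    exact ⟨fun u hu => hl u hu, fun u hu => hl u fun v => by
      rw [← halt.neg_eq (v : V) (u : V), neg_eq_zero]
      exact hu v⟩
  obtain ⟨m, -, hm, -⟩ := H2.exists_equiv_std _ hnd (fun u => halt (u : V))
  have := Submodule.finrank_add_eq_of_isCompl hC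
  exact ⟨m, by omega⟩

variable {n : ℕ}

/-- The shear with upper right block `A`, as a matrix unit. -/
def shearU (A : Matrix (Fin n) (Fin n) F) : GL (Fin n ⊕ Fin n) F where
  val := fromBlocks 1 A 0 1
  inv := fromBlocks 1 (-A) 0 1
  val_inv := by simp [fromBlocks_multiply, fromBlocks_one]
  inv_val := by simp [fromBlocks_multiply, fromBlocks_one]

theorem shearU_mul (A B : Matrix (Fin n) (Fin n) F) : shearU A * shearU B = shearU (A + B) := by
  refine Units.ext ?_
  simp [shearU, fromBlocks_multiply, add_comm]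

theorem shearU_zero : shearU (0 : Matrix (Fin n) (Fin n) F) = 1 :=
  Units.ext (by simp [shearU, fromBlocks_one])

theorem shearU_mulVec (A : Matrix (Fin n) (Fin n) F) (v : Fin n ⊕ Fin n → F) :
    (shearU A : Matrix (Fin n ⊕ Fin n) (Fin n ⊕ Fin n) F) *ᵥ v =
      Sum.elim (v ∘ Sum.inl + A *ᵥ (v ∘ Sum.inr)) (v ∘ Sum.inr) := by
  conv_lhs => rw [← Sum.elim_comp_inl_inr v]
  rw [show (shearU A : Matrix (Fin n ⊕ Fin n) (Fin n ⊕ Fin n) F) = fromBlocks 1 A 0 1 from rfl,
    fromBlocks_mulVec]
  simp

/-- A shear along an alternate matrix preserves the plus form. -/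
theorem shearU_mem (A : Matrix (Fin n) (Fin n) F) (hA : ∀ v, v ⬝ᵥ A *ᵥ v = 0) :
    shearU A ∈ Cfsg.isometryGroup F (Cfsg.quadFormPlus n F) := by
  intro u _
  show Cfsg.quadFormPlus n F ((shearU A : Matrix _ _ F) *ᵥ u) = _
  rw [shearU_mulVec]
  simp only [Cfsg.quadFormPlus, Sum.elim_inl, Sum.elim_inr, Pi.add_apply, Function.comp_apply,
    add_mul, Finset.sum_add_distrib]
  have := hA (u ∘ Sum.inr)
  rw [dotProduct_comm] at this
  simp only [dotProduct, Function.comp_apply] at this
  rw [this, add_zero]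

/-- The elementary alternate matrix. -/
def altE (i j : Fin n) : Matrix (Fin n) (Fin n) F := single i j 1 - single j i 1

theorem altE_alt (i j : Fin n) (v : Fin n → F) : v ⬝ᵥ (altE i j : Matrix _ _ F) *ᵥ v = 0 := by
  simp [altE, sub_mulVec, single_mulVec, Function.update_apply, dotProduct, mul_sub, mul_ite,
    Finset.sum_sub_distrib, mul_comm]

theorem shearU_altE_mem_omega {i j k : Fin n} (hij : i ≠ j) (hik : i ≠ k) (hjk : j ≠ k) :
    shearU (altE i j : Matrix (Fin n) (Fin n) F) ∈
      Cfsg.Geo.omegaGL (Cfsg.quadFormPlus n F) := by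
  let g : GL (Fin n ⊕ Fin n) F :=
    { val := fromBlocks (1 + single i k 1) 0 0 (1 - single k i 1)
      inv := fromBlocks (1 - single i k 1) 0 0 (1 + single k i 1)
      val_inv := by
        simp [fromBlocks_multiply, mul_add, mul_sub, add_mul, sub_mul, hik, hik.symm,
          fromBlocks_one]
      inv_val := by
        simp [fromBlocks_multiply, mul_add, mul_sub, add_mul, sub_mul, hik, hik.symm,
          fromBlocks_one] }
  have hg : g ∈ Cfsg.isometryGroup F (Cfsg.quadFormPlus n F) := by
    intro u _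
    show Cfsg.quadFormPlus n F
      ((fromBlocks (1 + single i k 1) 0 0 (1 - single k i 1) : Matrix _ _ F) *ᵥ u) = _
    conv_lhs => rw [← Sum.elim_comp_inl_inr u, fromBlocks_mulVec]
    simp [Cfsg.quadFormPlus, add_mulVec, sub_mulVec, single_mulVec, Function.update_apply,
      add_mul, mul_sub, Finset.sum_add_distrib, Finset.sum_sub_distrib, ite_mul, mul_ite, hik,
      hik.symm]
  have hB : shearU (altE k j : Matrix (Fin n) (Fin n) F) ∈
      Cfsg.isometryGroup F (Cfsg.quadFormPlus n F) := shearU_mem _ (altE_alt k j)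
  let G := ↥(Cfsg.isometryGroup F (Cfsg.quadFormPlus n F))
  have hmem : (⟨g, hg⟩ : G) * ⟨_, hB⟩ * (⟨g, hg⟩ : G)⁻¹ * (⟨_, hB⟩ : G)⁻¹ ∈ commutator G := by
    have := Subgroup.commutator_mem_commutator (Subgroup.mem_top (⟨g, hg⟩ : G))
      (Subgroup.mem_top (⟨_, hB⟩ : G))
    rw [commutatorElement_def] at this
    simpa [commutator_def] using this
  refine ⟨_, hmem, ?_⟩
  show g * shearU (altE k j) * g⁻¹ * (shearU (altE k j))⁻¹ = _
  rw [mul_inv_eq_iff_eq_mul, mul_inv_eq_iff_eq_mul, shearU_mul]
  refine Units.ext ?_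
  simp [g, shearU, altE, fromBlocks_multiply, mul_add, mul_sub, add_mul, sub_mul, hij, hij.symm,
    hik, hik.symm, hjk, hjk.symm]
  abel

/-- Shears along sums of elementary alternate matrices lie in Ω. -/
theorem shearU_sum_mem_omega (hn : 3 ≤ n) {ι : Type*} (s : Finset ι) (f g : ι → Fin n)
    (hfg : ∀ x ∈ s, f x ≠ g x) :
    shearU (∑ x ∈ s, (altE (f x) (g x) : Matrix (Fin n) (Fin n) F)) ∈
      Cfsg.Geo.omegaGL (Cfsg.quadFormPlus n F) := by
  classical
  induction s using Finset.induction_on with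
  | empty => rw [Finset.sum_empty, shearU_zero]; exact one_mem _
  | insert x s hx ih =>
    rw [Finset.sum_insert hx, ← shearU_mul]
    refine mul_mem ?_ (ih fun y hy => hfg y (Finset.mem_insert_of_mem hy))
    obtain ⟨k, -, hk⟩ : ∃ k, k ∈ (Finset.univ : Finset (Fin n)) ∧ k ∉ ({f x, g x} : Finset (Fin n)) :=
      Finset.exists_mem_notMem_of_card_lt_card (lt_of_le_of_lt Finset.card_le_two (by simp; omega))
    simp only [Finset.mem_insert, Finset.mem_singleton, not_or] at hk
    exact shearU_altE_mem_omega (hfg x (Finset.mem_insert_self _ _)) (Ne.symm hk.1) (Ne.symm hk.2)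

/-- The standard invertible alternate matrix in even dimension. -/
def altStd (k : ℕ) : Matrix (Fin (k + k)) (Fin (k + k)) F :=
  ∑ s : Fin k, altE (Fin.castAdd k s) (Fin.natAdd k s)

theorem altStd_injective (k : ℕ) (v : Fin (k + k) → F) (h : (altStd k : Matrix _ _ F) *ᵥ v = 0) :
    v = 0 := by
  funext x
  have hne : ∀ s x : Fin k, Fin.natAdd k s ≠ Fin.castAdd k x := fun s x => by
    simp [Fin.ext_iff]; omega
  have hne' : ∀ s x : Fin k, Fin.castAdd k x ≠ Fin.natAdd k s := fun s x => (hne s x).symm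
  have hne2 : ∀ s x : Fin k, s.addNat k ≠ Fin.castAdd k x := fun s x => by
    simp [Fin.ext_iff]; omega
  have hne2' : ∀ s x : Fin k, Fin.castAdd k x ≠ s.addNat k := fun s x => (hne2 s x).symm
  have hinj : ∀ s x : Fin k, Fin.natAdd k s = Fin.natAdd k x ↔ s = x := fun s x => by
    simp [Fin.ext_iff]
  have hinj' : ∀ s x : Fin k, Fin.castAdd k s = Fin.castAdd k x ↔ s = x := fun s x => by
    simp [Fin.ext_iff]
  refine Fin.addCases (fun s => ?_) (fun s => ?_) x
  · have := congrFun h (Fin.natAdd k s)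
    simpa [altStd, altE, sum_mulVec, sub_mulVec, single_mulVec, Function.update_apply,
      Finset.sum_sub_distrib, hne, hne', hne2, hne2', hinj, hinj'] using this
  · have := congrFun h (Fin.castAdd k s)
    simpa [altStd, altE, sum_mulVec, sub_mulVec, single_mulVec, Function.update_apply,
      Finset.sum_sub_distrib, hne, hne', hne2, hne2', hinj, hinj'] using this

theorem altStd_alt (k : ℕ) (v : Fin (k + k) → F) : v ⬝ᵥ (altStd k : Matrix _ _ F) *ᵥ v = 0 := by
  rw [altStd, sum_mulVec, dotProduct_sum]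
  exact Finset.sum_eq_zero fun s _ => altE_alt _ _ v

end Cfsg.Agent.H97
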