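import Mathlib
import Cfsg.Agent.H97.OrthInvolution
import Cfsg.Agent.H67.OrthTypes

set_option autoImplicit false

/-!
# Quadratic forms fixed by an involution with a given polar form, in characteristic two
-/

namespace Cfsg.Agent.H97

open Module QuadraticMap

variable {F : Type*} [Field F] [Fintype F] [CharP F 2] {V : Type*} [AddCommGroup V] [Module F V]

omit [Fintype F] in
theorem add_self_eq_zero' (u : F) : u + u = 0 := CharTwo.add_self_eq_zero u

/-- A semilinear additive map is the square of a linear functional. -/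
theorem exists_sqrt_functional (D : V → F) (hadd : ∀ u v, D (u + v) = D u + D v)
    (hsmul : ∀ (c : F) v, D (c • v) = c ^ 2 * D v) : ∃ φ : Dual F V, ∀ v, φ v ^ 2 = D v := by
  let s : F ≃+* F := frobeniusEquiv F 2
  have hs : ∀ x : F, s.symm x ^ 2 = x := fun x => by
    have h := s.apply_symm_apply x
    rwa [frobeniusEquiv_apply, frobenius_def] at h
  have hs' : ∀ x : F, s.symm (x ^ 2) = x := fun x => by
    have h := s.symm_apply_apply x
    rwa [frobeniusEquiv_apply, frobenius_def] at h
  exact ⟨{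
    toFun := fun v => s.symm (D v)
    map_add' := fun u v => by rw [hadd, map_add]
    map_smul' := fun c v => by rw [hsmul, map_mul, hs', RingHom.id_apply, smul_eq_mul] },
    fun v => hs _⟩

variable (Q : QuadraticForm F V)

omit [Fintype F] [CharP F 2] in
/-- Adding the square of a functional. -/
theorem add_sq_apply (φ : Dual F V) (v : V) :
    (Q + linMulLin φ φ) v = Q v + φ v ^ 2 := by
  rw [QuadraticMap.add_apply, linMulLin_apply, pow_two]

omit [Fintype F] in
theorem polarBilin_add_sq (φ : Dual F V) :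
    polarBilin (Q + linMulLin φ φ) = polarBilin Q := by
  refine LinearMap.ext₂ fun u v => ?_
  show polar (⇑(Q + linMulLin φ φ)) u v = polar Q u v
  simp only [polar, add_sq_apply, map_add]
  linear_combination (φ u * φ v) * (CharTwo.two_eq_zero : (2 : F) = 0)

omit [Fintype F] in
theorem polar_self_eq_zero (v : V) : polar Q v v = 0 := by
  rw [polar_self, two_nsmul, add_self_eq_zero']

omit [Fintype F] [CharP F 2] in
/-- Vectors represent functionals. -/
theorem exists_rep [FiniteDimensional F V] (hQ : (polarBilin Q).Nondegenerate) (φ : Dual F V) :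
    ∃ a : V, ∀ v, polar Q a v = φ v := by
  obtain ⟨a, ha⟩ := (LinearMap.BilinForm.toDual (polarBilin Q) hQ).surjective φ
  exact ⟨a, fun v => by rw [← ha]; rfl⟩

omit [Fintype F] [CharP F 2] in
/-- A Lagrangian avoiding a totally isotropic subspace. -/
theorem exists_lagrangian_disjoint [FiniteDimensional F V] {B : LinearMap.BilinForm F V}
    (hB : B.Nondegenerate) (hA : B.IsAlt) {d : ℕ} (hV : finrank F V = 2 * d) (R : Submodule F V)
    (hR : ∀ x ∈ R, ∀ y ∈ R, B x y = 0) :
    ∃ L : Submodule F V, finrank F L = d ∧ (∀ x ∈ L, ∀ y ∈ L, B x y = 0) ∧ L ⊓ R = ⊥ := by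
  let S := {n : ℕ | ∃ L : Submodule F V, (∀ x ∈ L, ∀ y ∈ L, B x y = 0) ∧ L ⊓ R = ⊥ ∧
    finrank F L = n}
  have hne : S.Nonempty := ⟨0, ⊥, by simp, bot_inf_eq _, finrank_bot F V⟩
  have hbdd : BddAbove S := ⟨finrank F V, fun n ⟨L, _, _, hn⟩ => hn ▸ L.finrank_le⟩
  obtain ⟨L, hL, hLR, hn⟩ := Nat.sSup_mem hne hbdd
  refine ⟨L, ?_, hL, hLR⟩
  have hle : L ≤ B.orthogonal L := fun x hx y hy => hL y hy x hx
  have horth : finrank F (B.orthogonal L) = 2 * d - finrank F L := by
    rw [LinearMap.BilinForm.finrank_orthogonal hB L, hV]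
  have hup := Submodule.finrank_mono hle
  by_contra hcon
  have hlt : finrank F L < d := by omega
  have hsub : ¬ B.orthogonal L ≤ L ⊔ R := by
    intro h
    have hiso : ∀ a ∈ B.orthogonal L, ∀ b ∈ B.orthogonal L, B a b = 0 := by
      intro a ha b hb
      obtain ⟨u, hu, s, hs, rfl⟩ := Submodule.mem_sup.1 (h ha)
      obtain ⟨v, hv, t, ht, rfl⟩ := Submodule.mem_sup.1 (h hb)
      have h1 : B u (v + t) = 0 := hb u hu
      have h2 : B v (u + s) = 0 := ha v hv
      rw [map_add, hL v hv u hu, zero_add] at h2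
      rw [map_add B, LinearMap.add_apply, h1, zero_add, map_add, hR s hs t ht, add_zero,
        ← hA.neg_eq v s, h2, neg_zero]
    have hle' : B.orthogonal L ≤ B.orthogonal (B.orthogonal L) := fun x hx y hy => hiso y hy x hx
    have := Submodule.finrank_mono hle'
    rw [horth, LinearMap.BilinForm.finrank_orthogonal hB, horth, hV] at this
    omega
  obtain ⟨x, hx, hxn⟩ := Set.not_subset.1 hsub
  have hx' : x ∉ L := fun h => hxn (Submodule.mem_sup_left h)
  have hiso : ∀ a ∈ L ⊔ Submodule.span F {x}, ∀ b ∈ L ⊔ Submodule.span F {x}, B a b = 0 := by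
    intro a ha b hb
    obtain ⟨u, hu, _, hs, rfl⟩ := Submodule.mem_sup.1 ha
    obtain ⟨s, rfl⟩ := Submodule.mem_span_singleton.1 hs
    obtain ⟨v, hv, _, ht, rfl⟩ := Submodule.mem_sup.1 hb
    obtain ⟨t, rfl⟩ := Submodule.mem_span_singleton.1 ht
    have hux : B u x = 0 := hx u hu
    have hxv : B x v = 0 := hA.isRefl _ _ (hx v hv)
    simp [hL u hu v hv, hux, hxv, hA x]
  have hdis : (L ⊔ Submodule.span F {x}) ⊓ R = ⊥ := by
    rw [Submodule.eq_bot_iff]
    rintro z ⟨hz, hzR⟩
    obtain ⟨u, hu, _, hs, rfl⟩ := Submodule.mem_sup.1 hz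
    obtain ⟨s, rfl⟩ := Submodule.mem_span_singleton.1 hs
    by_cases hs0 : s = 0
    · subst hs0
      rw [zero_smul, add_zero] at hzR ⊢
      exact (Submodule.eq_bot_iff _).1 hLR u ⟨hu, hzR⟩
    · exact absurd (by
        have := Submodule.smul_mem _ s⁻¹ (sub_mem (Submodule.mem_sup_right (S := L) hzR)
          (Submodule.mem_sup_left (T := R) hu))
        rwa [add_sub_cancel_left, smul_smul, inv_mul_cancel₀ hs0, one_smul] at this) hxn
  have := le_csSup hbdd ⟨_, hiso, hdis, rfl⟩
  have hlt' : finrank F L < finrank F (L ⊔ Submodule.span F {x} : Submodule F V) :=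
    Submodule.finrank_lt_finrank_of_lt (lt_of_le_of_ne le_sup_left fun h =>
      hx' (h.symm ▸ Submodule.mem_sup_right (Submodule.mem_span_singleton_self x)))
  omega

/-- An involution fixing the polar form fixes some plus form with that polar form. -/
theorem exists_invariant_plus [FiniteDimensional F V] (hQ : (polarBilin Q).Nondegenerate) {d : ℕ}
    (hV : finrank F V = 2 * d) (T : Module.End F V) (hT : T * T = 1)
    (hTB : ∀ u v, polar Q (T u) (T v) = polar Q u v) :
    ∃ Q' : QuadraticForm F V, polarBilin Q' = polarBilin Q ∧ (∀ v, Q' (T v) = Q' v) ∧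
      H67.HasSing Q' d := by
  have hTT : ∀ v, T (T v) = v := fun v => LinearMap.congr_fun hT v
  have hadj : ∀ u v, polar Q u (T v) = polar Q (T u) v := fun u v => by
    rw [← hTB, hTT]
  set N := T - 1 with hN
  have hNv : ∀ v, N v = T v - v := fun v => rfl
  set B : LinearMap.BilinForm F V := polarBilin Q with hBdef
  have hBapp : ∀ u v, B u v = polar Q u v := fun _ _ => rfl
  have halt : B.IsAlt := fun v => polar_self_eq_zero Q v
  have hNadj : ∀ u v, B (N u) v = B u (N v) := fun u v => by
    rw [hNv, hNv, map_sub, map_sub, LinearMap.sub_apply, hBapp, hBapp, hBapp, hadj]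
  have hperp : B.orthogonal (LinearMap.ker N) = LinearMap.range N := by
    refine (Submodule.eq_of_le_of_finrank_eq ?_ ?_).symm
    · rintro _ ⟨u, rfl⟩ k hk
      show B k (N u) = 0
      rw [← hNadj, LinearMap.mem_ker.1 hk, map_zero, LinearMap.zero_apply]
    · rw [LinearMap.BilinForm.finrank_orthogonal hQ]
      have := LinearMap.finrank_range_add_finrank_ker N
      omega
  -- an invariant form
  obtain ⟨φ, hφ⟩ := exists_sqrt_functional (V := V) (fun v => Q (T v) + Q v)
    (fun u v => by
      have h1 : Q (T u + T v) = Q (T u) + Q (T v) + polar Q (T u) (T v) := QuadraticMap.map_add Q _ _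
      have h2 : Q (u + v) = Q u + Q v + polar Q u v := QuadraticMap.map_add Q _ _
      rw [map_add T, h1, h2, hTB]
      linear_combination add_self_eq_zero' (polar Q u v))
    (fun c v => by rw [map_smul, QuadraticMap.map_smul, QuadraticMap.map_smul, smul_eq_mul,
      smul_eq_mul]; ring)
  obtain ⟨b, hb⟩ := exists_rep Q hQ φ
  obtain ⟨a, ha⟩ : b ∈ LinearMap.range N := by
    rw [← hperp]
    intro k hk
    show B k b = 0
    rw [← halt.neg_eq b k, hBapp, hb, neg_eq_zero]
    have hk' : T k = k := sub_eq_zero.1 (LinearMap.mem_ker.1 hk)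
    have h2 := hφ k
    rw [hk', add_self_eq_zero'] at h2
    exact pow_eq_zero_iff two_ne_zero |>.1 h2
  set ψ : Dual F V := B a with hψ
  set Q1 := Q + linMulLin ψ ψ with hQ1
  have hQ1T : ∀ v, Q1 (T v) = Q1 v := by
    intro v
    rw [hQ1, add_sq_apply, add_sq_apply, hψ]
    have h1 : φ v = B a (T v) + B a v := by
      rw [← hb, ← ha, ← hBapp, hNadj, hNv, map_sub]
      linear_combination (-1 : F) * add_self_eq_zero' (B a v)
    have h2 := hφ v
    rw [h1] at h2
    linear_combination (B a (T v) * B a v + B a (T v) ^ 2 - Q v) *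
      (CharTwo.two_eq_zero : (2 : F) = 0) - h2
  -- a Lagrangian off the range
  obtain ⟨L, hLd, hL, hLR⟩ := exists_lagrangian_disjoint hQ halt hV (LinearMap.range N) (by
    rw [← hperp]
    intro x hx y hy
    refine hy x ?_
    rw [hperp] at hx
    obtain ⟨u, rfl⟩ := hx
    rw [LinearMap.mem_ker, hNv, hNv, map_sub, hTT]
    have h2 : ∀ w : V, w + w = 0 := fun w => by
      rw [← two_smul F w, CharTwo.two_eq_zero, zero_smul]
    rw [show u - T u - (T u - u) = (u + u) - (T u + T u) by abel, h2, h2, sub_self])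
  have hpol1 : polarBilin Q1 = B := polarBilin_add_sq Q ψ
  obtain ⟨χ, hχ⟩ := exists_sqrt_functional (V := ↥L) (fun v => Q1 v)
    (fun u v => by
      show Q1 ((u : V) + v) = _
      have : polar Q1 (u : V) v = 0 := by
        rw [← polarBilin_apply_apply, hpol1]; exact hL _ u.2 _ v.2
      rw [QuadraticMap.map_add Q1, this, add_zero])
    (fun c v => by
      show Q1 (c • (v : V)) = _
      rw [QuadraticMap.map_smul, smul_eq_mul]; ring)
  obtain ⟨g, hg⟩ := LinearMap.exists_leftInverse_of_injective
    ((LinearMap.range N).mkQ ∘ₗ L.subtype) (by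
      rw [Submodule.eq_bot_iff]
      intro x hx
      rw [LinearMap.mem_ker, LinearMap.comp_apply, Submodule.mkQ_apply,
        Submodule.Quotient.mk_eq_zero] at hx
      exact Subtype.ext ((Submodule.eq_bot_iff _).1 hLR _ ⟨x.2, hx⟩))
  set η : Dual F V := χ ∘ₗ g ∘ₗ (LinearMap.range N).mkQ with hη
  refine ⟨Q1 + linMulLin η η, by rw [polarBilin_add_sq, hpol1], fun v => ?_, L, fun x hx => ?_, hLd⟩
  · have : η (N v) = 0 := by
      rw [hη, LinearMap.comp_apply, LinearMap.comp_apply, Submodule.mkQ_apply,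
        (Submodule.Quotient.mk_eq_zero _).2 (LinearMap.mem_range_self N v), map_zero, map_zero]
    rw [hNv, map_sub, sub_eq_zero] at this
    rw [add_sq_apply Q1 η, add_sq_apply Q1 η, hQ1T, this]
  · have : η x = χ ⟨x, hx⟩ := by
      rw [hη]
      exact congrArg χ (LinearMap.congr_fun hg ⟨x, hx⟩)
    rw [add_sq_apply Q1 η, this, hχ, add_self_eq_zero']

/-- An involution fixing a plus form fixes a minus form with the same polar form, in twice odd
dimension. -/
theorem exists_invariant_minus [FiniteDimensional F V] (hQ : (polarBilin Q).Nondegenerate) {d : ℕ}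
    (hd : Odd d) (hV : finrank F V = 2 * d) (T : Module.End F V) (hT : T * T = 1)
    (hTQ : ∀ v, Q (T v) = Q v) :
    ∃ Q' : QuadraticForm F V, polarBilin Q' = polarBilin Q ∧ (∀ v, Q' (T v) = Q' v) ∧
      ¬ H67.HasSing Q' d := by
  classical
  by_cases hs : H67.HasSing Q d
  swap
  · exact ⟨Q, rfl, hTQ, hs⟩
  obtain ⟨k0, hk0, hc⟩ : ∃ v ∈ LinearMap.ker (T - 1), Q v ≠ 0 := by
    by_contra h
    push Not at h
    exact Nat.not_even_iff_odd.2 hd (even_of_fixed_singular Q hQ hV T hT hTQ h)
  set c := Q k0 with hcdef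
  have hTk : T k0 = k0 := sub_eq_zero.1 (LinearMap.mem_ker.1 hk0)
  have hk0ne : k0 ≠ 0 := fun h => hc (by rw [hcdef, h, map_zero])
  obtain ⟨w0, hw0⟩ : ∃ w, polar Q k0 w ≠ 0 := by
    by_contra h
    push Not at h
    exact hk0ne (hQ.1 k0 h)
  set w := (polar Q k0 w0)⁻¹ • w0
  have hkw : polar Q k0 w = 1 := by
    rw [polar_smul_right, smul_eq_mul, inv_mul_cancel₀ hw0]
  set B : LinearMap.BilinForm F V := polarBilin Q with hBdef
  let U : Submodule F V := LinearMap.ker (B k0) ⊓ LinearMap.ker (B w)
  have hU : ∀ u : U, polar Q k0 u = 0 ∧ polar Q w u = 0 := fun u =>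
    ⟨LinearMap.mem_ker.1 u.2.1, LinearMap.mem_ker.1 u.2.2⟩
  have hsymm : ∀ u v, polar Q u v = polar Q v u := fun u v => polar_comm _ u v
  let e : ((Fin 2 → F) × U) ≃ₗ[F] V :=
    { toFun := fun x => x.1 0 • k0 + x.1 1 • w + x.2
      map_add' := fun x y => by
        simp only [Prod.fst_add, Prod.snd_add, Pi.add_apply, add_smul, Submodule.coe_add]; abel
      map_smul' := fun t x => by
        simp [smul_add, smul_smul]
      invFun := fun v => (![polar Q w v, polar Q k0 v],
        ⟨v - polar Q w v • k0 - polar Q k0 v • w, by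
          refine Submodule.mem_inf.2 ⟨?_, ?_⟩ <;> rw [LinearMap.mem_ker] <;>
            simp [B, map_sub, polar_self_eq_zero Q, hkw, hsymm w k0]⟩)
      left_inv := fun x => by
        obtain ⟨h1, h2⟩ := hU x.2
        have e1 : polar Q w (x.1 0 • k0 + x.1 1 • w + x.2) = x.1 0 := by
          simp [polar_add_right, polar_smul_right, polar_self_eq_zero Q, hsymm w k0, hkw, h2]
        have e2 : polar Q k0 (x.1 0 • k0 + x.1 1 • w + x.2) = x.1 1 := by
          simp [polar_add_right, polar_smul_right, polar_self_eq_zero Q, hkw, h1]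
        refine Prod.ext (funext fun i => ?_) (Subtype.ext ?_)
        · fin_cases i
          · exact e1
          · exact e2
        · show x.1 0 • k0 + x.1 1 • w + x.2 - _ • k0 - _ • w = (x.2 : V)
          rw [e1, e2]; abel
      right_inv := fun v => by
        show (polar Q w v) • k0 + (polar Q k0 v) • w + (v - polar Q w v • k0 - polar Q k0 v • w) = v
        abel }
  let QU : QuadraticForm F U := Q.comp U.subtype
  let plane : F → QuadraticForm F (Fin 2 → F) := fun f =>
    (c • linMulLin (LinearMap.proj 0) (LinearMap.proj 0) + linMulLin (LinearMap.proj 0) (LinearMap.proj 1))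
      + f • linMulLin (LinearMap.proj 1) (LinearMap.proj 1)
  have hplane : ∀ f x, plane f x = c * x 0 ^ 2 + x 0 * x 1 + f * x 1 ^ 2 := fun f x => by
    simp [plane]; ring
  have hppol : ∀ f x y, polar (plane f) x y = x 0 * y 1 + x 1 * y 0 := fun f x y => by
    simp only [polar, hplane, Pi.add_apply]
    linear_combination (c * x 0 * y 0 + f * x 1 * y 1) * (CharTwo.two_eq_zero : (2 : F) = 0)
  have hpnd : ∀ f, (polarBilin (plane f)).Nondegenerate := fun f => by
    have : ∀ x, (∀ y, polar (plane f) x y = 0) → x = 0 := fun x hx => by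
      have h1 := hx (Pi.single 0 1)
      have h2 := hx (Pi.single 1 1)
      rw [hppol] at h1 h2
      funext i
      fin_cases i
      · simpa using h2
      · simpa using h1
    exact ⟨fun x hx => this x hx, fun y hy => this y fun x => (polar_comm _ _ _).trans (hy x)⟩
  have hUdim : finrank F U = 2 * (d - 1) := by
    have := e.finrank_eq
    rw [finrank_prod, finrank_fintype_fun_eq_card, Fintype.card_fin, hV] at this
    omega
  have hUnd : (polarBilin QU).Nondegenerate := by
    have hl : ∀ u : U, (∀ v : U, polar Q (u : V) v = 0) → u = 0 := fun u hu => Subtype.ext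
      (hQ.1 _ fun v => by
        obtain ⟨x, rfl⟩ := e.surjective v
        show polar Q (u : V) (x.1 0 • k0 + x.1 1 • w + x.2) = 0
        rw [polar_add_right, polar_add_right, polar_smul_right, polar_smul_right, hu,
          hsymm _ k0, hsymm _ w, (hU u).1, (hU u).2]
        simp)
    have hpQU : ∀ u v : U, polar QU u v = polar Q (u : V) v := fun u v => by
      simp [polar, QU]
    exact ⟨fun u hu => hl u fun v => (hpQU u v).symm.trans (hu v),
      fun v hv => hl v fun u => (hsymm _ _).trans ((hpQU u v).symm.trans (hv u))⟩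
  -- the forms obtained by moving along k0
  have hval : ∀ f : F, ∃ Q' : QuadraticForm F V, polarBilin Q' = B ∧ (∀ v, Q' (T v) = Q' v) ∧
      ∀ x, Q' (e x) = ((plane f).prod QU) x := by
    intro f
    obtain ⟨t, ht⟩ : ∃ t : F, t ^ 2 = f + Q w := ⟨(frobeniusEquiv F 2).symm (f + Q w), by
      have h := (frobeniusEquiv F 2).apply_symm_apply (f + Q w)
      rwa [frobeniusEquiv_apply, frobenius_def] at h⟩
    refine ⟨Q + linMulLin (t • B k0) (t • B k0), polarBilin_add_sq Q _, fun v => ?_, fun x => ?_⟩
    · have h : polar Q k0 (T v) = polar Q k0 v := by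
        conv_lhs => rw [← hTk]
        simp only [polar, ← map_add T, hTQ]
      rw [add_sq_apply, add_sq_apply, hTQ]
      show Q v + (t • polar Q k0 (T v)) ^ 2 = Q v + (t • polar Q k0 v) ^ 2
      rw [h]
    · obtain ⟨h1, h2⟩ := hU x.2
      show (Q + linMulLin (t • B k0) (t • B k0)) (x.1 0 • k0 + x.1 1 • w + x.2) = _
      rw [add_sq_apply, QuadraticMap.prod_apply, hplane]
      show Q (x.1 0 • k0 + x.1 1 • w + x.2) + (t • polar Q k0 (x.1 0 • k0 + x.1 1 • w + x.2)) ^ 2 =
        _ + Q (x.2 : V)
      rw [QuadraticMap.map_add Q, QuadraticMap.map_add Q, QuadraticMap.map_smul, QuadraticMap.map_smul]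
      simp only [polar_add_right, polar_add_left, polar_smul_right, polar_smul_left,
        polar_self_eq_zero Q, hkw, h1, h2, smul_eq_mul, ← hcdef]
      linear_combination (x.1 1 ^ 2) * ht + (x.1 1 ^ 2) * add_self_eq_zero' (Q w)
  have finish : ∀ f, ¬ H67.HasSing ((plane f).prod QU) d → ∃ Q' : QuadraticForm F V,
      polarBilin Q' = B ∧ (∀ v, Q' (T v) = Q' v) ∧ ¬ H67.HasSing Q' d := fun f hf => by
    obtain ⟨Q', h1, h2, h3⟩ := hval f
    exact ⟨Q', h1, h2, fun h => hf (h.of_isom e.symm fun v => by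
      rw [← h3, e.apply_symm_apply])⟩
  have hd1 : 1 ≤ d := hd.pos
  have hp2 : finrank F (Fin 2 → F) = 2 * 1 := by simp
  have hcomm : ∀ f, H67.HasSing ((plane f).prod QU) d → H67.HasSing (QU.prod (plane f)) d :=
    fun f h => h.of_isom (LinearEquiv.prodComm F _ _) fun v => by
      rw [QuadraticMap.prod_apply, QuadraticMap.prod_apply]; exact add_comm _ _
  by_cases hUs : H67.HasSing QU (d - 1)
  · -- an anisotropic plane
    obtain ⟨ζ, hζ⟩ : ∃ ζ : F, ∀ s : F, s ^ 2 + s + ζ ≠ 0 := by
      have hni : ¬ Function.Injective (fun s : F => s ^ 2 + s) := fun h => one_ne_zero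
        (h (a₁ := (1 : F)) (a₂ := 0) (by simp [add_self_eq_zero']))
      obtain ⟨ζ, hζ⟩ := not_forall.1 (Finite.injective_iff_surjective.not.1 hni)
      exact ⟨ζ, fun s hs => hζ ⟨s, by
        linear_combination hs - add_self_eq_zero' ζ⟩⟩
    refine finish (ζ / c) fun h => ?_
    have h' : H67.HasSing ((plane (ζ / c)).prod QU) (1 + (d - 1)) := by
      rwa [Nat.add_sub_cancel' hd1]
    obtain ⟨W, hW, hW1⟩ := H67.hasSing_of_prod (hpnd _) hUnd hp2 hUdim hUs h'
    obtain ⟨x, hxW, hx0⟩ := W.exists_mem_ne_zero_of_ne_bot (fun hb => by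
      rw [hb, finrank_bot] at hW1; omega)
    have hx := hW x hxW
    rw [hplane] at hx
    by_cases h1 : x 1 = 0
    · refine hx0 (funext fun i => ?_)
      have : x 0 = 0 := by simpa [h1, hc] using hx
      fin_cases i <;> assumption
    · refine hζ (c * x 0 / x 1) ?_
      field_simp at hx ⊢
      linear_combination hx
  · refine finish 0 fun h => hUs ?_
    have h' : H67.HasSing (QU.prod (plane 0)) (d - 1 + 1) := by
      rw [Nat.sub_add_cancel hd1]; exact hcomm _ h
    refine H67.hasSing_of_prod hUnd (hpnd _) hUdim hp2 ⟨F ∙ (Pi.single 1 1 : Fin 2 → F), ?_, ?_⟩ h'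
    · intro x hx
      obtain ⟨s, rfl⟩ := Submodule.mem_span_singleton.1 hx
      simp [hplane]
    · exact finrank_span_singleton (fun h => by simpa using congrFun h 1)

end Cfsg.Agent.H97
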