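import Cfsg.Agent.H97.SympElusive
import Cfsg.Agent.H67.OrderClasses
import Cfsg.Agent.H67.SpOrderCount

set_option autoImplicit false

/-!
# Multiplicities of isometries of prime order on totally isotropic invariant subspaces
-/

namespace Cfsg.Agent.H97

open Module Polynomial

variable {F : Type*} [Field F] [Fintype F]

/-- The vectors left orthogonal to `W`. -/
def perpOf {V : Type*} [AddCommGroup V] [Module F V] {σ : F →+* F} (B : V →ₗ[F] V →ₛₗ[σ] F) (W : Submodule F V) :
    Submodule F V where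
  carrier := {v | ∀ w ∈ W, B v w = 0}
  add_mem' ha hb w hw := by rw [map_add, LinearMap.add_apply, ha w hw, hb w hw, add_zero]
  zero_mem' w _ := by rw [map_zero, LinearMap.zero_apply]
  smul_mem' c a ha w hw := by rw [map_smul, LinearMap.smul_apply, ha w hw, smul_zero]

variable {V : Type*} [AddCommGroup V] [Module F V] [FiniteDimensional F V]

omit [Fintype F] in
/-- The characteristic polynomial on a direct sum of invariant subspaces. -/
theorem charpoly_sup (T : End F V) {A B C : Submodule F V} (hd : Disjoint A B) (hs : A ⊔ B = C)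
    (hA : ∀ v ∈ A, T v ∈ A) (hB : ∀ v ∈ B, T v ∈ B) (hC : ∀ v ∈ C, T v ∈ C) :
    (T.restrict hC).charpoly = (T.restrict hA).charpoly * (T.restrict hB).charpoly := by
  subst hs
  let f : (A × B) →ₗ[F] ↥(A ⊔ B) :=
    (A.subtype.coprod B.subtype).codRestrict (A ⊔ B) fun z => Submodule.add_mem_sup z.1.2 z.2.2
  have hf : ∀ z : A × B, (f z : V) = (z.1 : V) + z.2 := fun _ => rfl
  have hbij : Function.Bijective f := by
    refine ⟨(injective_iff_map_eq_zero _).2 fun z hz => ?_, fun v => ?_⟩
    · have h : (z.1 : V) + z.2 = 0 := by rw [← hf, hz, Submodule.coe_zero]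
      have h1 : (z.1 : V) = 0 := Submodule.disjoint_def.1 hd _ z.1.2 (by
        rw [eq_neg_of_add_eq_zero_left h]; exact B.neg_mem z.2.2)
      rw [h1, zero_add] at h
      exact Prod.ext (Subtype.ext h1) (Subtype.ext h)
    · obtain ⟨a, ha, b, hb, hab⟩ := Submodule.mem_sup.1 v.2
      exact ⟨(⟨a, ha⟩, ⟨b, hb⟩), Subtype.ext hab⟩
  let e := LinearEquiv.ofBijective f hbij
  have h : e.conj ((T.restrict hA).prodMap (T.restrict hB)) = T.restrict hC := by
    refine LinearMap.ext fun v => ?_
    obtain ⟨z, rfl⟩ := e.surjective v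
    rw [LinearEquiv.conj_apply_apply, e.symm_apply_apply]
    refine Subtype.ext ?_
    rw [LinearMap.coe_restrict_apply]
    show T (z.1 : V) + T (z.2 : V) = T ((z.1 : V) + z.2)
    rw [map_add]
  rw [← h, LinearEquiv.charpoly_conj, LinearMap.charpoly_prodMap]

omit [Fintype F] in
/-- The characteristic polynomial on the whole space. -/
theorem charpoly_restrict_top (T : End F V) :
    (T.restrict (p := (⊤ : Submodule F V)) (q := ⊤) fun _ _ => Submodule.mem_top).charpoly = T.charpoly := by
  rw [← LinearEquiv.charpoly_conj Submodule.topEquiv.symm T]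
  rfl

omit [Fintype F] [FiniteDimensional F V] in
/-- Restrictions of operators of order dividing `r`. -/
theorem restrict_pow_eq_one {r : ℕ} {T : End F V} (hT : T ^ r = 1) {A : Submodule F V} (hA : ∀ v ∈ A, T v ∈ A) :
    (T.restrict hA) ^ r = 1 := by
  rw [Module.End.pow_restrict r]
  exact LinearMap.ext fun v => Subtype.ext (by simp [hT])

variable {r : ℕ} [Fact r.Prime]

/-- Multiplicities of the factors of the `r`-th cyclotomic polynomial. -/
noncomputable def multEnd (r : ℕ) (T : End F V) : H67.CycFac r F → ℕ := H67.multOf T.charpoly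

/-- The characteristic polynomial through the multiplicities. -/
theorem charpoly_eq_polyOf_mult (hr : (r : F) ≠ 0) {T : End F V} (hT : T ^ r = 1) :
    T.charpoly = H67.polyOf (finrank F V) (multEnd r T) ∧
      orderOf (Nat.card F : ZMod r) * ∑ P, multEnd r T P ≤ finrank F V := by
  classical
  let b := Module.finBasis F V
  have hA : (LinearMap.toMatrix b b T) ^ r = 1 := by
    show (LinearMap.toMatrixAlgEquiv b T) ^ r = 1
    rw [← map_pow, hT, map_one]
  have h := H67.charpoly_eq_polyOf hr (Fact.out : r.Prime) hA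
  rw [LinearMap.charpoly_toMatrix, Fintype.card_fin, ← Nat.card_eq_fintype_card] at h
  exact h

/-- Products of multiplicity polynomials. -/
theorem polyOf_mul {N₁ N₂ : ℕ} {a₁ a₂ : H67.CycFac r F → ℕ}
    (h₁ : orderOf (Nat.card F : ZMod r) * ∑ P, a₁ P ≤ N₁) (h₂ : orderOf (Nat.card F : ZMod r) * ∑ P, a₂ P ≤ N₂) :
    H67.polyOf N₁ a₁ * H67.polyOf N₂ a₂ = H67.polyOf (N₁ + N₂) (a₁ + a₂) := by
  rw [Nat.card_eq_fintype_card] at h₁ h₂
  simp only [H67.polyOf, Pi.add_apply, pow_add, Finset.prod_mul_distrib, Finset.sum_add_distrib, mul_add]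
  rw [show N₁ + N₂ - (orderOf (Fintype.card F : ZMod r) * ∑ P, a₁ P + orderOf (Fintype.card F : ZMod r) * ∑ P, a₂ P) =
    (N₁ - orderOf (Fintype.card F : ZMod r) * ∑ P, a₁ P) + (N₂ - orderOf (Fintype.card F : ZMod r) * ∑ P, a₂ P) by omega,
    pow_add]
  ring

/-- Fixed-point-free operators have no factor `X - 1`. -/
theorem mult_full_of_fpf (hr : (r : F) ≠ 0) {T : End F V} (hT : T ^ r = 1) (hfix : ∀ v, T v = v → v = 0) :
    orderOf (Nat.card F : ZMod r) * ∑ P, multEnd r T P = finrank F V := by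
  obtain ⟨h, hle⟩ := charpoly_eq_polyOf_mult hr hT
  refine le_antisymm hle (le_of_not_gt fun hlt => ?_)
  have hroot : T.charpoly.IsRoot 1 := by
    rw [h, IsRoot, H67.polyOf, eval_mul, eval_pow, eval_sub, eval_X, eval_C, sub_self,
      zero_pow (by rw [← Nat.card_eq_fintype_card]; omega), zero_mul]
  obtain ⟨v, hv⟩ := ((Module.End.hasEigenvalue_iff_isRoot_charpoly T 1).2 hroot).exists_hasEigenvector
  exact hv.2 (hfix v (by rw [hv.apply_eq_smul, one_smul]))

/-- The dimension of the fixed space. -/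
theorem finrank_fixed_add_mult (hr : (r : F) ≠ 0) {T : End F V} (hT : T ^ r = 1) :
    finrank F (fixedSpace T) + orderOf (Nat.card F : ZMod r) * ∑ P, multEnd r T P = finrank F V := by
  classical
  have hc := isCompl_fixed_moved hr T hT
  have hF : ∀ v ∈ fixedSpace T, T v ∈ fixedSpace T := fun v hv => fixedSpace_inv T ⟨v, hv, rfl⟩
  have hM : ∀ v ∈ movedSpace T, T v ∈ movedSpace T := fun v hv => movedSpace_inv T ⟨v, hv, rfl⟩
  have hTF := restrict_pow_eq_one hT hF
  have hTM := restrict_pow_eq_one hT hM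
  have hone : T.restrict hF = 1 := LinearMap.ext fun v => Subtype.ext (mem_fixedSpace.1 v.2)
  obtain ⟨hcF, hleF⟩ := charpoly_eq_polyOf_mult hr hTF
  obtain ⟨hcM, hleM⟩ := charpoly_eq_polyOf_mult hr hTM
  have hF0 : multEnd r (T.restrict hF) = 0 := by
    have h : (T.restrict hF).charpoly = H67.polyOf (finrank F (fixedSpace T)) (0 : H67.CycFac r F → ℕ) := by
      rw [hone, LinearMap.charpoly_one, H67.polyOf]; simp
    rw [multEnd, h, H67.multOf_polyOf hr (Fact.out : r.Prime)]
  have hfull := mult_full_of_fpf hr hTM fun v hv => Subtype.ext (Submodule.disjoint_def.1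
    (disjoint_fixed_moved hr T hT) _ (mem_fixedSpace.2 (congrArg Subtype.val hv)) v.2)
  have h := charpoly_sup T hc.disjoint hc.sup_eq_top hF hM (fun _ _ => Submodule.mem_top)
  rw [charpoly_restrict_top, hcF, hcM, polyOf_mul hleF hleM] at h
  have hm : multEnd r T = multEnd r (T.restrict hF) + multEnd r (T.restrict hM) := by
    show H67.multOf _ = _
    rw [h, H67.multOf_polyOf hr (Fact.out : r.Prime)]
  rw [hm, hF0, zero_add, hfull, Submodule.finrank_add_eq_of_isCompl hc]

variable {p k : ℕ} [Fact p.Prime] [CharP F p] {σ : F →+* F}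

/-- Two subspaces in perfect pairing carry contragredient operators. -/
theorem charpoly_dual_of_pairing (hσσ : ∀ x, σ (σ x) = x) {B : V →ₗ[F] V →ₛₗ[σ] F} {T : End F V}
    (hTB : ∀ u v, B (T u) (T v) = B u v) {W W' : Submodule F V} (hW : ∀ v ∈ W, T v ∈ W) (hW' : ∀ v ∈ W', T v ∈ W')
    (h1 : ∀ u ∈ W', (∀ w ∈ W, B u w = 0) → u = 0) (h2 : ∀ w ∈ W, (∀ u ∈ W', B u w = 0) → w = 0) :
    finrank F W' = finrank F W ∧ (T.restrict hW').charpoly = H67.dualPoly σ (T.restrict hW).charpoly := by
  classical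
  let b := Module.finBasis F W
  let b' := Module.finBasis F W'
  let G : Matrix (Fin (finrank F W')) (Fin (finrank F W)) F := Matrix.of fun a c => B (b' a : V) (b c : V)
  have hBsum : ∀ (g : Fin (finrank F W') → F) (c : Fin (finrank F W)),
      B ((∑ a, g a • b' a : W') : V) (b c : V) = ∑ a, g a * G a c := fun g c => by
    simp [G, map_sum, LinearMap.sum_apply]
  have hBsum' : ∀ (g : Fin (finrank F W) → F) (a : Fin (finrank F W')),
      B (b' a : V) ((∑ c, g c • b c : W) : V) = ∑ c, σ (g c) * G a c := fun g a => by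
    simp [G, map_sum, LinearMap.map_smulₛₗ]
  have hG1 : Function.Injective (Matrix.vecMulLinear G) := by
    rw [injective_iff_map_eq_zero]
    intro g hg
    have hz : (∑ a, g a • b' a : W') = 0 := Subtype.ext (h1 _ (∑ a, g a • b' a : W').2 fun w hw => by
      obtain ⟨z, hz⟩ : ∃ z : W, (z : V) = w := ⟨⟨w, hw⟩, rfl⟩
      subst hz
      rw [← b.sum_repr z]
      simp only [Submodule.coe_sum, Submodule.coe_smul, map_sum, LinearMap.map_smulₛₗ, LinearMap.sum_apply,
        map_smul, LinearMap.smul_apply]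
      refine Finset.sum_eq_zero fun c _ => ?_
      have : ∑ a, g a * G a c = 0 := congrFun hg c
      simp only [smul_eq_mul]
      rw [show ∑ a, g a * B (b' a : V) (b c : V) = 0 from this, mul_zero])
    exact funext fun a => Fintype.linearIndependent_iff.1 b'.linearIndependent g hz a
  have hG2 : Function.Injective (Matrix.mulVecLin G) := by
    rw [injective_iff_map_eq_zero]
    intro g hg
    have hz : (∑ c, σ (g c) • b c : W) = 0 := Subtype.ext (h2 _ (∑ c, σ (g c) • b c : W).2 fun u hu => by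
      obtain ⟨z, hz⟩ : ∃ z : W', (z : V) = u := ⟨⟨u, hu⟩, rfl⟩
      subst hz
      rw [← b'.sum_repr z]
      simp only [Submodule.coe_sum, Submodule.coe_smul, map_sum, LinearMap.map_smulₛₗ, LinearMap.sum_apply,
        map_smul, LinearMap.smul_apply, smul_eq_mul, hσσ]
      simp only [Finset.mul_sum]
      rw [Finset.sum_comm]
      refine Finset.sum_eq_zero fun a _ => ?_
      have h : ∑ c, G a c * g c = 0 := congrFun hg a
      calc _ = b'.repr z a * ∑ c, G a c * g c := by
            rw [Finset.mul_sum]; exact Finset.sum_congr rfl fun c _ => by simp [G]; ring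
        _ = 0 := by rw [h, mul_zero])
    exact funext fun c => σ.injective (by
      rw [Pi.zero_apply, map_zero]; exact Fintype.linearIndependent_iff.1 b.linearIndependent (fun c => σ (g c)) hz c)
  have hdim : finrank F W' = finrank F W := by
    have e1 := LinearMap.finrank_le_finrank_of_injective hG1
    have e2 := LinearMap.finrank_le_finrank_of_injective hG2
    simp only [finrank_fintype_fun_eq_card, Fintype.card_fin] at e1 e2
    omega
  refine ⟨hdim, ?_⟩
  set M := LinearMap.toMatrix b b (T.restrict hW) with hM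
  set M' := LinearMap.toMatrix b' b' (T.restrict hW') with hM'
  let e : Fin (finrank F W) ≃ Fin (finrank F W') := finCongr hdim.symm
  have hrel : M'.transpose * G * M.map σ = G := by
    ext a c
    have h := hTB (b' a : V) (b c : V)
    have h3 : (T (b' a : V)) = ((∑ x, M' x a • b' x : W') : V) := by
      rw [show (∑ x, M' x a • b' x : W') = T.restrict hW' (b' a) by
        simp only [hM', LinearMap.toMatrix_apply]; exact b'.sum_repr _]
      rfl
    have h4 : (T (b c : V)) = ((∑ y, M y c • b y : W) : V) := by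
      rw [show (∑ y, M y c • b y : W) = T.restrict hW (b c) by
        simp only [hM, LinearMap.toMatrix_apply]; exact b.sum_repr _]
      rfl
    rw [h3, h4] at h
    rw [show G a c = B (b' a : V) (b c : V) from rfl, ← h, Matrix.mul_apply]
    simp only [Submodule.coe_sum, Submodule.coe_smul, map_sum, LinearMap.sum_apply, LinearMap.map_smulₛₗ,
      map_smul, LinearMap.smul_apply, smul_eq_mul, Matrix.mul_apply, Matrix.transpose_apply, Matrix.map_apply]
    simp only [Finset.sum_mul, Finset.mul_sum]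
    refine Finset.sum_congr rfl fun y _ => Finset.sum_congr rfl fun x _ => ?_
    show M' x a * B (b' x : V) (b y : V) * σ (M y c) = _
    ring
  -- square matrices
  set G' := G.submatrix e id with hG'
  set N := M'.submatrix e e with hN
  have hrel' : N.transpose * G' * M.map σ = G' := by
    have h := congrArg (fun A => A.submatrix e (id : Fin (finrank F W) → Fin (finrank F W))) hrel
    rw [hN, hG']
    refine Eq.trans ?_ h
    ext a c
    simp only [Matrix.mul_apply, Matrix.submatrix_apply, Matrix.transpose_apply, id]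
    refine Finset.sum_congr rfl fun y _ => ?_
    congr 1
    exact Fintype.sum_equiv e _ _ fun x => rfl
  have hG'u : IsUnit G' := by
    refine Matrix.mulVec_injective_iff_isUnit.1 fun g g' hgg => hG2 (funext fun a => ?_)
    obtain ⟨a, rfl⟩ := e.surjective a
    exact congrFun hgg a
  obtain ⟨U, hU⟩ := hG'u
  have hinv : M.map σ * (G'⁻¹ * N.transpose * G') = 1 := by
    refine mul_eq_one_comm.1 ?_
    rw [mul_assoc, mul_assoc, ← mul_assoc N.transpose, hrel',
      Matrix.nonsing_inv_mul _ ((Matrix.isUnit_iff_isUnit_det _).1 ⟨U, hU⟩)]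
  have hdet : IsUnit M.det := by
    have h := congrArg Matrix.det hinv
    rw [Matrix.det_mul, Matrix.det_one, ← RingHom.mapMatrix_apply, ← RingHom.map_det] at h
    exact isUnit_iff_ne_zero.2 fun h0 => by rw [h0, map_zero, zero_mul] at h; exact zero_ne_one h
  obtain ⟨A, hA⟩ := (Matrix.isUnit_iff_isUnit_det M).2 hdet
  have hc : (T.restrict hW').charpoly = (M.map σ)⁻¹.charpoly := by
    rw [Matrix.inv_eq_right_inv hinv, ← hU, Matrix.charpoly_units_conj',
      Matrix.charpoly_transpose, hN, show M'.submatrix e e = Matrix.reindex e.symm e.symm M' from rfl, Matrix.charpoly_reindex, hM',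
      LinearMap.charpoly_toMatrix]
  rw [hc, ← LinearMap.charpoly_toMatrix (T.restrict hW) b, ← hM, ← hA, ← H67.charpoly_contraMat σ A,
    H67.contraMat_eq, hA, ← Matrix.transpose_nonsing_inv, Matrix.charpoly_transpose]

/-- The multiplicities on an invariant totally isotropic subspace. -/
theorem isotropic_mult_restrict_le (hr : (r : F) ≠ 0) (hσ : ∀ x, σ x = x ^ p ^ k) (hσσ : ∀ x, σ (σ x) = x)
    {B : V →ₗ[F] V →ₛₗ[σ] F} (hrefl : ∀ u v, B u v = 0 → B v u = 0) (hnd : ∀ u, (∀ v, B u v = 0) → u = 0)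
    {T : End F V} (hTB : ∀ u v, B (T u) (T v) = B u v) (hT : T ^ r = 1)
    {W : Submodule F V} (hWT : ∀ v ∈ W, T v ∈ W) (hWi : ∀ u ∈ W, ∀ v ∈ W, B u v = 0) :
    orderOf (Nat.card F : ZMod r) * ∑ P, multEnd r (T.restrict hWT) P ≤ finrank F W ∧
      (∀ P, multEnd r (T.restrict hWT) P + multEnd r (T.restrict hWT) (H67.cycDual hr Fact.out hσ hσσ P) ≤
        multEnd r T P) ∧
      orderOf (Nat.card F : ZMod r) * ∑ P, multEnd r T P +
        2 * (finrank F W - orderOf (Nat.card F : ZMod r) * ∑ P, multEnd r (T.restrict hWT) P) ≤ finrank F V := by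
  classical
  set π := H67.cycDual hr (Fact.out : r.Prime) hσ hσσ with hπ
  have hπinv : ∀ P, π (π P) = P := H67.cycDual_cycDual hr Fact.out hσ hσσ
  have hP : ∀ v ∈ perpOf B W, T v ∈ perpOf B W := fun v hv w hw => by
    have hWeq : W.map T = W := Submodule.eq_of_le_of_finrank_eq
      (by rintro _ ⟨y, hy, rfl⟩; exact hWT y hy)
      (Submodule.equivMapOfInjective T (injective_of_pow_eq_one hT) W).finrank_eq.symm
    rw [← hWeq] at hw
    obtain ⟨y, hy, rfl⟩ := hw
    rw [hTB]; exact hv y hy
  have hWP : W ≤ perpOf B W := fun v hv w hw => hWi v hv w hw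
  have hmap : ∀ {A : Submodule F V}, (∀ v ∈ A, T v ∈ A) → A.map T ≤ A := fun {A} h => by
    rintro _ ⟨v, hv, rfl⟩; exact h v hv
  obtain ⟨W', hW'x, hW's, hW'd⟩ := exists_inv_compl hr T hT ⊤ (perpOf B W) le_top (hmap hP) le_top
  obtain ⟨E, hEx, hEs, hEd⟩ := exists_inv_compl hr T hT (perpOf B W) W (hmap hP) (hmap hWT) hWP
  have hW' : ∀ v ∈ W', T v ∈ W' := fun v hv => hW'x ⟨v, hv, rfl⟩
  have hE : ∀ v ∈ E, T v ∈ E := fun v hv => hEx ⟨v, hv, rfl⟩
  obtain ⟨hdim, hdual⟩ := charpoly_dual_of_pairing hσσ hTB hWT hW'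
    (fun u hu h => Submodule.disjoint_def.1 hW'd u h hu)
    (fun w hw h => hnd w fun v => by
      obtain ⟨a, ha, u, hu, rfl⟩ := Submodule.mem_sup.1 (hW's ▸ Submodule.mem_top : v ∈ perpOf B W ⊔ W')
      rw [map_add, hrefl _ _ (ha w hw), hrefl _ _ (h u hu), add_zero])
  obtain ⟨hcW, hleW⟩ := charpoly_eq_polyOf_mult hr (restrict_pow_eq_one hT hWT)
  obtain ⟨hcE, hleE⟩ := charpoly_eq_polyOf_mult hr (restrict_pow_eq_one hT hE)
  set b := multEnd r (T.restrict hWT)
  set e := multEnd r (T.restrict hE)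
  rw [hcW, H67.dualPoly_polyOf hr Fact.out hσ hσσ] at hdual
  have hsum : ∑ P, b (π P) = ∑ P, b P :=
    Fintype.sum_equiv ⟨π, π, hπinv, hπinv⟩ (fun P => b (π P)) b fun P => rfl
  have hleW' : orderOf (Nat.card F : ZMod r) * ∑ P, (b ∘ π) P ≤ finrank F W := by
    simpa only [Function.comp_apply, hsum] using hleW
  have h := charpoly_sup T hW'd hW's hP hW' (fun _ _ => Submodule.mem_top)
  rw [charpoly_restrict_top, charpoly_sup T hEd hEs hWT hE hP, hcW, hcE, hdual, polyOf_mul hleW hleE,
    polyOf_mul (by simp only [Pi.add_apply, Finset.sum_add_distrib, mul_add]; omega) hleW'] at h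
  have hm : multEnd r T = b + e + b ∘ π := by
    show H67.multOf _ = _
    rw [h, H67.multOf_polyOf hr (Fact.out : r.Prime)]
  refine ⟨hleW, fun P => ?_, ?_⟩
  · rw [hm]; simp only [Pi.add_apply, Function.comp_apply]; omega
  · have hVd : finrank F V = finrank F W + finrank F E + finrank F W' := by
      have hc : IsCompl (perpOf B W) W' := ⟨hW'd, codisjoint_iff.2 hW's⟩
      have h1 := Submodule.finrank_add_eq_of_isCompl hc
      have h2 := Submodule.finrank_sup_add_finrank_inf_eq W E
      rw [hEs, hEd.eq_bot, finrank_bot] at h2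
      omega
    rw [hm]
    simp only [Pi.add_apply, Function.comp_apply, Finset.sum_add_distrib, hsum, mul_add]
    omega

/-- Multiplicities on totally isotropic invariant subspaces. -/
theorem isotropic_mult_le (hr : (r : F) ≠ 0) (hσ : ∀ x, σ x = x ^ p ^ k) (hσσ : ∀ x, σ (σ x) = x)
    {B : V →ₗ[F] V →ₛₗ[σ] F} (hrefl : ∀ u v, B u v = 0 → B v u = 0) (hnd : ∀ u, (∀ v, B u v = 0) → u = 0)
    {T : End F V} (hTB : ∀ u v, B (T u) (T v) = B u v) (hT : T ^ r = 1)
    {W : Submodule F V} (hWT : ∀ v ∈ W, T v ∈ W) (hWi : ∀ u ∈ W, ∀ v ∈ W, B u v = 0) :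
    ∃ b : H67.CycFac r F → ℕ, orderOf (Nat.card F : ZMod r) * ∑ P, b P ≤ finrank F W ∧
      (∀ P, b P + b (H67.cycDual hr Fact.out hσ hσσ P) ≤ multEnd r T P) ∧
      orderOf (Nat.card F : ZMod r) * ∑ P, multEnd r T P +
        2 * (finrank F W - orderOf (Nat.card F : ZMod r) * ∑ P, b P) ≤ finrank F V := by
  exact ⟨_, isotropic_mult_restrict_le hr hσ hσσ hrefl hnd hTB hT hWT hWi⟩

end Cfsg.Agent.H97
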