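import Cfsg.Agent.H97.SympPlanes
import Cfsg.Agent.H97.Counting
import Cfsg.Agent.H2.Card

/-! Counting ordered pairs of complementary Lagrangians. -/

namespace Cfsg.Agent.H97

open Module

variable {F : Type*} [Field F] [Finite F] {d : ℕ}

/-- Ordered pairs of complementary totally isotropic subspaces. -/
def IsLagPair (P : Submodule F (Fin d ⊕ Fin d → F) × Submodule F (Fin d ⊕ Fin d → F)) : Prop :=
  IsCompl P.1 P.2 ∧ (∀ u ∈ P.1, ∀ v ∈ P.1, Cfsg.sympForm d F u v = 0) ∧
    (∀ u ∈ P.2, ∀ v ∈ P.2, Cfsg.sympForm d F u v = 0)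

omit [Finite F] in
/-- A vector of one member orthogonal to the other member is zero. -/
theorem lagPair_eq_zero {U W : Submodule F (Fin d ⊕ Fin d → F)} (hc : Codisjoint U W)
    (hU : ∀ u ∈ U, ∀ v ∈ U, Cfsg.sympForm d F u v = 0) {u : Fin d ⊕ Fin d → F} (hu : u ∈ U)
    (h : ∀ w ∈ W, Cfsg.sympForm d F u w = 0) : u = 0 := by
  refine H2.sympForm_eq_zero_forall fun v => ?_
  obtain ⟨a, ha, b, hb, rfl⟩ := Submodule.mem_sup.1 (hc.eq_top ▸ Submodule.mem_top : v ∈ U ⊔ W)
  have h1 := hU u hu a ha
  have h2 := h b hb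
  rw [← H2.sympBilin_apply] at h1 h2 ⊢
  rw [map_add, h1, h2, add_zero]

omit [Finite F] in
/-- Both members of a pair have dimension `d`. -/
theorem lagPair_finrank {U W : Submodule F (Fin d ⊕ Fin d → F)} (h : IsLagPair (U, W)) :
    finrank F U = d ∧ finrank F W = d := by
  have key : ∀ {A B : Submodule F (Fin d ⊕ Fin d → F)}, Codisjoint A B →
      (∀ u ∈ A, ∀ v ∈ A, Cfsg.sympForm d F u v = 0) → finrank F A ≤ finrank F B := by
    intro A B hc hA
    let φ : A →ₗ[F] Dual F B := ((H2.sympBilin d F).domRestrict₁₂ A B)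
    have hinj : Function.Injective φ := by
      rw [← LinearMap.ker_eq_bot, LinearMap.ker_eq_bot']
      intro a ha
      refine Subtype.ext (lagPair_eq_zero hc hA a.2 fun w hw => ?_)
      have := LinearMap.congr_fun ha ⟨w, hw⟩
      simpa [φ, LinearMap.domRestrict₁₂_apply] using this
    exact (LinearMap.finrank_le_finrank_of_injective hinj).trans Subspace.dual_finrank_eq.le
  have h1 := key h.1.codisjoint h.2.1
  have h2 := key h.1.codisjoint.symm h.2.2
  have h3 := Submodule.finrank_add_eq_of_isCompl h.1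
  rw [Module.finrank_fintype_fun_eq_card, Fintype.card_sum, Fintype.card_fin] at h3
  simp only at h1 h2 h3
  omega

omit [Finite F] in
/-- Membership in the isometry group of the standard form. -/
theorem isometry_apply (g : H2.isometries (H2.sympBilin d F)) (u v : Fin d ⊕ Fin d → F) :
    Cfsg.sympForm d F (g.1 u) (g.1 v) = Cfsg.sympForm d F u v := by
  simpa using H2.mem_isometries.1 g.2 u v

/-- Inclusion of the first half of the coordinates. -/
def leftIncl (F : Type*) [Field F] (d : ℕ) : (Fin d → F) →ₗ[F] (Fin d ⊕ Fin d → F) where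
  toFun a := Sum.elim a 0
  map_add' a b := funext fun k => by cases k <;> simp
  map_smul' c a := funext fun k => by cases k <;> simp

/-- Inclusion of the second half of the coordinates. -/
def rightIncl (F : Type*) [Field F] (d : ℕ) : (Fin d → F) →ₗ[F] (Fin d ⊕ Fin d → F) where
  toFun a := Sum.elim 0 a
  map_add' a b := funext fun k => by cases k <;> simp
  map_smul' c a := funext fun k => by cases k <;> simp

omit [Finite F] in
/-- The standard pair. -/
theorem isLagPair_std : IsLagPair (LinearMap.range (leftIncl F d), LinearMap.range (rightIncl F d)) := by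
  refine ⟨⟨?_, ?_⟩, ?_, ?_⟩
  · rw [Submodule.disjoint_def]
    rintro v ⟨a, rfl⟩ ⟨b, hb⟩
    funext k
    have := congr_fun hb k
    cases k <;> simp [leftIncl, rightIncl] at this ⊢ <;> simp [this]
  · rw [codisjoint_iff, Submodule.eq_top_iff']
    intro v
    refine Submodule.mem_sup.2 ⟨leftIncl F d (v ∘ Sum.inl), ⟨_, rfl⟩, rightIncl F d (v ∘ Sum.inr), ⟨_, rfl⟩, ?_⟩
    funext k
    cases k <;> simp [leftIncl, rightIncl]
  · rintro _ ⟨a, rfl⟩ _ ⟨b, rfl⟩; simp [H2.sympForm_apply, leftIncl]
  · rintro _ ⟨a, rfl⟩ _ ⟨b, rfl⟩; simp [H2.sympForm_apply, rightIncl]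

omit [Finite F] in
/-- Images of pairs under isometries are pairs. -/
theorem isLagPair_map (g : H2.isometries (H2.sympBilin d F))
    {U W : Submodule F (Fin d ⊕ Fin d → F)} (h : IsLagPair (U, W)) :
    IsLagPair (U.map (g.1 : (Fin d ⊕ Fin d → F) →ₗ[F] (Fin d ⊕ Fin d → F)),
      W.map (g.1 : (Fin d ⊕ Fin d → F) →ₗ[F] (Fin d ⊕ Fin d → F))) := by
  refine ⟨(Submodule.orderIsoMapComap g.1).isCompl h.1, ?_, ?_⟩
  · rintro _ ⟨a, ha, rfl⟩ _ ⟨b, hb, rfl⟩
    exact (isometry_apply g a b).trans (h.2.1 a ha b hb)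
  · rintro _ ⟨a, ha, rfl⟩ _ ⟨b, hb, rfl⟩
    exact (isometry_apply g a b).trans (h.2.2 a ha b hb)

/-- `|Sp_2d| = #pairs * |GL_d|` in the form of independent tuples. -/
theorem card_lagPairs_mul :
    Nat.card {P : Submodule F (Fin d ⊕ Fin d → F) × Submodule F (Fin d ⊕ Fin d → F) // IsLagPair P} *
        ∏ j : Fin d, (Nat.card F ^ d - Nat.card F ^ (j : ℕ)) =
      Nat.card (Matrix.symplecticGroup (Fin d) F) := by
  classical
  haveI := Fintype.ofFinite F
  let V := Fin d ⊕ Fin d → F
  let T := {P : Submodule F V × Submodule F V // IsLagPair P}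
  haveI : Finite (Submodule F V) := Finite.of_injective _ SetLike.coe_injective
  haveI := Fintype.ofFinite T
  let el : Fin d → V := fun i => leftIncl F d (Pi.single i 1)
  let er : Fin d → V := fun i => rightIncl F d (Pi.single i 1)
  have hel : ∀ i, el i = Pi.single (Sum.inl i) 1 := fun i => funext fun k => by
    cases k <;> simp [el, leftIncl, Pi.single_apply]
  have her : ∀ i, er i = Pi.single (Sum.inr i) 1 := fun i => funext fun k => by
    cases k <;> simp [er, rightIncl, Pi.single_apply]
  have hlinj : Function.Injective (leftIncl F d) := fun a b h => funext fun i => congr_fun h (Sum.inl i)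
  have hLI : LinearIndependent F el :=
    (Pi.linearIndependent_single_one (Fin d) F).map' (leftIncl F d) (LinearMap.ker_eq_bot.2 hlinj)
  let mk : H2.isometries (H2.sympBilin d F) → Σ P : T, {s : Fin d → P.1.1 // LinearIndependent F s} := fun g =>
    ⟨⟨(_, _), isLagPair_map g isLagPair_std⟩,
      fun i => ⟨g.1 (el i), ⟨el i, ⟨_, rfl⟩, rfl⟩⟩,
      LinearIndependent.of_comp (Submodule.subtype _) (hLI.map' _ (LinearEquiv.ker g.1))⟩
  have hmk : Function.Bijective mk := by
    constructor
    · intro g g' h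
      have hP : (mk g).1 = (mk g').1 := congrArg Sigma.fst h
      have hu : ∀ i, g.1 (el i) = g'.1 (el i) := fun i => by
        have := congrArg (fun p : Σ P : T, {s : Fin d → P.1.1 // LinearIndependent F s} => ((p.2.1 i : p.1.1.1) : V)) h
        exact this
      refine Subtype.ext (LinearEquiv.toLinearMap_injective ((Pi.basisFun F (Fin d ⊕ Fin d)).ext ?_))
      rintro (i | i)
      · simpa [hel] using hu i
      · simp only [Pi.basisFun_apply, ← her]
        have hW : (LinearMap.range (rightIncl F d)).map (g.1 : V →ₗ[F] V) =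
            (LinearMap.range (rightIncl F d)).map (g'.1 : V →ₗ[F] V) :=
          congrArg (fun P : T => P.1.2) hP
        have h1 : g.1 (er i) - g'.1 (er i) ∈ (LinearMap.range (rightIncl F d)).map (g.1 : V →ₗ[F] V) :=
          Submodule.sub_mem _ ⟨_, ⟨_, rfl⟩, rfl⟩ (hW ▸ ⟨_, ⟨_, rfl⟩, rfl⟩)
        have hpair := isLagPair_map g isLagPair_std
        refine sub_eq_zero.1 (lagPair_eq_zero hpair.1.codisjoint.symm hpair.2.2 h1 fun w hw => ?_)
        obtain ⟨_, ⟨a, rfl⟩, rfl⟩ := hw
        have hspan : leftIncl F d a = ∑ j, a j • el j := by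
          simp only [el, ← map_smul, ← map_sum]
          exact congrArg _ (pi_eq_sum_univ' a)
        simp only [← H2.sympBilin_apply, hspan, map_sum, map_smul, map_sub, LinearMap.sub_apply, LinearEquiv.coe_coe]
        refine Finset.sum_eq_zero fun j _ => ?_
        have e1 : H2.sympBilin d F (g.1 (er i)) (g.1 (el j)) = H2.sympBilin d F (er i) (el j) := by
          simpa using isometry_apply g (er i) (el j)
        have e2 : H2.sympBilin d F (g'.1 (er i)) (g.1 (el j)) = H2.sympBilin d F (er i) (el j) := by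
          rw [hu j]; simpa using isometry_apply g' (er i) (el j)
        rw [e1, e2, sub_self, smul_zero]
    · rintro ⟨⟨⟨U, W⟩, hUW⟩, s, hs⟩
      obtain ⟨hUd, hWd⟩ := lagPair_finrank hUW
      have hsU : Submodule.span F (Set.range fun i => (s i : V)) = U := by
        refine Submodule.eq_of_le_of_finrank_eq (Submodule.span_le.2 (by rintro _ ⟨j, rfl⟩; exact (s j).2)) ?_
        rw [finrank_span_eq_card (R := F) (b := fun i => (s i : V)) (hs.map' U.subtype (Submodule.ker_subtype _)),
          Fintype.card_fin, hUd]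
      let φ : W →ₗ[F] (Fin d → F) := LinearMap.pi fun i => (H2.sympBilin d F (s i : V)).comp W.subtype
      have hφ : Function.Injective φ := by
        rw [← LinearMap.ker_eq_bot, LinearMap.ker_eq_bot']
        intro w hw
        refine Subtype.ext (lagPair_eq_zero hUW.1.codisjoint.symm hUW.2.2 w.2 fun u hu => ?_)
        rw [show u ∈ U ↔ _ from Iff.rfl, ← hsU] at hu
        refine Submodule.span_induction (p := fun y _ => Cfsg.sympForm d F (w : V) y = 0) ?_ ?_ ?_ ?_ hu
        · rintro _ ⟨i, rfl⟩
          have := congr_fun hw i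
          rw [H2.sympForm_swap, neg_eq_zero]
          simpa [φ] using this
        · rw [← H2.sympBilin_apply, map_zero]
        · intro a b _ _ ha hb; rw [← H2.sympBilin_apply] at ha hb ⊢; rw [map_add, ha, hb, add_zero]
        · intro c a _ ha; rw [← H2.sympBilin_apply] at ha ⊢; rw [map_smul, ha, smul_zero]
      have hφs : Function.Surjective φ :=
        (LinearMap.injective_iff_surjective_of_finrank_eq_finrank (by rw [Module.finrank_fin_fun]; exact hWd)).1 hφ
      choose w hw using fun i => hφs (-Pi.single i 1)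
      have hsw : ∀ i j, Cfsg.sympForm d F (s i : V) (w j : V) = if i = j then -1 else 0 := fun i j => by
        have := congr_fun (hw j) i
        simp only [φ, Pi.neg_apply, Pi.single_apply, LinearMap.pi_apply, LinearMap.comp_apply,
          H2.sympBilin_apply, Submodule.subtype_apply] at this
        rw [this]
        split_ifs <;> simp
      let f : V →ₗ[F] V := (Pi.basisFun F (Fin d ⊕ Fin d)).constr F (Sum.elim (fun i => (s i : V)) fun i => (w i : V))
      have hfl : ∀ i, f (Pi.single (Sum.inl i) 1) = s i := fun i => by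
        rw [← Pi.basisFun_apply]; exact Module.Basis.constr_basis _ _ _ _
      have hfr : ∀ i, f (Pi.single (Sum.inr i) 1) = w i := fun i => by
        rw [← Pi.basisFun_apply]; exact Module.Basis.constr_basis _ _ _ _
      have hfB : (H2.sympBilin d F).compl₁₂ f f = H2.sympBilin d F := by
        refine LinearMap.ext_basis (Pi.basisFun F (Fin d ⊕ Fin d)) (Pi.basisFun F (Fin d ⊕ Fin d)) ?_
        rintro (i | i) (j | j) <;>
          simp only [LinearMap.compl₁₂_apply, Pi.basisFun_apply, hfl, hfr, H2.sympBilin_apply]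
        · rw [hUW.2.1 _ (s i).2 _ (s j).2, H2.sympForm_single_inl, Pi.single_eq_of_ne (by simp), neg_zero]
        · rw [hsw, H2.sympForm_single_inl, Pi.single_apply]
          by_cases hij : i = j <;> simp [hij, Ne.symm]
        · rw [H2.sympForm_swap, hsw, H2.sympForm_single_inr, Pi.single_apply]
          by_cases hij : j = i <;> simp [hij]
          exact fun h => absurd h.symm hij
        · rw [hUW.2.2 _ (w i).2 _ (w j).2, H2.sympForm_single_inr, Pi.single_eq_of_ne (by simp)]
      have hfinj : Function.Injective f := by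
        rw [← LinearMap.ker_eq_bot, LinearMap.ker_eq_bot']
        intro a ha
        refine H2.sympForm_eq_zero_forall fun b => ?_
        rw [← H2.sympBilin_apply, ← LinearMap.congr_fun₂ hfB a b, LinearMap.compl₁₂_apply, ha, map_zero,
          LinearMap.zero_apply]
      let g : H2.isometries (H2.sympBilin d F) := ⟨LinearEquiv.ofBijective f ⟨hfinj, f.injective_iff_surjective.1 hfinj⟩,
        H2.mem_isometries.2 fun a b => LinearMap.congr_fun₂ hfB a b⟩
      have hU : (LinearMap.range (leftIncl F d)).map (g.1 : V →ₗ[F] V) = U := by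
        refine Submodule.eq_of_le_of_finrank_eq ?_ ?_
        · rintro _ ⟨_, ⟨a, rfl⟩, rfl⟩
          have hspan : leftIncl F d a = ∑ j, a j • el j := by
            simp only [el, ← map_smul, ← map_sum]
            exact congrArg _ (pi_eq_sum_univ' a)
          rw [hspan, map_sum]
          refine Submodule.sum_mem _ fun j _ => ?_
          rw [map_smul, hel]
          exact U.smul_mem _ (by show f _ ∈ U; rw [hfl]; exact (s j).2)
        · rw [hUd, LinearEquiv.finrank_map_eq, LinearMap.finrank_range_of_inj hlinj, Module.finrank_fin_fun]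
      have hW : (LinearMap.range (rightIncl F d)).map (g.1 : V →ₗ[F] V) = W := by
        refine Submodule.eq_of_le_of_finrank_eq ?_ ?_
        · rintro _ ⟨_, ⟨a, rfl⟩, rfl⟩
          have hspan : rightIncl F d a = ∑ j, a j • er j := by
            simp only [er, ← map_smul, ← map_sum]
            exact congrArg _ (pi_eq_sum_univ' a)
          rw [hspan, map_sum]
          refine Submodule.sum_mem _ fun j _ => ?_
          rw [map_smul, her]
          exact W.smul_mem _ (by show f _ ∈ W; rw [hfr]; exact (w j).2)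
        · rw [hWd, LinearEquiv.finrank_map_eq, LinearMap.finrank_range_of_inj
            (fun a b h => funext fun i => congr_fun h (Sum.inr i)), Module.finrank_fin_fun]
      have hP : (mk g).1 = ⟨(U, W), hUW⟩ := Subtype.ext (Prod.ext hU hW)
      refine ⟨g, ?_⟩
      have hext : ∀ (p p' : Σ P : T, {s : Fin d → P.1.1 // LinearIndependent F s}),
          p.1 = p'.1 → (∀ i, ((p.2.1 i : p.1.1.1) : V) = p'.2.1 i) → p = p' := by
        rintro ⟨P, t, ht⟩ ⟨P', t', ht'⟩ rfl h
        have : t = t' := funext fun i => Subtype.ext (h i)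
        subst this
        rfl
      refine hext _ _ hP fun i => ?_
      show g.1 (el i) = _
      rw [hel]; exact hfl i
  have hfib : ∀ P : T, Nat.card {s : Fin d → P.1.1 // LinearIndependent F s} =
      ∏ j : Fin d, (Nat.card F ^ d - Nat.card F ^ (j : ℕ)) := fun P => by
    rw [card_linearIndependent (K := F) (V := P.1.1) (lagPair_finrank P.2).1.ge, (lagPair_finrank P.2).1,
      Nat.card_eq_fintype_card]
  rw [Nat.card_congr (H2.spEquivIsometries d F).toEquiv, Nat.card_eq_of_bijective mk hmk, Nat.card_sigma,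
    Finset.sum_congr rfl (fun P _ => hfib P), Finset.sum_const, Finset.card_univ, ← Nat.card_eq_fintype_card,
    smul_eq_mul]

/-- A prime dividing the number of pairs forces an even `ord_r q` at most `2d`. -/
theorem even_ord_of_dvd_lagPairs {r : ℕ} [Fact r.Prime] (hr : (r : F) ≠ 0) (hr2 : r ≠ 2)
    (h : r ∣ Nat.card {P : Submodule F (Fin d ⊕ Fin d → F) × Submodule F (Fin d ⊕ Fin d → F) // IsLagPair P}) :
    ∃ j, j ≤ d ∧ 2 * j = orderOf (Nat.card F : ZMod r) := by
  have hq0 := natCard_ne_zero_zmod (F := F) (r := r) hr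
  have key := card_lagPairs_mul (F := F) (d := d)
  rw [H2.card_sp] at key
  have hGL : ∏ j : Fin d, (Nat.card F ^ d - Nat.card F ^ (j : ℕ)) =
      (∏ j : Fin d, Nat.card F ^ (j : ℕ)) * ∏ i ∈ Finset.range d, (Nat.card F ^ (i + 1) - 1) := by
    rw [← Finset.prod_range_reflect (fun i => Nat.card F ^ (i + 1) - 1) d,
      Finset.prod_range (fun i => Nat.card F ^ (d - 1 - i + 1) - 1), ← Finset.prod_mul_distrib]
    refine Finset.prod_congr rfl fun j _ => ?_
    have := j.2
    rw [pow_mul_pow_sub_one, show (j : ℕ) + (d - 1 - (j : ℕ) + 1) = d by omega]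
  have hsq : ∏ i ∈ Finset.range d, (Nat.card F ^ (2 * (i + 1)) - 1) =
      (∏ i ∈ Finset.range d, (Nat.card F ^ (i + 1) - 1)) * ∏ i ∈ Finset.range d, (Nat.card F ^ (i + 1) + 1) := by
    rw [← Finset.prod_mul_distrib]
    refine Finset.prod_congr rfl fun i _ => ?_
    have h1 := Nat.sq_sub_sq (Nat.card F ^ (i + 1)) 1
    rw [one_pow, ← pow_mul] at h1
    rw [mul_comm 2, h1, mul_comm]
  have hpos : 0 < ∏ i ∈ Finset.range d, (Nat.card F ^ (i + 1) - 1) :=
    Finset.prod_pos fun i _ => Nat.sub_pos_of_lt (Nat.one_lt_pow (Nat.succ_ne_zero i) Finite.one_lt_card)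
  rw [hGL, hsq, ← mul_assoc, mul_comm (_ * ∏ j : Fin d, Nat.card F ^ (j : ℕ)), mul_left_comm (_ ^ (d ^ 2))] at key
  have key2 := Nat.eq_of_mul_eq_mul_left hpos key
  have h1 := dvd_mul_of_dvd_left h (∏ j : Fin d, Nat.card F ^ (j : ℕ))
  rw [key2] at h1
  rcases (Fact.out : r.Prime).dvd_mul.1 h1 with h2 | h2
  · exact absurd ((ZMod.natCast_eq_zero_iff _ _).2 ((Fact.out : r.Prime).dvd_of_dvd_pow h2)) hq0
  obtain ⟨k, hk, hk2⟩ := (Fact.out : r.Prime).prime.exists_mem_finset_dvd h2
  have hz : (Nat.card F : ZMod r) ^ (k + 1) = -1 := by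
    have h3 := (ZMod.natCast_eq_zero_iff _ _).2 hk2
    rw [Nat.cast_add, Nat.cast_pow, Nat.cast_one] at h3
    exact eq_neg_of_add_eq_zero_left h3
  have hdvd : orderOf (Nat.card F : ZMod r) ∣ 2 * (k + 1) :=
    orderOf_dvd_of_pow_eq_one (by rw [mul_comm, pow_mul, hz, neg_one_sq])
  have hev : Even (orderOf (Nat.card F : ZMod r)) := by
    by_contra hodd
    have hco := Nat.Coprime.dvd_of_dvd_mul_left (Nat.coprime_two_right.2 (Nat.not_even_iff_odd.1 hodd)) hdvd
    have h4 := orderOf_dvd_iff_pow_eq_one.1 hco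
    rw [hz] at h4
    haveI : Fact (2 < r) := ⟨lt_of_le_of_ne (Fact.out : r.Prime).two_le (Ne.symm hr2)⟩
    exact ZMod.neg_one_ne_one h4
  obtain ⟨j, hj⟩ := hev
  have := Nat.le_of_dvd (by omega) hdvd
  have := Finset.mem_range.1 hk
  exact ⟨j, by omega, by omega⟩

end Cfsg.Agent.H97
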