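import Cfsg.Agent.H97.SympPlanes

/-! In odd characteristic an isometry with scalar square fixes or swaps a pair of Lagrangians. -/

namespace Cfsg.Agent.H97

open Module

variable {F V : Type*} [Field F] [AddCommGroup V] [Module F V] [FiniteDimensional F V]

/-- `P` is the sum of two totally isotropic subspaces fixed (`z = 1`) or swapped (`z ≠ 1`) by `x`. -/
def HasLagPair (B : LinearMap.BilinForm F V) (x : V →ₗ[F] V) (z : F) (P : Submodule F V) : Prop :=
  ∃ U W : Submodule F V, U ⊔ W = P ∧ (∀ a ∈ U, ∀ b ∈ U, B a b = 0) ∧ (∀ a ∈ W, ∀ b ∈ W, B a b = 0) ∧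
    (z = 1 → (∀ a ∈ U, x a ∈ U) ∧ ∀ a ∈ W, x a ∈ W) ∧ (z ≠ 1 → (∀ a ∈ U, x a ∈ W) ∧ ∀ a ∈ W, x a ∈ U)

/-- A line is totally isotropic. -/
theorem isotropic_line {B : LinearMap.BilinForm F V} (hB : B.IsAlt) (v : V) :
    ∀ a ∈ Submodule.span F {v}, ∀ b ∈ Submodule.span F {v}, B a b = 0 := by
  intro a ha b hb
  obtain ⟨c, rfl⟩ := Submodule.mem_span_singleton.1 ha
  obtain ⟨d, rfl⟩ := Submodule.mem_span_singleton.1 hb
  simp [hB v]

/-- A plane of orthogonal vectors is totally isotropic. -/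
theorem isotropic_pair {B : LinearMap.BilinForm F V} (hB : B.IsAlt) (v y : V) (h : B v y = 0) :
    ∀ a ∈ Submodule.span F {v, y}, ∀ b ∈ Submodule.span F {v, y}, B a b = 0 := by
  intro a ha b hb
  obtain ⟨c, d, rfl⟩ := mem_span_pair'.1 ha
  obtain ⟨e, g, rfl⟩ := mem_span_pair'.1 hb
  simp [hB v, hB y, h, ← hB.neg_eq v y]

/-- Mapping a span of a vector. -/
theorem map_line {x : V →ₗ[F] V} {v : V} {W : Submodule F V} (h : x v ∈ W) :
    ∀ a ∈ Submodule.span F {v}, x a ∈ W := by
  intro a ha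
  obtain ⟨c, rfl⟩ := Submodule.mem_span_singleton.1 ha
  rw [map_smul]; exact W.smul_mem _ h

/-- Every invariant nondegenerate subspace has a fixed or swapped Lagrangian pair. -/
theorem hasLagPair (B : LinearMap.BilinForm F V) (hB : B.IsAlt) (h2 : (2 : F) ≠ 0) (x : V →ₗ[F] V)
    (hxB : ∀ u v, B (x u) (x v) = B u v) (z : F) (hz : z ≠ 0) (hzz : z * z = 1) (hx : ∀ v, x (x v) = z • v) :
    ∀ P : Submodule F V, (∀ v ∈ P, x v ∈ P) → NondegOn B P → HasLagPair B x z P := by
  have hz' : z = 1 ∨ z = -1 := mul_self_eq_one_iff.1 hzz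
  refine sympSquare_induction B hB x hxB z hz hx _ ?_ ?_ ?_ ?_ ?_
  · exact ⟨⊥, ⊥, by simp, by simp, by simp, fun _ => by simp, fun _ => by simp⟩
  · intro u w c h hu hw
    have hz1 : z = 1 := by
      have := hxB u w
      rw [hu, hw] at this
      simp only [map_smul, LinearMap.smul_apply, smul_eq_mul, h, mul_one] at this
      have h3 := hx u
      rw [hu, map_smul, hu, smul_smul, this, one_smul] at h3
      have := congrArg (fun y => B y w) h3
      simpa [h] using this.symm
    refine ⟨Submodule.span F {u}, Submodule.span F {w}, by rw [Submodule.span_insert], isotropic_line hB u,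
      isotropic_line hB w, fun _ => ⟨map_line ?_, map_line ?_⟩, fun hne => absurd hz1 hne⟩
    · rw [hu]; exact Submodule.smul_mem _ _ (Submodule.mem_span_singleton_self u)
    · rw [hw]; exact Submodule.smul_mem _ _ (Submodule.mem_span_singleton_self w)
  · intro v h
    rcases hz' with hz1 | hz1
    · refine ⟨Submodule.span F {v + x v}, Submodule.span F {v - x v}, ?_, isotropic_line hB _,
        isotropic_line hB _, fun _ => ⟨map_line ?_, map_line ?_⟩, fun hne => absurd hz1 hne⟩
      · refine le_antisymm (sup_le ?_ ?_) (Submodule.span_le.2 ?_)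
        · rw [Submodule.span_singleton_le_iff_mem]
          exact add_mem (Submodule.mem_span_of_mem (by simp)) (Submodule.mem_span_of_mem (by simp))
        · rw [Submodule.span_singleton_le_iff_mem]
          exact sub_mem (Submodule.mem_span_of_mem (by simp)) (Submodule.mem_span_of_mem (by simp))
        · rintro y (rfl | rfl)
          · refine Submodule.mem_sup.2 ⟨(2⁻¹ : F) • (y + x y), Submodule.smul_mem _ _ (Submodule.mem_span_singleton_self _),
              (2⁻¹ : F) • (y - x y), Submodule.smul_mem _ _ (Submodule.mem_span_singleton_self _), ?_⟩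
            rw [← smul_add, add_add_sub_cancel, ← two_smul F y, smul_smul, inv_mul_cancel₀ h2, one_smul]
          · refine Submodule.mem_sup.2 ⟨(2⁻¹ : F) • (v + x v), Submodule.smul_mem _ _ (Submodule.mem_span_singleton_self _),
              -((2⁻¹ : F) • (v - x v)), Submodule.neg_mem _ (Submodule.smul_mem _ _ (Submodule.mem_span_singleton_self _)), ?_⟩
            rw [← smul_neg, ← smul_add, show (v + x v) + -(v - x v) = x v + x v by abel, ← two_smul F (x v),
              smul_smul, inv_mul_cancel₀ h2, one_smul]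
      · refine Submodule.mem_span_singleton.2 ⟨1, ?_⟩
        simp [hx, hz1, add_comm]
      · refine Submodule.mem_span_singleton.2 ⟨-1, ?_⟩
        simp [hx, hz1]
    · have hne1 : z ≠ 1 := fun h1 => h2 (by rw [hz1] at h1; linear_combination -h1)
      refine ⟨Submodule.span F {v}, Submodule.span F {x v}, by rw [Submodule.span_insert], isotropic_line hB _,
        isotropic_line hB _, fun h1 => absurd h1 hne1, fun _ => ⟨map_line ?_, map_line ?_⟩⟩
      · exact Submodule.mem_span_singleton_self _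
      · rw [hx]; exact Submodule.smul_mem _ _ (Submodule.mem_span_singleton_self _)
  · intro u w h a1 a2 a3 a4 hz1
    refine ⟨Submodule.span F {u, x u}, Submodule.span F {w, x w}, ?_, isotropic_pair hB _ _ a1,
      isotropic_pair hB _ _ a4, fun _ => ⟨?_, ?_⟩, fun hne => absurd hz1 hne⟩
    · simp only [Submodule.span_insert]; ac_rfl
    all_goals
      intro a ha
      obtain ⟨c, d, rfl⟩ := mem_span_pair'.1 ha
      exact mem_span_pair'.2 ⟨d, c, by simp [hx, hz1, add_comm]⟩
  · rintro P Q ⟨U, W, hs, hU, hW, hf, hsw⟩ ⟨U', W', hs', hU', hW', hf', hsw'⟩ - ho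
    have key : ∀ {A A' : Submodule F V}, A ≤ P → A' ≤ Q → (∀ a ∈ A, ∀ b ∈ A, B a b = 0) →
        (∀ a ∈ A', ∀ b ∈ A', B a b = 0) → ∀ a ∈ A ⊔ A', ∀ b ∈ A ⊔ A', B a b = 0 := by
      intro A A' hAP hAQ hA hA' a ha b hb
      obtain ⟨a1, h1, a2, h2', rfl⟩ := Submodule.mem_sup.1 ha
      obtain ⟨b1, h3, b2, h4, rfl⟩ := Submodule.mem_sup.1 hb
      simp [hA _ h1 _ h3, hA' _ h2' _ h4, ho _ (hAP h1) _ (hAQ h4),
        hB.isRefl _ _ (ho _ (hAP h3) _ (hAQ h2'))]
    have mapsup : ∀ {A A' C C' : Submodule F V}, (∀ a ∈ A, x a ∈ C) → (∀ a ∈ A', x a ∈ C') →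
        ∀ a ∈ A ⊔ A', x a ∈ C ⊔ C' := by
      intro A A' C C' h1 h3 a ha
      obtain ⟨a1, g1, a2, g2, rfl⟩ := Submodule.mem_sup.1 ha
      rw [map_add]
      exact Submodule.add_mem_sup (h1 _ g1) (h3 _ g2)
    refine ⟨U ⊔ U', W ⊔ W', by rw [← hs, ← hs']; ac_rfl,
      key (hs ▸ le_sup_left) (hs' ▸ le_sup_left) hU hU', key (hs ▸ le_sup_right) (hs' ▸ le_sup_right) hW hW',
      fun h => ⟨mapsup (hf h).1 (hf' h).1, mapsup (hf h).2 (hf' h).2⟩,
      fun h => ⟨mapsup (hsw h).1 (hsw' h).1, mapsup (hsw h).2 (hsw' h).2⟩⟩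

end Cfsg.Agent.H97
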