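import Cfsg.Agent.H97.LinearCriteria

/-! Elusiveness of `PSL_n(q)` on subspaces and flags at primes other than the characteristic. -/

namespace Cfsg.Agent.H97

open Module

variable {F : Type*} [Field F] [Finite F] {r : ℕ} [Fact r.Prime]

/-- The hypothesis of the elusiveness statements: every element of order `r` modulo scalars satisfies `Q`. -/
def ElusiveFor (r n : ℕ) (Q : End F (Fin n → F) → Prop) : Prop :=
  ∀ x : Matrix.SpecialLinearGroup (Fin n) F,
    (∃ c : F, ((x ^ r : Matrix.SpecialLinearGroup (Fin n) F) : Matrix (Fin n) (Fin n) F) = c • (1 : Matrix (Fin n) (Fin n) F)) →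
    (∀ c : F, (x : Matrix (Fin n) (Fin n) F) ≠ c • (1 : Matrix (Fin n) (Fin n) F)) →
    Q (Matrix.toLin' (x : Matrix (Fin n) (Fin n) F))

/-- The arithmetic condition at `ord_r q = 1`. -/
def ScalarCond (F : Type*) (r n : ℕ) : Prop :=
  padicValNat r n ≤ padicValNat r (Nat.card F - 1) ∧ (r = 2 → Even n → Nat.card F % 4 = 1)

/-- An element has a `Q`-witness if the untwisted part and the twisted part have one. -/
theorem of_untwisted {n : ℕ} (hn : 0 < n) (Q : End F (Fin n → F) → Prop)
    (hQs : ∀ (f : End F (Fin n → F)) (w : F), w ≠ 0 → Q f → Q (w • f))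
    (x : Matrix.SpecialLinearGroup (Fin n) F)
    (hx : ∃ c : F, ((x ^ r : Matrix.SpecialLinearGroup (Fin n) F) : Matrix (Fin n) (Fin n) F) = c • (1 : Matrix (Fin n) (Fin n) F))
    (hc : ∀ c : F, (x : Matrix (Fin n) (Fin n) F) ≠ c • (1 : Matrix (Fin n) (Fin n) F))
    (hu : ∀ f : End F (Fin n → F), f ^ r = 1 → fixedSpace f ≠ ⊤ → Q f)
    (ht : ∀ (f : End F (Fin n → F)) (z : F), z ≠ 0 → (∀ w : F, w ^ r ≠ z) → f ^ r = z • 1 →
      LinearMap.det f = 1 → Q f) :
    Q (Matrix.toLin' (x : Matrix (Fin n) (Fin n) F)) := by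
  obtain ⟨z, hz⟩ := hx
  obtain ⟨hpow, hz0, hdet⟩ := SL_setup hn x hz
  by_cases hp : ∃ w : F, w ^ r = z
  · obtain ⟨w, rfl⟩ := hp
    have hw : w ≠ 0 := fun h => hz0 (by rw [h, zero_pow (Fact.out : r.Prime).ne_zero])
    have h1 := pow_smul_inv_eq_one _ hw hpow
    have h2 := hQs _ w hw (hu _ h1 fun htop => hc w (Matrix.toLin'.injective (LinearMap.ext fun v => ?_)))
    · rwa [smul_smul, mul_inv_cancel₀ hw, one_smul] at h2
    · have h3 := mem_fixedSpace.1 (htop ▸ Submodule.mem_top : v ∈ fixedSpace (w⁻¹ •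
        (Matrix.toLin' (x : Matrix (Fin n) (Fin n) F) : End F (Fin n → F))))
      rw [LinearMap.smul_apply, inv_smul_eq_iff₀ hw] at h3
      rw [h3, map_smul, Matrix.toLin'_one]
      rfl
  · push Not at hp
    exact ht _ z hz0 hp hpow hdet

/-- The fixed space of a nontrivial element misses at least `ord_r q` dimensions. -/
theorem finrank_fixed_add_le {n : ℕ} (hr : (r : F) ≠ 0) (f : End F (Fin n → F)) (hf : f ^ r = 1)
    (h : fixedSpace f ≠ ⊤) : finrank F (fixedSpace f) + orderOf (Nat.card F : ZMod r) ≤ n := by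
  have hc := Submodule.finrank_add_eq_of_isCompl (isCompl_fixed_moved hr f hf)
  rw [Module.finrank_fin_fun] at hc
  have hd := dvd_finrank_fpf hr f hf _ (movedSpace_inv f) (disjoint_fixed_moved hr f hf).symm
  have hlt := Submodule.finrank_lt h
  rw [Module.finrank_fin_fun] at hlt
  have := Nat.le_of_dvd (by omega) hd
  omega

/-- Elusiveness of `PSL_n(q)` on subspaces of dimension `m` at `r ≠ p`. -/
theorem elusive_subspace_iff (hr : (r : F) ≠ 0) {n m : ℕ} (hm : 1 ≤ m) (hmn : 2 * m ≤ n)
    (hdvd : r ∣ Nat.card {W : Submodule F (Fin n → F) // finrank F W = m}) :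
    ElusiveFor r n (fun f : End F (Fin n → F) => ∃ W : Submodule F (Fin n → F), finrank F W = m ∧ W.map f ≤ W) ↔
      ((orderOf (Nat.card F : ZMod r) = 1 ∧ (r ∣ m ∨ ScalarCond F r n)) ∨
       (2 ≤ orderOf (Nat.card F : ZMod r) ∧ orderOf (Nat.card F : ZMod r) ≤ m ∧
          m % orderOf (Nat.card F : ZMod r) ≤ n % orderOf (Nat.card F : ZMod r))) := by
  have hip := orderOf_pos_zmod (F := F) (r := r) hr
  constructor
  · intro h
    rcases eq_or_ne (orderOf (Nat.card F : ZMod r)) 1 with hi1 | hi1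
    · refine Or.inl ⟨hi1, ?_⟩
      by_contra hne
      push Not at hne
      obtain ⟨x, z, hz0, hz, hxz, hxc⟩ := exists_SL_twisted (r := r) (show 0 < n by omega)
        (dvd_sub_one_of_orderOf_eq_one hi1) hne.2
      obtain ⟨W, hWd, hW⟩ := h x ⟨z, hxz⟩ hxc
      exact hne.1 (hWd ▸ twisted_dvd_finrank hz0 hz _ (SL_setup (show 0 < n by omega) x hxz).1 W hW)
    · refine Or.inr ⟨by omega, ?_⟩
      by_contra hne
      rcases Nat.lt_or_ge m (orderOf (Nat.card F : ZMod r)) with him | him
      · by_cases hsmall : m ≤ n % orderOf (Nat.card F : ZMod r)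
        · obtain ⟨j, hj, hdj⟩ := exists_dvd_of_dvd_card_subspace hr (by rw [Module.finrank_fin_fun]; omega) hdvd
          rw [Module.finrank_fin_fun] at hdj
          have := Nat.mod_lt n hip
          have h0 := Nat.div_add_mod n (orderOf (Nat.card F : ZMod r))
          obtain ⟨c, hc⟩ := hdj
          generalize orderOf (Nat.card F : ZMod r) = i at *
          have : (n - j) % i = n % i - j := by
            rw [show n - j = (n % i - j) + i * (n / i) by omega, Nat.add_mul_mod_self_left,
              Nat.mod_eq_of_lt (by omega)]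
          rw [hc, Nat.mul_mod_right] at this
          omega
        · have hin : orderOf (Nat.card F : ZMod r) ≤ n := by
            by_contra h2; rw [Nat.mod_eq_of_lt (not_le.1 h2)] at hsmall; omega
          obtain ⟨x, hxz, hxc, hxr, hxe⟩ := exists_SL_min_fixed hr (by omega) hin
          have h1 := (exists_inv_finrank_iff_pow hr _ hxr (show m < finrank F (Fin n → F) by
            rw [Module.finrank_fin_fun]; omega)).1 (h x hxz hxc)
          rw [hxe] at h1
          omega
      · obtain ⟨x, hxz, hxc, hxr, hxe⟩ := exists_SL_min_fixed hr (show 2 ≤ _ by omega)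
          (show orderOf (Nat.card F : ZMod r) ≤ n by omega)
        have h1 := (exists_inv_finrank_iff_pow hr _ hxr (show m < finrank F (Fin n → F) by
          rw [Module.finrank_fin_fun]; omega)).1 (h x hxz hxc)
        rw [hxe] at h1
        have := Nat.mod_lt n hip
        omega
  · intro hcond x hx hxc
    refine of_untwisted (by omega)
      (fun f : End F (Fin n → F) => ∃ W : Submodule F (Fin n → F), finrank F W = m ∧ W.map f ≤ W)
      (fun f w hw ⟨W, h1, h2⟩ => ⟨W, h1, (map_le_smul_iff f hw W).2 h2⟩)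
      x hx hxc (fun f hf _ => ?_) (fun f z hz0 hz hf hdet => ?_)
    · refine (exists_inv_finrank_iff_pow hr f hf (by rw [Module.finrank_fin_fun]; omega)).2 (Or.inr ?_)
      have h1 := (mod_le_finrank_fixed hr f hf).1
      rw [Module.finrank_fin_fun] at h1
      rcases hcond with ⟨hi1, -⟩ | ⟨-, h2, h3⟩
      · rw [hi1]; simp [Nat.mod_one]; omega
      · exact ⟨h2, h3.trans h1⟩
    · rcases hcond with ⟨hi1, hrm | hcond⟩ | ⟨hi, -, -⟩
      · obtain ⟨l, rfl⟩ := hrm
        obtain ⟨W, h1, h2⟩ := twisted_exists_inv hz0 hz f hf l (by rw [Module.finrank_fin_fun, mul_comm]; omega)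
        exact ⟨W, by rw [h1, mul_comm], h2⟩
      · exact absurd hcond (not_cond_of_twisted (by omega) (dvd_sub_one_of_orderOf_eq_one hi1) f hz0 hz hf hdet)
      · obtain ⟨w, hw⟩ := exists_pow_eq hi z; exact absurd hw (hz w)

/-- Elusiveness of `PSL_n(q)` on flags of type `(m, n - m)` at `r ≠ p`. -/
theorem elusive_flag_iff (hr : (r : F) ≠ 0) {n m : ℕ} (hm : 1 ≤ m) (hmn : 2 * m < n)
    (hdvd : r ∣ Nat.card {P : Submodule F (Fin n → F) × Submodule F (Fin n → F) //
        P.1 ≤ P.2 ∧ finrank F P.1 = m ∧ finrank F P.2 = n - m}) :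
    ElusiveFor r n (fun f : End F (Fin n → F) => ∃ U W : Submodule F (Fin n → F), U ≤ W ∧ finrank F U = m ∧
        finrank F W = n - m ∧ U.map f ≤ U ∧ W.map f ≤ W) ↔
      ((orderOf (Nat.card F : ZMod r) = 1 ∧ (r ∣ m ∨ ScalarCond F r n)) ∨
       (2 ≤ orderOf (Nat.card F : ZMod r) ∧ orderOf (Nat.card F : ZMod r) ≤ m ∧
          2 * (m % orderOf (Nat.card F : ZMod r)) ≤ n % orderOf (Nat.card F : ZMod r))) := by
  have hip := orderOf_pos_zmod (F := F) (r := r) hr
  constructor
  · intro h
    rcases eq_or_ne (orderOf (Nat.card F : ZMod r)) 1 with hi1 | hi1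
    · refine Or.inl ⟨hi1, ?_⟩
      by_contra hne
      push Not at hne
      obtain ⟨x, z, hz0, hz, hxz, hxc⟩ := exists_SL_twisted (r := r) (show 0 < n by omega)
        (dvd_sub_one_of_orderOf_eq_one hi1) hne.2
      obtain ⟨U, W, -, hUd, -, hU, -⟩ := h x ⟨z, hxz⟩ hxc
      exact hne.1 (hUd ▸ twisted_dvd_finrank hz0 hz _ (SL_setup (show 0 < n by omega) x hxz).1 U hU)
    · refine Or.inr ⟨by omega, ?_⟩
      have key : orderOf (Nat.card F : ZMod r) ≤ n →
          2 * (m % orderOf (Nat.card F : ZMod r)) ≤ n % orderOf (Nat.card F : ZMod r) := by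
        intro hin
        obtain ⟨x, hxz, hxc, hxr, hxe⟩ := exists_SL_min_fixed hr (show 2 ≤ _ by omega) hin
        obtain ⟨U, W, hUW, hUd, hWd, hU, hW⟩ := h x hxz hxc
        have := flag_mod_le hr _ hxr hUW hUd (by rw [Module.finrank_fin_fun]; exact hWd) hU hW
        rwa [hxe] at this
      rcases Nat.lt_or_ge m (orderOf (Nat.card F : ZMod r)) with him | him
      · exfalso
        have hsmall : 2 * m ≤ n % orderOf (Nat.card F : ZMod r) := by
          rcases Nat.lt_or_ge n (orderOf (Nat.card F : ZMod r)) with h2 | h2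
          · rw [Nat.mod_eq_of_lt h2]; omega
          · have := key h2; rwa [Nat.mod_eq_of_lt him] at this
        have hV : finrank F (Fin n → F) = n := Module.finrank_fin_fun F
        have hfail : ∀ k j, k ≤ m → j < m → ¬ orderOf (Nat.card F : ZMod r) ∣ n - k - j := by
          intro k j hk hj hd
          have := Nat.mod_lt n hip
          have h0 := Nat.div_add_mod n (orderOf (Nat.card F : ZMod r))
          obtain ⟨c, hc⟩ := hd
          generalize orderOf (Nat.card F : ZMod r) = i at *
          have : (n - k - j) % i = n % i - k - j := by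
            rw [show n - k - j = (n % i - k - j) + i * (n / i) by omega, Nat.add_mul_mod_self_left,
              Nat.mod_eq_of_lt (by omega)]
          rw [hc, Nat.mul_mod_right] at this
          omega
        rcases dvd_card_of_dvd_card_flags (Fact.out : r.Prime) hdvd with h1 | ⟨W, hWd, h1⟩
        · have hs := card_subspace_symm (F := F) (V := Fin n → F) (show m ≤ finrank F (Fin n → F) by omega)
          rw [hV] at hs
          rw [hs] at h1
          obtain ⟨j, hj, hdj⟩ := exists_dvd_of_dvd_card_subspace hr (by omega) h1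
          rw [hV] at hdj
          exact hfail 0 j (by omega) hj (by simpa using hdj)
        · obtain ⟨j, hj, hdj⟩ := exists_dvd_of_dvd_card_subspace hr (by omega) h1
          rw [hWd] at hdj
          exact hfail m j le_rfl hj hdj
      · exact ⟨him, key (by omega)⟩
  · intro hcond x hx hxc
    refine of_untwisted (by omega) (fun f : End F (Fin n → F) => ∃ U W : Submodule F (Fin n → F), U ≤ W ∧
      finrank F U = m ∧ finrank F W = n - m ∧ U.map f ≤ U ∧ W.map f ≤ W)
      (fun f w hw ⟨U, W, h0, h1, h2, h3, h4⟩ =>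
        ⟨U, W, h0, h1, h2, (map_le_smul_iff f hw U).2 h3, (map_le_smul_iff f hw W).2 h4⟩)
      x hx hxc (fun f hf _ => ?_) (fun f z hz0 hz hf hdet => ?_)
    · have h1 : orderOf (Nat.card F : ZMod r) ≤ m ∧
          2 * (m % orderOf (Nat.card F : ZMod r)) ≤ n % orderOf (Nat.card F : ZMod r) := by
        rcases hcond with ⟨hi1, -⟩ | ⟨-, h2, h3⟩
        · rw [hi1]; simp [Nat.mod_one]; omega
        · exact ⟨h2, h3⟩
      have hV : finrank F (Fin n → F) = n := Module.finrank_fin_fun F
      obtain ⟨U, W, g1, g2, g3, g4, g5⟩ := exists_flag hr f hf (m := m) (by omega) h1.1 (by rw [hV]; exact h1.2)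
      exact ⟨U, W, g1, g2, by rwa [hV] at g3, g4, g5⟩
    · rcases hcond with ⟨hi1, hrm | hcond⟩ | ⟨hi, -, -⟩
      · obtain ⟨l, rfl⟩ := hrm
        obtain ⟨L, hL, -⟩ := twisted_det hz0 hz f hf
        rw [Module.finrank_fin_fun] at hL
        obtain ⟨W, hWd, hW⟩ := twisted_exists_inv hz0 hz f hf (L - l) (by
          rw [Module.finrank_fin_fun, hL]; exact Nat.mul_le_mul_right _ (Nat.sub_le _ _))
        have hWn : finrank F W = n - r * l := by rw [hWd, tsub_mul, hL, mul_comm l]
        have hWx : ∀ v ∈ W, f v ∈ W := fun v hv => hW ⟨v, hv, rfl⟩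
        obtain ⟨U, hUd, hU⟩ := twisted_exists_inv hz0 hz (f.restrict hWx : End F W)
          (restrict_pow_eq f W hWx hf) l (by rw [hWn, mul_comm l]; omega)
        refine ⟨U.map W.subtype, W, Submodule.map_subtype_le W U,
          by rw [Submodule.finrank_map_subtype_eq, hUd, mul_comm], hWn, ?_, hW⟩
        rintro _ ⟨_, ⟨u, hu, rfl⟩, rfl⟩
        exact ⟨_, hU ⟨u, hu, rfl⟩, rfl⟩
      · exact absurd hcond (not_cond_of_twisted (by omega) (dvd_sub_one_of_orderOf_eq_one hi1) f hz0 hz hf hdet)
      · obtain ⟨w, hw⟩ := exists_pow_eq hi z; exact absurd hw (hz w)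

end Cfsg.Agent.H97
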