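import Cfsg.Agent.H97.Basic

/-! Block decompositions of nilpotent operators: existence and uniqueness of the block sizes. -/

namespace Cfsg.Agent.H97

open Module

variable {F V : Type*} [Field F] [AddCommGroup V] [Module F V]

/-- The cyclic span of length `k` of `v`. -/
def blockSpan (N : End F V) (v : V) (k : ℕ) : Submodule F V :=
  Submodule.span F (Set.range fun i : Fin k => (N ^ (i : ℕ)) v)

/-- Inductively, `P` is a direct sum of cyclic `N`-blocks with sizes `μ`. -/
inductive Blocks (N : End F V) : Submodule F V → Multiset ℕ → Prop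
  | bot : Blocks N ⊥ 0
  | cons {P : Submodule F V} {μ : Multiset ℕ} (v : V) (k : ℕ) (hk : 0 < k) (htop : (N ^ k) v = 0)
      (hlast : (N ^ (k - 1)) v ≠ 0) (hd : Disjoint (blockSpan N v k) P) (h : Blocks N P μ) :
      Blocks N (blockSpan N v k ⊔ P) (k ::ₘ μ)

/-- Members of a cyclic span. -/
theorem mem_blockSpan {N : End F V} {v : V} {k i : ℕ} (h : (N ^ k) v = 0) : (N ^ i) v ∈ blockSpan N v k := by
  rcases Nat.lt_or_ge i k with hi | hi
  · exact Submodule.subset_span ⟨⟨i, hi⟩, rfl⟩
  · rw [show i = (i - k) + k by omega, pow_add, Module.End.mul_apply, h, map_zero]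
    exact Submodule.zero_mem _

/-- A cyclic span is invariant. -/
theorem blockSpan_inv {N : End F V} {v : V} {k : ℕ} (h : (N ^ k) v = 0) :
    (blockSpan N v k).map N ≤ blockSpan N v k := by
  rw [blockSpan, Submodule.map_span, Submodule.span_le]
  rintro _ ⟨_, ⟨i, rfl⟩, rfl⟩
  rw [← Module.End.mul_apply, ← pow_succ']
  exact mem_blockSpan h

/-- The iterates in a block are independent. -/
theorem blockSpan_linearIndependent {N : End F V} {v : V} {k : ℕ} (h : (N ^ k) v = 0) (h1 : (N ^ (k - 1)) v ≠ 0) :
    LinearIndependent F fun i : Fin k => (N ^ (i : ℕ)) v := by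
  rw [Fintype.linearIndependent_iff]
  intro g hg i
  obtain ⟨i, hi⟩ := i
  induction i using Nat.strong_induction_on with
  | _ i ih =>
    have h2 := congrArg (N ^ (k - 1 - i)) hg
    rw [map_sum, map_zero, Finset.sum_eq_single (⟨i, hi⟩ : Fin k)] at h2
    · rw [map_smul, ← Module.End.mul_apply, ← pow_add, show k - 1 - i + i = k - 1 by omega, smul_eq_zero] at h2
      exact h2.resolve_right h1
    · intro j _ hj
      rcases Nat.lt_trichotomy (j : ℕ) i with hlt | heq | hgt
      · rw [ih j hlt j.2, zero_smul, map_zero]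
      · exact absurd (Fin.ext heq) hj
      · rw [map_smul, ← Module.End.mul_apply, ← pow_add, show k - 1 - i + (j : ℕ) = ((j : ℕ) - i - 1) + k by omega,
          pow_add, Module.End.mul_apply, h, map_zero, smul_zero]
    · exact fun hn => absurd (Finset.mem_univ _) hn

theorem Blocks.inv {N : End F V} {P : Submodule F V} {μ : Multiset ℕ} (h : Blocks N P μ) : P.map N ≤ P := by
  induction h with
  | bot => simp
  | cons v k _ htop _ _ _ ih => exact map_sup_le (blockSpan_inv htop) ih

theorem Blocks.pos {N : End F V} {P : Submodule F V} {μ : Multiset ℕ} (h : Blocks N P μ) : ∀ a ∈ μ, 0 < a := by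
  induction h with
  | bot => simp
  | cons v k hk _ _ _ _ ih =>
    intro a ha
    rcases Multiset.mem_cons.1 ha with rfl | ha
    exacts [hk, ih a ha]

/-- Block sizes are bounded by the nilpotency index. -/
theorem Blocks.le {N : End F V} {P : Submodule F V} {μ : Multiset ℕ} (h : Blocks N P μ) {m : ℕ}
    (hm : N ^ m = 0) : ∀ a ∈ μ, a ≤ m := by
  induction h with
  | bot => simp
  | cons v k hk _ hlast _ _ ih =>
    simp only [Multiset.mem_cons, forall_eq_or_imp]
    refine ⟨?_, ih⟩
    by_contra hlt
    refine hlast ?_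
    rw [show k - 1 = (k - 1 - m) + m by omega, pow_add, hm, mul_zero, LinearMap.zero_apply]

/-- Independent block families combine. -/
theorem Blocks.sup {N : End F V} {P Q : Submodule F V} {μ ν : Multiset ℕ} (hP : Blocks N P μ) (hQ : Blocks N Q ν)
    (hd : Disjoint P Q) : Blocks N (P ⊔ Q) (μ + ν) := by
  induction hP with
  | bot => simpa using hQ
  | @cons P μ v k hk htop hlast hdis _ ih =>
    rw [sup_assoc, Multiset.cons_add]
    exact .cons v k hk htop hlast (hdis.disjoint_sup_right_of_disjoint_sup_left hd)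
      (ih (hd.mono_left le_sup_right))

variable [FiniteDimensional F V]

theorem blockSpan_finrank {N : End F V} {v : V} {k : ℕ} (h : (N ^ k) v = 0) (h1 : (N ^ (k - 1)) v ≠ 0) :
    finrank F (blockSpan N v k) = k := by
  rw [blockSpan, finrank_span_eq_card (blockSpan_linearIndependent h h1), Fintype.card_fin]

theorem Blocks.finrank_eq {N : End F V} {P : Submodule F V} {μ : Multiset ℕ} (h : Blocks N P μ) :
    finrank F P = μ.sum := by
  induction h with
  | bot => simp
  | cons v k hk htop hlast hd _ ih =>
    have h1 := Submodule.finrank_sup_add_finrank_inf_eq (blockSpan N v k) ‹Submodule F V›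
    rw [hd.eq_bot, finrank_bot, add_zero, blockSpan_finrank htop hlast] at h1
    rw [h1, ih, Multiset.sum_cons]

/-- Every invariant subspace of a nilpotent operator decomposes into blocks. -/
theorem exists_blocks (N : End F V) {m : ℕ} (hN : N ^ m = 0) :
    ∀ P : Submodule F V, (∀ v ∈ P, N v ∈ P) → ∃ μ, Blocks N P μ := by
  classical
  intro P
  induction hn : finrank F P using Nat.strong_induction_on generalizing P with
  | _ n ih =>
    subst hn
    intro hP
    by_cases hP0 : P = ⊥
    · exact ⟨0, hP0 ▸ .bot⟩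
    obtain ⟨v₀, hv₀, hv₀0⟩ := (Submodule.ne_bot_iff P).1 hP0
    -- the largest exponent acting nontrivially on `P`
    have hex : ∃ k, ∀ v ∈ P, (N ^ k) v = 0 := ⟨m, fun v _ => by rw [hN]; rfl⟩
    set k := Nat.find hex
    have hk : ∀ v ∈ P, (N ^ k) v = 0 := Nat.find_spec hex
    have hkpos : 0 < k := Nat.pos_of_ne_zero fun h => hv₀0 (by simpa [h] using hk v₀ hv₀)
    obtain ⟨v, hv, hlast⟩ : ∃ v ∈ P, (N ^ (k - 1)) v ≠ 0 := by
      have h := Nat.find_min hex (show k - 1 < k by omega)
      push Not at h; exact h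
    obtain ⟨φ, hφ, -⟩ := Submodule.exists_dual_map_eq_bot_of_notMem (x := (N ^ (k - 1)) v)
      (p := (⊥ : Submodule F V)) (by simpa using hlast) inferInstance
    let L : V →ₗ[F] (Fin k → F) := LinearMap.pi fun i => φ ∘ₗ (N ^ (i : ℕ))
    have hL : ∀ c : Fin k → F, L (∑ i, c i • (N ^ (i : ℕ)) v) = 0 → c = 0 := by
      intro c hc
      funext ⟨i, hi⟩
      induction i using Nat.strong_induction_on with
      | _ i ihi =>
        have h2 := congr_fun hc (⟨k - 1 - i, by omega⟩ : Fin k)
        simp only [L, LinearMap.pi_apply, LinearMap.comp_apply, map_sum, map_smul, Pi.zero_apply] at h2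
        rw [Finset.sum_eq_single (⟨i, hi⟩ : Fin k)] at h2
        · rw [← Module.End.mul_apply, ← pow_add, show k - 1 - i + i = k - 1 by omega, smul_eq_zero] at h2
          exact h2.resolve_right hφ
        · intro j _ hj
          rcases Nat.lt_trichotomy (j : ℕ) i with hlt | heq | hgt
          · rw [show c j = 0 from ihi j hlt j.2, zero_smul]
          · exact absurd (Fin.ext heq) hj
          · rw [← Module.End.mul_apply, ← pow_add,
              show k - 1 - i + (j : ℕ) = ((j : ℕ) - i - 1) + k by omega, pow_add, Module.End.mul_apply,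
              hk v hv, map_zero, map_zero, smul_zero]
        · exact fun hn => absurd (Finset.mem_univ _) hn
    set C := blockSpan N v k
    have hCP : C ≤ P := Submodule.span_le.2 (by
      rintro _ ⟨i, rfl⟩
      have : ∀ j : ℕ, (N ^ j) v ∈ P := fun j => by
        induction j with
        | zero => exact hv
        | succ j ihj => rw [pow_succ', Module.End.mul_apply]; exact hP _ ihj
      exact this _)
    have hd : Disjoint C (P ⊓ LinearMap.ker L) := by
      rw [Submodule.disjoint_def]
      rintro y hy ⟨-, hyL⟩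
      obtain ⟨c, rfl⟩ := (Submodule.mem_span_range_iff_exists_fun F).1 hy
      simp [hL c hyL]
    have hQinv : ∀ y ∈ P ⊓ LinearMap.ker L, N y ∈ P ⊓ LinearMap.ker L := by
      rintro y ⟨hyP, hyL⟩
      refine ⟨hP y hyP, ?_⟩
      funext i
      show φ ((N ^ (i : ℕ)) (N y)) = 0
      rw [← Module.End.mul_apply, ← pow_succ]
      rcases Nat.lt_or_ge ((i : ℕ) + 1) k with hi | hi
      · exact congr_fun hyL ⟨_, hi⟩
      · rw [show (i : ℕ) + 1 = k by omega, hk y hyP, map_zero]
    have hsum : C ⊔ (P ⊓ LinearMap.ker L) = P := by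
      refine Submodule.eq_of_le_of_finrank_le (sup_le hCP inf_le_left) ?_
      have h1 := Submodule.finrank_sup_add_finrank_inf_eq C (P ⊓ LinearMap.ker L)
      rw [hd.eq_bot, finrank_bot, add_zero, blockSpan_finrank (hk v hv) hlast] at h1
      have h2 := LinearMap.finrank_range_add_finrank_ker (L.domRestrict P)
      have h3 := Submodule.finrank_le (LinearMap.range (L.domRestrict P))
      rw [Module.finrank_fin_fun] at h3
      have h4 : finrank F (LinearMap.ker (L.domRestrict P)) ≤ finrank F ↥(P ⊓ LinearMap.ker L) := by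
        rw [← Submodule.finrank_map_subtype_eq]
        refine Submodule.finrank_mono ?_
        rintro _ ⟨y, hy, rfl⟩
        exact ⟨y.2, hy⟩
      omega
    have hlt : finrank F ↥(P ⊓ LinearMap.ker L) < finrank F P := by
      refine Submodule.finrank_lt_finrank_of_lt (lt_of_le_of_ne inf_le_left fun he => ?_)
      have := congr_fun (he.ge hv).2 (⟨k - 1, by omega⟩ : Fin k)
      exact hφ this
    obtain ⟨μ, hμ⟩ := ih _ hlt _ rfl hQinv
    exact ⟨k ::ₘ μ, hsum ▸ .cons v k hkpos (hk v hv) hlast hd hμ⟩

/-- Any sub-multiset of block sizes gives complementary invariant subspaces. -/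
theorem Blocks.exists_split {N : End F V} {P : Submodule F V} {μ : Multiset ℕ} (h : Blocks N P μ) :
    ∀ ν ≤ μ, ∃ U W : Submodule F V, Blocks N U ν ∧ Blocks N W (μ - ν) ∧ Disjoint U W ∧ U ⊔ W = P := by
  classical
  induction h with
  | bot => exact fun ν hν => ⟨⊥, ⊥, Multiset.le_zero.1 hν ▸ .bot, by rw [zero_tsub]; exact .bot, by simp, by simp⟩
  | @cons P μ v k hk htop hlast hd hB ih =>
    intro ν hν
    by_cases hkν : k ∈ ν
    · obtain ⟨ν', rfl⟩ := Multiset.exists_cons_of_mem hkν
      obtain ⟨U, W, hU, hW, hUW, hsum⟩ := ih ν' ((Multiset.cons_le_cons_iff k).1 hν)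
      refine ⟨blockSpan N v k ⊔ U, W, .cons v k hk htop hlast (hd.mono_right (hsum ▸ le_sup_left)) hU, ?_, ?_,
        by rw [sup_assoc, hsum]⟩
      · simpa using hW
      · exact Disjoint.disjoint_sup_left_of_disjoint_sup_right hUW (hsum ▸ hd)
    · obtain ⟨U, W, hU, hW, hUW, hsum⟩ := ih ν (((Multiset.le_cons_of_notMem hkν).1 hν))
      refine ⟨U, blockSpan N v k ⊔ W, hU, ?_, ?_, by rw [← hsum]; ac_rfl⟩
      · rw [Multiset.cons_sub_of_le k (((Multiset.le_cons_of_notMem hkν).1 hν))]
        exact .cons v k hk htop hlast (hd.mono_right (hsum ▸ le_sup_right)) hW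
      · rw [sup_comm]
        exact hUW.disjoint_sup_right_of_disjoint_sup_left (hsum ▸ hd.symm)

/-- Kernel layer of a block. -/
noncomputable def kerLayer (N : End F V) (P : Submodule F V) (j : ℕ) : ℕ := finrank F ↥(P.map (N ^ j) ⊓ LinearMap.ker N)

omit [FiniteDimensional F V] in
/-- A combination of iterates killed by `N` only involves the last one. -/
theorem coeff_zero_of_ker {N : End F V} {v : V} {k : ℕ} (h : (N ^ k) v = 0) (h1 : (N ^ (k - 1)) v ≠ 0)
    (g : Fin k → F) (hg : N (∑ i, g i • (N ^ (i : ℕ)) v) = 0) (i : Fin k) (hi : (i : ℕ) + 1 < k) : g i = 0 := by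
  obtain ⟨k', rfl⟩ : ∃ k', k = k' + 1 := ⟨k - 1, by omega⟩
  have hLI := blockSpan_linearIndependent h h1
  let g' : Fin (k' + 1) → F := Fin.cons 0 fun j => g j.castSucc
  have hsum : ∑ j, g' j • (N ^ (j : ℕ)) v = 0 := by
    rw [Fin.sum_univ_succ]
    simp only [g', Fin.cons_zero, zero_smul, zero_add, Fin.cons_succ, Fin.val_succ]
    rw [map_sum, Fin.sum_univ_castSucc] at hg
    simp only [map_smul, ← Module.End.mul_apply, ← pow_succ', Fin.val_castSucc, Fin.val_last, h, smul_zero,
      add_zero] at hg
    exact hg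
  have := Fintype.linearIndependent_iff.1 hLI g' hsum (Fin.succ ⟨i, by omega⟩)
  simpa [g', -Fin.succ_mk] using this

/-- The layers count the blocks of size exceeding the layer index. -/
theorem Blocks.kerLayer_eq {N : End F V} {P : Submodule F V} {μ : Multiset ℕ} (h : Blocks N P μ) (j : ℕ) :
    kerLayer N P j = Multiset.card (μ.filter fun k => j < k) := by
  induction h with
  | bot => simp [kerLayer]
  | @cons P μ v k hk htop hlast hd hB ih =>
    have hCinv : ∀ y ∈ blockSpan N v k, N y ∈ blockSpan N v k := fun y hy => blockSpan_inv htop ⟨y, hy, rfl⟩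
    have hPinv : ∀ y ∈ P, N y ∈ P := fun y hy => hB.inv ⟨y, hy, rfl⟩
    have hpowC : ∀ (i : ℕ), ∀ y ∈ blockSpan N v k, (N ^ i) y ∈ blockSpan N v k := by
      intro i
      induction i with
      | zero => exact fun y hy => hy
      | succ i ihi => intro y hy; rw [pow_succ', Module.End.mul_apply]; exact hCinv _ (ihi y hy)
    have hpowP : ∀ (i : ℕ), ∀ y ∈ P, (N ^ i) y ∈ P := by
      intro i
      induction i with
      | zero => exact fun y hy => hy
      | succ i ihi => intro y hy; rw [pow_succ', Module.End.mul_apply]; exact hPinv _ (ihi y hy)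
    have hCd : (blockSpan N v k).map (N ^ j) ≤ blockSpan N v k := by
      rintro _ ⟨y, hy, rfl⟩; exact hpowC j y hy
    have hPd : P.map (N ^ j) ≤ P := by rintro _ ⟨y, hy, rfl⟩; exact hpowP j y hy
    have hsplit : (blockSpan N v k ⊔ P).map (N ^ j) ⊓ LinearMap.ker N =
        ((blockSpan N v k).map (N ^ j) ⊓ LinearMap.ker N) ⊔ (P.map (N ^ j) ⊓ LinearMap.ker N) := by
      refine le_antisymm ?_ (sup_le (inf_le_inf_right _ (Submodule.map_mono le_sup_left))
        (inf_le_inf_right _ (Submodule.map_mono le_sup_right)))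
      rintro y ⟨hy, hker⟩
      rw [Submodule.map_sup] at hy
      obtain ⟨c, hc, p, hp, rfl⟩ := Submodule.mem_sup.1 hy
      have h0 : N c + N p = 0 := by rw [← map_add]; exact hker
      have hc0 : N c = 0 := Submodule.disjoint_def.1 hd _ (hCinv _ (hCd hc))
        (by rw [eq_neg_of_add_eq_zero_left h0]; exact P.neg_mem (hPinv _ (hPd hp)))
      have hp0 : N p = 0 := by rwa [hc0, zero_add] at h0
      exact Submodule.add_mem_sup ⟨hc, hc0⟩ ⟨hp, hp0⟩
    have hCk : finrank F ↥((blockSpan N v k).map (N ^ j) ⊓ LinearMap.ker N) = if j < k then 1 else 0 := by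
      have hLI := blockSpan_linearIndependent htop hlast
      split_ifs with hj
      · have heq : (blockSpan N v k).map (N ^ j) ⊓ LinearMap.ker N = Submodule.span F {(N ^ (k - 1)) v} := by
          refine le_antisymm ?_ ((Submodule.span_singleton_le_iff_mem _ _).2 ⟨?_, ?_⟩)
          · rintro _ ⟨⟨y, hy, rfl⟩, hker⟩
            obtain ⟨g, hg⟩ := (Submodule.mem_span_range_iff_exists_fun F).1 (hpowC j y hy)
            rw [← hg] at hker ⊢
            refine Submodule.sum_mem _ fun i _ => ?_
            rcases Nat.lt_or_ge ((i : ℕ) + 1) k with hi | hi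
            · rw [coeff_zero_of_ker htop hlast g hker i hi, zero_smul]; exact Submodule.zero_mem _
            · rw [show (i : ℕ) = k - 1 by omega]
              exact Submodule.smul_mem _ _ (Submodule.mem_span_singleton_self _)
          · exact ⟨(N ^ (k - 1 - j)) v, mem_blockSpan htop, by
              rw [← Module.End.mul_apply, ← pow_add, show j + (k - 1 - j) = k - 1 by omega]⟩
          · show N ((N ^ (k - 1)) v) = 0
            rw [← Module.End.mul_apply, ← pow_succ', show k - 1 + 1 = k by omega, htop]
        rw [heq, finrank_span_singleton hlast]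
      · have heq : (blockSpan N v k).map (N ^ j) = ⊥ := by
          rw [blockSpan, Submodule.map_span, Submodule.span_eq_bot]
          rintro _ ⟨_, ⟨i, rfl⟩, rfl⟩
          rw [← Module.End.mul_apply, ← pow_add, show j + (i : ℕ) = (j + i - k) + k by omega, pow_add,
            Module.End.mul_apply, htop, map_zero]
        rw [heq, bot_inf_eq, finrank_bot]
    have h1 := Submodule.finrank_sup_add_finrank_inf_eq ((blockSpan N v k).map (N ^ j) ⊓ LinearMap.ker N)
      (P.map (N ^ j) ⊓ LinearMap.ker N)
    rw [((hd.mono hCd hPd).mono inf_le_left inf_le_left).eq_bot, finrank_bot, add_zero, hCk] at h1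
    unfold kerLayer at ih ⊢
    rw [hsplit, h1, ih, Multiset.filter_cons]
    split_ifs <;> simp [add_comm]

/-- The block sizes are unique. -/
theorem Blocks.unique {N : End F V} {P : Submodule F V} {μ ν : Multiset ℕ} (h : Blocks N P μ) (h' : Blocks N P ν) :
    μ = ν := by
  ext b
  rcases Nat.eq_zero_or_pos b with rfl | hb
  · rw [Multiset.count_eq_zero.2 fun hm => lt_irrefl 0 (h.pos 0 hm),
      Multiset.count_eq_zero.2 fun hm => lt_irrefl 0 (h'.pos 0 hm)]
  · have key : ∀ ρ : Multiset ℕ, Multiset.card (ρ.filter fun k => b - 1 < k) =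
        ρ.count b + Multiset.card (ρ.filter fun k => b < k) := by
      intro ρ
      induction ρ using Multiset.induction with
      | empty => simp
      | cons a ρ ih =>
        simp only [Multiset.filter_cons, Multiset.count_cons, Multiset.card_add]
        rw [apply_ite Multiset.card, apply_ite Multiset.card]
        simp only [Multiset.card_singleton, Multiset.card_zero]
        split_ifs <;> omega
    have h1 := key μ
    have h2 := key ν
    rw [← h.kerLayer_eq, ← h.kerLayer_eq] at h1
    rw [← h'.kerLayer_eq, ← h'.kerLayer_eq] at h2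
    omega

/-- A complemented invariant pair has sub-multisets of block sizes. -/
theorem Blocks.exists_sub {N : End F V} {m : ℕ} (hN : N ^ m = 0) {μ : Multiset ℕ}
    (h : Blocks N ⊤ μ) {U W : Submodule F V} (hc : IsCompl U W) (hU : ∀ v ∈ U, N v ∈ U) (hW : ∀ v ∈ W, N v ∈ W) :
    ∃ ν ≤ μ, ν.sum = finrank F U := by
  obtain ⟨ν, hν⟩ := exists_blocks N hN U hU
  obtain ⟨ρ, hρ⟩ := exists_blocks N hN W hW
  have := h.unique (hc.sup_eq_top ▸ hν.sup hρ hc.disjoint)
  exact ⟨ν, this ▸ Multiset.le_add_right ν ρ, hν.finrank_eq.symm⟩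

omit [FiniteDimensional F V] in
/-- Injective intertwining maps transport block families. -/
theorem Blocks.map {W : Type*} [AddCommGroup W] [Module F W] {N : End F V} {N' : End F W} (f : V →ₗ[F] W)
    (hf : Function.Injective f) (hc : ∀ x, f (N x) = N' (f x)) {P : Submodule F V} {μ : Multiset ℕ}
    (h : Blocks N P μ) : Blocks N' (P.map f) μ := by
  have hpow : ∀ (i : ℕ) x, f ((N ^ i) x) = (N' ^ i) (f x) := by
    intro i
    induction i with
    | zero => simp
    | succ i ih => intro x; rw [pow_succ', pow_succ', Module.End.mul_apply, Module.End.mul_apply, hc, ih]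
  induction h with
  | bot => rw [Submodule.map_bot]; exact .bot
  | @cons P μ v k hk htop hlast hd hB ih =>
    have hspan : (blockSpan N v k).map f = blockSpan N' (f v) k := by
      rw [blockSpan, blockSpan, Submodule.map_span, ← Set.range_comp]
      congr 2
      funext i
      exact hpow _ v
    rw [Submodule.map_sup, hspan]
    refine .cons (f v) k hk (by rw [← hpow, htop, map_zero]) ?_ ?_ ih
    · rw [← hpow]; exact (map_ne_zero_iff f hf).2 hlast
    · rw [← hspan]; exact Submodule.disjoint_map hf hd

/-- The shift on coordinate vectors. -/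
def shiftEnd (F : Type*) [Field F] (k : ℕ) : End F (Fin k → F) where
  toFun g j := if (j : ℕ) = 0 then 0 else g ⟨j - 1, by omega⟩
  map_add' a b := by funext j; simp only [Pi.add_apply]; split_ifs <;> simp
  map_smul' c a := by funext j; simp only [Pi.smul_apply, RingHom.id_apply]; split_ifs <;> simp

/-- One block. -/
theorem shiftEnd_blocks (F : Type*) [Field F] {k : ℕ} (hk : 0 < k) :
    Blocks (shiftEnd F k) ⊤ {k} := by
  classical
  let v : Fin k → F := Pi.single ⟨0, hk⟩ 1
  have hit : ∀ i : ℕ, ∀ j : Fin k, ((shiftEnd F k ^ i) v) j = if (j : ℕ) = i then 1 else 0 := by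
    intro i
    induction i with
    | zero => intro j; simp [v, Pi.single_apply, Fin.ext_iff]
    | succ i ih =>
      intro j
      rw [pow_succ', Module.End.mul_apply]
      show (if (j : ℕ) = 0 then 0 else ((shiftEnd F k ^ i) v) ⟨j - 1, _⟩) = _
      rw [ih]
      split_ifs <;> first | rfl | omega | (exfalso; omega) | (simp at *; omega)
  have htop : (shiftEnd F k ^ k) v = 0 := by
    funext j; rw [hit, if_neg (by omega)]; rfl
  have hlast : (shiftEnd F k ^ (k - 1)) v ≠ 0 := fun h => by
    have := congr_fun h ⟨k - 1, by omega⟩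
    rw [hit] at this; simp at this
  have h := Blocks.cons v k hk htop hlast disjoint_bot_right (Blocks.bot (N := shiftEnd F k))
  have heq : blockSpan (shiftEnd F k) v k ⊔ ⊥ = ⊤ := by
    rw [sup_bot_eq]
    exact Submodule.eq_top_of_finrank_eq (by rw [blockSpan_finrank htop hlast, Module.finrank_fin_fun])
  rw [heq] at h
  simpa using h

/-- Every multiset of positive sizes occurs. -/
theorem exists_nilpotent_blocks (F : Type*) [Field F] :
    ∀ μ : Multiset ℕ, (∀ a ∈ μ, 0 < a) →
      ∃ N : End F (Fin μ.sum → F), Blocks N ⊤ μ := by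
  intro μ
  induction μ using Multiset.induction with
  | empty =>
    intro _
    refine ⟨0, ?_⟩
    rw [show (⊤ : Submodule F (Fin (Multiset.sum 0) → F)) = ⊥ from ?_]
    · exact .bot
    · refine (Submodule.eq_bot_iff _).2 fun x _ => funext fun i => ?_
      exact absurd i.2 (by simp)
  | cons k μ ih =>
    intro hpos
    obtain ⟨N, hN⟩ := ih fun a ha => hpos a (Multiset.mem_cons_of_mem ha)
    have hk := hpos k (Multiset.mem_cons_self k μ)
    have e : ((Fin k → F) × (Fin μ.sum → F)) ≃ₗ[F] (Fin (k ::ₘ μ).sum → F) :=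
      LinearEquiv.ofFinrankEq _ _ (by simp [Module.finrank_fin_fun])
    let N' : End F ((Fin k → F) × (Fin μ.sum → F)) := (shiftEnd F k).prodMap N
    refine ⟨e.conj N', ?_⟩
    have h1 := (shiftEnd_blocks F hk).map (N' := N') (LinearMap.inl F _ _) LinearMap.inl_injective
      (fun x => by simp [N'])
    have h2 := hN.map (N' := N') (LinearMap.inr F _ _) LinearMap.inr_injective (fun x => by simp [N'])
    have h3 := h1.sup h2 (by
      rw [Submodule.map_top, Submodule.map_top]
      exact (LinearMap.isCompl_range_inl_inr).disjoint)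
    rw [Submodule.map_top, Submodule.map_top, LinearMap.isCompl_range_inl_inr.sup_eq_top] at h3
    have h4 := h3.map (N' := e.conj N') e.toLinearMap e.injective (fun x => by simp [LinearEquiv.conj_apply])
    rw [Submodule.map_top, LinearEquiv.range, Multiset.singleton_add] at h4
    exact h4

end Cfsg.Agent.H97
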