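import Cfsg.Agent.H97.OrthPieces

set_option autoImplicit false

/-!
# The arithmetic of the elusiveness criteria for orthogonal groups
-/

namespace Cfsg.Agent.H97

variable {c n m : ℕ}

theorem div_mod_of_lt (hc : 0 < c) {a f : ℕ} (hf : f < c) (h : f + c * a = m) : m % c = f ∧ m / c = a :=
  ((Nat.div_mod_unique hc).2 ⟨h, hf⟩).symm

theorem lt_div_succ (hc : 0 < c) : n < c * (n / c + 1) := by
  rw [mul_add, mul_one]
  have := Nat.div_add_mod n c
  have := Nat.mod_lt n hc
  omega

/-- The shapes of a `l`-element and of a fixed even-dimensional subspace. -/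
def ShapeEE (i c n m : ℕ) (PQ τ : Prop) (l : ℕ) : Prop :=
  ∃ l' j, l' ≤ l ∧ 2 * j + c * l' = m ∧ 2 * j + c * l ≤ n ∧ (j = 0 → (SgnPlus i l' ↔ τ)) ∧
    (2 * j + c * l = n → j ≠ 0 → (((PQ ↔ SgnPlus i l) ↔ SgnPlus i l') ↔ τ))

theorem iff_flip_aux {P A B E T : Prop} (h1 : ¬ (P ↔ (A ↔ E))) (h2 : ¬ ((B ↔ E) ↔ T)) : ((P ↔ A) ↔ B) ↔ T := by
  by_cases E <;> by_cases A <;> by_cases B <;> by_cases P <;> simp_all

theorem shapeEE_all {i : ℕ} (hc2 : 2 ∣ c) (hc : 0 < c) (PQ τ : Prop) (hne : Even n) (hme : Even m) (hm : 0 < m)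
    (hmn : m < n)
    (hcount : m < c → (0 < n % c ∧ n % c < m) ∨ (n % c = m ∧ ¬ ((PQ ↔ SgnPlus i (n / c)) ↔ τ)) ∨
      (n % c = 0 ∧ (PQ ↔ SgnPlus i (n / c)))) :
    (∀ l, 1 ≤ l → c * l ≤ n → (c * l = n → (PQ ↔ SgnPlus i l)) → ShapeEE i c n m PQ τ l) ↔
      ((n % c = 0 ∧ (¬ (PQ ↔ SgnPlus i (n / c)) ∨ (m % c = 0 ∧ (SgnPlus i (m / c) ↔ τ)))) ∨
       (c ≤ m ∧ 0 < n % c ∧ ((0 < m % c ∧ m % c < n % c) ∨
          (m % c = n % c ∧ ((PQ ↔ SgnPlus i (n / c + m / c)) ↔ τ)) ∨
          (m % c = 0 ∧ (SgnPlus i (m / c) ↔ τ))))) := by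
  classical
  obtain ⟨e, he⟩ := hc2
  have hn := Nat.div_add_mod n c
  have hm' := Nat.div_add_mod m c
  have hk := Nat.mod_lt n hc
  have hl := Nat.mod_lt m hc
  set L := n / c
  set M := m / c
  set k := n % c
  set s := m % c
  have hsplit : ∀ x y, ((PQ ↔ SgnPlus i (x + y)) ↔ τ) ↔ (((PQ ↔ SgnPlus i x) ↔ SgnPlus i y) ↔ τ) := fun x y => by
    rw [sgnPlus_add]; exact iff_congr iff_assoc.symm Iff.rfl
  have hL1 : 1 ≤ L := by
    rcases Nat.eq_zero_or_pos L with h | h
    · rw [h, mul_zero, zero_add] at hn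
      have hcn : n < c := by omega
      rcases hcount (by omega) with h1 | h1 | h1 <;> omega
    · exact h
  have hcmul : ∀ {x y : ℕ}, x + 1 ≤ y → c * x + c ≤ c * y := fun {x y} h => by
    have := Nat.mul_le_mul_left c h
    rw [mul_add, mul_one] at this
    exact this
  have hML : M ≤ L := Nat.div_le_div_right hmn.le
  constructor
  · intro H
    rcases Nat.eq_zero_or_pos k with hk0 | hk0
    · refine Or.inl ⟨hk0, ?_⟩
      by_cases hPQ : PQ ↔ SgnPlus i L
      · right
        obtain ⟨l', j, -, h1, h2, h3, -⟩ := H L hL1 (by omega) fun _ => hPQ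
        obtain rfl : j = 0 := by omega
        obtain ⟨h4, h5⟩ := div_mod_of_lt hc (show 2 * 0 < c by omega) h1
        exact ⟨h4, (show M = l' from h5).symm ▸ h3 rfl⟩
      · exact Or.inl hPQ
    · obtain ⟨l', j, -, h1, h2, h3, h4⟩ := H L hL1 (by omega) fun h => absurd h (by omega)
      obtain ⟨h5, h6⟩ : s = 2 * j ∧ M = l' := div_mod_of_lt hc (show 2 * j < c by omega) h1
      have hcm : c ≤ m := by
        by_contra hlt
        have hM0 : M = 0 := Nat.div_eq_of_lt (by omega)
        rw [hM0, mul_zero, zero_add] at hm'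
        rcases hcount (by omega) with g | ⟨g1, g2⟩ | g
        · omega
        · refine g2 ?_
          have := h4 (by omega) (by omega)
          rw [← h6, hM0] at this
          simpa [sgnPlus_zero] using this
        · omega
      refine Or.inr ⟨hcm, hk0, ?_⟩
      rcases Nat.eq_zero_or_pos j with hj | hj
      · exact Or.inr (Or.inr ⟨by omega, h6 ▸ h3 hj⟩)
      · rcases Nat.lt_or_ge s k with hlt | hge
        · exact Or.inl ⟨by omega, hlt⟩
        · refine Or.inr (Or.inl ⟨by omega, (hsplit _ _).2 ?_⟩)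
          rw [h6]
          exact h4 (by omega) (by omega)
  · intro H l hl1 hln htype
    have hlL : l ≤ L := by
      rw [Nat.le_div_iff_mul_le hc, mul_comm]; exact hln
    have hbig : M ≤ l ∨ (l < M ∧ c * l + c ≤ c * M) := by
      rcases Nat.lt_or_ge l M with h | h
      · exact Or.inr ⟨h, hcmul h⟩
      · exact Or.inl h
    -- strictly inside the fixed space
    have interior : ∀ l' v, l' ≤ l → v + c * l' = m → Even v → 0 < v → v + c * l < n →
        ShapeEE i c n m PQ τ l := by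
      rintro l' v h1 h2 ⟨j, rfl⟩ h3 h4
      exact ⟨l', j, h1, by omega, by omega, fun h => absurd h (by omega), fun h => absurd h (by omega)⟩
    have hse : Even s := by
      have : Even (c * M + s) := hm'.symm ▸ hme
      exact (Nat.even_add.1 this).1 (even_iff_two_dvd.2 (Dvd.dvd.mul_right ⟨e, he⟩ _))
    have hme' : ∀ x, Even (m - c * x) := fun x => by
      rw [even_iff_two_dvd]; exact Nat.dvd_sub hme.two_dvd (Dvd.dvd.mul_right ⟨e, he⟩ _)
    have caseA : 0 < s → s + c * l < n → ShapeEE i c n m PQ τ l := fun hs0 hs => by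
      rcases hbig with h | ⟨h, h'⟩
      · exact interior M s h (by omega) hse hs0 hs
      · exact interior l (m - c * l) le_rfl (by omega) (hme' l) (by omega) (by omega)
    have caseB : s = 0 → c + c * l < n → ShapeEE i c n m PQ τ l := fun hs0 hs => by
      obtain ⟨M', hM'⟩ : ∃ M', M = M' + 1 := ⟨M - 1, by
        rcases Nat.eq_zero_or_pos M with h | h
        · rw [h, mul_zero] at hm'; omega
        · omega⟩
      have hM2 : c * M = c * M' + c := by rw [hM', mul_add, mul_one]
      rcases hbig with h | ⟨h, h'⟩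
      · exact interior M' c (by omega) (by omega) ⟨e, by omega⟩ hc hs
      · exact interior l (m - c * l) le_rfl (by omega) (hme' l) (by omega) (by omega)
    rcases hlL.lt_or_eq with hlt | rfl
    · have h1 := hcmul hlt
      by_cases hedge : s = 0 ∧ c + c * l = n
      swap
      · rcases Nat.eq_zero_or_pos s with h | h
        · exact caseB h (by omega)
        · exact caseA h (by omega)
      obtain ⟨hs0, hfc⟩ := hedge
      have hk0 : k = 0 := by omega
      have hLl : l + 1 = L := by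
        have : c * (l + 1) = c * L := by rw [mul_add, mul_one]; omega
        exact Nat.eq_of_mul_eq_mul_left hc this
      have hMl : M ≤ l := by
        rcases hbig with h | ⟨h, h'⟩
        · exact h
        · omega
      obtain ⟨M', hM'⟩ : ∃ M', M = M' + 1 := ⟨M - 1, by
        rcases Nat.eq_zero_or_pos M with h | h
        · rw [h, mul_zero] at hm'; omega
        · omega⟩
      have hM2 : c * M = c * M' + c := by rw [hM', mul_add, mul_one]
      by_cases hτ : SgnPlus i M ↔ τ
      · exact ⟨M, 0, hMl, by omega, by omega, fun _ => hτ, fun _ h => absurd rfl h⟩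
      · refine ⟨M', e, by omega, by omega, by omega, fun h => absurd h (by omega), fun _ _ => ?_⟩
        rcases H with ⟨-, hPQ | ⟨-, h⟩⟩ | ⟨-, h, -⟩
        · rw [← hLl, sgnPlus_add] at hPQ
          rw [hM', sgnPlus_add] at hτ
          exact iff_flip_aux hPQ hτ
        · exact absurd h hτ
        · omega
    · rcases H with ⟨hk0, hPQ | ⟨hs0, hτ⟩⟩ | ⟨-, hk0, ⟨h1, h2⟩ | ⟨h1, h2⟩ | ⟨hs0, hτ⟩⟩
      · exact absurd (htype (by omega)) hPQ
      · exact ⟨M, 0, hML, by omega, by omega, fun _ => hτ, fun _ h => absurd rfl h⟩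
      · exact caseA h1 (by omega)
      · obtain ⟨j, hj⟩ := hse
        exact ⟨M, j, hML, by omega, by omega, fun h => absurd h (by omega), fun _ _ => (hsplit _ _).1 h2⟩
      · exact ⟨M, 0, hML, by omega, by omega, fun _ => hτ, fun _ h => absurd rfl h⟩

/-- Odd-dimensional subspaces of even-dimensional spaces. -/
theorem shapeOdd_all {i : ℕ} (hc2 : 2 ∣ c) (hc : 0 < c) (PQ : Prop) (hne : Even n) (hmo : Odd m) (hmn : m < n)
    (hcount : m < c → (0 < n % c ∧ n % c < m) ∨ (n % c = 0 ∧ (PQ ↔ SgnPlus i (n / c)))) :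
    (∀ l, 1 ≤ l → c * l ≤ n → (c * l = n → (PQ ↔ SgnPlus i l)) →
        ∃ l' f, l' ≤ l ∧ f + c * l' = m ∧ 0 < f ∧ f + c * l < n) ↔
      ((n % c = 0 ∧ ¬ (PQ ↔ SgnPlus i (n / c))) ∨ (c ≤ m ∧ 0 < n % c ∧ m % c < n % c)) := by
  classical
  obtain ⟨e, he⟩ := hc2
  obtain ⟨d, hd⟩ := hne
  have hn := Nat.div_add_mod n c
  have hm' := Nat.div_add_mod m c
  have hk := Nat.mod_lt n hc
  have hs := Nat.mod_lt m hc
  obtain ⟨a, ha⟩ := hmo
  set L := n / c
  set M := m / c
  set k := n % c
  set s := m % c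
  have hpar : ∀ x, ∃ y, c * x = 2 * y := fun x => ⟨e * x, by rw [he, mul_assoc]⟩
  have hcmul : ∀ {x y : ℕ}, x + 1 ≤ y → c * x + c ≤ c * y := fun {x y} h => by
    have := Nat.mul_le_mul_left c h
    rw [mul_add, mul_one] at this
    exact this
  have hL1 : 1 ≤ L := by
    rcases Nat.eq_zero_or_pos L with h | h
    · rw [h, mul_zero, zero_add] at hn
      rcases hcount (by omega) with h1 | h1 <;> omega
    · exact h
  constructor
  · intro H
    rcases Nat.eq_zero_or_pos k with hk0 | hk0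
    · refine Or.inl ⟨hk0, fun hPQ => ?_⟩
      obtain ⟨l', f, -, h1, h2, h3⟩ := H L hL1 (by omega) fun _ => hPQ
      omega
    · obtain ⟨l', f, -, h1, h2, h3⟩ := H L hL1 (by omega) fun h => absurd h (by omega)
      obtain ⟨h5, h6⟩ : s = f ∧ M = l' := div_mod_of_lt hc (show f < c by omega) h1
      refine Or.inr ⟨?_, hk0, by omega⟩
      by_contra hlt
      have hM0 : M = 0 := Nat.div_eq_of_lt (by omega)
      rw [hM0, mul_zero, zero_add] at hm'
      rcases hcount (by omega) with g | g <;> omega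
  · intro H l hl1 hln htype
    have hlL : l ≤ L := by
      rw [Nat.le_div_iff_mul_le hc, mul_comm]; exact hln
    have hs0 : 0 < s := by obtain ⟨y, hy⟩ := hpar M; omega
    have hsf : s + c * l < n := by
      rcases hlL.lt_or_eq with hlt | rfl
      · have := hcmul hlt; omega
      · rcases H with ⟨hk0, hPQ⟩ | ⟨-, -, h⟩
        · exact absurd (htype (by omega)) hPQ
        · omega
    rcases Nat.lt_or_ge l M with h | h
    · have := hcmul h
      exact ⟨l, m - c * l, le_rfl, by omega, by omega, by omega⟩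
    · exact ⟨M, s, h, by omega, hs0, hsf⟩

/-- Even-dimensional subspaces of odd-dimensional spaces. -/
theorem shapeEven_all {i : ℕ} (hc2 : 2 ∣ c) (hc : 0 < c) (τ : Prop) (hno : Odd n) (hme : Even m) (_hm : 0 < m)
    (hmn : m < n) (hcount : m < c → n % c < m) :
    (∀ l, 1 ≤ l → c * l ≤ n → ∃ l' j, l' ≤ l ∧ 2 * j + c * l' = m ∧ 2 * j + c * l ≤ n ∧
        (j = 0 → (SgnPlus i l' ↔ τ))) ↔
      (c ≤ m ∧ m % c < n % c ∧ (0 < m % c ∨ (SgnPlus i (m / c) ↔ τ))) := by
  classical
  obtain ⟨e, he⟩ := hc2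
  obtain ⟨d, hd⟩ := hno
  have hn := Nat.div_add_mod n c
  have hm' := Nat.div_add_mod m c
  have hk := Nat.mod_lt n hc
  have hs := Nat.mod_lt m hc
  obtain ⟨a, ha⟩ := hme
  set L := n / c
  set M := m / c
  set k := n % c
  set s := m % c
  have hpar : ∀ x, ∃ y, c * x = 2 * y := fun x => ⟨e * x, by rw [he, mul_assoc]⟩
  obtain ⟨yM, hyM⟩ := hpar M
  obtain ⟨yL, hyL⟩ := hpar L
  have hcmul : ∀ {x y : ℕ}, x + 1 ≤ y → c * x + c ≤ c * y := fun {x y} h => by
    have := Nat.mul_le_mul_left c h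
    rw [mul_add, mul_one] at this
    exact this
  have hL1 : 1 ≤ L := by
    rcases Nat.eq_zero_or_pos L with h | h
    · rw [h, mul_zero, zero_add] at hn
      have := hcount (by omega)
      omega
    · exact h
  constructor
  · intro H
    obtain ⟨l', j, -, h1, h2, h3⟩ := H L hL1 (by omega)
    obtain ⟨h5, h6⟩ : s = 2 * j ∧ M = l' := div_mod_of_lt hc (show 2 * j < c by omega) h1
    refine ⟨?_, by omega, ?_⟩
    · by_contra hlt
      have hM0 : M = 0 := Nat.div_eq_of_lt (by omega)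
      rw [hM0, mul_zero, zero_add] at hm'
      have := hcount (by omega)
      omega
    · rcases Nat.eq_zero_or_pos j with hj | hj
      · exact Or.inr (h6 ▸ h3 hj)
      · exact Or.inl (by omega)
  · rintro ⟨-, hsk, H⟩ l hl1 hln
    have hlL : l ≤ L := by
      rw [Nat.le_div_iff_mul_le hc, mul_comm]; exact hln
    have hkl : k + c * l ≤ n := by
      have := Nat.mul_le_mul_left c hlL; omega
    rcases Nat.lt_or_ge l M with h | h
    · have := hcmul h
      obtain ⟨y, hy⟩ := hpar l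
      exact ⟨l, a - y, le_rfl, by omega, by omega, fun h0 => absurd h0 (by omega)⟩
    · refine ⟨M, a - yM, h, by omega, by omega, fun h0 => ?_⟩
      rcases H with h1 | h1
      · omega
      · exact h1

end Cfsg.Agent.H97
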