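import Cfsg.Agent.H97.OrthCount
import Cfsg.Agent.H97.OrthBasic

set_option autoImplicit false

/-!
# Elusiveness of orthogonal groups on non-degenerate subspaces away from the characteristic
-/

universe u

namespace Cfsg.Agent.H97

open Module QuadraticMap

variable {F : Type u} [Field F] [Fintype F] {r : ℕ} [Fact r.Prime]

section transfer

omit [Fintype F] [Fact r.Prime] in
theorem toLinAlgEquiv'_eq {I : Type} [Fintype I] [DecidableEq I] (M : Matrix I I F) :
    Matrix.toLin' M = Matrix.toLinAlgEquiv' M := rfl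

variable {p : ℕ} [Fact p.Prime] [CharP F p] {I : Type} [Fintype I] [DecidableEq I]

omit [Fintype F] [Fact p.Prime] [CharP F p] [Fact r.Prime] in
theorem isometry_of_mem_omegaGL {Q : (I → F) → F} {x : GL I F} (hx : x ∈ Cfsg.Geo.omegaGL Q) (v : I → F) :
    Q (Matrix.toLin' (x : Matrix I I F) v) = Q v := by
  obtain ⟨g, -, rfl⟩ := hx
  rw [Matrix.toLin'_apply]
  exact g.2 v v

/-- Elements of order `r` modulo scalars in `Ω` against isometries of order `r`. -/
theorem forall_omega_elements_iff (hr2 : r ≠ 2) (hne : r ≠ p) {Q : QuadraticForm F (I → F)}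
    (hQ : (polarBilin Q).Nondegenerate) [Nonempty I] (C : Submodule F (I → F) → Prop) :
    (∀ x : GL I F, x ∈ Cfsg.Geo.omegaGL ⇑Q →
      (∃ z : F, ((x ^ r : GL I F) : Matrix I I F) = z • (1 : Matrix I I F)) →
      (∀ z : F, (x : Matrix I I F) ≠ z • (1 : Matrix I I F)) →
      ∃ W, C W ∧ W.map (Matrix.toLin' (x : Matrix I I F)) ≤ W) ↔
    (∀ y : Module.End F (I → F), (∀ v, Q (y v) = Q v) → y ^ r = 1 → y ≠ 1 → ∃ W, C W ∧ W.map y ≤ W) := by
  have hrp : r.Prime := Fact.out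
  obtain ⟨k, hk⟩ := hrp.odd_of_ne_two hr2
  have hex : ∃ v, Q v ≠ 0 := by
    by_contra h
    push Not at h
    obtain ⟨i⟩ := ‹Nonempty I›
    have := hQ.1 (Pi.single i 1) fun v => by simp [polar, h]
    simpa using congrFun this i
  obtain ⟨v₀, hv₀⟩ := hex
  have hsq : ∀ (z : F) (f : Module.End F (I → F)), (∀ v, Q (f v) = Q v) → (f = z • (1 : Module.End F (I → F))) →
      z * z = 1 := fun z f hf hz => by
    have := hf v₀
    rw [hz, LinearMap.smul_apply, Module.End.one_apply, QuadraticMap.map_smul, smul_eq_mul] at this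
    exact (mul_eq_right₀ hv₀).1 this
  constructor
  · intro H y hyQ hy hy1
    let M := LinearMap.toMatrixAlgEquiv' y
    let x : GL I F := Units.ofPowEqOne M r (by rw [← map_pow, hy, map_one]) hrp.ne_zero
    have hxy : Matrix.toLin' (x : Matrix I I F) = y := Matrix.toLin'_toMatrix' y
    have hxiso : x ∈ Cfsg.isometryGroup F ⇑Q := fun v _ => by
      show Q ((x : Matrix I I F).mulVec v) = Q v
      rw [← Matrix.toLin'_apply, hxy, hyQ]
    have hxr : x ^ r = 1 := Units.ext (by rw [Units.val_pow_eq_pow_val]; exact (by rw [← map_pow, hy, map_one] :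
      M ^ r = 1))
    have hmem := mem_omegaGL_of_semisimple hrp hne hr2 Q hQ ⟨x, hxiso⟩ (Subtype.ext hxr)
    obtain ⟨W, hW, hWx⟩ := H x hmem ⟨1, by rw [hxr, one_smul]; rfl⟩ fun z hz => by
      have hyz : y = z • (1 : Module.End F (I → F)) := by
        rw [← hxy, hz, map_smul, Matrix.toLin'_one]; rfl
      have h1 := hsq z y hyQ hyz
      have h2 : z ^ r = 1 := by
        have h3 := congrArg (fun f : Module.End F (I → F) => f v₀) hy
        simp only [hyz, smul_pow, one_pow, LinearMap.smul_apply, Module.End.one_apply] at h3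
        have h4 : (z ^ r - 1) • v₀ = 0 := by rw [sub_smul, one_smul, h3, sub_self]
        exact sub_eq_zero.1 ((smul_eq_zero.1 h4).resolve_right fun h => hv₀ (by rw [h, map_zero]))
      rw [hk, pow_succ, pow_mul, pow_two, h1, one_pow, one_mul] at h2
      exact hy1 (by rw [hyz, h2, one_smul])
    exact ⟨W, hW, hxy ▸ hWx⟩
  · rintro H x hx ⟨z, hz⟩ hns
    set f : Module.End F (I → F) := Matrix.toLin' (x : Matrix I I F) with hf
    have hfQ : ∀ v, Q (f v) = Q v := isometry_of_mem_omegaGL hx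
    have hfr : f ^ r = z • (1 : Module.End F (I → F)) := by
      rw [hf, toLinAlgEquiv'_eq, ← map_pow, ← Units.val_pow_eq_pow_val, hz, map_smul, map_one]
    have hfrQ : ∀ n v, Q ((f ^ n) v) = Q v := fun n => by
      induction n with
      | zero => intro v; rfl
      | succ n ih => intro v; rw [pow_succ', Module.End.mul_apply, hfQ, ih]
    have hz2 := hsq z _ (hfrQ r) hfr
    have hz0 : z ≠ 0 := fun h => by rw [h, zero_mul] at hz2; exact zero_ne_one hz2
    obtain ⟨W, hW, hWy⟩ := H (z • f) (fun v => by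
        rw [LinearMap.smul_apply, QuadraticMap.map_smul, smul_eq_mul, hfQ, hz2, one_mul])
      (by rw [smul_pow, hfr, smul_smul, ← pow_succ, show r + 1 = 2 * (k + 1) by omega, pow_mul, pow_two, hz2,
        one_pow, one_smul])
      (fun h => hns z (by
        have h2 : f = z • (1 : Module.End F (I → F)) := by
          rw [← h, smul_smul, hz2, one_smul]
        apply Matrix.toLin'.injective
        rw [← hf, h2, map_smul, Matrix.toLin'_one]; rfl))
    exact ⟨W, hW, by rwa [Submodule.map_smul _ _ _ hz0] at hWy⟩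

omit [Fintype F] in
/-- Elements of order `r` in `Ω` against isometries of order `r`. -/
theorem forall_omega_orderOf_iff [Fintype F] (hr2 : r ≠ 2) (hne : r ≠ p) {Q : QuadraticForm F (I → F)}
    (hQ : (polarBilin Q).Nondegenerate) (C : Submodule F (I → F) → Prop) :
    (∀ x : GL I F, x ∈ Cfsg.Geo.omegaGL ⇑Q → orderOf x = r →
      ∃ W, C W ∧ W.map (Matrix.toLin' (x : Matrix I I F)) ≤ W) ↔
    (∀ y : Module.End F (I → F), (∀ v, Q (y v) = Q v) → y ^ r = 1 → y ≠ 1 → ∃ W, C W ∧ W.map y ≤ W) := by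
  have hrp : r.Prime := Fact.out
  constructor
  · intro H y hyQ hy hy1
    let M := LinearMap.toMatrixAlgEquiv' y
    have hMr : M ^ r = 1 := by rw [← map_pow, hy, map_one]
    let x : GL I F := Units.ofPowEqOne M r hMr hrp.ne_zero
    have hxy : Matrix.toLin' (x : Matrix I I F) = y := Matrix.toLin'_toMatrix' y
    have hxiso : x ∈ Cfsg.isometryGroup F ⇑Q := fun v _ => by
      show Q ((x : Matrix I I F).mulVec v) = Q v
      rw [← Matrix.toLin'_apply, hxy, hyQ]
    have hxr : x ^ r = 1 := Units.ext (by rw [Units.val_pow_eq_pow_val]; exact hMr)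
    have hmem := mem_omegaGL_of_semisimple hrp hne hr2 Q hQ ⟨x, hxiso⟩ (Subtype.ext hxr)
    obtain ⟨W, hW, hWx⟩ := H x hmem (orderOf_eq_prime hxr fun h => hy1 (by
      rw [← hxy, h, Units.val_one, Matrix.toLin'_one]; rfl))
    exact ⟨W, hW, hxy ▸ hWx⟩
  · intro H x hx ho
    refine H _ (isometry_of_mem_omegaGL hx) ?_ fun h => ?_
    · rw [toLinAlgEquiv'_eq, ← map_pow, ← Units.val_pow_eq_pow_val, ← ho, pow_orderOf_eq_one,
        Units.val_one, map_one]
    · have : x = 1 := Units.ext (Matrix.toLin'.injective (by rw [h, Units.val_one, Matrix.toLin'_one]; rfl))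
      rw [this, orderOf_one] at ho
      exact hrp.ne_one ho.symm

end transfer

variable {V : Type u} [AddCommGroup V] [Module F V] [FiniteDimensional F V] {p : ℕ} [Fact p.Prime] [CharP F p]

/-- Elements realising every admissible dimension of the moved space. -/
theorem exists_element_dim (hr2 : r ≠ 2) (hne : r ≠ p) {Q : QuadraticForm F V}
    (hQ : (polarBilin Q).Nondegenerate) (hc : (2 : F) ≠ 0 ∨ Even (finrank F V)) {l : ℕ} (hl1 : 1 ≤ l)
    (hl : Nat.lcm 2 (orderOf (Nat.card F : ZMod r)) * l ≤ finrank F V)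
    (htype : Nat.lcm 2 (orderOf (Nat.card F : ZMod r)) * l = finrank F V →
      ∀ d, finrank F V = 2 * d → (H67.HasSing Q d ↔ SgnPlus (orderOf (Nat.card F : ZMod r)) l)) :
    ∃ y : Module.End F V, (∀ v, Q (y v) = Q v) ∧ y ^ r = 1 ∧ y ≠ 1 ∧
      finrank F (movedSpace y) = Nat.lcm 2 (orderOf (Nat.card F : ZMod r)) * l := by
  obtain ⟨y, hyQ, hy, hyd⟩ := exists_orth_moved_dim hr2 hne hQ hc hl htype
  refine ⟨y, hyQ, hy, fun h => ?_, hyd⟩
  have hpos := Nat.mul_pos (Nat.lcm_pos two_pos (orderOf_pos_zmod (F := F) (r := r)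
    (H67.cast_ne_zero_of_prime_ne (K := F) (Fact.out : r.Prime) hne))) hl1
  rw [h, movedSpace, sub_self, LinearMap.range_zero, finrank_bot] at hyd
  omega

/-- Every element of order `r` fixes an even-dimensional subspace of given type, in even dimension. -/
theorem criterion_even_even (hr2 : r ≠ 2) (hne : r ≠ p) {Q : QuadraticForm F V}
    (hQ : (polarBilin Q).Nondegenerate) {d a : ℕ} (hV : finrank F V = 2 * d) (ha : 0 < a) (had : a < d)
    (τ : Prop) {i c : ℕ} (hi : i = orderOf (Nat.card F : ZMod r)) (hc : c = if Even i then i else 2 * i)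
    (hdvd : r ∣ Nat.card {W : Submodule F V //
      finrank F W = 2 * a ∧ NondegOn (polarBilin Q) W ∧ (PlusOn Q W ↔ τ)}) :
    (∀ y : Module.End F V, (∀ v, Q (y v) = Q v) → y ^ r = 1 → y ≠ 1 →
      ∃ W : Submodule F V, (finrank F W = 2 * a ∧ NondegOn (polarBilin Q) W ∧ (PlusOn Q W ↔ τ)) ∧
        W.map y ≤ W) ↔
      (((2 * d) % c = 0 ∧ (¬ (H67.HasSing Q d ↔ SgnPlus i (2 * d / c)) ∨
          ((2 * a) % c = 0 ∧ (SgnPlus i (2 * a / c) ↔ τ)))) ∨
       (c ≤ 2 * a ∧ 0 < (2 * d) % c ∧ ((0 < (2 * a) % c ∧ (2 * a) % c < (2 * d) % c) ∨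
          ((2 * a) % c = (2 * d) % c ∧ ((H67.HasSing Q d ↔ SgnPlus i (2 * d / c + 2 * a / c)) ↔ τ)) ∨
          ((2 * a) % c = 0 ∧ (SgnPlus i (2 * a / c) ↔ τ))))) := by
  have hrp : r.Prime := Fact.out
  have hr := H67.cast_ne_zero_of_prime_ne (K := F) hrp hne
  rw [← lcm_two_eq] at hc
  subst hi hc
  have hVe : (2 : F) ≠ 0 ∨ Even (finrank F V) := Or.inr (hV ▸ even_two_mul d)
  rw [← shapeEE_all (i := orderOf (Nat.card F : ZMod r)) (c := Nat.lcm 2 (orderOf (Nat.card F : ZMod r))) (n := 2 * d) (m := 2 * a) (Nat.dvd_lcm_left _ _)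
    (Nat.lcm_pos two_pos (orderOf_pos_zmod (F := F) (r := r) hr)) (H67.HasSing Q d) τ (even_two_mul d)
    (even_two_mul a) (by omega) (by omega) (fun hlt => count_even_even hr hr2 hQ hV ha had hdvd hlt)]
  constructor
  · intro H l hl1 hl htype
    obtain ⟨y, hyQ, hy, hy1, hyd⟩ := exists_element_dim hr2 hne hQ hVe hl1 (hV.symm ▸ hl)
      (fun h d' hd' => by
        obtain rfl : d' = d := by omega
        exact htype (h.trans hV))
    obtain ⟨W, ⟨hWd, hWn, hWp⟩, hWy⟩ := H y hyQ hy hy1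
    obtain ⟨-, -, l₀, hl₀, hsum, -, htyp⟩ := orth_fixed_moved hr hr2 hQ hyQ hy
    obtain ⟨l', f', hl', hdim, hf, htau⟩ := orth_inv_shape hr hr2 hyQ hy hWy hWn hyd
    obtain ⟨h0, htop⟩ := htau (hWd ▸ even_two_mul a)
    have hll : l₀ = l := Nat.eq_of_mul_eq_mul_left
      (Nat.lcm_pos two_pos (orderOf_pos_zmod (F := F) (r := r) hr)) (hl₀.symm.trans hyd)
    subst hll
    obtain ⟨j, rfl⟩ : ∃ j, f' = 2 * j := by
      obtain ⟨e, he⟩ : 2 ∣ Nat.lcm 2 (orderOf (Nat.card F : ZMod r)) * l' := (Nat.dvd_lcm_left 2 _).mul_right _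
      exact ⟨a - e, by omega⟩
    refine ⟨l', j, hl', by omega, by omega, fun hj => ?_, fun hj hj0 => ?_⟩
    · exact ((h0 (by omega)).symm.trans hWp)
    · have h3 := (htop (by omega)).symm.trans hWp
      have h4 := htyp d hV
      exact (iff_congr (iff_congr (iff_rot h4.symm) Iff.rfl) Iff.rfl).1 h3
  · intro H y hyQ hy hy1
    obtain ⟨-, -, l, hl, hsum, hlpos, htyp⟩ := orth_fixed_moved hr hr2 hQ hyQ hy
    obtain ⟨l', j, hl', h1, h2, h3, h4⟩ := H l (hlpos hy1) (by omega) fun heq => by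
      have hF : PlusOn Q (fixedSpace y) := ⟨⊥, bot_le, by rw [finrank_bot]; omega, by simp⟩
      exact (htyp d hV).trans (iff_iff_of_left hF)
    obtain ⟨W, hWd, hWn, hWy, hWp⟩ := exists_orth_inv hr hr2 hQ hVe hyQ hy hl hl' (j := j) (by omega) τ h3
      fun hjf hj0 => by
        refine (iff_congr (iff_congr ?_ Iff.rfl) Iff.rfl).1 (h4 (by omega) hj0)
        exact (iff_rot (htyp d hV).symm).symm.trans Iff.rfl
    exact ⟨W, ⟨by omega, hWn, hWp⟩, hWy⟩

/-- Every element of order `r` fixes an odd-dimensional subspace of given class, in even dimension. -/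
theorem criterion_even_odd (hr2 : r ≠ 2) (hne : r ≠ p) (h2 : (2 : F) ≠ 0) {Q : QuadraticForm F V}
    (hQ : (polarBilin Q).Nondegenerate) {d a : ℕ} (hV : finrank F V = 2 * d) (had : 2 * a + 1 < 2 * d)
    {W₀ : Submodule F V} (hd₀ : finrank F W₀ = 2 * a + 1) (hn₀ : NondegOn (polarBilin Q) W₀)
    {i c : ℕ} (hi : i = orderOf (Nat.card F : ZMod r)) (hc : c = if Even i then i else 2 * i)
    (hdvd : r ∣ Nat.card {W : Submodule F V // finrank F W = 2 * a + 1 ∧ NondegOn (polarBilin Q) W ∧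
      ∃ e : W ≃ₗ[F] W₀, ∀ w : W, Q ((e w : W₀) : V) = Q (w : V)}) :
    (∀ y : Module.End F V, (∀ v, Q (y v) = Q v) → y ^ r = 1 → y ≠ 1 →
      ∃ W : Submodule F V, (finrank F W = 2 * a + 1 ∧ NondegOn (polarBilin Q) W ∧
          ∃ e : W ≃ₗ[F] W₀, ∀ w : W, Q ((e w : W₀) : V) = Q (w : V)) ∧ W.map y ≤ W) ↔
      (((2 * d) % c = 0 ∧ ¬ (H67.HasSing Q d ↔ SgnPlus i (2 * d / c))) ∨
       (c ≤ 2 * a + 1 ∧ 0 < (2 * d) % c ∧ (2 * a + 1) % c < (2 * d) % c)) := by
  have hrp : r.Prime := Fact.out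
  have hr := H67.cast_ne_zero_of_prime_ne (K := F) hrp hne
  rw [← lcm_two_eq] at hc
  subst hi hc
  have hVe : (2 : F) ≠ 0 ∨ Even (finrank F V) := Or.inl h2
  rw [← shapeOdd_all (i := orderOf (Nat.card F : ZMod r)) (c := Nat.lcm 2 (orderOf (Nat.card F : ZMod r))) (n := 2 * d) (m := 2 * a + 1) (Nat.dvd_lcm_left _ _)
    (Nat.lcm_pos two_pos (orderOf_pos_zmod (F := F) (r := r) hr)) (H67.HasSing Q d) (even_two_mul d)
    ⟨a, rfl⟩ had (fun hlt => count_even_odd hr hr2 hQ hV had hd₀ hn₀ hdvd hlt)]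
  constructor
  · intro H l hl1 hl htype
    obtain ⟨y, hyQ, hy, hy1, hyd⟩ := exists_element_dim hr2 hne hQ hVe hl1 (hV.symm ▸ hl)
      (fun h d' hd' => by
        obtain rfl : d' = d := by omega
        exact htype (h.trans hV))
    obtain ⟨W, ⟨hWd, hWn, -⟩, hWy⟩ := H y hyQ hy hy1
    obtain ⟨-, -, l₀, hl₀, hsum, -, -⟩ := orth_fixed_moved hr hr2 hQ hyQ hy
    obtain ⟨l', f', hl', hdim, hf, -⟩ := orth_inv_shape hr hr2 hyQ hy hWy hWn hyd
    have hll : l₀ = l := Nat.eq_of_mul_eq_mul_left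
      (Nat.lcm_pos two_pos (orderOf_pos_zmod (F := F) (r := r) hr)) (hl₀.symm.trans hyd)
    subst hll
    obtain ⟨e, he⟩ : 2 ∣ Nat.lcm 2 (orderOf (Nat.card F : ZMod r)) * l' := (Nat.dvd_lcm_left 2 _).mul_right _
    obtain ⟨e', he'⟩ : 2 ∣ Nat.lcm 2 (orderOf (Nat.card F : ZMod r)) * l₀ := (Nat.dvd_lcm_left 2 _).mul_right _
    exact ⟨l', f', hl', by omega, by omega, by omega⟩
  · intro H y hyQ hy hy1
    obtain ⟨-, -, l, hl, hsum, hlpos, htyp⟩ := orth_fixed_moved hr hr2 hQ hyQ hy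
    obtain ⟨l', f', hl', h1, h2', h3⟩ := H l (hlpos hy1) (by omega) fun heq => by
      have hF : PlusOn Q (fixedSpace y) := ⟨⊥, bot_le, by rw [finrank_bot]; omega, by simp⟩
      exact (htyp d hV).trans (iff_iff_of_left hF)
    obtain ⟨W, hWd, hWn, hWy, e, he⟩ := exists_orth_inv_odd hr hr2 h2 hQ hyQ hy hl hl' h2' (by omega) hn₀
      (hd₀.trans h1.symm)
    exact ⟨W, ⟨hWd.trans hd₀, hWn, e, he⟩, hWy⟩

/-- Every element of order `r` fixes an even-dimensional subspace of given type, in odd dimension. -/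
theorem criterion_odd_even (hr2 : r ≠ 2) (hne : r ≠ p) {Q : QuadraticForm F V}
    (hQ : (polarBilin Q).Nondegenerate) {d a : ℕ} (hV : finrank F V = 2 * d + 1) (ha : 0 < a) (had : a ≤ d)
    (τ : Prop) {i c : ℕ} (hi : i = orderOf (Nat.card F : ZMod r)) (hc : c = if Even i then i else 2 * i)
    (hdvd : r ∣ Nat.card {W : Submodule F V //
      finrank F W = 2 * a ∧ NondegOn (polarBilin Q) W ∧ (PlusOn Q W ↔ τ)}) :
    (∀ y : Module.End F V, (∀ v, Q (y v) = Q v) → y ^ r = 1 → y ≠ 1 →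
      ∃ W : Submodule F V, (finrank F W = 2 * a ∧ NondegOn (polarBilin Q) W ∧ (PlusOn Q W ↔ τ)) ∧
        W.map y ≤ W) ↔
      (c ≤ 2 * a ∧ (2 * a) % c < (2 * d + 1) % c ∧ (0 < (2 * a) % c ∨ (SgnPlus i (2 * a / c) ↔ τ))) := by
  have hrp : r.Prime := Fact.out
  have hr := H67.cast_ne_zero_of_prime_ne (K := F) hrp hne
  rw [← lcm_two_eq] at hc
  subst hi hc
  have hVe : (2 : F) ≠ 0 ∨ Even (finrank F V) := Or.inl (H4.isom_std_odd hQ hV).1
  rw [← shapeEven_all (i := orderOf (Nat.card F : ZMod r)) (c := Nat.lcm 2 (orderOf (Nat.card F : ZMod r))) (n := 2 * d + 1) (m := 2 * a) (Nat.dvd_lcm_left _ _)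
    (Nat.lcm_pos two_pos (orderOf_pos_zmod (F := F) (r := r) hr)) τ ⟨d, rfl⟩
    (even_two_mul a) (by omega) (by omega) (fun hlt => count_odd_even hr hQ hV ha had hdvd hlt)]
  constructor
  · intro H l hl1 hl
    obtain ⟨y, hyQ, hy, hy1, hyd⟩ := exists_element_dim hr2 hne hQ hVe hl1 (hV.symm ▸ hl)
      (fun h d' hd' => absurd hd' (by omega))
    obtain ⟨W, ⟨hWd, hWn, hWp⟩, hWy⟩ := H y hyQ hy hy1
    obtain ⟨-, -, l₀, hl₀, hsum, -, -⟩ := orth_fixed_moved hr hr2 hQ hyQ hy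
    obtain ⟨l', f', hl', hdim, hf, htau⟩ := orth_inv_shape hr hr2 hyQ hy hWy hWn hyd
    obtain ⟨h0, -⟩ := htau (hWd ▸ even_two_mul a)
    have hll : l₀ = l := Nat.eq_of_mul_eq_mul_left
      (Nat.lcm_pos two_pos (orderOf_pos_zmod (F := F) (r := r) hr)) (hl₀.symm.trans hyd)
    subst hll
    obtain ⟨j, rfl⟩ : ∃ j, f' = 2 * j := by
      obtain ⟨e, he⟩ : 2 ∣ Nat.lcm 2 (orderOf (Nat.card F : ZMod r)) * l' := (Nat.dvd_lcm_left 2 _).mul_right _
      exact ⟨a - e, by omega⟩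
    exact ⟨l', j, hl', by omega, by omega, fun hj => (h0 (by omega)).symm.trans hWp⟩
  · intro H y hyQ hy hy1
    obtain ⟨-, -, l, hl, hsum, hlpos, -⟩ := orth_fixed_moved hr hr2 hQ hyQ hy
    obtain ⟨l', j, hl', h1, h2, h3⟩ := H l (hlpos hy1) (by omega)
    obtain ⟨e, he⟩ : 2 ∣ Nat.lcm 2 (orderOf (Nat.card F : ZMod r)) * l := (Nat.dvd_lcm_left 2 _).mul_right _
    obtain ⟨W, hWd, hWn, hWy, hWp⟩ := exists_orth_inv hr hr2 hQ hVe hyQ hy hl hl' (j := j) (by omega) τ h3
      fun hjf hj0 => absurd hjf (by omega)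
    exact ⟨W, ⟨by omega, hWn, hWp⟩, hWy⟩

end Cfsg.Agent.H97
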