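import Cfsg.Agent.H97.SympIsotropic
import Cfsg.Agent.H97.OrthCriteria

set_option autoImplicit false

/-!
# Invariant totally singular subspaces of isometries of odd prime order
-/

namespace Cfsg.Agent.H97

open Module Polynomial QuadraticMap

universe u

variable {F : Type u} [Field F] [Fintype F] {r p : ℕ} [Fact r.Prime] [Fact p.Prime] [CharP F p]
  {I : Type} [Fintype I] [DecidableEq I]

/-- Isometries with given multiplicities. -/
theorem exists_orth_polyOf (hrp : r.Prime) (hne : r ≠ p) (hr2 : r ≠ 2) (Qt : QuadraticForm F (I → F))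
    (hQt : (polarBilin Qt).Nondegenerate) (a : H67.CycFac r F → ℕ)
    (ha : ∀ P, a (H67.dualId hrp hne P) = a P)
    (hle : orderOf (Fintype.card F : ZMod r) * ∑ P, a P ≤ Fintype.card I)
    (htype : ∀ d, Fintype.card I = 2 * d →
      orderOf (Fintype.card F : ZMod r) * ∑ P, a P = 2 * d → (H67.HasSing Qt d ↔ H67.mvPlus a)) :
    ∃ A : ↥(Cfsg.isometryGroup F ⇑Qt), A ^ r = 1 ∧
      ((A : GL I F) : Matrix I I F).charpoly = H67.polyOf (Fintype.card I) a := by
  classical
  rcases Nat.even_or_odd' (Fintype.card I) with ⟨d, hI | hI⟩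
  · exact H67.exists_orth_polyOf_even hrp hne hr2 Qt hQt hI a ha (hI ▸ hle) (htype d hI)
  have hr := H67.cast_ne_zero_of_prime_ne (K := F) hrp hne
  haveI := H67.finiteDimensional_movMod a
  have hV : finrank F (I → F) = 2 * d + 1 := by rw [finrank_fintype_fun_eq_card, hI]
  obtain ⟨Q1, T, hQ1, hT, -, hQT, -, -⟩ := H67.exists_moved_orth hrp hne hr2 a ha
  obtain ⟨l, hl⟩ := H67.even_mov_dim hrp hne hr2 ha
  obtain ⟨h2, c₂, hc₂, g₂, hg₂⟩ := H4.isom_std_odd hQt hV
  obtain ⟨-, c₁, hc₁, g₁, hg₁⟩ := H4.isom_std_odd (Q := Q1.prod (H4.qOdd (d - l) F))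
    (H67.prod_nondegenerate hQ1 (H4.qOdd_nondegenerate h2 _)) (m := d) (by
      rw [finrank_prod, H67.finrank_movMod hr hrp, hl, finrank_fintype_fun_eq_card]
      simp only [Fintype.card_sum, Fintype.card_fin, Fintype.card_unit]
      omega)
  refine H67.exists_orth_of_isom hr hrp Qt hT hQT (H4.qOdd (d - l) F) (c := c₁ / c₂) (div_ne_zero hc₁ hc₂)
    (g₁.trans g₂.symm) fun v => ?_
  rw [← hg₁, LinearEquiv.trans_apply, ← hg₂, g₂.apply_symm_apply, ← mul_assoc, div_mul_cancel₀ _ hc₂]

/-- An orthogonal sum of a hyperbolic space of dimension `2 m` and a space of the same type. -/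
theorem exists_model_space (Q : QuadraticForm F (I → F)) (hQ : (polarBilin Q).Nondegenerate) {m : ℕ}
    (hm : 2 * m < Fintype.card I) :
    ∃ (J : Type) (_ : Fintype J) (_ : DecidableEq J) (QR : QuadraticForm F (J → F)) (c : F)
      (g : ((Fin m ⊕ Fin m → F) × (J → F)) ≃ₗ[F] (I → F)),
      c ≠ 0 ∧ (polarBilin QR).Nondegenerate ∧ (∀ v, c * Q (g v) = H4.qPlus m F v.1 + QR v.2) ∧
      2 * m + Fintype.card J = Fintype.card I ∧
      ∀ d, Fintype.card I = 2 * d → (H67.HasSing QR (d - m) ↔ H67.HasSing Q d) := by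
  classical
  have hP := H4.qPlus_nondegenerate (F := F) m
  have hPd : finrank F (Fin m ⊕ Fin m → F) = 2 * m := by simp [finrank_fintype_fun_eq_card]; omega
  rcases Nat.even_or_odd' (Fintype.card I) with ⟨d, hI | hI⟩
  · have hV : finrank F (I → F) = 2 * d := by rw [finrank_fintype_fun_eq_card, hI]
    have key : ∀ (J : Type) [Fintype J] [DecidableEq J] (QR : QuadraticForm F (J → F)),
        (polarBilin QR).Nondegenerate → Fintype.card J = 2 * (d - m) →
        (H67.HasSing QR (d - m) ↔ H67.HasSing Q d) →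
        ∃ (J : Type) (_ : Fintype J) (_ : DecidableEq J) (QR : QuadraticForm F (J → F)) (c : F)
          (g : ((Fin m ⊕ Fin m → F) × (J → F)) ≃ₗ[F] (I → F)),
          c ≠ 0 ∧ (polarBilin QR).Nondegenerate ∧ (∀ v, c * Q (g v) = H4.qPlus m F v.1 + QR v.2) ∧
          2 * m + Fintype.card J = Fintype.card I ∧
          ∀ d, Fintype.card I = 2 * d → (H67.HasSing QR (d - m) ↔ H67.HasSing Q d) := by
      intro J _ _ QR hQR hJ hiff
      have hRd : finrank F (J → F) = 2 * (d - m) := by rw [finrank_fintype_fun_eq_card, hJ]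
      obtain ⟨g, hg⟩ := H67.isom_of_type (H67.prod_nondegenerate hP hQR) hQ (m := d)
        (by rw [finrank_prod, hPd, hRd]; omega) hV (by
          have h := hasSing_prod_iff hP hQR hPd hRd
          rw [Nat.add_sub_cancel' (by omega)] at h
          rw [h, ← hiff]
          exact iff_iff_of_left (H67.hasSing_qPlus m))
      refine ⟨J, ‹_›, ‹_›, QR, 1, g, one_ne_zero, hQR, fun v => by rw [one_mul, hg, QuadraticMap.prod_apply],
        by omega, fun d' hd' => ?_⟩
      obtain rfl : d' = d := by omega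
      exact hiff
    by_cases hs : H67.HasSing Q d
    · exact key _ (H4.qPlus (d - m) F) (H4.qPlus_nondegenerate _) (by simp; omega)
        (iff_of_true (H67.hasSing_qPlus _) hs)
    · obtain ⟨ζ, hζ⟩ := exists_no_root (F := F)
      refine key _ (H4.qMinus (d - m - 1) F 1 ζ) (H4.qMinus_nondegenerate (H4.disc_ne_zero_of_anisotropic
        (H67.aniso_of_one hζ) fun c h2 => H4.exists_sq_eq h2 c) _) (by simp; omega) (iff_of_false ?_ hs)
      have := H67.not_hasSing_qMinus (d - m - 1) (H67.aniso_of_one hζ)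
      rwa [show d - m - 1 + 1 = d - m by omega] at this
  · have hV : finrank F (I → F) = 2 * d + 1 := by rw [finrank_fintype_fun_eq_card, hI]
    obtain ⟨h2, c₂, hc₂, g₂, hg₂⟩ := H4.isom_std_odd hQ hV
    obtain ⟨-, c₁, hc₁, g₁, hg₁⟩ := H4.isom_std_odd (Q := (H4.qPlus m F).prod (H4.qOdd (d - m) F))
      (H67.prod_nondegenerate hP (H4.qOdd_nondegenerate h2 _)) (m := d) (by
        rw [finrank_prod, hPd, finrank_fintype_fun_eq_card]
        simp only [Fintype.card_sum, Fintype.card_fin, Fintype.card_unit]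
        omega)
    refine ⟨Unit ⊕ (Fin (d - m) ⊕ Fin (d - m)), inferInstance, inferInstance, H4.qOdd (d - m) F, c₁ / c₂, g₁.trans g₂.symm, div_ne_zero hc₁ hc₂,
      H4.qOdd_nondegenerate h2 _, fun v => ?_, by simp; omega, fun d' hd' => by omega⟩
    rw [LinearEquiv.trans_apply, ← hg₂, g₂.apply_symm_apply, ← mul_assoc, div_mul_cancel₀ _ hc₂, hg₁]
    rfl

/-- Isometries with given multiplicities and an invariant totally singular subspace. -/
theorem exists_orth_iso_model (hrp : r.Prime) (hne : r ≠ p) {J : Type} [Fintype J] [DecidableEq J]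
    {Q : QuadraticForm F (I → F)} {QR : QuadraticForm F (J → F)} {c : F} (hc : c ≠ 0) {m : ℕ}
    (g : ((Fin m ⊕ Fin m → F) × (J → F)) ≃ₗ[F] (I → F))
    (hg : ∀ v, c * Q (g v) = H4.qPlus m F v.1 + QR v.2) (b a' : H67.CycFac r F → ℕ)
    (hb : orderOf (Nat.card F : ZMod r) * ∑ P, b P ≤ m)
    (ha' : orderOf (Nat.card F : ZMod r) * ∑ P, a' P ≤ Fintype.card J)
    (Z : ↥(Cfsg.isometryGroup F ⇑QR)) (hZ : Z ^ r = 1)
    (hZc : ((Z : GL J F) : Matrix J J F).charpoly = H67.polyOf (Fintype.card J) a') :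
    ∃ A : ↥(Cfsg.isometryGroup F ⇑Q), A ^ r = 1 ∧
      ((A : GL I F) : Matrix I I F).charpoly =
        H67.polyOf (Fintype.card I) (b + b ∘ H67.dualId hrp hne + a') ∧
      ∃ U : Submodule F (I → F), finrank F U = m ∧ (∀ u ∈ U, Q u = 0) ∧
        ∀ u ∈ U, ((A : GL I F) : Matrix I I F).mulVec u ∈ U := by
  classical
  have hr := H67.cast_ne_zero_of_prime_ne (K := F) hrp hne
  have hsum : ∑ P, (b ∘ H67.dualId hrp hne) P = ∑ P, b P :=
    Fintype.sum_equiv ⟨H67.dualId hrp hne, H67.dualId hrp hne, H67.cycDual_cycDual _ _ _ _,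
      H67.cycDual_cycDual _ _ _ _⟩ _ _ fun P => rfl
  have hb' : orderOf (Fintype.card F : ZMod r) * ∑ P, b P ≤ m := by rw [← Nat.card_eq_fintype_card]; exact hb
  obtain ⟨gm, hgm, hgc⟩ := H67.exists_gl_polyOf (p := p) hrp hne hb'
  let G : Matrix (Fin m) (Fin m) F := gm
  let H : Matrix (Fin m) (Fin m) F := H67.contraMat (RingHom.id F) gm
  have hH : H = ((gm⁻¹ : GL (Fin m) F) : Matrix (Fin m) (Fin m) F).transpose := by
    simp [H, H67.contraMat]
  have hHG : H.transpose * G = 1 := by
    rw [hH, Matrix.transpose_transpose, ← Units.val_mul, inv_mul_cancel, Units.val_one]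
  let K : Matrix (Fin m ⊕ Fin m) (Fin m ⊕ Fin m) F := Matrix.fromBlocks G 0 0 H
  let Zm : Matrix J J F := (Z : GL J F)
  set S : End F ((Fin m ⊕ Fin m → F) × (J → F)) := (Matrix.toLin' K).prodMap (Matrix.toLin' Zm) with hSdef
  have hGr : G ^ r = 1 := by rw [← Units.val_pow_eq_pow_val, hgm, Units.val_one]
  have hHr : H ^ r = 1 := by
    rw [hH, ← Matrix.transpose_pow, ← Units.val_pow_eq_pow_val, inv_pow, hgm, inv_one, Units.val_one,
      Matrix.transpose_one]
  have hKr : K ^ r = 1 := by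
    simp only [K, Matrix.fromBlocks_diagonal_pow, hGr, hHr, Matrix.fromBlocks_one]
  have hZr : Zm ^ r = 1 := by
    show ((Z : GL J F) : Matrix J J F) ^ r = 1
    rw [← Units.val_pow_eq_pow_val, ← SubmonoidClass.coe_pow, hZ]; rfl
  have hSr : S ^ r = 1 := by
    have hpow : ∀ k, S ^ k = (Matrix.toLinAlgEquiv' (K ^ k)).prodMap (Matrix.toLinAlgEquiv' (Zm ^ k)) := fun k => by
      induction k with
      | zero => rw [pow_zero, pow_zero, pow_zero, map_one, map_one]; exact LinearMap.ext fun _ => rfl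
      | succ k ih =>
        rw [pow_succ, ih, pow_succ, pow_succ, map_mul, map_mul, hSdef]
        exact LinearMap.ext fun _ => rfl
    rw [hpow, hKr, hZr, map_one, map_one]
    exact LinearMap.ext fun _ => rfl
  let M : Matrix I I F := LinearMap.toMatrix' (g.conj S)
  have hM : ∀ v, M.mulVec (g v) = g (S v) := fun v => by
    rw [LinearMap.toMatrix'_mulVec, LinearEquiv.conj_apply_apply, g.symm_apply_apply]
  have hMr : M ^ r = 1 := by
    show (LinearMap.toMatrixAlgEquiv' (g.conj S)) ^ r = 1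
    rw [← map_pow, show (g.conj S) = g.conjAlgEquiv F S from rfl, ← map_pow, hSr, map_one, map_one]
  let A₀ : GL I F := Units.ofPowEqOne M r hMr hrp.ne_zero
  have hA₀ : A₀ ∈ Cfsg.isometryGroup F ⇑Q := by
    intro u _
    obtain ⟨x, rfl⟩ := g.surjective u
    show Q (M.mulVec (g x)) = Q (g x)
    refine mul_left_cancel₀ hc ?_
    rw [hM, hg, hg]
    congr 1
    · show H4.qPlus m F (Matrix.toLin' K x.1) = H4.qPlus m F x.1
      rw [Matrix.toLin'_apply]
      simp only [K, H4.coe_qPlus, Cfsg.quadFormPlus, Matrix.fromBlocks_mulVec, Sum.elim_inl, Sum.elim_inr,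
        Matrix.zero_mulVec, add_zero, zero_add]
      show dotProduct (G.mulVec (x.1 ∘ Sum.inl)) (H.mulVec (x.1 ∘ Sum.inr)) = dotProduct (x.1 ∘ Sum.inl) (x.1 ∘ Sum.inr)
      rw [dotProduct_comm, Matrix.dotProduct_mulVec, ← Matrix.mulVec_transpose, Matrix.mulVec_mulVec]
      rw [show G.transpose * H = (H.transpose * G).transpose by rw [Matrix.transpose_mul, Matrix.transpose_transpose],
        hHG, Matrix.transpose_one, Matrix.one_mulVec, dotProduct_comm]
    · show QR (Matrix.toLin' Zm x.2) = QR x.2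
      rw [Matrix.toLin'_apply]
      exact Z.2 x.2 x.2
  have hdim := LinearEquiv.finrank_eq g
  rw [finrank_fintype_fun_eq_card, finrank_prod, finrank_fintype_fun_eq_card, finrank_fintype_fun_eq_card,
    Fintype.card_sum, Fintype.card_fin] at hdim
  refine ⟨⟨A₀, hA₀⟩, Subtype.ext (Units.ext hMr), ?_, ?_⟩
  · show M.charpoly = _
    rw [← Matrix.charpoly_toLin', show Matrix.toLin' M = g.conj S from Matrix.toLin'_toMatrix' _,
      LinearEquiv.charpoly_conj, hSdef, LinearMap.charpoly_prodMap, Matrix.charpoly_toLin',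
      Matrix.charpoly_toLin', Matrix.charpoly_fromBlocks_zero₁₂, hgc, H67.charpoly_contraMat, hgc,
      H67.dualPoly_polyOf hr hrp (p := p) (k := 0) (fun x => by simp) (fun _ => rfl), hZc,
      polyOf_mul hb (by rw [hsum]; exact hb),
      polyOf_mul (by simp only [Pi.add_apply, Finset.sum_add_distrib, mul_add, hsum]; omega) ha']
    congr 1
  · let ι : (Fin m → F) →ₗ[F] (I → F) :=
      g.toLinearMap ∘ₗ LinearMap.inl F _ _ ∘ₗ
        { toFun := fun x => Sum.elim x 0
          map_add' := fun x y => funext fun i => by rcases i with i | i <;> simp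
          map_smul' := fun c x => funext fun i => by rcases i with i | i <;> simp }
    refine ⟨LinearMap.range ι, ?_, ?_, ?_⟩
    · rw [LinearMap.finrank_range_of_inj fun x y h => _root_.funext fun i =>
        congrFun (congrArg Prod.fst (g.injective h)) (Sum.inl i), finrank_fintype_fun_eq_card, Fintype.card_fin]
    · rintro _ ⟨x, rfl⟩
      refine mul_left_cancel₀ hc ?_
      show c * Q (g (Sum.elim x 0, 0)) = c * 0
      rw [mul_zero, hg]
      simp [H4.coe_qPlus, Cfsg.quadFormPlus]
    · rintro _ ⟨x, rfl⟩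
      refine ⟨G.mulVec x, ?_⟩
      show g (Sum.elim (G.mulVec x) 0, 0) = M.mulVec (g (Sum.elim x 0, 0))
      rw [hM, hSdef]
      refine congrArg g (Prod.ext ?_ (by simp))
      show _ = Matrix.toLin' K (Sum.elim x 0)
      rw [Matrix.toLin'_apply]
      funext i
      rcases i with i | i <;> simp [K, Matrix.fromBlocks_mulVec]

/-- Multiplicities give invariant totally singular subspaces. -/
theorem exists_orth_isotropic (hrp : r.Prime) (hne : r ≠ p) (hr2 : r ≠ 2) {Q : QuadraticForm F (I → F)}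
    (hQ : (polarBilin Q).Nondegenerate) {f : End F (I → F)} (hfQ : ∀ v, Q (f v) = Q v) (hfr : f ^ r = 1) {m j : ℕ}
    (hm : 2 * m < Fintype.card I)
    (hj : j ≤ isoPieces (orderOf (Nat.card F : ZMod r)) ((r - 1) / orderOf (Nat.card F : ZMod r))
      (∑ P, multEnd r f P)) (hjm : orderOf (Nat.card F : ZMod r) * j ≤ m)
    (hle : orderOf (Nat.card F : ZMod r) * ∑ P, multEnd r f P +
      2 * (m - orderOf (Nat.card F : ZMod r) * j) ≤ Fintype.card I)
    (htype : ∀ d, Fintype.card I = 2 * d → orderOf (Nat.card F : ZMod r) * ∑ P, multEnd r f P +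
      2 * (m - orderOf (Nat.card F : ZMod r) * j) = 2 * d →
      (H67.HasSing Q d ↔ SgnPlus (orderOf (Nat.card F : ZMod r)) (∑ P, multEnd r f P))) :
    ∃ W : Submodule F (I → F), finrank F W = m ∧ (∀ w ∈ W, Q w = 0) ∧ W.map f ≤ W := by
  classical
  have hr := H67.cast_ne_zero_of_prime_ne (K := F) hrp hne
  have ht : Fintype.card (H67.CycFac r F) = (r - 1) / orderOf (Nat.card F : ZMod r) := by
    have h := H67.card_cycFac (K := F) hr hrp
    rw [← Nat.card_eq_fintype_card (α := F)] at h
    rw [← h, Nat.mul_div_cancel _ (orderOf_pos_zmod hr)]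
  set a := multEnd r f with hadef
  have had : ∀ P, a (dualF (p := p) hr P) = a P := fun P =>
    mult_selfDual hr _ _ (polarBilin_isRefl Q) hQ.1 (isometry_polarBilin hfQ) hfr P
  obtain ⟨b, hb, hbs⟩ := exists_iso_mult (π := dualF (p := p) hr) (H67.cycDual_cycDual _ _ _ _) ht
    (dualF_parity hr hr2).1 (dualF_parity hr hr2).2 had hj
  have hbπ : ∑ P, b (dualF (p := p) hr P) = ∑ P, b P :=
    Fintype.sum_equiv ⟨dualF (p := p) hr, dualF (p := p) hr, H67.cycDual_cycDual _ _ _ _,
      H67.cycDual_cycDual _ _ _ _⟩ _ _ fun P => rfl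
  set a' : H67.CycFac r F → ℕ := fun P => a P - (b P + b (dualF (p := p) hr P)) with ha'
  have hsum : ∑ P, a' P + 2 * j = ∑ P, a P := by
    rw [two_mul, ← hbs]
    nth_rw 2 [← hbπ]
    rw [← Finset.sum_add_distrib, ← Finset.sum_add_distrib]
    exact Finset.sum_congr rfl fun P _ => by simp only [ha']; have := hb P; omega
  have ha'd : ∀ P, a' (H67.dualId hrp hne P) = a' P := fun P => by
    simp only [ha', H67.cycDual_cycDual, had]
    rw [add_comm (b (dualF (p := p) hr P))]
  obtain ⟨J, _, _, QR, c, g, hc, hQR, hg, hJ, hJt⟩ := exists_model_space Q hQ hm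
  have hdist : orderOf (Nat.card F : ZMod r) * ∑ P, a P =
      orderOf (Nat.card F : ZMod r) * ∑ P, a' P + 2 * (orderOf (Nat.card F : ZMod r) * j) := by
    rw [← hsum, mul_add, mul_left_comm]
  have hle' : orderOf (Nat.card F : ZMod r) * ∑ P, a' P ≤ Fintype.card J := by omega
  obtain ⟨Z, hZ, hZc⟩ := exists_orth_polyOf hrp hne hr2 QR hQR a' ha'd
    (by rw [← Nat.card_eq_fintype_card]; exact hle') fun e he heq => by
      rw [← Nat.card_eq_fintype_card] at heq
      have h := htype (m + e) (by omega) (by omega)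
      rw [show e = m + e - m by omega, hJt (m + e) (by omega), h, H67.mvPlus, ← Nat.card_eq_fintype_card,
        SgnPlus, ← hsum, Nat.even_add]
      simp
  obtain ⟨y, hy, hyc, U, hUd, hUs, hUy⟩ := exists_orth_iso_model hrp hne hc g hg b a' (by rw [hbs]; exact hjm)
    hle' Z hZ hZc
  have hab : b + b ∘ H67.dualId hrp hne + a' = a := _root_.funext fun P => by
    simp only [Pi.add_apply, Function.comp_apply, ha']
    show b P + b (dualF (p := p) hr P) + (a P - (b P + b (dualF (p := p) hr P))) = a P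
    have := hb P
    omega
  rw [hab] at hyc
  let M := LinearMap.toMatrixAlgEquiv' f
  have hMr : M ^ r = 1 := by rw [← map_pow, hfr, map_one]
  let x₀ : GL I F := Units.ofPowEqOne M r hMr hrp.ne_zero
  have hxf : Matrix.toLin' (x₀ : Matrix I I F) = f := Matrix.toLin'_toMatrix' f
  have hxiso : x₀ ∈ Cfsg.isometryGroup F ⇑Q := fun v _ => by
    show Q ((x₀ : Matrix I I F).mulVec v) = Q v
    rw [← Matrix.toLin'_apply, hxf, hfQ]
  let x : ↥(Cfsg.isometryGroup F ⇑Q) := ⟨x₀, hxiso⟩
  have hxr : (x₀ : GL I F) ^ r = 1 := Units.ext (by rw [Units.val_pow_eq_pow_val]; exact hMr)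
  have hxc : (x₀ : Matrix I I F).charpoly = H67.polyOf (Fintype.card I) a := by
    rw [← Matrix.charpoly_toLin', hxf, (charpoly_eq_polyOf_mult hr hfr).1, finrank_fintype_fun_eq_card]
  have hyr : (y : GL I F) ^ r = 1 := by rw [← SubmonoidClass.coe_pow, hy]; rfl
  obtain ⟨C, hC⟩ := isConj_iff.1 ((H67.orth_isConj_iff_matrix (p := p) Q hQ y x
    ((hrp.odd_of_ne_two hr2).of_dvd_nat (orderOf_dvd_of_pow_eq_one hy))
    (Nat.Coprime.coprime_dvd_left (orderOf_dvd_of_pow_eq_one hy) ((Nat.coprime_primes hrp Fact.out).2 hne))).2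
    (MonoidHom.map_isConj (Units.coeHom _) (H66.isConj_of_charpoly_eq p (g := (y : GL I F)) (h := x₀)
      (H67.coprime_of_pow_eq_one (p := p) hrp hne hyr) (H67.coprime_of_pow_eq_one (p := p) hrp hne hxr)
      (hyc.trans hxc.symm))))
  refine ⟨U.map (Matrix.toLin' ((C : GL I F) : Matrix I I F)), ?_, ?_, ?_⟩
  · refine ((Submodule.equivMapOfInjective _ ?_ U).finrank_eq.symm).trans hUd
    intro u v huv
    simp only [Matrix.toLin'_apply] at huv
    exact Matrix.mulVec_injective_of_isUnit ⟨(C : GL I F), rfl⟩ huv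
  · rintro _ ⟨u, hu, rfl⟩
    rw [Matrix.toLin'_apply]
    exact (C.2 u u).trans (hUs u hu)
  · rintro _ ⟨_, ⟨u, hu, rfl⟩, rfl⟩
    refine ⟨_, hUy u hu, ?_⟩
    have h : (C : GL I F) * (y : GL I F) = x₀ * (C : GL I F) := by
      have h := congrArg Subtype.val hC
      simp only [Subgroup.coe_mul, Subgroup.coe_inv] at h
      rw [show x₀ = (x : GL I F) from rfl, ← h, inv_mul_cancel_right]
    rw [← hxf]
    simp only [Matrix.toLin'_apply, Matrix.mulVec_mulVec, ← Units.val_mul, h]

/-- The criterion on multiplicities. -/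
theorem orth_isotropic_criterion (hrp : r.Prime) (hne : r ≠ p) (hr2 : r ≠ 2) {Q : QuadraticForm F (I → F)}
    (hQ : (polarBilin Q).Nondegenerate) {m d : ℕ} (hm : 2 * m < Fintype.card I) (hd : d = Fintype.card I / 2) :
    (∀ f : End F (I → F), (∀ v, Q (f v) = Q v) → f ^ r = 1 → f ≠ 1 → ∃ W : Submodule F (I → F),
      (finrank F W = m ∧ ∀ w ∈ W, Q w = 0) ∧ W.map f ≤ W) ↔
    ∀ L, 0 < L → orderOf (Nat.card F : ZMod r) * L ≤ Fintype.card I →
      (Odd (orderOf (Nat.card F : ZMod r)) → Even L) →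
      (orderOf (Nat.card F : ZMod r) * L = Fintype.card I →
        (H67.HasSing Q d ↔ SgnPlus (orderOf (Nat.card F : ZMod r)) L)) →
      ∃ j, j ≤ isoPieces (orderOf (Nat.card F : ZMod r)) ((r - 1) / orderOf (Nat.card F : ZMod r)) L ∧
        orderOf (Nat.card F : ZMod r) * j ≤ m ∧
        orderOf (Nat.card F : ZMod r) * L + 2 * (m - orderOf (Nat.card F : ZMod r) * j) ≤ Fintype.card I ∧
        (orderOf (Nat.card F : ZMod r) * L + 2 * (m - orderOf (Nat.card F : ZMod r) * j) = Fintype.card I →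
          (H67.HasSing Q d ↔ SgnPlus (orderOf (Nat.card F : ZMod r)) L)) := by
  classical
  have hr := H67.cast_ne_zero_of_prime_ne (K := F) hrp hne
  have hi := orderOf_pos_zmod (F := F) (r := r) hr
  have ht : Fintype.card (H67.CycFac r F) = (r - 1) / orderOf (Nat.card F : ZMod r) := by
    have h := H67.card_cycFac (K := F) hr hrp
    rw [← Nat.card_eq_fintype_card (α := F)] at h
    rw [← h, Nat.mul_div_cancel _ hi]
  have hev : ∀ {L : ℕ}, (Odd (orderOf (Nat.card F : ZMod r)) → Even L) →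
      Even (orderOf (Nat.card F : ZMod r) * L) := fun {L} h => by
    rcases Nat.even_or_odd (orderOf (Nat.card F : ZMod r)) with he | ho
    · exact he.mul_right _
    · exact (h ho).mul_left _
  constructor
  · intro H L hL hLd hLe hLt
    haveI : Nonempty (H67.CycFac r F) := by
      refine Fintype.card_pos_iff.1 ?_
      have h := H67.card_cycFac (K := F) hr hrp
      have := hrp.two_le
      rcases Nat.eq_zero_or_pos (Fintype.card (H67.CycFac r F)) with h0 | h0
      · rw [h0, zero_mul] at h; omega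
      · exact h0
    obtain ⟨a, had, has, hamax⟩ := exists_worst_mult (π := dualF (p := p) hr) (H67.cycDual_cycDual _ _ _ _) ht
      (dualF_parity hr hr2).1 (dualF_parity hr hr2).2 hLe
    obtain ⟨A, hA, hAc⟩ := exists_orth_polyOf hrp hne hr2 Q hQ a had
      (by rw [← Nat.card_eq_fintype_card, has]; exact hLd) fun e he heq => by
        rw [← Nat.card_eq_fintype_card, has] at heq
        obtain rfl : e = d := by omega
        rw [hLt (by omega), H67.mvPlus, ← Nat.card_eq_fintype_card, has, SgnPlus]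
    set f : End F (I → F) := Matrix.toLin' ((A : GL I F) : Matrix I I F) with hfdef
    have hfr : f ^ r = 1 := by
      rw [hfdef, toLinAlgEquiv'_eq, ← map_pow, ← Units.val_pow_eq_pow_val, ← SubmonoidClass.coe_pow, hA]
      exact map_one _
    have hfQ : ∀ v, Q (f v) = Q v := fun v => by
      rw [hfdef, Matrix.toLin'_apply]; exact A.2 v v
    have hfa : multEnd r f = a := by
      rw [multEnd, hfdef, Matrix.charpoly_toLin', hAc, H67.multOf_polyOf hr hrp]
    have hfix := finrank_fixed_add_mult (r := r) hr hfr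
    rw [hfa, has, finrank_fintype_fun_eq_card] at hfix
    have hf1 : f ≠ 1 := fun h => by
      rw [show fixedSpace f = ⊤ from eq_top_iff.2 fun v _ => mem_fixedSpace.2 (by rw [h]; rfl),
        finrank_top, finrank_fintype_fun_eq_card] at hfix
      have := Nat.mul_pos hi hL
      omega
    obtain ⟨W, ⟨hWd, hWs⟩, hWf⟩ := H f hfQ hfr hf1
    have hWT : ∀ v ∈ W, f v ∈ W := fun v hv => hWf ⟨v, hv, rfl⟩
    obtain ⟨h1, h2, h3⟩ := isotropic_mult_restrict_le (p := p) (k := 0) (σ := RingHom.id F) hr (fun x => by simp)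
      (fun _ => rfl) (polarBilin_isRefl Q) hQ.1 (isometry_polarBilin hfQ) hfr hWT
      (fun u hu v hv => H4.polar_eq_zero_of_singular hWs hu hv)
    rw [hfa] at h2
    rw [hWd, hfa, has, finrank_fintype_fun_eq_card] at h3
    rw [hWd] at h1
    refine ⟨_, hamax _ h2, h1, h3, fun heq => ?_⟩
    have hWfix := finrank_fixed_add_mult (r := r) hr (restrict_pow_eq_one hfr hWT)
    rw [hWd] at hWfix
    obtain ⟨l', hl'⟩ := hev hLe
    obtain ⟨hEn, hMn, l, hl, hlsum, -, htyp⟩ := orth_fixed_moved hr hr2 hQ hfQ hfr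
    rw [finrank_fintype_fun_eq_card] at hlsum
    have hplus : PlusOn Q (fixedSpace f) := by
      refine ⟨(fixedSpace (f.restrict hWT)).map W.subtype, ?_, ?_, ?_⟩
      · rintro _ ⟨v, hv, rfl⟩
        exact mem_fixedSpace.2 (congrArg Subtype.val (mem_fixedSpace.1 hv))
      · rw [← (Submodule.equivMapOfInjective _ W.subtype_injective _).finrank_eq]
        omega
      · rintro _ ⟨v, -, rfl⟩
        exact hWs _ v.2
    have hlL : SgnPlus (orderOf (Nat.card F : ZMod r)) l ↔ SgnPlus (orderOf (Nat.card F : ZMod r)) L := by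
      rcases Nat.even_or_odd (orderOf (Nat.card F : ZMod r)) with he | ho
      · have : l = L := Nat.eq_of_mul_eq_mul_left hi (by
          rw [lcm_two_eq, if_pos he] at hlsum
          omega)
        rw [this]
      · exact iff_of_true (Or.inl ho) (Or.inl ho)
    rw [htyp d (by rw [finrank_fintype_fun_eq_card]; omega), ← hlL]
    exact iff_iff_of_left hplus
  · intro H f hfQ hfr hf1
    have hfix := finrank_fixed_add_mult (r := r) hr hfr
    rw [finrank_fintype_fun_eq_card] at hfix
    have hpos : 0 < ∑ P, multEnd r f P := by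
      rcases Nat.eq_zero_or_pos (∑ P, multEnd r f P) with h | h
      · refine absurd (LinearMap.ext fun v => ?_) hf1
        rw [h, mul_zero, add_zero] at hfix
        exact mem_fixedSpace.1 (Submodule.eq_top_of_finrank_eq (by rw [hfix, finrank_fintype_fun_eq_card]) ▸
          Submodule.mem_top : v ∈ fixedSpace f)
      · exact h
    have had : ∀ P, multEnd r f (dualF (p := p) hr P) = multEnd r f P := fun P =>
      mult_selfDual hr _ _ (polarBilin_isRefl Q) hQ.1 (isometry_polarBilin hfQ) hfr P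
    have hLe : Odd (orderOf (Nat.card F : ZMod r)) → Even (∑ P, multEnd r f P) := fun ho => by
      have h := H67.even_mov_dim (p := p) hrp hne hr2 (a := multEnd r f) had
      rw [← Nat.card_eq_fintype_card, Nat.even_mul] at h
      exact h.resolve_left (Nat.not_even_iff_odd.2 ho)
    obtain ⟨j, hj, hjm, hle, heq⟩ := H _ hpos (by omega) hLe fun hfull => by
      obtain ⟨l', hl'⟩ := hev hLe
      obtain ⟨-, -, l, hl, hlsum, -, htyp⟩ := orth_fixed_moved hr hr2 hQ hfQ hfr
      rw [finrank_fintype_fun_eq_card] at hlsum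
      have hE : PlusOn Q (fixedSpace f) := ⟨⊥, bot_le, by rw [finrank_bot]; omega, by simp⟩
      rw [htyp d (by rw [finrank_fintype_fun_eq_card]; omega), iff_iff_of_left hE]
      rcases Nat.even_or_odd (orderOf (Nat.card F : ZMod r)) with he | ho
      · rw [lcm_two_eq, if_pos he] at hlsum
        rw [Nat.eq_of_mul_eq_mul_left hi (show _ * l = _ * ∑ P, multEnd r f P by omega)]
      · exact iff_of_true (Or.inl ho) (Or.inl ho)
    obtain ⟨W, h1, h2, h3⟩ := exists_orth_isotropic (p := p) hrp hne hr2 hQ hfQ hfr hm hj hjm hle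
      fun e he h => by
        obtain rfl : e = d := by omega
        exact heq (by omega)
    exact ⟨W, ⟨h1, h2⟩, h3⟩

end Cfsg.Agent.H97
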