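import Cfsg.Agent.H97.OrthPieces
import Cfsg.Agent.H97.SympIsotropic

set_option autoImplicit false

/-!
# Arithmetic of the criteria for invariant totally singular subspaces
-/

namespace Cfsg.Agent.H97

/-- The arithmetic of the criterion. -/
theorem orth_iso_criterion_iff {N i t m : ℕ} {τ : Prop} (ht : 1 ≤ t) (hi : 0 < i) (him : i ≤ m)
    (hmN : 2 * m < N) :
    (∀ L, 0 < L → i * L ≤ N → (Odd i → Even L) → (i * L = N → (τ ↔ SgnPlus i L)) →
      ∃ j, j ≤ isoPieces i t L ∧ i * j ≤ m ∧ i * L + 2 * (m - i * j) ≤ N ∧
        (i * L + 2 * (m - i * j) = N → (τ ↔ SgnPlus i L))) ↔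
    ((Odd i ∧ (2 * (m % i) < N % (2 * i) ∨ (2 * (m % i) = N % (2 * i) ∧ τ) ∨ (N % (2 * i) = 0 ∧ ¬ τ))) ∨
     (Even i ∧ t + 2 * (m / i) ≤ N / i ∧
       ((2 * (m % i) ≤ i ∧ N % i = 0 ∧ ¬ (τ ↔ Even (N / i)) ∧ t + 2 * (m / i) < N / i) ∨
        2 * (m % i) < N % i ∨ (2 * (m % i) = N % i ∧ (τ ↔ Even (N / i)))))) := by
  classical
  have hm := Nat.div_add_mod m i
  have hl := Nat.mod_lt m hi
  have hm1 : 1 ≤ m / i := Nat.div_pos him hi
  have hmul : ∀ {x y : ℕ}, x ≤ y → i * x ≤ i * y := fun h => Nat.mul_le_mul_left i h
  rcases Nat.even_or_odd i with he | ho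
  · simp only [SgnPlus, isoPieces, Nat.not_odd_iff_even.2 he, he, false_imp_iff, forall_const, false_or, if_false,
      false_and, true_and]
    have hn := Nat.div_add_mod N i
    have hk := Nat.mod_lt N hi
    have hn2 : 2 ≤ N / i := by
      rw [Nat.le_div_iff_mul_le hi]
      omega
    have hstep : ∀ {L : ℕ}, L + 1 ≤ N / i → i * L + i ≤ i * (N / i) := fun {L} h => by
      have := hmul h
      rw [mul_add, mul_one] at this
      exact this
    constructor
    · intro H
      obtain ⟨j, hj, hjm, hle, -⟩ := H (N / i - 1) (by omega)
        (by have := hmul (show N / i - 1 ≤ N / i by omega); omega)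
        (fun h => absurd h (by have := hstep (show N / i - 1 + 1 ≤ N / i by omega); omega))
      have e1 : i * (N / i - 1) + i = i * (N / i) := by rw [← mul_add_one, Nat.sub_add_cancel (by omega)]
      have h1 : t + 2 * (m / i) ≤ N / i := by
        by_contra hlt
        have h2 := hmul (show j + 1 ≤ m / i by omega)
        rw [mul_add, mul_one] at h2
        omega
      refine ⟨h1, ?_⟩
      by_cases hgood : N % i = 0 → (τ ↔ Even (N / i))
      · obtain ⟨j', hj', hjm', hle', heq'⟩ := H (N / i) (by omega) (by omega) (fun h => hgood (by omega))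
        have := hmul (show j' ≤ m / i from (Nat.le_div_iff_mul_le hi).2 (by rw [mul_comm]; exact hjm'))
        rcases lt_or_ge (2 * (m % i)) (N % i) with h | h
        · exact Or.inr (Or.inl h)
        · exact Or.inr (Or.inr ⟨by omega, heq' (by omega)⟩)
      · obtain ⟨h0, hG⟩ := Classical.not_imp.1 hgood
        have := hmul (show j ≤ m / i from (Nat.le_div_iff_mul_le hi).2 (by rw [mul_comm]; exact hjm))
        refine Or.inl ⟨by omega, h0, hG, ?_⟩
        by_contra hlt
        obtain ⟨j', hj', hjm', hle', heq'⟩ := H (N / i - 2) (by omega)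
          (by have := hmul (show N / i - 2 ≤ N / i by omega); omega)
          (fun h => absurd h (by have := hstep (show N / i - 2 + 1 ≤ N / i by omega); omega))
        have h2 := hmul (show j' + 1 ≤ m / i by omega)
        rw [mul_add, mul_one] at h2
        have e2 : i * (N / i - 2) + 2 * i = i * (N / i) := by
          rw [mul_comm 2 i, ← mul_add, Nat.sub_add_cancel hn2]
        refine hG ((heq' (by omega)).trans ?_)
        rw [Nat.even_sub hn2]
        simp
    · rintro ⟨htn, hcond⟩ L hL hLN hval
      -- a representative `L'` of the same parity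
      suffices h : ∃ j L', j ≤ (L + 1 - t) / 2 ∧ i * j ≤ m ∧ L' ≤ N / i ∧ (Even L' ↔ Even L) ∧
          i * L + 2 * (m - i * j) = i * L' + 2 * (m % i) ∧
          (L' = N / i → L = N / i ∨ t + 2 * (m / i) = N / i) by
        obtain ⟨j, L', hj, hjm, hL', hpar, he', htop⟩ := h
        refine ⟨j, hj, hjm, ?_, fun heq => ?_⟩
        · rcases hL'.lt_or_eq with hlt | hL'eq
          · have := hstep (show L' + 1 ≤ N / i by omega)
            rcases hcond with h | h | h <;> omega
          · subst hL'eq
            rcases hcond with ⟨-, h0, hG, hlt⟩ | h | h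
            · rcases htop rfl with hLn | hLn
              · exact absurd ((hval (by rw [hLn]; omega)).trans (by rw [hLn])) hG
              · omega
            · omega
            · omega
        · rw [he'] at heq
          rcases hL'.lt_or_eq with hlt | hL'eq
          · have := hstep (show L' + 1 ≤ N / i by omega)
            rcases hcond with ⟨h2, h0, hG, -⟩ | h | ⟨h, -⟩
            · have hLe : L' + 1 = N / i := by
                by_contra h'
                have := hstep (show L' + 1 + 1 ≤ N / i by omega)
                rw [mul_add, mul_one] at this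
                omega
              rw [← hLe, Nat.even_add_one, hpar] at hG
              by_cases τ <;> by_cases Even L <;> simp_all
            · omega
            · omega
          · subst hL'eq
            rcases hcond with ⟨-, h0, hG, hlt⟩ | h | ⟨h, hG⟩
            · rcases htop rfl with hLn | hLn
              · exact absurd ((hval (by rw [hLn]; omega)).trans (by rw [hLn])) hG
              · omega
            · omega
            · exact hG.trans hpar
      have hLn : L ≤ N / i := (Nat.le_div_iff_mul_le hi).2 (by rw [mul_comm]; exact hLN)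
      rcases le_or_gt (m / i) ((L + 1 - t) / 2) with h | h
      · exact ⟨m / i, L, h, by omega, hLn, Iff.rfl, by omega, fun h => Or.inl h⟩
      · have h2 := hmul h.le
        refine ⟨(L + 1 - t) / 2, L + 2 * (m / i - (L + 1 - t) / 2) , le_rfl, by omega, by omega, ?_, ?_,
          fun he' => Or.inr (by omega)⟩
        · simp [Nat.even_add]
        · have h3 : i * (m / i - (L + 1 - t) / 2) + i * ((L + 1 - t) / 2) = i * (m / i) := by
            rw [← mul_add, Nat.sub_add_cancel h.le]
          rw [mul_add, mul_left_comm i 2]
          omega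
  · have hne : ¬ Even i := Nat.not_even_iff_odd.2 ho
    simp only [SgnPlus, isoPieces, ho, hne, true_or, iff_true, forall_const, if_true, false_and, or_false,
      true_and]
    have hn := Nat.div_add_mod N (2 * i)
    have hk := Nat.mod_lt N (show 0 < 2 * i by omega)
    have h2 : i * (2 * (N / (2 * i))) = 2 * i * (N / (2 * i)) := by ring
    have hn0 : 1 ≤ N / (2 * i) := Nat.div_pos (by omega) (by omega)
    constructor
    · intro H
      by_cases hgood : N % (2 * i) = 0 → τ
      · obtain ⟨j, hj, hjm, hle, heq⟩ := H (2 * (N / (2 * i))) (by omega) (by omega) (even_two_mul _)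
          (fun h => hgood (by omega))
        have := hmul (show j ≤ m / i from (Nat.le_div_iff_mul_le hi).2 (by rw [mul_comm]; exact hjm))
        rcases lt_or_ge (2 * (m % i)) (N % (2 * i)) with h | h
        · exact Or.inl h
        · exact Or.inr (Or.inl ⟨by omega, heq (by omega)⟩)
      · exact Or.inr (Or.inr (Classical.not_imp.1 hgood))
    · intro hcond L hL hLN hLe hval
      obtain ⟨l, rfl⟩ := hLe
      have hll : l ≤ N / (2 * i) := (Nat.le_div_iff_mul_le (by omega)).2 (by
        rw [show l * (2 * i) = i * (l + l) by ring]; exact hLN)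
      have h4 : i * (l + l) = 2 * (i * l) := by ring
      have h5 : 2 * i * (N / (2 * i)) = 2 * (i * (N / (2 * i))) := by ring
      have h6 := hmul hll
      rcases le_or_gt (m / i) l with h | h
      · rcases hcond with h' | ⟨h', hτ⟩ | ⟨h', hτ⟩
        · exact ⟨m / i, by omega, by omega, by omega, fun he => absurd he (by omega)⟩
        · exact ⟨m / i, by omega, by omega, by omega, fun _ => hτ⟩
        · have hlt : l + 1 ≤ N / (2 * i) := by
            by_contra hc
            obtain rfl : l = N / (2 * i) := by omega
            exact hτ (hval (by omega))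
          have h7 := hmul hlt
          rw [mul_add, mul_one] at h7
          exact ⟨m / i, by omega, by omega, by omega, fun he => absurd he (by omega)⟩
      · have := hmul h.le
        exact ⟨l, by omega, by omega, by omega, fun he => absurd he (by omega)⟩

end Cfsg.Agent.H97
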