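import Cfsg.Agent.H97.OrthIsotropic
import Cfsg.Agent.H5.Hyperbolic
import Cfsg.Agent.H4.Count

set_option autoImplicit false

/-!
# Numbers of totally singular subspaces modulo the characteristic, and elements fixing none of them
-/

namespace Cfsg.Agent.H97

open Module QuadraticMap

universe u

variable {F : Type u} [Field F] [Fintype F]

section char

variable {p : ℕ} [Fact p.Prime] [CharP F p]

/-- The number of singular vectors is divisible by the characteristic. -/
theorem card_zeros_eq_zero {V : Type u} [AddCommGroup V] [Module F V] [FiniteDimensional F V]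
    {Q : QuadraticForm F V} (hQ : (polarBilin Q).Nondegenerate) (hV : 3 ≤ finrank F V) :
    (Nat.card {v : V // Q v = 0} : ZMod p) = 0 := by
  obtain ⟨n, hp, hcard⟩ := FiniteField.card F p
  have hq : ((Fintype.card F : ℤ) : ZMod p) = 0 := by
    rw [Int.cast_natCast, hcard, Nat.cast_pow, ZMod.natCast_self, zero_pow n.ne_zero]
  have hq0 : (Fintype.card F : ℤ) ≠ 0 := by exact_mod_cast Fintype.card_ne_zero
  rcases Nat.even_or_odd' (finrank F V) with ⟨d, hd | hd⟩
  · obtain ⟨j, rfl⟩ : ∃ j, d = j + 2 := ⟨d - 2, by omega⟩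
    rcases H4.isom_std_even hQ hd with ⟨g, hg⟩ | ⟨-, ζ, hζ, g, hg⟩
    · have e : {v : V // Q v = 0} ≃ {v : Fin (j + 2) ⊕ Fin (j + 2) → F // Cfsg.quadFormPlus (j + 2) F v = 0} :=
        g.toEquiv.subtypeEquiv fun v => by
          rw [← H4.coe_qPlus]
          show _ ↔ H4.qPlus (j + 2) F (g v) = 0
          rw [hg]
      rw [Nat.card_congr e]
      have h := H4.card_qPlus_zeros (F := F) (j + 2)
      have h' : (Nat.card {v : Fin (j + 2) ⊕ Fin (j + 2) → F // Cfsg.quadFormPlus (j + 2) F v = 0} : ℤ) =
          (Fintype.card F : ℤ) ^ (2 * j + 3) + (Fintype.card F : ℤ) ^ (j + 2) - (Fintype.card F : ℤ) ^ (j + 1) :=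
        mul_left_cancel₀ hq0 (h.trans (by ring))
      have := congrArg (fun z : ℤ => (z : ZMod p)) h'
      simp only [Int.cast_natCast, Int.cast_add, Int.cast_sub, Int.cast_pow] at this
      rw [this]
      push_cast at hq ⊢
      simp [hq, zero_pow]
    · have e : {v : V // Q v = 0} ≃
          {v : (Fin (j + 1) ⊕ Fin (j + 1)) ⊕ Fin 2 → F // Cfsg.quadFormMinus (j + 1) F 1 ζ v = 0} :=
        g.toEquiv.subtypeEquiv fun v => by
          rw [← H4.coe_qMinus]
          show _ ↔ H4.qMinus (j + 2 - 1) F 1 ζ (g v) = 0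
          rw [hg]
      rw [Nat.card_congr e]
      have := congrArg (fun z : ℤ => (z : ZMod p)) (H4.card_qMinus_zeros (j + 1) 1 ζ (H67.aniso_of_one hζ))
      simp only [Int.cast_natCast, Int.cast_add, Int.cast_sub, Int.cast_pow] at this
      rw [this]
      push_cast at hq ⊢
      simp [hq, zero_pow]
  · obtain ⟨-, c, hc, g, hg⟩ := H4.isom_std_odd hQ hd
    have e : {v : V // Q v = 0} ≃ {v : Unit ⊕ (Fin d ⊕ Fin d) → F // Cfsg.quadFormOdd d F v = 0} :=
      g.toEquiv.subtypeEquiv fun v => by
        rw [← H4.coe_qOdd]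
        show _ ↔ H4.qOdd d F (g v) = 0
        rw [← hg, mul_eq_zero, or_iff_right hc]
    rw [Nat.card_congr e, H4.card_qOdd_zeros, Nat.cast_pow, ← Int.cast_natCast (Fintype.card F), hq,
      zero_pow (by omega)]

/-- The number of totally singular subspaces is one modulo the characteristic. -/
theorem card_singular_eq_one (m : ℕ) : ∀ {V : Type u} [AddCommGroup V] [Module F V] [FiniteDimensional F V]
    {Q : QuadraticForm F V}, (polarBilin Q).Nondegenerate → 2 * m < finrank F V →
    (Nat.card {W : Submodule F V // finrank F W = m ∧ ∀ w ∈ W, Q w = 0} : ZMod p) = 1 := by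
  induction m with
  | zero =>
    intro V _ _ _ Q _ _
    haveI : Unique {W : Submodule F V // finrank F W = 0 ∧ ∀ w ∈ W, Q w = 0} :=
      ⟨⟨⟨⊥, finrank_bot F V, by simp⟩⟩, fun W => Subtype.ext (Submodule.finrank_eq_zero.1 W.2.1)⟩
    rw [Nat.card_unique, Nat.cast_one]
  | succ m ih =>
    intro V _ _ _ Q hQ hV
    classical
    haveI : Finite V := Module.finite_of_finite F
    let Ω := {W : Submodule F V // finrank F W = m + 1 ∧ ∀ w ∈ W, Q w = 0}
    let X := {v : V // v ≠ 0 ∧ Q v = 0}
    haveI : Fintype Ω := Fintype.ofFinite _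
    haveI : Fintype X := Fintype.ofFinite _
    let e : (Σ W : Ω, {v : V // v ∈ W.1 ∧ v ≠ 0}) ≃ Σ v : X, {W : Ω // v.1 ∈ W.1} :=
      { toFun := fun z => ⟨⟨z.2.1, z.2.2.2, z.1.2.2 _ z.2.2.1⟩, z.1, z.2.2.1⟩
        invFun := fun z => ⟨z.2.1, z.1.1, z.2.2, z.1.2.1⟩
        left_inv := fun _ => rfl
        right_inv := fun _ => rfl }
    have h := congrArg (fun n : ℕ => (n : ZMod p)) (Nat.card_congr e)
    simp only [Nat.card_sigma, Nat.cast_sum] at h
    obtain ⟨n, hp, hcard⟩ := FiniteField.card F p
    have hq : (Nat.card F : ZMod p) = 0 := by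
      rw [Nat.card_eq_fintype_card, hcard, Nat.cast_pow, ZMod.natCast_self, zero_pow n.ne_zero]
    have hW : ∀ W : Ω, (Nat.card {v : V // v ∈ W.1 ∧ v ≠ 0} : ZMod p) = -1 := fun W => by
      have e1 : {v : V // v ∈ W.1 ∧ v ≠ 0} ≃ {v : W.1 // v ≠ 0} :=
        { toFun := fun v => ⟨⟨v.1, v.2.1⟩, fun h => v.2.2 (congrArg Subtype.val h)⟩
          invFun := fun v => ⟨v.1.1, v.1.2, fun h => v.2 (Subtype.ext h)⟩
          left_inv := fun _ => rfl
          right_inv := fun _ => rfl }
      haveI : Fintype W.1 := Fintype.ofFinite _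
      rw [Nat.card_congr e1, Nat.card_eq_fintype_card, Fintype.card_subtype_compl, Fintype.card_subtype_eq,
        ← Nat.card_eq_fintype_card, Module.natCard_eq_pow_finrank (K := F), W.2.1,
        Nat.cast_sub (Nat.one_le_pow _ _ Nat.card_pos), Nat.cast_pow, hq, zero_pow (by omega), Nat.cast_one, zero_sub]
    have hv : ∀ v : X, (Nat.card {W : Ω // v.1 ∈ W.1} : ZMod p) = 1 := by
      rintro ⟨v, hv0, hvQ⟩
      obtain ⟨f, hf⟩ := H5.exists_hypPair hQ hv0 hvQ
      set R := H5.pperp Q v f
      have hRd : finrank F R + 2 = finrank F V := hf.finrank_pperp hQ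
      rw [← ih (V := R) (Q := Q.restrict R) (H5.restrict_nondegenerate (hf.inf_perp hQ)) (by omega)]
      congr 1
      have hvW : ∀ (W : Ω), v ∈ W.1 → ∀ w ∈ W.1, polar Q v w = 0 := fun W hW w hw =>
        H4.polar_eq_zero_of_singular W.2.2 hW hw
      have hnot : ∀ x ∈ R, ∀ a : F, x = a • v → x = 0 := fun x hx a ha => by
        have h := (H5.mem_pperp.1 hx).2
        rw [ha, polar_smul_right, polar_comm (⇑Q) f v, hf.pair, smul_eq_mul, mul_one] at h
        rw [ha, h, zero_smul]
      have hdec : ∀ (W : Ω), v ∈ W.1 → ∀ w ∈ W.1, w - polar Q f w • v ∈ W.1 ∧ w - polar Q f w • v ∈ R :=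
        fun W hW w hw => ⟨W.1.sub_mem hw (W.1.smul_mem _ hW), by
          have h := hf.decomp w
          rwa [hvW W hW w hw, zero_smul, sub_zero] at h⟩
      have hsup : ∀ (W : Ω), v ∈ W.1 → Submodule.span F {v} ⊔ (W.1 ⊓ R) = W.1 := fun W hW =>
        le_antisymm (sup_le (Submodule.span_le.2 (Set.singleton_subset_iff.2 hW)) inf_le_left) fun w hw => by
          refine Submodule.mem_sup.2 ⟨polar Q f w • v, Submodule.mem_span_singleton.2 ⟨_, rfl⟩,
            w - polar Q f w • v, hdec W hW w hw, by abel⟩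
      have hdim : ∀ (U : Submodule F V), U ≤ R →
          finrank F ↥(Submodule.span F {v} ⊔ U) = finrank F U + 1 := fun U hU => by
        have h := Submodule.finrank_sup_add_finrank_inf_eq (Submodule.span F {v}) U
        rw [show Submodule.span F {v} ⊓ U = ⊥ from eq_bot_iff.2 fun x hx => by
          obtain ⟨a, ha⟩ := Submodule.mem_span_singleton.1 hx.1
          exact (Submodule.mem_bot F).2 (hnot x (hU hx.2) a ha.symm), finrank_bot,
          finrank_span_singleton hv0] at h
        omega
      refine Nat.card_congr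
        { toFun := fun W => ⟨(W.1.1 ⊓ R).comap R.subtype, ?_, fun u hu => W.1.2.2 _ hu.1⟩
          invFun := fun U => ⟨⟨Submodule.span F {v} ⊔ U.1.map R.subtype, ?_, ?_⟩,
            Submodule.mem_sup_left (Submodule.mem_span_singleton_self v)⟩
          left_inv := fun W => ?_
          right_inv := fun U => ?_ }
      · rw [(Submodule.comapSubtypeEquivOfLe (show W.1.1 ⊓ R ≤ R from inf_le_right)).finrank_eq]
        have := hdim (W.1.1 ⊓ R) inf_le_right
        rw [hsup W.1 W.2, W.1.2.1] at this
        omega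
      · rw [hdim _ (Submodule.map_subtype_le R U.1),
          ← (Submodule.equivMapOfInjective _ R.subtype_injective _).finrank_eq, U.2.1]
      · intro w hw
        obtain ⟨x, hx, y, hy, rfl⟩ := Submodule.mem_sup.1 hw
        obtain ⟨a, rfl⟩ := Submodule.mem_span_singleton.1 hx
        obtain ⟨y, hy', rfl⟩ := hy
        rw [QuadraticMap.map_add (⇑Q), QuadraticMap.map_smul, polar_smul_left, hvQ, Submodule.subtype_apply,
          (H5.mem_pperp.1 y.2).1, show Q (y : V) = 0 from U.2.2 y hy']
        simp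
      · refine Subtype.ext (Subtype.ext ?_)
        show Submodule.span F {v} ⊔ Submodule.map R.subtype (Submodule.comap R.subtype (W.1.1 ⊓ R)) = W.1.1
        rw [Submodule.map_comap_subtype, ← inf_assoc, inf_comm R, inf_assoc, inf_idem, hsup W.1 W.2]
      · refine Subtype.ext (Submodule.ext fun x => ⟨fun hx => ?_, fun hx => ?_⟩)
        · obtain ⟨⟨h1, -⟩⟩ := And.intro (Submodule.mem_comap.1 hx) trivial
          obtain ⟨y, hy, z, hz, hyz⟩ := Submodule.mem_sup.1 h1
          obtain ⟨a, rfl⟩ := Submodule.mem_span_singleton.1 hy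
          obtain ⟨z, hz', rfl⟩ := hz
          have h0 : a • v = 0 := hnot _ (by
            rw [eq_sub_of_add_eq hyz]; exact R.sub_mem x.2 z.2) a rfl
          rw [h0, zero_add] at hyz
          rwa [← show z = x from Subtype.ext hyz]
        · exact ⟨Submodule.mem_sup_right ⟨x, hx, rfl⟩, x.2⟩
    rw [Finset.sum_congr rfl (fun W _ => hW W), Finset.sum_congr rfl (fun v _ => hv v), Finset.sum_const,
      Finset.sum_const, Finset.card_univ, Finset.card_univ, nsmul_eq_mul, nsmul_eq_mul, mul_neg_one, mul_one] at h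
    haveI : Fintype {v : V // Q v = 0} := Fintype.ofFinite _
    have hX : Fintype.card X + 1 = Fintype.card {v : V // Q v = 0} := by
      let z₀ : {v : V // Q v = 0} := ⟨0, map_zero Q⟩
      have e2 : X ≃ {v : {v : V // Q v = 0} // v ≠ z₀} :=
        { toFun := fun v => ⟨⟨v.1, v.2.2⟩, fun h => v.2.1 (congrArg Subtype.val h)⟩
          invFun := fun v => ⟨v.1.1, fun h => v.2 (Subtype.ext h), v.1.2⟩
          left_inv := fun _ => rfl
          right_inv := fun _ => rfl }
      rw [Fintype.card_congr e2, Fintype.card_subtype_compl, Fintype.card_subtype_eq]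
      have := Fintype.card_pos_iff.2 ⟨z₀⟩
      omega
    have hZ := card_zeros_eq_zero (p := p) hQ (by omega)
    rw [Nat.card_eq_fintype_card, ← hX, Nat.cast_add, Nat.cast_one] at hZ
    rw [Nat.card_eq_fintype_card]
    linear_combination -h - hZ

/-- The characteristic does not divide the number of totally singular subspaces. -/
theorem not_dvd_char_singular {V : Type u} [AddCommGroup V] [Module F V] [FiniteDimensional F V]
    {Q : QuadraticForm F V} (hQ : (polarBilin Q).Nondegenerate) {m : ℕ} (hm : 2 * m < finrank F V) :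
    ¬ p ∣ Nat.card {W : Submodule F V // finrank F W = m ∧ ∀ w ∈ W, Q w = 0} := fun h => by
  have h1 := card_singular_eq_one (p := p) m hQ hm
  rw [(CharP.cast_eq_zero_iff (ZMod p) p _).2 h] at h1
  exact zero_ne_one h1

end char

variable {r p : ℕ} [Fact r.Prime] [Fact p.Prime] [CharP F p] {I : Type} [Fintype I] [DecidableEq I]

/-- Some element fixes no totally singular `m`-space when `m < ord_r q`. -/
theorem exists_no_fixed_singular (hrp : r.Prime) (hne : r ≠ p) {Q : QuadraticForm F (I → F)}
    (hQ : (polarBilin Q).Nondegenerate) {m : ℕ} (hm : 2 * m < Fintype.card I)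
    (hmi : m < orderOf (Nat.card F : ZMod r))
    (hdvd : r ∣ Nat.card {W : Submodule F (I → F) // finrank F W = m ∧ ∀ w ∈ W, Q w = 0}) :
    ∃ f : End F (I → F), (∀ v, Q (f v) = Q v) ∧ f ^ r = 1 ∧ f ≠ 1 ∧
      ∀ W : Submodule F (I → F), (finrank F W = m ∧ ∀ w ∈ W, Q w = 0) → ¬ W.map f ≤ W := by
  classical
  have hr := H67.cast_ne_zero_of_prime_ne (K := F) hrp hne
  haveI : Finite (End F (I → F)) := Finite.of_injective (fun f => ⇑f) DFunLike.coe_injective
  let s : Set (End F (I → F)) := {f | (∀ v, Q (f v) = Q v) ∧ f ^ r = 1}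
  obtain ⟨f, ⟨hfQ, hfr⟩, hmax⟩ := s.exists_max_image (fun f => finrank F (movedSpace f)) (Set.toFinite s)
    ⟨1, fun _ => rfl, one_pow r⟩
  set E := fixedSpace f
  have hWE : ∀ W : Submodule F (I → F), finrank F W = m → W.map f ≤ W → W ≤ E := fun W hWd hWf v hv => by
    have hWT : ∀ v ∈ W, f v ∈ W := fun v hv => hWf ⟨v, hv, rfl⟩
    have h := finrank_fixed_add_mult (r := r) hr (restrict_pow_eq_one hfr hWT)
    rcases Nat.eq_zero_or_pos (∑ P, multEnd r (f.restrict hWT) P) with h0 | h0
    · rw [h0, mul_zero, add_zero] at h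
      have : (⟨v, hv⟩ : W) ∈ fixedSpace (f.restrict hWT) :=
        Submodule.eq_top_of_finrank_eq h ▸ Submodule.mem_top
      exact mem_fixedSpace.2 (congrArg Subtype.val (mem_fixedSpace.1 this))
    · have := Nat.le_mul_of_pos_right (orderOf (Nat.card F : ZMod r)) h0
      omega
  let Ω := {W : Submodule F (I → F) // finrank F W = m ∧ ∀ w ∈ W, Q w = 0}
  haveI : Fintype Ω := Fintype.ofFinite _
  have hinj : Function.Injective f := injective_of_pow_eq_one hfr
  let σ : Function.End Ω := fun W => ⟨W.1.map f, by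
    rw [← (Submodule.equivMapOfInjective f hinj W.1).finrank_eq]; exact W.2.1,
    by rintro _ ⟨w, hw, rfl⟩; rw [hfQ]; exact W.2.2 w hw⟩
  have hσ : ∀ k (W : Ω), ((σ ^ k) W).1 = W.1.map (f ^ k) := fun k => by
    induction k with
    | zero => intro W; exact (Submodule.map_id _).symm
    | succ k ih =>
      intro W
      rw [pow_succ']
      show ((σ ^ k) W).1.map f = _
      rw [ih, ← Submodule.map_comp, pow_succ']
      rfl
  have hσr : σ ^ r ^ 1 = 1 := _root_.funext fun W => Subtype.ext (by
    rw [pow_one, hσ, hfr]; exact Submodule.map_id _)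
  have hmod := Equiv.Perm.card_fixedPoints_modEq hσr
  rw [← Nat.card_eq_fintype_card, ← Nat.card_eq_fintype_card] at hmod
  have hdvd' : r ∣ Nat.card {W : Submodule F E // finrank F W = m ∧ ∀ w ∈ W, Q (w : I → F) = 0} := by
    rw [show Nat.card {W : Submodule F E // finrank F W = m ∧ ∀ w ∈ W, Q (w : I → F) = 0} =
      Nat.card (Function.fixedPoints σ) from Nat.card_congr
        { toFun := fun U => ⟨⟨U.1.map E.subtype, by
              rw [← (Submodule.equivMapOfInjective _ E.subtype_injective U.1).finrank_eq]; exact U.2.1,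
              by rintro _ ⟨w, hw, rfl⟩; exact U.2.2 w hw⟩, Subtype.ext (by
              show (U.1.map E.subtype).map f = U.1.map E.subtype
              rw [← Submodule.map_comp]
              congr 1
              exact LinearMap.ext fun w => mem_fixedSpace.1 w.2)⟩
          invFun := fun W => ⟨W.1.1.comap E.subtype, by
            rw [(Submodule.comapSubtypeEquivOfLe (hWE _ W.1.2.1 (congrArg Subtype.val W.2).le)).finrank_eq,
              W.1.2.1], fun w hw => W.1.2.2 _ hw⟩
          left_inv := fun U => Subtype.ext (Submodule.comap_map_eq_of_injective E.subtype_injective _)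
          right_inv := fun W => Subtype.ext (Subtype.ext (Submodule.map_comap_eq_self (by
            rw [Submodule.range_subtype]; exact hWE _ W.1.2.1 (congrArg Subtype.val W.2).le))) }]
    exact (Nat.modEq_zero_iff_dvd).1 (hmod.symm.trans ((Nat.modEq_zero_iff_dvd).2 hdvd))
  have hempty : IsEmpty {W : Submodule F E // finrank F W = m ∧ ∀ w ∈ W, Q (w : I → F) = 0} := by
    by_contra hne'
    rw [not_isEmpty_iff] at hne'
    obtain ⟨o⟩ := hne'
    obtain ⟨hEn, hMn⟩ := nondegOn_fixed_moved (polarBilin Q) (polarBilin_isRefl Q) (nondegOn_top hQ) hr f hfr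
      (isometry_polarBilin hfQ)
    let R := Q.comp E.subtype
    have hR : (polarBilin R).Nondegenerate := restrictQ_nondegenerate hEn
    haveI : Finite (E ≃ₗ[F] E) := Finite.of_injective _ DFunLike.coe_injective
    let ΩE := {W : Submodule F E // finrank F W = m ∧ ∀ w ∈ W, Q (w : I → F) = 0}
    letI : MulAction (H4.qIsoms R) ΩE :=
      { smul := fun g W => ⟨W.1.map ((g : E ≃ₗ[F] E) : E →ₗ[F] E),
          (LinearEquiv.finrank_map_eq _ _).trans W.2.1, by
          rintro _ ⟨w, hw, rfl⟩
          exact (g.2 w).trans (W.2.2 w hw)⟩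
        one_smul := fun W => Subtype.ext (Submodule.map_id _)
        mul_smul := fun g h W => Subtype.ext (Submodule.map_comp _ _ _) }
    have htrans : ∀ W : ΩE, W ∈ MulAction.orbit (H4.qIsoms R) o := fun W => by
      have hoW : finrank F o.1 = finrank F W.1 := o.2.1.trans W.2.1.symm
      haveI : Module.Free F o.1 := Module.Free.of_divisionRing F o.1
      haveI : Module.Free F W.1 := Module.Free.of_divisionRing F W.1
      obtain ⟨e⟩ : Nonempty (o.1 ≃ₗ[F] W.1) := ⟨LinearEquiv.ofFinrankEq _ _ hoW⟩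
      obtain ⟨g, hg, hgx⟩ := H4.witt_extension hR o.1 (W.1.subtype ∘ₗ e.toLinearMap)
        (W.1.subtype_injective.comp e.injective)
        fun x => (W.2.2 _ (e x).2).trans (o.2.2 _ x.2).symm
      refine ⟨⟨g, hg⟩, Subtype.ext (Submodule.eq_of_le_of_finrank_eq ?_
        ((LinearEquiv.finrank_map_eq _ _).trans (o.2.1.trans W.2.1.symm)))⟩
      rintro _ ⟨v, hv, rfl⟩
      show g (⟨v, hv⟩ : o.1) ∈ W.1
      rw [hgx]; exact Subtype.coe_prop _
    have hcard := Nat.card_congr (MulAction.orbitProdStabilizerEquivGroup (H4.qIsoms R) o)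
    rw [Nat.card_prod, Nat.card_coe_set_eq, Set.eq_univ_of_forall htrans, Set.ncard_univ] at hcard
    obtain ⟨g, hg⟩ := exists_prime_orderOf_dvd_card' (G := H4.qIsoms R) r (hcard ▸ dvd_mul_of_dvd_left hdvd' _)
    have hgr : ((g : E ≃ₗ[F] E)) ^ r = 1 := by
      rw [← SubmonoidClass.coe_pow, ← hg, pow_orderOf_eq_one]; rfl
    have hc := isCompl_fixed_moved hr f hfr
    let e := Submodule.prodEquivOfIsCompl E (movedSpace f) hc
    let fM := f.restrict (p := movedSpace f) (q := movedSpace f) fun v hv => movedSpace_inv f ⟨v, hv, rfl⟩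
    let S : End F (E × movedSpace f) := ((g : E ≃ₗ[F] E) : E →ₗ[F] E).prodMap fM
    let f' : End F (I → F) := e.conjAlgEquiv F S
    have hf' : ∀ z, f' (e z) = e (S z) := fun z => by
      show e (S (e.symm (e z))) = _
      rw [e.symm_apply_apply]
    have he : ∀ z : E × movedSpace f, e z = (z.1 : I → F) + (z.2 : I → F) := fun _ => rfl
    have heQ : ∀ z : E × movedSpace f, Q (e z) = Q (z.1 : I → F) + Q (z.2 : I → F) := fun z => by
      have h := fixed_orth_moved (polarBilin Q) f (isometry_polarBilin hfQ) _ z.1.2 _ z.2.2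
      rw [polarBilin_apply_apply, QuadraticMap.polar] at h
      rw [he]; linear_combination h
    have hf'Q : ∀ v, Q (f' v) = Q v := fun v => by
      obtain ⟨z, rfl⟩ := e.surjective v
      rw [hf', heQ, heQ]
      congr 1
      · exact g.2 z.1
      · exact hfQ _
    have hf'r : f' ^ r = 1 := by
      have hS : ∀ k, S ^ k = (((g : E ≃ₗ[F] E) ^ k : E ≃ₗ[F] E) : E →ₗ[F] E).prodMap (fM ^ k) := fun k => by
        induction k with
        | zero => exact LinearMap.ext fun _ => rfl
        | succ k ih =>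
          rw [pow_succ, ih, pow_succ, pow_succ]
          exact LinearMap.ext fun _ => rfl
      rw [← map_pow, hS, hgr, restrict_pow_eq_one hfr]
      rw [show ((1 : E ≃ₗ[F] E) : E →ₗ[F] E).prodMap (1 : End F (movedSpace f)) = 1 from LinearMap.ext fun _ => rfl,
        map_one]
    have hsub : fixedSpace f' ≤ E := fun v hv => by
      obtain ⟨z, rfl⟩ := e.surjective v
      have h1 := mem_fixedSpace.1 hv
      rw [hf'] at h1
      have h2 : z.2 = 0 := Subtype.ext (Submodule.disjoint_def.1 (disjoint_fixed_moved hr f hfr) _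
        (mem_fixedSpace.2 (congrArg (fun x : E × movedSpace f => (x.2 : I → F)) (e.injective h1))) z.2.2)
      rw [he, h2, Submodule.coe_zero, add_zero]
      exact z.1.2
    have hle := hmax f' ⟨hf'Q, hf'r⟩
    have h1 := Submodule.finrank_add_eq_of_isCompl hc
    have h2 := Submodule.finrank_add_eq_of_isCompl (isCompl_fixed_moved hr f' hf'r)
    have hEeq : fixedSpace f' = E := Submodule.eq_of_le_of_finrank_le hsub (by have : finrank F E = finrank F (fixedSpace f) := rfl; omega)
    have hg1 : g = 1 := Subtype.ext (LinearEquiv.ext fun x => by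
      have hx : e (x, 0) ∈ fixedSpace f' := by rw [hEeq, he]; simp
      have h3 := mem_fixedSpace.1 hx
      rw [hf'] at h3
      exact congrArg Prod.fst (e.injective h3))
    rw [hg1, orderOf_one] at hg
    exact hrp.ne_one hg.symm
  refine ⟨f, hfQ, hfr, fun hf1 => ?_, fun W hW hWf => hempty.false
    ⟨W.comap E.subtype, by rw [(Submodule.comapSubtypeEquivOfLe (hWE W hW.1 hWf)).finrank_eq]; exact hW.1,
      fun w hw => hW.2 _ hw⟩⟩
  obtain ⟨J, _, _, QR, c, g, hc, -, hg, -, -⟩ := exists_model_space Q hQ hm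
  let ι : (Fin m → F) →ₗ[F] (I → F) :=
    g.toLinearMap ∘ₗ LinearMap.inl F _ _ ∘ₗ
      { toFun := fun x => Sum.elim x 0
        map_add' := fun x y => _root_.funext fun i => by rcases i with i | i <;> simp
        map_smul' := fun c x => _root_.funext fun i => by rcases i with i | i <;> simp }
  have hd : finrank F (LinearMap.range ι) = m := by
    rw [LinearMap.finrank_range_of_inj fun x y h => _root_.funext fun i =>
      congrFun (congrArg Prod.fst (g.injective h)) (Sum.inl i), finrank_fintype_fun_eq_card, Fintype.card_fin]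
  refine hempty.false ⟨(LinearMap.range ι).comap E.subtype, ?_, ?_⟩
  · rw [(Submodule.comapSubtypeEquivOfLe (fun v _ => mem_fixedSpace.2 (by rw [hf1]; rfl))).finrank_eq, hd]
  · rintro w ⟨x, hx⟩
    refine mul_left_cancel₀ hc ?_
    rw [mul_zero, show (w : I → F) = g (Sum.elim x 0, 0) from hx.symm, hg]
    simp [H4.coe_qPlus, Cfsg.quadFormPlus]

end Cfsg.Agent.H97
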