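import Cfsg.Agent.H97.OrthIsotropicCount
import Cfsg.Agent.H97.OrthIsotropicArith

set_option autoImplicit false

/-!
# The criterion for totally singular subspaces at odd primes other than the characteristic
-/

namespace Cfsg.Agent.H97

open Module QuadraticMap

universe u

variable {F : Type u} [Field F] [Fintype F] {r p : ℕ} [Fact r.Prime] [Fact p.Prime] [CharP F p]
  {I : Type} [Fintype I] [DecidableEq I]

/-- The criterion for totally singular subspaces at odd primes other than the characteristic. -/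
theorem orth_singular_prime_iff (hrp : r.Prime) (hne : r ≠ p) (hr2 : r ≠ 2) {Q : QuadraticForm F (I → F)}
    (hQ : (polarBilin Q).Nondegenerate) {m N : ℕ} (hN : Fintype.card I = N) (hm : 2 * m < N) {i : ℕ}
    (hi : i = orderOf (Nat.card F : ZMod r))
    (hdvd : r ∣ Nat.card {W : Submodule F (I → F) // finrank F W = m ∧ ∀ w ∈ W, Q w = 0}) :
    (∀ f : End F (I → F), (∀ v, Q (f v) = Q v) → f ^ r = 1 → f ≠ 1 → ∃ W : Submodule F (I → F),
      (finrank F W = m ∧ ∀ w ∈ W, Q w = 0) ∧ W.map f ≤ W) ↔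
    (i ≤ m ∧
      ((Odd i ∧ (2 * (m % i) < N % (2 * i) ∨ (2 * (m % i) = N % (2 * i) ∧ H67.HasSing Q (N / 2)) ∨
          (N % (2 * i) = 0 ∧ ¬ H67.HasSing Q (N / 2)))) ∨
       (Even i ∧ (r - 1) / i + 2 * (m / i) ≤ N / i ∧
         ((2 * (m % i) ≤ i ∧ N % i = 0 ∧ ¬ (H67.HasSing Q (N / 2) ↔ Even (N / i)) ∧
            (r - 1) / i + 2 * (m / i) < N / i) ∨
          2 * (m % i) < N % i ∨ (2 * (m % i) = N % i ∧ (H67.HasSing Q (N / 2) ↔ Even (N / i))))))) := by
  have hr := H67.cast_ne_zero_of_prime_ne (K := F) hrp hne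
  have hipos := orderOf_pos_zmod (F := F) (r := r) hr
  by_cases him : i ≤ m
  · have ht : 1 ≤ (r - 1) / i := by
      have h := H67.card_cycFac (K := F) hr hrp
      rw [← Nat.card_eq_fintype_card (α := F), ← hi] at h
      rw [← h, Nat.mul_div_cancel _ (hi ▸ hipos)]
      rcases Nat.eq_zero_or_pos (Fintype.card (H67.CycFac r F)) with h0 | h0
      · rw [h0, zero_mul] at h; have := hrp.two_le; omega
      · exact h0
    rw [orth_isotropic_criterion hrp hne hr2 hQ (d := N / 2) (hN ▸ hm) (by rw [hN]), ← hi, hN,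
      orth_iso_criterion_iff ht (hi ▸ hipos) him hm]
    simp only [him, true_and]
  · refine iff_of_false (fun H => ?_) fun h => him h.1
    obtain ⟨f, h1, h2, h3, h4⟩ := exists_no_fixed_singular hrp hne hQ (hN ▸ hm) (by rw [← hi]; omega) hdvd
    obtain ⟨W, hW, hWf⟩ := H f h1 h2 h3
    exact h4 W hW hWf

end Cfsg.Agent.H97
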