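import Cfsg.Agent.H97.SympIsotropic
import Cfsg.Agent.H97.LagrangianPair
import Cfsg.Agent.H97.LagrangianCount
import Cfsg.Agent.H97.LinearCriteria
import Cfsg.Agent.H97.SympPlanes
import Cfsg.Agent.H4.Singular

set_option autoImplicit false

/-!
# Criteria for invariant totally isotropic subspaces of symplectic elements of prime order
-/

namespace Cfsg.Agent.H97

open Module Polynomial

variable {F : Type*} [Field F] [Fintype F]

section count

variable {d m : ℕ}

omit [Fintype F] in
/-- The number of totally isotropic subspaces. -/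
theorem card_isotropic_sp_mul [Finite F] :
    Nat.card {W : Submodule F (Fin d ⊕ Fin d → F) //
        finrank F W = m ∧ ∀ u ∈ W, ∀ v ∈ W, Cfsg.sympForm d F u v = 0} *
      ∏ i : Fin m, (Nat.card F ^ m - Nat.card F ^ (i : ℕ)) = Nat.card (H2.IsotropicTuple d m F) := by
  classical
  cases nonempty_fintype F
  set X := {W : Submodule F (Fin d ⊕ Fin d → F) //
    finrank F W = m ∧ ∀ u ∈ W, ∀ v ∈ W, Cfsg.sympForm d F u v = 0}
  haveI : Finite (Submodule F (Fin d ⊕ Fin d → F)) :=
    Finite.of_injective (fun W => (W : Set (Fin d ⊕ Fin d → F))) SetLike.coe_injective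
  haveI : Fintype X := Fintype.ofFinite X
  let φ : (Σ W : X, {s : Fin m → W.1 // LinearIndependent F s}) → H2.IsotropicTuple d m F := fun p =>
    ⟨fun i => (p.2.1 i : Fin d ⊕ Fin d → F), p.2.2.map' p.1.1.subtype p.1.1.ker_subtype,
      fun i j => p.1.2.2 _ (p.2.1 i).2 _ (p.2.1 j).2⟩
  have hspan : ∀ p, Submodule.span F (Set.range (φ p).1) = p.1.1 := fun p => by
    refine Submodule.eq_of_le_of_finrank_eq (Submodule.span_le.2 ?_) ?_
    · rintro _ ⟨i, rfl⟩
      exact (p.2.1 i).2
    · rw [finrank_span_eq_card (φ p).2.1, Fintype.card_fin, p.1.2.1]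
  have hbij : Function.Bijective φ := by
    refine ⟨fun p p' h => ?_, fun f => ?_⟩
    · have hW : p.1 = p'.1 := Subtype.ext (by rw [← hspan p, h, hspan p'])
      obtain ⟨W, s⟩ := p
      obtain ⟨W', s'⟩ := p'
      obtain rfl : W = W' := hW
      refine Sigma.ext rfl (heq_of_eq (Subtype.ext (_root_.funext fun i => Subtype.ext ?_)))
      exact congrFun (congrArg Subtype.val h) i
    · refine ⟨⟨⟨Submodule.span F (Set.range f.1), ?_, ?_⟩,
        fun i => ⟨f.1 i, Submodule.subset_span (Set.mem_range_self i)⟩, ?_⟩, rfl⟩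
      · rw [finrank_span_eq_card f.2.1, Fintype.card_fin]
      · intro u hu v hv
        have h1 : ∀ j, H2.sympBilin d F (f.1 j) v = 0 := fun j => by
          refine (Submodule.span_le (p := LinearMap.ker (H2.sympBilin d F (f.1 j)))).2 ?_ hv
          rintro _ ⟨i, rfl⟩
          simpa using f.2.2 j i
        have h2 : H2.sympBilin d F u v = 0 := by
          refine (Submodule.span_le (p := LinearMap.ker ((H2.sympBilin d F).flip v))).2 ?_ hu
          rintro _ ⟨i, rfl⟩
          simpa using h1 i
        simpa using h2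
      · exact LinearIndependent.of_comp (Submodule.span F (Set.range f.1)).subtype f.2.1
  have hs : ∀ W : X, Nat.card {s : Fin m → W.1 // LinearIndependent F s}
      = ∏ i : Fin m, (Nat.card F ^ m - Nat.card F ^ (i : ℕ)) := fun W => by
    rw [card_linearIndependent (le_of_eq W.2.1.symm)]
    simp [W.2.1, Nat.card_eq_fintype_card]
  rw [← Nat.card_congr (Equiv.ofBijective φ hbij), Nat.card_sigma,
    Finset.sum_congr rfl (fun W _ => hs W), Finset.sum_const, Finset.card_univ, smul_eq_mul,
    Nat.card_eq_fintype_card]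

/-- A prime dividing the number of totally isotropic subspaces. -/
theorem dvd_of_dvd_card_isotropic {r : ℕ} (hr : r.Prime) (hmd : m ≤ d)
    (hdvd : r ∣ Nat.card {W : Submodule F (Fin d ⊕ Fin d → F) //
      finrank F W = m ∧ ∀ u ∈ W, ∀ v ∈ W, Cfsg.sympForm d F u v = 0}) :
    ∃ j < m, r ∣ Nat.card F ^ (2 * (d - j)) - 1 := by
  have hq : 0 < Nat.card F := Nat.card_pos
  have h := card_isotropic_sp_mul (F := F) (d := d) (m := m)
  rw [H2.card_isotropicTuple, Fin.prod_univ_eq_prod_range (fun i => Nat.card F ^ m - Nat.card F ^ i) m] at h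
  have e1 : ∏ i ∈ Finset.range m, (Nat.card F ^ m - Nat.card F ^ i) =
      (∏ i ∈ Finset.range m, Nat.card F ^ i) * ∏ i ∈ Finset.range m, (Nat.card F ^ (m - i) - 1) := by
    rw [← Finset.prod_mul_distrib]
    refine Finset.prod_congr rfl fun i hi => ?_
    rw [Nat.mul_sub, mul_one, ← pow_add, Nat.add_sub_cancel' (Finset.mem_range.1 hi).le]
  have e2 : ∏ i ∈ Finset.range m, (Nat.card F ^ (2 * d - i) - Nat.card F ^ i) =
      (∏ i ∈ Finset.range m, Nat.card F ^ i) * ∏ i ∈ Finset.range m, (Nat.card F ^ (2 * (d - i)) - 1) := by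
    rw [← Finset.prod_mul_distrib]
    refine Finset.prod_congr rfl fun i hi => ?_
    have := Finset.mem_range.1 hi
    rw [Nat.mul_sub, mul_one, ← pow_add, show i + 2 * (d - i) = 2 * d - i by omega]
  rw [e1, e2, mul_left_comm] at h
  have h' := Nat.eq_of_mul_eq_mul_left (Finset.prod_pos fun i _ => pow_pos hq i) h
  obtain ⟨j, hj, hjd⟩ := (Prime.dvd_finsetProd_iff hr.prime _).1 (h' ▸ dvd_mul_of_dvd_left hdvd _)
  exact ⟨j, Finset.mem_range.1 hj, hjd⟩

/-- The characteristic does not divide the number of totally isotropic subspaces. -/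
theorem not_dvd_char_isotropic {p : ℕ} [Fact p.Prime] [CharP F p] (hmd : m ≤ d) :
    ¬ p ∣ Nat.card {W : Submodule F (Fin d ⊕ Fin d → F) //
      finrank F W = m ∧ ∀ u ∈ W, ∀ v ∈ W, Cfsg.sympForm d F u v = 0} := by
  intro h
  obtain ⟨j, hj, hjd⟩ := dvd_of_dvd_card_isotropic (Fact.out : p.Prime) hmd h
  obtain ⟨e, hpp, he⟩ := FiniteField.card F p
  have h1 : p ∣ Nat.card F ^ (2 * (d - j)) :=
    dvd_pow (by rw [Nat.card_eq_fintype_card, he]; exact dvd_pow_self p e.ne_zero) (by omega)
  have h2 := Nat.dvd_sub h1 hjd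
  rw [Nat.sub_sub_self (Nat.one_le_pow _ _ Nat.card_pos), Nat.dvd_one] at h2
  exact (Fact.out : p.Prime).one_lt.ne' h2

end count

variable {r p : ℕ} [Fact r.Prime] [hp : Fact p.Prime] [hchar : CharP F p] {d : ℕ}

/-- The multiplicities of an element of given characteristic polynomial. -/
theorem mult_toLin_of_charpoly {I : Type*} [Fintype I] [DecidableEq I] (hr : (r : F) ≠ 0) {M : Matrix I I F}
    {N : ℕ} {a : H67.CycFac r F → ℕ} (h : M.charpoly = H67.polyOf N a) : multEnd r (Matrix.toLin' M) = a := by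
  rw [multEnd, Matrix.charpoly_toLin', h, H67.multOf_polyOf hr (Fact.out : r.Prime)]

omit [Fintype F] [Fact r.Prime] [Fact p.Prime] [CharP F p] in
theorem sympBilin_hrefl : ∀ u v, H2.sympBilin d F u v = 0 → H2.sympBilin d F v u = 0 :=
  (H2.sympBilin_isAlt d F).isRefl

omit [Fintype F] [Fact r.Prime] [Fact p.Prime] [CharP F p] in
theorem sympBilin_hnd : ∀ u, (∀ v, H2.sympBilin d F u v = 0) → u = 0 :=
  (H2.sympBilin_nondegenerate d F).1

include hp hchar in
/-- Multiplicities give invariant totally isotropic subspaces. -/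
theorem exists_sp_isotropic (hr : (r : F) ≠ 0) (hr2 : r ≠ 2) {f : End F (Fin d ⊕ Fin d → F)}
    (hfB : ∀ u v, H2.sympBilin d F (f u) (f v) = H2.sympBilin d F u v) (hfr : f ^ r = 1) {m j : ℕ} (hmd : m ≤ d)
    (hj : j ≤ isoPieces (orderOf (Nat.card F : ZMod r)) ((r - 1) / orderOf (Nat.card F : ZMod r))
      (∑ P, multEnd r f P)) (hjm : orderOf (Nat.card F : ZMod r) * j ≤ m)
    (hle : orderOf (Nat.card F : ZMod r) * ∑ P, multEnd r f P +
      2 * (m - orderOf (Nat.card F : ZMod r) * j) ≤ 2 * d) :
    ∃ W : Submodule F (Fin d ⊕ Fin d → F), finrank F W = m ∧ (∀ u ∈ W, ∀ v ∈ W, Cfsg.sympForm d F u v = 0) ∧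
      W.map f ≤ W := by
  classical
  have hne : r ≠ p := fun h => hr (by rw [h]; exact CharP.cast_eq_zero F p)
  have hrp : r.Prime := Fact.out
  have ht : Fintype.card (H67.CycFac r F) = (r - 1) / orderOf (Nat.card F : ZMod r) := by
    have h := H67.card_cycFac (K := F) hr hrp
    rw [← Nat.card_eq_fintype_card (α := F)] at h
    rw [← h, Nat.mul_div_cancel _ (orderOf_pos_zmod hr)]
  set a := multEnd r f
  have had : ∀ P, a (dualF (p := p) hr P) = a P := fun P =>
    mult_selfDual hr _ _ sympBilin_hrefl sympBilin_hnd hfB hfr P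
  obtain ⟨b, hb, hbs⟩ := exists_iso_mult (π := dualF (p := p) hr) (H67.cycDual_cycDual _ _ _ _) ht
    (dualF_parity hr hr2).1 (dualF_parity hr hr2).2 had hj
  obtain ⟨k, rfl⟩ := Nat.exists_eq_add_of_le hmd
  have hbπ : ∑ P, b (dualF (p := p) hr P) = ∑ P, b P :=
    Fintype.sum_equiv ⟨dualF (p := p) hr, dualF (p := p) hr, H67.cycDual_cycDual _ _ _ _,
      H67.cycDual_cycDual _ _ _ _⟩ _ _ fun P => rfl
  set a' : H67.CycFac r F → ℕ := fun P => a P - (b P + b (dualF (p := p) hr P)) with ha'
  have hsum : ∑ P, a' P + 2 * j = ∑ P, a P := by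
    rw [two_mul, ← hbs]
    nth_rw 2 [← hbπ]
    rw [← Finset.sum_add_distrib, ← Finset.sum_add_distrib]
    exact Finset.sum_congr rfl fun P _ => by simp only [ha']; have := hb P; omega
  obtain ⟨y, hy, hyc, U, hUd, hUi, hUy⟩ := exists_sp_model (p := p) hr hr2 (m := m) (k := k) b a'
    (by rw [hbs]; exact hjm) (fun P => by
      simp only [ha', H67.cycDual_cycDual, had]
      rw [add_comm (b (dualF (p := p) hr P))])
    (by
      have : orderOf (Nat.card F : ZMod r) * (∑ P, a' P + 2 * j) = orderOf (Nat.card F : ZMod r) * ∑ P, a P := by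
        rw [hsum]
      rw [mul_add, mul_left_comm] at this
      omega)
  have hab : b + b ∘ dualF (p := p) hr + a' = a := _root_.funext fun P => by
    simp only [Pi.add_apply, Function.comp_apply, ha']; have := hb P; omega
  rw [hab] at hyc
  obtain ⟨x, hxf, -⟩ := exists_sp_of_isometry f hfB hfr
  have hxr : x ^ r = 1 := by
    refine Subtype.ext (Matrix.toLin'.injective ?_)
    show H2.spRho (m + k) F (x ^ r) = H2.spRho (m + k) F 1
    rw [map_pow, map_one, show H2.spRho (m + k) F x = f from hxf, hfr]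
  have hxc : (x : Matrix (Fin (m + k) ⊕ Fin (m + k)) (Fin (m + k) ⊕ Fin (m + k)) F).charpoly =
      H67.polyOf (2 * (m + k)) a := by
    rw [← Matrix.charpoly_toLin', hxf, (charpoly_eq_polyOf_mult hr hfr).1, finrank_symp]
  let ρ := (Matrix.symplecticGroup (Fin (m + k)) F).subtype.toHomUnits
  have hco : ∀ z : Matrix.symplecticGroup (Fin (m + k)) F, z ^ r = 1 →
      (orderOf (ρ z)).Coprime p ∧ (orderOf z).Coprime p := fun z hz =>
    ⟨H67.coprime_of_pow_eq_one (p := p) hrp hne (by rw [← map_pow, hz, map_one]),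
      Nat.Coprime.coprime_dvd_left (orderOf_dvd_of_pow_eq_one hz) ((Nat.coprime_primes hrp Fact.out).2 hne)⟩
  obtain ⟨c, hc⟩ := (H67.sp_isConj_iff_matrix (p := p) y x (hco y hy).2).2
    (MonoidHom.map_isConj (Units.coeHom _) (H66.isConj_of_charpoly_eq p (g := ρ y) (h := ρ x)
      (hco y hy).1 (hco x hxr).1 (hyc.trans hxc.symm)))
  set C : Matrix (Fin (m + k) ⊕ Fin (m + k)) (Fin (m + k) ⊕ Fin (m + k)) F :=
    ((c : Matrix.symplecticGroup (Fin (m + k)) F) : Matrix (Fin (m + k) ⊕ Fin (m + k)) (Fin (m + k) ⊕ Fin (m + k)) F)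
    with hC
  refine ⟨U.map (Matrix.toLin' C), ?_, ?_, ?_⟩
  · refine ((Submodule.equivMapOfInjective _ ?_ U).finrank_eq.symm).trans hUd
    intro u v huv
    simp only [Matrix.toLin'_apply] at huv
    exact Matrix.mulVec_injective_of_isUnit (A := C) ((c.isUnit).map (Matrix.symplecticGroup (Fin (m + k)) F).subtype) huv
  · rintro _ ⟨u, hu, rfl⟩ _ ⟨v, hv, rfl⟩
    rw [Matrix.toLin'_apply, Matrix.toLin'_apply]
    rw [H2.mem_symplecticGroup_iff.1 (c : Matrix.symplecticGroup (Fin (m + k)) F).2]
    exact hUi u hu v hv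
  · rintro _ ⟨_, ⟨u, hu, rfl⟩, rfl⟩
    refine ⟨_, hUy u hu, ?_⟩
    rw [← hxf, Matrix.toLin'_apply, Matrix.toLin'_apply, Matrix.toLin'_apply, Matrix.mulVec_mulVec,
      Matrix.mulVec_mulVec]
    exact congrArg (fun A : Matrix.symplecticGroup (Fin (m + k)) F =>
      (A : Matrix (Fin (m + k) ⊕ Fin (m + k)) (Fin (m + k) ⊕ Fin (m + k)) F).mulVec u) hc

include hp hchar in
/-- The criterion on multiplicities. -/
theorem sp_isotropic_criterion (hr : (r : F) ≠ 0) (hr2 : r ≠ 2) {m : ℕ} (hmd : m ≤ d) :
    (∀ f : End F (Fin d ⊕ Fin d → F), (∀ u v, H2.sympBilin d F (f u) (f v) = H2.sympBilin d F u v) →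
      f ^ r = 1 → f ≠ 1 → ∃ W : Submodule F (Fin d ⊕ Fin d → F), finrank F W = m ∧
        (∀ u ∈ W, ∀ v ∈ W, Cfsg.sympForm d F u v = 0) ∧ W.map f ≤ W) ↔
    ∀ L, 0 < L → orderOf (Nat.card F : ZMod r) * L ≤ 2 * d → (Odd (orderOf (Nat.card F : ZMod r)) → Even L) →
      ∃ j, j ≤ isoPieces (orderOf (Nat.card F : ZMod r)) ((r - 1) / orderOf (Nat.card F : ZMod r)) L ∧
        orderOf (Nat.card F : ZMod r) * j ≤ m ∧
        orderOf (Nat.card F : ZMod r) * L + 2 * (m - orderOf (Nat.card F : ZMod r) * j) ≤ 2 * d := by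
  classical
  have hrp : r.Prime := Fact.out
  have hne : r ≠ p := fun h => hr (by rw [h]; exact CharP.cast_eq_zero F p)
  have hi := orderOf_pos_zmod (F := F) (r := r) hr
  have ht : Fintype.card (H67.CycFac r F) = (r - 1) / orderOf (Nat.card F : ZMod r) := by
    have h := H67.card_cycFac (K := F) hr hrp
    rw [← Nat.card_eq_fintype_card (α := F)] at h
    rw [← h, Nat.mul_div_cancel _ hi]
  constructor
  · intro H L hL hLd hLe
    haveI : Nonempty (H67.CycFac r F) := by
      refine Fintype.card_pos_iff.1 ?_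
      have h := H67.card_cycFac (K := F) hr hrp
      have := hrp.two_le
      rcases Nat.eq_zero_or_pos (Fintype.card (H67.CycFac r F)) with h0 | h0
      · rw [h0, zero_mul] at h; omega
      · exact h0
    obtain ⟨a, had, has, hamax⟩ := exists_worst_mult (π := dualF (p := p) hr) (H67.cycDual_cycDual _ _ _ _) ht
      (dualF_parity hr hr2).1 (dualF_parity hr hr2).2 hLe
    obtain ⟨g, hg, hgc⟩ := H67.exists_sp_polyOf (p := p) hrp hne hr2 (fun x => by simp) (m := d) a had
      (by rw [← Nat.card_eq_fintype_card, has]; exact hLd)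
    set f : End F (Fin d ⊕ Fin d → F) := Matrix.toLin' (g : Matrix (Fin d ⊕ Fin d) (Fin d ⊕ Fin d) F)
    have hfr : f ^ r = 1 := by
      show (H2.spRho d F g) ^ r = 1
      rw [← map_pow, hg, map_one]
    have hfB : ∀ u v, H2.sympBilin d F (f u) (f v) = H2.sympBilin d F u v := fun u v => by
      simp only [H2.sympBilin_apply, f, Matrix.toLin'_apply]
      exact H2.mem_symplecticGroup_iff.1 g.2 u v
    have hfa : multEnd r f = a := mult_toLin_of_charpoly hr hgc
    have hf1 : f ≠ 1 := fun h => by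
      have h1 := finrank_fixed_add_mult (r := r) hr hfr
      rw [hfa, has, show fixedSpace f = ⊤ from eq_top_iff.2 fun v _ => mem_fixedSpace.2 (by rw [h]; rfl),
        finrank_top] at h1
      have := Nat.mul_pos hi hL
      omega
    obtain ⟨W, hWd, hWi, hWf⟩ := H f hfB hfr hf1
    obtain ⟨b, hb1, hb2, hb3⟩ := isotropic_mult_le (p := p) (k := 0) (σ := RingHom.id F) hr (fun x => by simp)
      (fun _ => rfl) sympBilin_hrefl sympBilin_hnd hfB hfr (fun v hv => hWf ⟨v, hv, rfl⟩)
      (fun u hu v hv => by simpa using hWi u hu v hv)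
    rw [hfa] at hb2 hb3
    rw [hWd] at hb1 hb3
    rw [has, finrank_symp] at hb3
    exact ⟨∑ P, b P, hamax b hb2, hb1, hb3⟩
  · intro H f hfB hfr hf1
    obtain ⟨-, hle⟩ := charpoly_eq_polyOf_mult (r := r) hr hfr
    rw [finrank_symp] at hle
    have hpos : 0 < ∑ P, multEnd r f P := by
      refine Nat.pos_of_ne_zero fun h => hf1 (LinearMap.ext fun v => ?_)
      have h1 := finrank_fixed_add_mult (r := r) hr hfr
      rw [h, mul_zero, add_zero] at h1
      exact mem_fixedSpace.1 (Submodule.eq_top_of_finrank_eq h1 ▸ Submodule.mem_top : v ∈ fixedSpace f)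
    have had : ∀ P, multEnd r f (dualF (p := p) hr P) = multEnd r f P := fun P =>
      mult_selfDual hr _ _ sympBilin_hrefl sympBilin_hnd hfB hfr P
    have hev : Odd (orderOf (Nat.card F : ZMod r)) → Even (∑ P, multEnd r f P) := fun ho => by
      have h := H67.even_mov_dim (p := p) hrp hne hr2 (a := multEnd r f) had
      rw [← Nat.card_eq_fintype_card, Nat.even_mul] at h
      exact h.resolve_left (Nat.not_even_iff_odd.2 ho)
    obtain ⟨j, hj, hjm, hle'⟩ := H _ hpos hle hev
    exact exists_sp_isotropic (p := p) hr hr2 hfB hfr hmd hj hjm hle'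

omit [Fintype F] [Fact r.Prime] [Fact p.Prime] [CharP F p] in
/-- The arithmetic of the criterion. -/
theorem iso_criterion_iff {N i t m c : ℕ} (hi : 0 < i) (hc : c = if Even i then i else 2 * i) (hmN : 2 * m ≤ N)
    (hbig : m < i → c ≤ N ∧ N % c < 2 * m) :
    (∀ L, 0 < L → i * L ≤ N → (Odd i → Even L) →
      ∃ j, j ≤ isoPieces i t L ∧ i * j ≤ m ∧ i * L + 2 * (m - i * j) ≤ N) ↔
    (i ≤ m ∧ 2 * (m % i) ≤ N % c ∧ (Odd i ∨ t + 2 * (m / i) ≤ N / i)) := by
  have hm := Nat.div_add_mod m i
  have hl := Nat.mod_lt m hi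
  have hmul : ∀ {x y : ℕ}, x ≤ y → i * x ≤ i * y := fun h => Nat.mul_le_mul_left i h
  rcases Nat.even_or_odd i with he | ho
  · rw [if_pos he] at hc
    subst hc
    have hno : ¬ Odd c := Nat.not_odd_iff_even.2 he
    simp only [hno, false_imp_iff, forall_const, false_or, isoPieces, if_false]
    have hn := Nat.div_add_mod N c
    have hk := Nat.mod_lt N hi
    constructor
    · intro H
      have hn0 : 0 < N / c := by
        refine Nat.div_pos ?_ hi
        rcases le_or_gt c m with h | h
        · omega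
        · exact (hbig h).1
      obtain ⟨j, hj, hjm, hle⟩ := H _ hn0 (by omega)
      have hjm' : j ≤ m / c := (Nat.le_div_iff_mul_le hi).2 (by rw [mul_comm]; exact hjm)
      have him : c ≤ m := by
        by_contra h
        have h0 : m / c = 0 := Nat.div_eq_of_lt (by omega)
        have := (hbig (by omega)).2
        have : j = 0 := by omega
        subst this
        simp at hle
        omega
      have hm1 : 1 ≤ m / c := Nat.div_pos him hi
      have hjeq : j = m / c := by
        by_contra h
        have := hmul (show j + 1 ≤ m / c by omega)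
        rw [mul_add, mul_one] at this
        omega
      subst hjeq
      have h2n : 2 ≤ N / c := by
        rw [Nat.le_div_iff_mul_le hi]
        omega
      obtain ⟨j', hj', hjm'', hle'⟩ := H (N / c - 1) (by omega) (by
        have := hmul (show N / c - 1 ≤ N / c by omega); omega)
      refine ⟨him, by omega, ?_⟩
      by_contra hlt
      have h1 := hmul (show j' + 1 ≤ m / c by omega)
      have h2 : c * (N / c - 1) + c = c * (N / c) := by
        rw [← mul_add_one, Nat.sub_add_cancel (by omega)]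
      rw [mul_add, mul_one] at h1
      omega
    · rintro ⟨him, h2l, htn⟩ L hL hLN
      have hLn : L ≤ N / c := (Nat.le_div_iff_mul_le hi).2 (by rw [mul_comm]; exact hLN)
      rcases le_or_gt (m / c) ((L + 1 - t) / 2) with h | h
      · exact ⟨m / c, h, by omega, by have := hmul hLn; omega⟩
      · refine ⟨(L + 1 - t) / 2, le_rfl, by have := hmul h.le; omega, ?_⟩
        have h1 := hmul (show L + 2 * (m / c - (L + 1 - t) / 2) ≤ N / c by omega)
        have h2 : c * (m / c - (L + 1 - t) / 2) + c * ((L + 1 - t) / 2) = c * (m / c) := by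
          rw [← mul_add, Nat.sub_add_cancel h.le]
        rw [mul_add, mul_left_comm] at h1
        omega
  · have hne : ¬ Even i := Nat.not_even_iff_odd.2 ho
    rw [if_neg hne] at hc
    subst hc
    simp only [ho, true_or, and_true, forall_const, isoPieces, if_true]
    have hn := Nat.div_add_mod N (2 * i)
    constructor
    · intro H
      have hn0 : 0 < N / (2 * i) := by
        refine Nat.div_pos ?_ (by omega)
        rcases le_or_gt i m with h | h
        · omega
        · exact (hbig h).1
      have h2 : i * (2 * (N / (2 * i))) = 2 * i * (N / (2 * i)) := by ring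
      obtain ⟨j, hj, hjm, hle⟩ := H (2 * (N / (2 * i))) (by omega) (by omega) (even_two_mul _)
      have hjm' : j ≤ m / i := (Nat.le_div_iff_mul_le hi).2 (by rw [mul_comm]; exact hjm)
      have := hmul hjm'
      refine ⟨?_, by omega⟩
      by_contra h
      have := (hbig (by omega)).2
      have : m / i = 0 := Nat.div_eq_of_lt (by omega)
      have : j = 0 := by omega
      subst this
      simp at hle
      omega
    · rintro ⟨him, h2l⟩ L hL hLN hLe
      obtain ⟨l, rfl⟩ := hLe
      have hll : l ≤ N / (2 * i) := (Nat.le_div_iff_mul_le (by omega)).2 (by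
        rw [show l * (2 * i) = i * (l + l) by ring]; exact hLN)
      have h2 := hmul hll
      have h4 : i * (l + l) = 2 * (i * l) := by ring
      have h5 : 2 * i * (N / (2 * i)) = 2 * (i * (N / (2 * i))) := by ring
      rcases le_or_gt (m / i) l with h | h
      · exact ⟨m / i, by omega, by omega, by omega⟩
      · exact ⟨l, by omega, by have := hmul h.le; omega, by have := hmul h.le; omega⟩

section two

variable {m : ℕ}

omit [Fact r.Prime] [Fact p.Prime] [CharP F p] in
/-- Elements with scalar square fix totally isotropic subspaces. -/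
theorem exists_sp_isotropic_sq (hd : 0 < d) (h2 : (2 : F) ≠ 0) {f : End F (Fin d ⊕ Fin d → F)}
    (hfB : ∀ u v, H2.sympBilin d F (f u) (f v) = H2.sympBilin d F u v) {z : F} (hzz : z = 1 ∨ z = -1)
    (hff : ∀ v, f (f v) = z • v) (hmd : m ≤ d) (hcond : z = -1 → Even m ∨ IsSquare (-1 : F)) :
    ∃ W : Submodule F (Fin d ⊕ Fin d → F), finrank F W = m ∧ (∀ u ∈ W, ∀ v ∈ W, H2.sympBilin d F u v = 0) ∧
      W.map f ≤ W := by
  classical
  have hnd : NondegOn (H2.sympBilin d F) (⊤ : Submodule F (Fin d ⊕ Fin d → F)) := sympBilin_nondegOn_top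
  have hV : finrank F (Fin d ⊕ Fin d → F) = 2 * d := finrank_symp
  have hiso : ∀ U : Submodule F (Fin d ⊕ Fin d → F), (∀ u ∈ U, ∀ v ∈ U, H2.sympBilin d F u v = 0) →
      finrank F U ≤ d := fun U hU => by
    have h1 : U ≤ (H2.sympBilin d F).orthogonal U := fun u hu v hv => hU v hv u hu
    have h2 := Submodule.finrank_mono h1
    rw [LinearMap.BilinForm.finrank_orthogonal (H2.sympBilin_nondegenerate d F), hV] at h2
    omega
  by_cases hw : z = -1 ∧ ¬ IsSquare (-1 : F)
  · obtain ⟨rfl, hsq⟩ := hw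
    obtain ⟨j, rfl⟩ := (hcond rfl).resolve_right hsq
    induction j with
    | zero => exact ⟨⊥, by simp, by simp, by simp⟩
    | succ j ih =>
      obtain ⟨W, hWd, hWi, hWf⟩ := ih (by omega) fun h => Or.inl ⟨j, rfl⟩
      have hss : f.IsSemisimple := Module.End.isSemisimple_of_squarefree_aeval_eq_zero
        (p := X ^ 2 - C (-1 : F))
        (Polynomial.separable_X_pow_sub_C (-1 : F) (by exact_mod_cast h2) (by simp)).squarefree
        (LinearMap.ext fun v => by simp [pow_two, hff])
      set P := (H2.sympBilin d F).orthogonal W with hP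
      have hWeq : W.map f = W := Submodule.eq_of_le_of_finrank_eq hWf (Submodule.equivMapOfInjective f
        (Function.LeftInverse.injective (g := fun v => -(f v)) fun v => by simp [hff]) W).finrank_eq.symm
      have hPf : P.map f ≤ P := by
        rintro _ ⟨v, hv, rfl⟩ w hw
        rw [← hWeq] at hw
        obtain ⟨w', hw', rfl⟩ := hw
        rw [hfB]; exact hv w' hw'
      obtain ⟨C', hC', hc⟩ := Module.End.isSemisimple_iff.1 hss W
        ((Module.End.mem_invtSubmodule f).2 (Submodule.map_le_iff_le_comap.1 hWf))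
      have hWP : W ≤ P := fun u hu v hv => hWi v hv u hu
      set E := P ⊓ C' with hE
      have hEf : E.map f ≤ E := map_inf_le hPf
        (Submodule.map_le_iff_le_comap.2 ((Module.End.mem_invtSubmodule f).1 hC'))
      have hEd : 4 ≤ finrank F E := by
        show 4 ≤ finrank F ↥(P ⊓ C')
        have h1 := Submodule.finrank_sup_add_finrank_inf_eq P C'
        have h3 := LinearMap.BilinForm.finrank_orthogonal (H2.sympBilin_nondegenerate d F) W
        have h4 := Submodule.finrank_add_eq_of_isCompl hc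
        have h5 := Submodule.finrank_le (P ⊔ C')
        rw [← hP, hV] at h3
        rw [hV] at h4 h5
        omega
      -- the quadratic form `v ↦ B (v, f v)` has a nontrivial zero on `E`
      let S : LinearMap.BilinForm F E :=
        (H2.sympBilin d F).compl₁₂ E.subtype (f ∘ₗ E.subtype)
      let q : QuadraticForm F E := LinearMap.BilinMap.toQuadraticMap S
      obtain ⟨v, hv0, hv⟩ : ∃ v : E, v ≠ 0 ∧ H2.sympBilin d F (v : Fin d ⊕ Fin d → F) (f v) = 0 := by
        obtain ⟨v, hv0, hv⟩ := H4.exists_singular_of_three_le q (by omega)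
        exact ⟨v, hv0, hv⟩
      let v' : Fin d ⊕ Fin d → F := v
      have hv'0 : v' ≠ 0 := fun h => hv0 (Subtype.ext h)
      have hfv : f v' ∈ E := hEf ⟨v', v.2, rfl⟩
      have hT : finrank F (Submodule.span F {v', f v'}) = 2 := by
        have hli : LinearIndependent F ![v', f v'] := by
          rw [LinearIndependent.pair_iff' hv'0]
          intro a ha
          have h1 : (a * a) • v' = (-1 : F) • v' := by rw [← hff, ← ha, map_smul, ← ha, smul_smul]
          exact hsq ⟨a, (smul_left_injective F hv'0 h1).symm⟩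
        have := finrank_span_eq_card hli
        rwa [Matrix.range_cons, Matrix.range_cons, Matrix.range_empty, Set.union_empty, Set.singleton_union,
          Fintype.card_fin] at this
      set T := Submodule.span F {v', f v'}
      have hTE : T ≤ E := Submodule.span_le.2 (by rintro _ (rfl | rfl); exacts [v.2, hfv])
      refine ⟨W ⊔ T, ?_, ?_, ?_⟩
      · have h1 := Submodule.finrank_sup_add_finrank_inf_eq W T
        rw [show W ⊓ T = ⊥ from (hc.disjoint.mono_right (hTE.trans inf_le_right)).eq_bot, finrank_bot, hT,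
          hWd] at h1
        omega
      · have hTT : ∀ a ∈ T, ∀ b ∈ T, H2.sympBilin d F a b = 0 := isotropic_pair (H2.sympBilin_isAlt d F) _ _ hv
        intro a ha b hb
        obtain ⟨a₁, ha₁, a₂, ha₂, rfl⟩ := Submodule.mem_sup.1 ha
        obtain ⟨b₁, hb₁, b₂, hb₂, rfl⟩ := Submodule.mem_sup.1 hb
        have e1 : H2.sympBilin d F a₁ b₂ = 0 := (hTE hb₂).1 a₁ ha₁
        have e2 : H2.sympBilin d F a₂ b₁ = 0 := sympBilin_hrefl _ _ ((hTE ha₂).1 b₁ hb₁)
        simp only [map_add, LinearMap.add_apply, hWi a₁ ha₁ b₁ hb₁, hTT a₂ ha₂ b₂ hb₂, e1, e2, add_zero]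
      · refine map_sup_le hWf ?_
        rintro _ ⟨u, hu, rfl⟩
        obtain ⟨a, b, rfl⟩ := mem_span_pair'.1 hu
        simp only [map_add, map_smul, hff]
        exact T.add_mem (T.smul_mem _ (Submodule.mem_span_of_mem (by simp)))
          (T.smul_mem _ (T.smul_mem _ (Submodule.mem_span_of_mem (by simp))))
  -- a square root of `z` in `F`
  · obtain ⟨s, hs⟩ : IsSquare z := by
      rcases hzz with rfl | rfl
      · exact IsSquare.one
      · exact not_not.1 fun h => hw ⟨rfl, h⟩
    have hs0 : s ≠ 0 := fun h => by rw [h, mul_zero] at hs; rcases hzz with rfl | rfl <;> simp at hs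
    -- eigenspaces
    let A : Submodule F (Fin d ⊕ Fin d → F) := LinearMap.ker (f - s • 1)
    let A' : Submodule F (Fin d ⊕ Fin d → F) := LinearMap.ker (f + s • 1)
    have hA : ∀ v, v ∈ A ↔ f v = s • v := fun v => by simp [A, sub_eq_zero]
    have hA' : ∀ v, v ∈ A' ↔ f v = -(s • v) := fun v => by simp [A', add_eq_zero_iff_eq_neg]
    have hsplit : ∀ v, ∃ a ∈ A, ∃ b ∈ A', a + b = v := fun v => by
      refine ⟨(2 : F)⁻¹ • (v + s⁻¹ • f v), A.smul_mem _ ((hA _).2 ?_), (2 : F)⁻¹ • (v - s⁻¹ • f v),
        A'.smul_mem _ ((hA' _).2 ?_), ?_⟩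
      · simp only [map_add, map_smul, hff, smul_add, smul_smul, hs]
        rw [mul_inv_cancel₀ hs0, show s⁻¹ * (s * s) = s by field_simp, one_smul, add_comm]
      · simp only [map_sub, map_smul, hff, smul_sub, smul_smul, hs]
        rw [mul_inv_cancel₀ hs0, show s⁻¹ * (s * s) = s by field_simp, one_smul]
        abel
      · rw [← smul_add, show v + s⁻¹ • f v + (v - s⁻¹ • f v) = (2 : F) • v by rw [two_smul]; abel, smul_smul,
          inv_mul_cancel₀ h2, one_smul]
    have hsub : ∀ S : Submodule F (Fin d ⊕ Fin d → F), S ≤ A → S.map f ≤ S := fun S hS => by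
      rintro _ ⟨v, hv, rfl⟩
      rw [(hA v).1 (hS hv)]; exact S.smul_mem _ hv
    have hsub' : ∀ S : Submodule F (Fin d ⊕ Fin d → F), S ≤ A' → S.map f ≤ S := fun S hS => by
      rintro _ ⟨v, hv, rfl⟩
      rw [(hA' v).1 (hS hv)]; exact S.neg_mem (S.smul_mem _ hv)
    rcases hzz with rfl | rfl
    · obtain ⟨U, W', hsum, hU, hW', hfix, -⟩ := hasLagPair (H2.sympBilin d F) (H2.sympBilin_isAlt d F) h2 f hfB 1
        one_ne_zero (mul_one 1) hff ⊤ (fun _ _ => Submodule.mem_top) hnd
      have hUd : d ≤ finrank F U := by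
        have h1 := Submodule.finrank_sup_add_finrank_inf_eq U W'
        rw [hsum, finrank_top, hV] at h1
        have := hiso W' hW'
        omega
      have hUs : finrank F U ≤ finrank F ↥(U ⊓ A) + finrank F ↥(U ⊓ A') := by
        have hle : U ≤ U ⊓ A ⊔ U ⊓ A' := fun u hu => by
          have hfu := (hfix rfl).1 u hu
          refine Submodule.mem_sup.2 ⟨(2 : F)⁻¹ • (u + s⁻¹ • f u), ⟨U.smul_mem _ (U.add_mem hu (U.smul_mem _ hfu)),
            A.smul_mem _ ((hA _).2 ?_)⟩, (2 : F)⁻¹ • (u - s⁻¹ • f u),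
            ⟨U.smul_mem _ (U.sub_mem hu (U.smul_mem _ hfu)), A'.smul_mem _ ((hA' _).2 ?_)⟩, ?_⟩
          · simp only [map_add, map_smul, hff, smul_add, smul_smul, hs]
            rw [mul_inv_cancel₀ hs0, show s⁻¹ * (s * s) = s by field_simp, one_smul, add_comm]
          · simp only [map_sub, map_smul, hff, smul_sub, smul_smul, hs]
            rw [mul_inv_cancel₀ hs0, show s⁻¹ * (s * s) = s by field_simp, one_smul]
            abel
          · rw [← smul_add, show u + s⁻¹ • f u + (u - s⁻¹ • f u) = (2 : F) • u by rw [two_smul]; abel, smul_smul,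
              inv_mul_cancel₀ h2, one_smul]
        exact (Submodule.finrank_mono hle).trans (Submodule.finrank_add_le_finrank_add_finrank _ _)
      obtain ⟨S, hS, hSd⟩ := exists_le_finrank_eq (U ⊓ A) (e := min m (finrank F ↥(U ⊓ A))) (min_le_right _ _)
      obtain ⟨T, hT, hTd⟩ := exists_le_finrank_eq (U ⊓ A') (e := m - finrank F S) (by omega)
      refine ⟨S ⊔ T, ?_, fun a ha b hb => hU a (sup_le (hS.trans inf_le_left) (hT.trans inf_le_left) ha)
        b (sup_le (hS.trans inf_le_left) (hT.trans inf_le_left) hb),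
        map_sup_le (hsub S (hS.trans inf_le_right)) (hsub' T (hT.trans inf_le_right))⟩
      have hd' : Disjoint S T := by
        rw [Submodule.disjoint_def]
        intro v hv hv'
        have h1 : ((2 : F) * s) • v = 0 := by
          rw [two_mul, add_smul]
          nth_rw 1 [← (hA v).1 (hS hv).2]
          rw [(hA' v).1 (hT hv').2, neg_add_cancel]
        exact (smul_eq_zero.1 h1).resolve_left (mul_ne_zero h2 hs0)
      have := Submodule.finrank_sup_add_finrank_inf_eq S T
      rw [hd'.eq_bot, finrank_bot] at this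
      omega
    · have hAi : ∀ S : Submodule F (Fin d ⊕ Fin d → F), (∃ e : F, e * e = -1 ∧ ∀ v ∈ S, f v = e • v) →
          ∀ a ∈ S, ∀ b ∈ S, H2.sympBilin d F a b = 0 := by
        rintro S ⟨e, he, hev⟩ a ha b hb
        have h := hfB a b
        rw [hev a ha, hev b hb, map_smul, LinearMap.map_smul₂, smul_smul, smul_eq_mul, he] at h
        exact (mul_eq_zero.1 (show (2 : F) * H2.sympBilin d F a b = 0 by linear_combination -h)).resolve_left h2
      have hAd : d ≤ finrank F A := by
        have h1 := Submodule.finrank_sup_add_finrank_inf_eq A A'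
        rw [show A ⊔ A' = ⊤ from eq_top_iff.2 fun v _ => by
          obtain ⟨a, ha, b, hb, rfl⟩ := hsplit v
          exact Submodule.add_mem_sup ha hb, finrank_top, hV] at h1
        have := hiso A' (hAi A' ⟨-s, by linear_combination -hs, fun v hv => by rw [(hA' v).1 hv, neg_smul]⟩)
        omega
      obtain ⟨S, hS, hSd⟩ := exists_le_finrank_eq A (e := m) (by omega)
      exact ⟨S, hSd, hAi S ⟨s, hs.symm, fun v hv => (hA v).1 (hS hv)⟩, hsub S hS⟩

omit [Fintype F] [Fact r.Prime] [Fact p.Prime] [CharP F p] in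
/-- When `-1` is not a square an element squaring to `-1` fixes no odd-dimensional subspace. -/
theorem not_odd_invariant (hsq : ¬ IsSquare (-1 : F)) {V : Type*} [AddCommGroup V] [Module F V]
    [FiniteDimensional F V] {f : End F V} (hff : ∀ v, f (f v) = -v) {W : Submodule F V} (hW : W.map f ≤ W)
    (hodd : Odd (finrank F W)) : False := by
  let g := f.restrict (p := W) (q := W) fun v hv => hW ⟨v, hv, rfl⟩
  have h : g * g = (-1 : F) • (LinearMap.id : End F W) := LinearMap.ext fun v => Subtype.ext (by simp [g, hff])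
  have hdet := congrArg LinearMap.det h
  rw [map_mul, LinearMap.det_smul, LinearMap.det_id, mul_one, hodd.neg_one_pow] at hdet
  exact hsq ⟨LinearMap.det g, hdet.symm⟩

end two

end Cfsg.Agent.H97
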