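import Cfsg.Agent.H97.OrthTwoElements
import Cfsg.Agent.H97.SympIsotropicCriteria
import Cfsg.Agent.H4.NegOne

set_option autoImplicit false

/-!
# Invariant totally singular subspaces of elements with scalar square, odd characteristic
-/

namespace Cfsg.Agent.H97

open Module QuadraticMap

universe u

variable {F : Type u} [Field F] [Fintype F]

section space

variable {V : Type u} [AddCommGroup V] [Module F V] [FiniteDimensional F V] {Q : QuadraticForm F V}

/-- An involutory isometry lies in the commutator subgroup according to the type of its negated space. -/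
theorem involution_commutator_iff (h2 : (2 : F) ≠ 0) (hQ : (polarBilin Q).Nondegenerate) (g : H5.orth Q)
    {A B : Submodule F V} (hAB : A ⊔ B = ⊤) (ho : ∀ a ∈ A, ∀ b ∈ B, polar Q a b = 0)
    (hB : NondegOn (polarBilin Q) B) (hB0 : 0 < finrank F B) (hgA : ∀ a ∈ A, (g : V ≃ₗ[F] V) a = a)
    (hgB : ∀ b ∈ B, (g : V ≃ₗ[F] V) b = -b) :
    g ∈ commutator (H5.orth Q) ↔
      ∃ k, finrank F B = 2 * k ∧ (PlusOn Q B ↔ IsSquare ((-1 : F) ^ k)) := by
  classical
  haveI : Finite V := Module.finite_of_finite F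
  obtain ⟨α, hα⟩ := H5.exists_not_isSquare h2
  have hR : (polarBilin (Q.comp B.subtype)).Nondegenerate := restrictQ_nondegenerate hB
  have hn : finrank F B = (finrank F B - 1) + 1 := by omega
  obtain ⟨b, d, hd, hperp, hq⟩ := H4.exists_orth_basis h2 hR hn α hα
  have hd0 : d ≠ 0 := by
    rcases hd with rfl | rfl
    · exact one_ne_zero
    · exact fun h => hα (h ▸ IsSquare.zero)
  let bV : Fin (finrank F B - 1 + 1) → V := fun i => (b i : V)
  have hbq : ∀ i, Q (bV i) = if i = Fin.last _ then d else 1 := fun i => hq i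
  have hq0 : ∀ i, Q (bV i) ≠ 0 := fun i => by rw [hbq]; split_ifs <;> simp [hd0]
  have hbperp : ∀ i j, i ≠ j → polar Q (bV i) (bV j) = 0 := fun i j hij => by
    have h := hperp i j hij
    rwa [polar_comp] at h
  let vs := (List.finRange (finrank F B - 1 + 1)).map bV
  have hfixA : ∀ (l : List (Fin (finrank F B - 1 + 1))), ∀ a ∈ A,
      ((((l.map bV).map (H5.refl Q)).prod : H5.orth Q) : V ≃ₗ[F] V) a = a := fun l a ha => by
    induction l with
    | nil => rfl
    | cons i l ih =>
      rw [List.map_cons, List.map_cons, List.prod_cons, H5.orth_mul_apply, ih]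
      exact H5.refl_apply_of_ortho (by rw [polar_comm]; exact ho a ha _ (b i).2)
  have hg : g = (vs.map (H5.refl Q)).prod := by
    refine H5.orth_ext fun x => ?_
    obtain ⟨a, ha, z, hz, rfl⟩ := Submodule.mem_sup.1 (hAB ▸ Submodule.mem_top : x ∈ A ⊔ B)
    rw [map_add, map_add, hgA a ha, hgB z hz, hfixA _ a ha]
    congr 1
    have : (((vs.map (H5.refl Q)).prod : H5.orth Q) : V ≃ₗ[F] V).toLinearMap ∘ₗ B.subtype = -B.subtype :=
      b.ext fun j => by
        show (((vs.map (H5.refl Q)).prod : H5.orth Q) : V ≃ₗ[F] V) (bV j) = -(bV j)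
        refine (H4.list_refl_orth_apply hbperp hq0 (List.nodup_finRange _) j).trans ?_
        simp
    exact (LinearMap.congr_fun this ⟨z, hz⟩).symm
  have hvs : ∀ v ∈ vs, Q v ≠ 0 := fun v hv => by
    obtain ⟨i, -, rfl⟩ := List.mem_map.1 hv
    exact hq0 i
  have hlen : vs.length = finrank F B := by simp [vs]; omega
  have hprod : (vs.map fun v => Q v).prod = d := by
    rw [List.map_map, ← List.ofFn_eq_map, List.prod_ofFn]
    simp [hbq]
  rw [hg, H5.list_prod_mem_commutator_iff hQ (Or.inl (H5.natCard_ne_two h2)) hvs, hlen, hprod]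
  have key : ∀ k, finrank F B = 2 * k → ((PlusOn Q B ↔ IsSquare ((-1 : F) ^ k)) ↔ IsSquare d) := fun k hk => by
    have hgram : (H4.gram (Q.comp B.subtype) b).det = (2 : F) ^ (2 * k) * d := by
      have : H4.gram (Q.comp B.subtype) b = Matrix.diagonal fun i => 2 * (Q.comp B.subtype) (b i) := by
        funext i j
        rcases eq_or_ne i j with rfl | hij
        · simp [H4.gram, H4.qf_polar_self]
        · simp [H4.gram, hperp i j hij, Matrix.diagonal_apply_ne _ hij]
      rw [this, Matrix.det_diagonal, Finset.prod_mul_distrib, Finset.prod_const, Finset.card_univ, Fintype.card_fin,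
        show (2 : F) ^ (finrank F B - 1 + 1) = 2 ^ (2 * k) by congr 1; omega]
      congr 1
      simp only [hq]
      simp
    rw [plusOn_iff_hasSing Q B hk, show H67.HasSing (Q.comp B.subtype) k ↔
      IsSquare ((-1) ^ k * (H4.gram (Q.comp B.subtype) b).det) from H4.singular_iff_isSquare h2 hR hk b, hgram]
    have h2k : IsSquare ((2 : F) ^ (2 * k)) := ⟨2 ^ k, by rw [two_mul, pow_add]⟩
    rcases Nat.even_or_odd k with he | ho'
    · rw [he.neg_one_pow, one_mul]
      simp only [IsSquare.one, iff_true]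
      constructor
      · rintro ⟨s, hs⟩
        exact ⟨s / 2 ^ k, by rw [two_mul, pow_add] at hs; field_simp; linear_combination hs⟩
      · exact fun h => h2k.mul h
    · rw [ho'.neg_one_pow]
      by_cases hsd : IsSquare d
      · simp only [hsd, iff_true]
        constructor
        · rintro ⟨s, hs⟩
          obtain ⟨u, hu⟩ := hsd
          exact ⟨s / (2 ^ k * u), by rw [two_mul, pow_add, hu] at hs; field_simp [show u ≠ 0 from fun h => hd0 (by simp [hu, h])]; linear_combination hs⟩
        · exact fun h => h.mul (h2k.mul hsd)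
      · simp only [hsd, iff_false]
        intro hiff
        have hF : ringChar F ≠ 2 := fun h => h2 (by haveI := ringChar.of_eq h; exact CharTwo.two_eq_zero)
        have e1 := quadraticChar_sq_one (F := F) (pow_ne_zero k h2)
        have e2 := (quadraticChar_neg_one_iff_not_isSquare (F := F)).2 hsd
        have e3 : quadraticChar F ((-1) * (2 ^ (2 * k) * d)) = -quadraticChar F (-1 : F) := by
          rw [map_mul, map_mul, e2, show (2 : F) ^ (2 * k) = (2 ^ k) ^ 2 by ring, map_pow, e1]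
          ring
        have hne : (-1 : F) * (2 ^ (2 * k) * d) ≠ 0 := by simp [h2, hd0]
        by_cases hm : IsSquare (-1 : F)
        · rw [(quadraticChar_one_iff_isSquare (neg_ne_zero.2 one_ne_zero)).2 hm] at e3
          exact quadraticChar_neg_one_iff_not_isSquare.1 e3 (hiff.2 hm)
        · rw [(quadraticChar_neg_one_iff_not_isSquare (F := F)).2 hm, neg_neg] at e3
          exact hm (hiff.1 ((quadraticChar_one_iff_isSquare hne).1 e3))
  constructor
  · rintro ⟨⟨k, hk⟩, hsd⟩
    exact ⟨k, by omega, (key k (by omega)).2 hsd⟩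
  · rintro ⟨k, hk, h⟩
    exact ⟨⟨k, by omega⟩, (key k hk).1 h⟩

/-- Totally singular subspaces of a non-degenerate subspace. -/
theorem exists_singular_sub (h2 : (2 : F) ≠ 0) {P : Submodule F V} (hP : NondegOn (polarBilin Q) P) {e : ℕ}
    (he : 2 * e < finrank F P ∨ (2 * e = finrank F P ∧ PlusOn Q P)) :
    ∃ U : Submodule F V, U ≤ P ∧ finrank F U = e ∧ ∀ u ∈ U, Q u = 0 := by
  rcases he with he | ⟨he, U, hU, hd, hs⟩
  · obtain ⟨W, hWP, -, hWd, hWp⟩ := exists_sub_of_type hP (j := e) (Or.inl h2) he True fun _ => trivial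
    obtain ⟨U, hU, hd, hs⟩ := hWp.2 trivial
    exact ⟨U, hU.trans hWP, by omega, hs⟩
  · exact ⟨U, hU, by omega, hs⟩

/-- The size of totally singular subspaces of a non-degenerate subspace. -/
theorem singular_le_nondeg {P U : Submodule F V} (hP : NondegOn (polarBilin Q) P) (hU : U ≤ P)
    (hs : ∀ u ∈ U, Q u = 0) : 2 * finrank F U ≤ finrank F P ∧ (2 * finrank F U = finrank F P → PlusOn Q P) := by
  refine ⟨?_, fun h => ⟨U, hU, h, hs⟩⟩
  have h := H4.two_mul_finrank_le (restrictQ_nondegenerate hP) (W := U.comap P.subtype) fun w hw => hs _ hw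
  rwa [(Submodule.comapSubtypeEquivOfLe hU).finrank_eq] at h

/-- The eigenspaces of an involutory isometry. -/
theorem involution_parts (h2 : (2 : F) ≠ 0) (hQ : (polarBilin Q).Nondegenerate) {f : End F V}
    (hfQ : ∀ v, Q (f v) = Q v) (hff : ∀ v, f (f v) = v) :
    ∃ A B : Submodule F V, (∀ v, v ∈ A ↔ f v = v) ∧ (∀ v, v ∈ B ↔ f v = -v) ∧ IsCompl A B ∧
      (∀ a ∈ A, ∀ b ∈ B, polar Q a b = 0) ∧ NondegOn (polarBilin Q) A ∧ NondegOn (polarBilin Q) B ∧
      ∀ W : Submodule F V, W.map f ≤ W → W ≤ W ⊓ A ⊔ W ⊓ B := by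
  let A : Submodule F V := LinearMap.ker (f - 1)
  let B : Submodule F V := LinearMap.ker (f + 1)
  have hA : ∀ v, v ∈ A ↔ f v = v := fun v => by simp [A, sub_eq_zero]
  have hB : ∀ v, v ∈ B ↔ f v = -v := fun v => by simp [B, add_eq_zero_iff_eq_neg]
  have hdec : ∀ (W : Submodule F V), W.map f ≤ W → ∀ v ∈ W, ∃ a ∈ W ⊓ A, ∃ b ∈ W ⊓ B, a + b = v :=
    fun W hW v hv => by
      have hfv : f v ∈ W := hW ⟨v, hv, rfl⟩
      refine ⟨(2 : F)⁻¹ • (v + f v), ⟨W.smul_mem _ (W.add_mem hv hfv), A.smul_mem _ ((hA _).2 ?_)⟩,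
        (2 : F)⁻¹ • (v - f v), ⟨W.smul_mem _ (W.sub_mem hv hfv), B.smul_mem _ ((hB _).2 ?_)⟩, ?_⟩
      · rw [map_add, hff]; abel
      · rw [map_sub, hff]; abel
      · rw [← smul_add, show v + f v + (v - f v) = (2 : F) • v by rw [two_smul]; abel, smul_smul,
          inv_mul_cancel₀ h2, one_smul]
  have hsup : ∀ w, ∃ a ∈ A, ∃ b ∈ B, a + b = w := fun w => by
    obtain ⟨a, ha, b, hb, h⟩ := hdec ⊤ le_top w Submodule.mem_top
    exact ⟨a, ha.2, b, hb.2, h⟩
  have ho : ∀ a ∈ A, ∀ b ∈ B, polar Q a b = 0 := fun a ha b hb => by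
    have h := isometry_polarBilin hfQ a b
    rw [(hA a).1 ha, (hB b).1 hb, map_neg, polarBilin_apply_apply] at h
    exact (mul_eq_zero.1 (show (2 : F) * polar Q a b = 0 by linear_combination -h)).resolve_left h2
  refine ⟨A, B, hA, hB, ⟨?_, codisjoint_iff.2 (eq_top_iff.2 fun w _ => ?_)⟩, ho, fun v hv h => hQ.1 v fun w => ?_,
    fun v hv h => hQ.1 v fun w => ?_, fun W hW v hv => ?_⟩
  · rw [Submodule.disjoint_def]
    intro v hv hv'
    have h1 : (2 : F) • v = 0 := by
      rw [two_smul]; nth_rw 1 [← (hA v).1 hv]; rw [(hB v).1 hv', neg_add_cancel]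
    exact (smul_eq_zero.1 h1).resolve_left h2
  · obtain ⟨a, ha, b, hb, rfl⟩ := hsup w
    exact Submodule.add_mem_sup ha hb
  · obtain ⟨a, ha, b, hb, rfl⟩ := hsup w
    have h1 : polar Q v a = 0 := h a ha
    rw [polarBilin_apply_apply, polar_add_right, h1, ho v hv b hb, add_zero]
  · obtain ⟨a, ha, b, hb, rfl⟩ := hsup w
    have h1 : polar Q v b = 0 := h b hb
    rw [polarBilin_apply_apply, polar_add_right, h1, polar_comm, ho a ha v hv, add_zero]
  · obtain ⟨a, ha, b, hb, rfl⟩ := hdec W hW v hv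
    exact Submodule.add_mem_sup ha hb

/-- Invariant totally singular subspaces from the two eigenspaces. -/
theorem exists_singular_pair (h2 : (2 : F) ≠ 0) {f : End F V} {A B : Submodule F V} (hA : ∀ v ∈ A, f v = v)
    (hB : ∀ v ∈ B, f v = -v) (hd : Disjoint A B) (ho : ∀ a ∈ A, ∀ b ∈ B, polar Q a b = 0)
    (hAn : NondegOn (polarBilin Q) A) (hBn : NondegOn (polarBilin Q) B) {eA eB : ℕ}
    (heA : 2 * eA < finrank F A ∨ (2 * eA = finrank F A ∧ PlusOn Q A))
    (heB : 2 * eB < finrank F B ∨ (2 * eB = finrank F B ∧ PlusOn Q B)) {m : ℕ} (hm : m ≤ eA + eB) :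
    ∃ W : Submodule F V, finrank F W = m ∧ (∀ w ∈ W, Q w = 0) ∧ W.map f ≤ W := by
  obtain ⟨U, hU, hUd, hUs⟩ := exists_singular_sub h2 hAn heA
  obtain ⟨U', hU', hUd', hUs'⟩ := exists_singular_sub h2 hBn heB
  obtain ⟨S, hS, hSd⟩ := exists_le_finrank_eq U (e := min m eA) (by omega)
  obtain ⟨T, hT, hTd⟩ := exists_le_finrank_eq U' (e := m - min m eA) (by omega)
  refine ⟨S ⊔ T, ?_, ?_, map_sup_le ?_ ?_⟩
  · have h := Submodule.finrank_sup_add_finrank_inf_eq S T
    rw [(hd.mono (hS.trans hU) (hT.trans hU')).eq_bot, finrank_bot] at h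
    omega
  · intro w hw
    obtain ⟨a, ha, b, hb, rfl⟩ := Submodule.mem_sup.1 hw
    rw [QuadraticMap.map_add (⇑Q), hUs a (hS ha), hUs' b (hT hb), ho a (hU (hS ha)) b (hU' (hT hb))]
    simp
  · rintro _ ⟨v, hv, rfl⟩
    rw [hA v (hU (hS hv))]; exact hv
  · rintro _ ⟨v, hv, rfl⟩
    rw [hB v (hU' (hT hv))]; exact T.neg_mem hv

/-- Isometries squaring to `-1` fix totally singular subspaces unless the dimension is odd and `-1` a nonsquare. -/
theorem exists_singular_sq (h2 : (2 : F) ≠ 0) (hQ : (polarBilin Q).Nondegenerate) {f : End F V}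
    (hfQ : ∀ v, Q (f v) = Q v) (hff : ∀ v, f (f v) = -v) {m : ℕ} (hm : 2 * m ≤ finrank F V)
    (hcond : Even m ∨ IsSquare (-1 : F)) :
    ∃ W : Submodule F V, finrank F W = m ∧ (∀ w ∈ W, Q w = 0) ∧ W.map f ≤ W := by
  classical
  have hinj : Function.Injective f := fun a b h => by
    have := congrArg f h; rw [hff, hff] at this; exact neg_inj.1 this
  have hskew : ∀ v, polar Q v (f v) = 0 := fun v => by
    have h := isometry_polarBilin hfQ v (f v)
    rw [hff, map_neg, polarBilin_apply_apply, polarBilin_apply_apply, polar_comm Q (f v) v] at h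
    exact (mul_eq_zero.1 (show (2 : F) * polar Q v (f v) = 0 by linear_combination -h)).resolve_left h2
  by_cases hsq : IsSquare (-1 : F)
  · obtain ⟨s, hs⟩ := hsq
    have hs0 : s ≠ 0 := fun h => by simp [h] at hs
    let A : Submodule F V := LinearMap.ker (f - s • 1)
    let A' : Submodule F V := LinearMap.ker (f + s • 1)
    have hA : ∀ v, v ∈ A ↔ f v = s • v := fun v => by simp [A, sub_eq_zero]
    have hA' : ∀ v, v ∈ A' ↔ f v = (-s) • v := fun v => by simp [A', add_eq_zero_iff_eq_neg]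
    have hsing : ∀ (e : F) (S : Submodule F V), e * e = -1 → (∀ v ∈ S, f v = e • v) → ∀ v ∈ S, Q v = 0 :=
      fun e S he hev v hv => by
        have h := hfQ v
        rw [hev v hv, QuadraticMap.map_smul, smul_eq_mul, he] at h
        exact (mul_eq_zero.1 (show (2 : F) * Q v = 0 by linear_combination -h)).resolve_left h2
    have h1 := singular_le_nondeg (Q := Q) (nondegOn_top hQ) (le_top : A ≤ ⊤) (hsing s A hs.symm fun v => (hA v).1)
    have h2' := singular_le_nondeg (Q := Q) (nondegOn_top hQ) (le_top : A' ≤ ⊤)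
      (hsing (-s) A' (by linear_combination -hs) fun v => (hA' v).1)
    have h3 : finrank F V ≤ finrank F A + finrank F A' := by
      rw [← finrank_top F V]
      refine le_trans (Submodule.finrank_mono fun v _ => ?_) (Submodule.finrank_add_le_finrank_add_finrank A A')
      refine Submodule.mem_sup.2 ⟨(2 : F)⁻¹ • (v + s⁻¹ • f v), A.smul_mem _ ((hA _).2 ?_),
        (2 : F)⁻¹ • (v - s⁻¹ • f v), A'.smul_mem _ ((hA' _).2 ?_), ?_⟩
      · simp only [map_add, map_smul, hff, smul_add, smul_smul, smul_neg]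
        rw [mul_inv_cancel₀ hs0, one_smul, ← neg_smul, show -s⁻¹ = s by field_simp; linear_combination hs, add_comm]
      · simp only [map_sub, map_smul, hff, smul_sub, smul_smul, smul_neg, neg_mul, neg_smul]
        rw [mul_inv_cancel₀ hs0, one_smul, ← neg_smul, show -s⁻¹ = s by field_simp; linear_combination hs]
        abel
      · rw [← smul_add, show v + s⁻¹ • f v + (v - s⁻¹ • f v) = (2 : F) • v by rw [two_smul]; abel, smul_smul,
          inv_mul_cancel₀ h2, one_smul]
    rw [finrank_top] at h1 h2'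
    obtain ⟨S, hS, hSd⟩ := exists_le_finrank_eq A (e := m) (by omega)
    refine ⟨S, hSd, fun w hw => hsing s A hs.symm (fun v => (hA v).1) w (hS hw), ?_⟩
    rintro _ ⟨v, hv, rfl⟩
    rw [(hA v).1 (hS hv)]; exact S.smul_mem _ hv
  obtain ⟨j, rfl⟩ := hcond.resolve_right hsq
  induction j with
  | zero => exact ⟨⊥, by simp, by simp, by simp⟩
  | succ j ih =>
    obtain ⟨W, hWd, hWs, hWf⟩ := ih (by omega) (Or.inl ⟨j, rfl⟩)
    have hss : f.IsSemisimple := Module.End.isSemisimple_of_squarefree_aeval_eq_zero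
      (p := Polynomial.X ^ 2 - Polynomial.C (-1 : F))
      (Polynomial.separable_X_pow_sub_C (-1 : F) (by exact_mod_cast h2) (by simp)).squarefree
      (LinearMap.ext fun v => by simp [pow_two, hff])
    obtain ⟨C', hC', hc⟩ := Module.End.isSemisimple_iff.1 hss W
      ((Module.End.mem_invtSubmodule f).2 (Submodule.map_le_iff_le_comap.1 hWf))
    set P := LinearMap.BilinForm.orthogonal (polarBilin Q) W with hP
    have hWeq : W.map f = W := Submodule.eq_of_le_of_finrank_eq hWf
      (Submodule.equivMapOfInjective f hinj W).finrank_eq.symm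
    have hPf : P.map f ≤ P := by
      rintro _ ⟨v, hv, rfl⟩ w hw
      rw [← hWeq] at hw
      obtain ⟨w', hw', rfl⟩ := hw
      rw [isometry_polarBilin hfQ]; exact hv w' hw'
    set E := P ⊓ C' with hE
    have hEf : E.map f ≤ E := map_inf_le hPf
      (Submodule.map_le_iff_le_comap.2 ((Module.End.mem_invtSubmodule f).1 hC'))
    have hEd : 3 ≤ finrank F E := by
      show 3 ≤ finrank F ↥(P ⊓ C')
      have h1 := Submodule.finrank_sup_add_finrank_inf_eq P C'
      have h3 := LinearMap.BilinForm.finrank_orthogonal hQ W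
      have h4 := Submodule.finrank_add_eq_of_isCompl hc
      have h5 := Submodule.finrank_le (P ⊔ C')
      rw [← hP] at h3
      omega
    obtain ⟨v, hv0, hv⟩ := H4.exists_singular_of_three_le (Q.comp E.subtype) hEd
    let v' : V := v
    have hv'0 : v' ≠ 0 := fun h => hv0 (Subtype.ext h)
    have hfv : f v' ∈ E := hEf ⟨v', v.2, rfl⟩
    have hT : finrank F (Submodule.span F {v', f v'}) = 2 := by
      have hli : LinearIndependent F ![v', f v'] := by
        rw [LinearIndependent.pair_iff' hv'0]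
        intro a ha
        have h1 : (a * a) • v' = (-1 : F) • v' := by
          rw [neg_one_smul, ← hff, ← ha, map_smul, ← ha, smul_smul]
        exact hsq ⟨a, (smul_left_injective F hv'0 h1).symm⟩
      have := finrank_span_eq_card hli
      rwa [Matrix.range_cons, Matrix.range_cons, Matrix.range_empty, Set.union_empty, Set.singleton_union,
        Fintype.card_fin] at this
    set T := Submodule.span F {v', f v'}
    have hTE : T ≤ E := Submodule.span_le.2 (by rintro _ (rfl | rfl); exacts [v.2, hfv])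
    refine ⟨W ⊔ T, ?_, ?_, map_sup_le hWf ?_⟩
    · have h1 := Submodule.finrank_sup_add_finrank_inf_eq W T
      rw [show W ⊓ T = ⊥ from (hc.disjoint.mono_right (hTE.trans inf_le_right)).eq_bot, finrank_bot, hT,
        hWd] at h1
      omega
    · intro w hw
      obtain ⟨a, ha, b, hb, rfl⟩ := Submodule.mem_sup.1 hw
      obtain ⟨c₁, c₂, rfl⟩ := mem_span_pair'.1 hb
      have e1 : polar Q a (c₁ • v' + c₂ • f v') = 0 :=
        (hTE (mem_span_pair'.2 ⟨c₁, c₂, rfl⟩)).1 a ha
      have e2 : Q v' = 0 := hv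
      rw [QuadraticMap.map_add (⇑Q), hWs a ha, e1, QuadraticMap.map_add (⇑Q), QuadraticMap.map_smul,
        QuadraticMap.map_smul, hfQ, e2, polar_smul_left, polar_smul_right, hskew]
      simp
    · rintro _ ⟨u, hu, rfl⟩
      obtain ⟨a, b, rfl⟩ := mem_span_pair'.1 hu
      simp only [map_add, map_smul, hff]
      exact T.add_mem (T.smul_mem _ (Submodule.mem_span_of_mem (by simp)))
        (T.smul_mem _ (T.neg_mem (Submodule.mem_span_of_mem (by simp))))

end space

section matrix

variable {I : Type} [Fintype I] [DecidableEq I] {Q : QuadraticForm F (I → F)}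

/-- An element of `Ω` squaring to `-1` is not scalar. -/
theorem nonscalar_of_sq_neg (h2 : (2 : F) ≠ 0) (hQ : (polarBilin Q).Nondegenerate) [Nonempty I] {x : GL I F}
    (hxQ : ∀ v, Q (Matrix.toLin' (x : Matrix I I F) v) = Q v)
    (hxx : ∀ v, Matrix.toLin' (x : Matrix I I F) (Matrix.toLin' (x : Matrix I I F) v) = -v) (z : F) :
    (x : Matrix I I F) ≠ z • (1 : Matrix I I F) := fun hz => by
  obtain ⟨v, hv⟩ : ∃ v, Q v ≠ 0 := by
    by_contra h
    push Not at h
    obtain ⟨i⟩ := ‹Nonempty I›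
    have := hQ.1 (Pi.single i 1) fun v => by simp [polar, h]
    simpa using congrFun this i
  have h1 := hxQ v
  have h3 := hxx v
  rw [hz, map_smul, Matrix.toLin'_one, LinearMap.smul_apply, LinearMap.id_apply] at h1 h3
  rw [QuadraticMap.map_smul, smul_eq_mul] at h1
  rw [LinearMap.smul_apply, LinearMap.id_apply, smul_smul, (mul_eq_right₀ hv).1 h1, one_smul] at h3
  have h4 : (2 : F) • v = 0 := by rw [two_smul]; nth_rw 2 [h3]; exact add_neg_cancel v
  exact hv (by rw [(smul_eq_zero.1 h4).resolve_left h2, map_zero])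

/-- The eigenspaces of an involution in `Ω`. -/
theorem omega_involution_parts (h2 : (2 : F) ≠ 0) (hQ : (polarBilin Q).Nondegenerate) {x : GL I F}
    (hx : x ∈ Cfsg.Geo.omegaGL ⇑Q)
    (hxx : ∀ v, Matrix.toLin' (x : Matrix I I F) (Matrix.toLin' (x : Matrix I I F) v) = v) :
    ∃ A B : Submodule F (I → F), (∀ v ∈ A, Matrix.toLin' (x : Matrix I I F) v = v) ∧
      (∀ v ∈ B, Matrix.toLin' (x : Matrix I I F) v = -v) ∧ IsCompl A B ∧
      (∀ a ∈ A, ∀ b ∈ B, polar Q a b = 0) ∧ NondegOn (polarBilin Q) A ∧ NondegOn (polarBilin Q) B ∧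
      ∃ k, finrank F B = 2 * k ∧ (PlusOn Q B ↔ IsSquare ((-1 : F) ^ k)) := by
  obtain ⟨A, B, hA, hB, hc, ho, hAn, hBn, -⟩ := involution_parts h2 hQ (isometry_of_mem_omegaGL hx) hxx
  refine ⟨A, B, fun v => (hA v).1, fun v => (hB v).1, hc, ho, hAn, hBn, ?_⟩
  rcases Nat.eq_zero_or_pos (finrank F B) with h0 | h0
  · refine ⟨0, h0, iff_of_true ⟨⊥, bot_le, by rw [finrank_bot, h0], by simp⟩ ?_⟩
    rw [pow_zero]; exact IsSquare.one
  rw [H5.omegaGL_eq_map Q rfl] at hx
  obtain ⟨g, hg, rfl⟩ := hx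
  exact (involution_commutator_iff h2 hQ g hc.sup_eq_top ho hBn h0
    (fun a ha => by have := (hA a).1 ha; rwa [Matrix.toLin'_apply, H5.toGLHom_mulVec] at this)
    (fun b hb => by have := (hB b).1 hb; rwa [Matrix.toLin'_apply, H5.toGLHom_mulVec] at this)).1 hg

/-- An involution in `Ω` negating an anisotropic plane. -/
theorem exists_omega_minus_plane (h2 : (2 : F) ≠ 0) (hQ : (polarBilin Q).Nondegenerate) (hI : 3 ≤ Fintype.card I)
    (hsq : ¬ IsSquare (-1 : F)) :
    ∃ x : GL I F, x ∈ Cfsg.Geo.omegaGL ⇑Q ∧ x ^ 2 = 1 ∧ x ≠ 1 ∧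
      (∀ z : F, (x : Matrix I I F) ≠ z • (1 : Matrix I I F)) ∧
      ∀ (W : Submodule F (I → F)), (∀ w ∈ W, Q w = 0) → W.map (Matrix.toLin' (x : Matrix I I F)) ≤ W →
        2 * finrank F W + 2 ≤ Fintype.card I ∧
          ∀ d, Fintype.card I = 2 * d → H67.HasSing Q d → finrank F W + 2 ≤ d := by
  classical
  have hV : finrank F (I → F) = Fintype.card I := finrank_fintype_fun_eq_card _
  obtain ⟨B, -, hBn, hBd, hBp⟩ := exists_sub_of_type (Q := Q) (nondegOn_top hQ) (j := 1) (Or.inl h2)
    (by rw [finrank_top]; omega) False (by simp)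
  have hBp' : ¬ PlusOn Q B := fun h => hBp.1 h
  obtain ⟨A, -, -, hAn, hd', hsum, ho⟩ := nondegOn_split_inv (polarBilin_isRefl Q) (x := 1) (fun _ _ => rfl)
    (fun _ _ h => h) le_top le_top (map_le_of_fixed fun _ _ => rfl) (nondegOn_top hQ) hBn
  have hc : IsCompl B A := ⟨hd', codisjoint_iff.2 hsum⟩
  have hdim := Submodule.finrank_add_eq_of_isCompl hc
  let e := Submodule.prodEquivOfIsCompl B A hc
  have he : ∀ z : B × A, e z = (z.1 : I → F) + (z.2 : I → F) := fun _ => rfl
  have heQ : ∀ z : B × A, Q (e z) = Q (z.1 : I → F) + Q (z.2 : I → F) := fun z => by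
    have h := ho _ z.1.2 _ z.2.2
    rw [polarBilin_apply_apply, QuadraticMap.polar] at h
    rw [he]; linear_combination h
  let L : (I → F) ≃ₗ[F] (I → F) :=
    (e.symm.trans ((LinearEquiv.neg F).prodCongr (LinearEquiv.refl F A))).trans e
  have hL : ∀ z, L (e z) = e (-z.1, z.2) := fun z => by
    show e (((LinearEquiv.neg F).prodCongr (LinearEquiv.refl F A)) (e.symm (e z))) = _
    rw [e.symm_apply_apply]
    rfl
  let g : H5.orth Q := ⟨L, fun v => by
    obtain ⟨z, rfl⟩ := e.surjective v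
    rw [hL, heQ, heQ]
    simp [QuadraticMap.map_neg]⟩
  have hgA : ∀ a ∈ A, (g : (I → F) ≃ₗ[F] (I → F)) a = a := fun a ha => by
    have := hL (0, ⟨a, ha⟩)
    simpa [he] using this
  have hgB : ∀ b ∈ B, (g : (I → F) ≃ₗ[F] (I → F)) b = -b := fun b hb => by
    have := hL (⟨b, hb⟩, 0)
    simpa [he] using this
  have hgC : g ∈ commutator (H5.orth Q) :=
    (involution_commutator_iff h2 hQ g (by rw [sup_comm]; exact hsum)
      (fun a ha b hb => by rw [polar_comm]; exact ho b hb a ha) hBn (by omega) hgA hgB).2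
      ⟨1, hBd, iff_of_false hBp' (by rwa [pow_one])⟩
  set x := H5.toGLHom Q rfl g
  have hxv : ∀ v, Matrix.toLin' (x : Matrix I I F) v = (g : (I → F) ≃ₗ[F] (I → F)) v := fun v => by
    rw [Matrix.toLin'_apply, H5.toGLHom_mulVec]
  have hxA : ∀ a ∈ A, Matrix.toLin' (x : Matrix I I F) a = a := fun a ha => (hxv a).trans (hgA a ha)
  have hxB : ∀ b ∈ B, Matrix.toLin' (x : Matrix I I F) b = -b := fun b hb => (hxv b).trans (hgB b hb)
  have hxx : ∀ v, Matrix.toLin' (x : Matrix I I F) (Matrix.toLin' (x : Matrix I I F) v) = v := fun v => by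
    obtain ⟨z, rfl⟩ := e.surjective v
    rw [he, map_add, hxA _ z.2.2, hxB _ z.1.2, map_add, map_neg, hxA _ z.2.2, hxB _ z.1.2, neg_neg]
  have hns : ∀ z : F, (x : Matrix I I F) ≠ z • (1 : Matrix I I F) := fun z hz => by
    obtain ⟨a, ha, ha0⟩ := (Submodule.ne_bot_iff A).1 fun h => by rw [h, finrank_bot] at hdim; omega
    obtain ⟨b, hb, hb0⟩ := (Submodule.ne_bot_iff B).1 fun h => by rw [h, finrank_bot] at hBd; omega
    have h1 := hxA a ha
    have h3 := hxB b hb
    rw [hz, map_smul, Matrix.toLin'_one, LinearMap.smul_apply, LinearMap.id_apply] at h1 h3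
    have hz1 : z = 1 := by
      have : (z - 1) • a = 0 := by rw [sub_smul, one_smul, h1, sub_self]
      exact sub_eq_zero.1 ((smul_eq_zero.1 this).resolve_right ha0)
    rw [hz1, one_smul] at h3
    have h4 : (2 : F) • b = 0 := by rw [two_smul]; nth_rw 2 [h3]; exact add_neg_cancel b
    exact hb0 ((smul_eq_zero.1 h4).resolve_left h2)
  refine ⟨x, by rw [H5.omegaGL_eq_map Q rfl]; exact ⟨g, hgC, rfl⟩, ?_, fun h => hns 1 (by rw [h]; simp), hns,
    fun W hWs hWx => ?_⟩
  · refine Units.ext (Matrix.toLin'.injective (LinearMap.ext fun v => ?_))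
    rw [pow_two, Units.val_mul, Matrix.toLin'_mul, LinearMap.comp_apply, hxx, Units.val_one, Matrix.toLin'_one]
    rfl
  have hWA : W ≤ A := fun w hw => by
    obtain ⟨⟨b, a⟩, rfl⟩ := e.surjective w
    have h1 := W.sub_mem hw (hWx ⟨_, hw, rfl⟩)
    rw [he, map_add, hxA _ a.2, hxB _ b.2, show (b : I → F) + (a : I → F) - (-(b : I → F) + (a : I → F)) =
      (2 : F) • (b : I → F) by rw [two_smul]; abel] at h1
    have hb : (b : I → F) = 0 := by
      by_contra hb0
      have hbW : (b : I → F) ∈ W := (W.smul_mem_iff h2).1 h1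
      refine hBp' ⟨Submodule.span F {(b : I → F)}, (Submodule.span_singleton_le_iff_mem _ _).2 b.2, ?_, ?_⟩
      · rw [finrank_span_singleton hb0, hBd]
      · intro u hu
        obtain ⟨c, rfl⟩ := Submodule.mem_span_singleton.1 hu
        exact hWs _ (W.smul_mem c hbW)
    rw [he, hb, zero_add]; exact a.2
  obtain ⟨h1, h3⟩ := singular_le_nondeg hAn hWA hWs
  refine ⟨by omega, fun d hd hplus => ?_⟩
  by_contra hlt
  have hA2 := h3 (by omega)
  have h := plusOn_sup hBn hAn (fun b hb a ha => ho b hb a ha) (hBd ▸ even_two_mul 1)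
    (Nat.even_iff.2 (by omega))
  rw [hsum, plusOn_top Q (j := d) (by omega)] at h
  exact hBp' ((h.1 hplus).2 hA2)

/-- Involutions in `Ω` in even dimension fix totally singular subspaces. -/
theorem exists_singular_omega_involution (h2 : (2 : F) ≠ 0) (hQ : (polarBilin Q).Nondegenerate) {x : GL I F}
    (hx : x ∈ Cfsg.Geo.omegaGL ⇑Q)
    (hxx : ∀ v, Matrix.toLin' (x : Matrix I I F) (Matrix.toLin' (x : Matrix I I F) v) = v) {d m : ℕ}
    (hI : Fintype.card I = 2 * d) (hmd : m < d)
    (hcond : m + 2 ≤ d ∨ IsSquare (-1 : F) ∨ ¬ H67.HasSing Q d) :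
    ∃ W : Submodule F (I → F), finrank F W = m ∧ (∀ w ∈ W, Q w = 0) ∧
      W.map (Matrix.toLin' (x : Matrix I I F)) ≤ W := by
  obtain ⟨A, B, hA, hB, hc, ho, hAn, hBn, k, hk, hkp⟩ := omega_involution_parts h2 hQ hx hxx
  have hdim := Submodule.finrank_add_eq_of_isCompl hc
  rw [finrank_fintype_fun_eq_card, hI, hk] at hdim
  have hAd : finrank F A = 2 * (d - k) := by omega
  have hAB : H67.HasSing Q d ↔ (PlusOn Q A ↔ PlusOn Q B) := by
    rw [← plusOn_sup hAn hBn ho (hAd ▸ even_two_mul _) (hk ▸ even_two_mul k), hc.sup_eq_top,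
      plusOn_top Q (by rw [finrank_fintype_fun_eq_card, hI])]
  have bot : ∀ {P : Submodule F (I → F)}, finrank F P = 0 → PlusOn Q P := fun h =>
    ⟨⊥, bot_le, by rw [finrank_bot, h], by simp⟩
  have le : ∀ {P : Submodule F (I → F)} {j : ℕ}, finrank F P = 2 * j →
      2 * (j - 1) < finrank F P ∨ (2 * (j - 1) = finrank F P ∧ PlusOn Q P) := fun {P j} h => by
    rcases Nat.eq_zero_or_pos j with h0 | h0
    · exact Or.inr ⟨by omega, bot (by omega)⟩
    · exact Or.inl (by omega)
  by_cases hBp : PlusOn Q B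
  · by_cases hAp : PlusOn Q A
    · exact exists_singular_pair h2 hA hB hc.disjoint ho hAn hBn (Or.inr ⟨hAd.symm, hAp⟩)
        (Or.inr ⟨hk.symm, hBp⟩) (by omega)
    · exact exists_singular_pair h2 hA hB hc.disjoint ho hAn hBn (le hAd) (Or.inr ⟨hk.symm, hBp⟩) (by omega)
  · by_cases hAp : PlusOn Q A
    · exact exists_singular_pair h2 hA hB hc.disjoint ho hAn hBn (Or.inr ⟨hAd.symm, hAp⟩) (le hk) (by omega)
    · refine exists_singular_pair h2 hA hB hc.disjoint ho hAn hBn (le hAd) (le hk) ?_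
      rcases hcond with h | h | h
      · omega
      · exact absurd (hkp.2 (h.pow k)) hBp
      · exact absurd (hAB.2 (iff_of_false hAp hBp)) h

end matrix

end Cfsg.Agent.H97
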