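import Cfsg.Agent.H97.OrthTwoOdd

set_option autoImplicit false

/-!
# Elusiveness of odd-dimensional orthogonal groups on non-degenerate subspaces
-/

universe u

namespace Cfsg.Agent.H97

open Module QuadraticMap

variable {F : Type u} [Field F] [Fintype F] {I : Type} [Fintype I] [DecidableEq I]

omit [Fintype F] [DecidableEq I] in
theorem isPlusTypeOn_iff_plusOn (Q : QuadraticForm F (I → F)) (W : Submodule F (I → F)) :
    Cfsg.Geo.IsPlusTypeOn ⇑Q W ↔ PlusOn Q W :=
  ⟨fun ⟨U, h1, h2, h3⟩ => ⟨U, h1, h3, h2⟩, fun ⟨U, h1, h2, h3⟩ => ⟨U, h1, h3, h2⟩⟩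

theorem natCard_eq {q : ℕ} (hq : Fintype.card F = q) : (Nat.card F : ℕ) = q := by
  rw [Nat.card_eq_fintype_card, hq]

/-- Involutions fix subspaces of every type. -/
theorem exists_involution_type (h2 : (2 : F) ≠ 0) {Q : QuadraticForm F (I → F)} (hQ : (polarBilin Q).Nondegenerate)
    {x : Module.End F (I → F)} (hxQ : ∀ v, Q (x v) = Q v) (hx : ∀ v, x (x v) = v) {a : ℕ} (ha : 0 < a)
    (hlt : 2 * a < Fintype.card I) (τ : Prop) :
    ∃ W : Submodule F (I → F), (finrank F W = 2 * a ∧ NondegOn (polarBilin Q) W ∧ (PlusOn Q W ↔ τ)) ∧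
      W.map x ≤ W := by
  have hV : finrank F (I → F) = Fintype.card I := finrank_fintype_fun_eq_card F
  obtain ⟨W₀, -, hW₀, hd₀, hp₀⟩ := exists_sub_of_type (nondegOn_top hQ) (j := a) (Or.inl h2)
    (by rw [finrank_top, hV]; exact hlt) τ (fun h => absurd h ha.ne')
  obtain ⟨W, hWd, hWn, hWx, he⟩ := exists_involution_inv h2 hQ (by omega) hxQ hx hW₀ (by omega) (by omega)
  exact ⟨W, ⟨hWd.trans hd₀, hWn, (isomClass_plusOn he hd₀).trans hp₀⟩, hWx⟩

theorem mod_pos_of_odd {n c : ℕ} (hn : Odd n) (hc : Even c) : 0 < n % c := by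
  rcases Nat.eq_zero_or_pos (n % c) with h | h
  · exact absurd ((hc.two_dvd.trans (Nat.dvd_of_mod_eq_zero h))) (by obtain ⟨k, rfl⟩ := hn; omega)
  · exact h

theorem even_c (i : ℕ) : Even (if Even i then i else 2 * i) := by
  split_ifs with h
  · exact h
  · exact even_two_mul i

end Cfsg.Agent.H97
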