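import Cfsg.Agent.H97.OrthNondeg
import Cfsg.Agent.H5.OmegaCriterion
import Cfsg.Agent.H5.FixedClass
import Mathlib.NumberTheory.LegendreSymbol.QuadraticChar.GaussSum

set_option autoImplicit false

/-!
# Square roots of `-1` in orthogonal groups
-/

universe u

namespace Cfsg.Agent.H97

open Module QuadraticMap

variable {F : Type u} [Field F] [Fintype F] {I : Type} [Fintype I] [DecidableEq I]

/-- Square roots of `-1` exist in `Ω` under the type and spinor conditions. -/
theorem exists_omega_sq (h2 : (2 : F) ≠ 0) {Q : QuadraticForm F (I → F)} (hQ : (polarBilin Q).Nondegenerate)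
    {d : ℕ} (hI : Fintype.card I = 2 * d) (htype : H67.HasSing Q d ↔ (IsSquare (-1 : F) ∨ Even d))
    (hspin : Even d ∨ IsSquare (2 : F)) :
    ∃ x : GL I F, x ∈ Cfsg.Geo.omegaGL ⇑Q ∧
      ∀ v, Matrix.toLin' (x : Matrix I I F) (Matrix.toLin' (x : Matrix I I F) v) = -v := by
  classical
  let M := QuadraticMap.weightedSumSquares F (fun _ : Fin d ⊕ Fin d => (1 : F))
  have hM : (polarBilin M).Nondegenerate := H4.weightedSumSquares_nondegenerate h2 fun _ => one_ne_zero
  have hMd : finrank F (Fin d ⊕ Fin d → F) = 2 * d := by simp [finrank_fintype_fun_eq_card]; omega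
  have hV : finrank F (I → F) = 2 * d := by rw [finrank_fintype_fun_eq_card, hI]
  have hMtype : H67.HasSing M d ↔ (IsSquare (-1 : F) ∨ Even d) := by
    rw [show H67.HasSing M d ↔ IsSquare ((-1 : F) ^ d * (H4.gram M (Pi.basisFun F _)).det) from
      H4.singular_iff_isSquare h2 hM hMd (Pi.basisFun F _), H4.det_gram_weightedSumSquares]
    simp only [mul_one, Finset.prod_const, Finset.card_univ, Fintype.card_sum, Fintype.card_fin]
    have hsq : IsSquare ((-1 : F) ^ d * 2 ^ (d + d)) ↔ IsSquare ((-1 : F) ^ d) := by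
      constructor
      · rintro ⟨s, hs⟩
        refine ⟨s / 2 ^ d, ?_⟩
        rw [pow_add] at hs
        field_simp
        linear_combination hs
      · rintro ⟨s, hs⟩
        exact ⟨s * 2 ^ d, by rw [pow_add, hs]; ring⟩
    rw [hsq]
    rcases Nat.even_or_odd d with he | ho
    · exact iff_of_true (by rw [he.neg_one_pow]; exact IsSquare.one) (Or.inr he)
    · rw [ho.neg_one_pow]
      simp [Nat.not_even_iff_odd.2 ho]
  obtain ⟨e, he⟩ := H67.isom_of_type hM hQ hMd hV (hMtype.trans htype.symm)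
  let J₀ : (Fin d ⊕ Fin d → F) →ₗ[F] (Fin d ⊕ Fin d → F) :=
    { toFun := fun z => Sum.elim (fun i => -z (.inr i)) (fun i => z (.inl i))
      map_add' := fun z w => funext fun i => by rcases i with i | i <;> simp [add_comm]
      map_smul' := fun c z => funext fun i => by rcases i with i | i <;> simp }
  have hJJ : ∀ z, J₀ (J₀ z) = -z := fun z => funext fun i => by rcases i with i | i <;> simp [J₀]
  have hJM : ∀ z, M (J₀ z) = M z := fun z => by
    simp only [M, QuadraticMap.weightedSumSquares_apply, Fintype.sum_sum_type, J₀, LinearMap.coe_mk,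
      AddHom.coe_mk, Sum.elim_inl, Sum.elim_inr]
    rw [add_comm]
    congr 1
    exact Finset.sum_congr rfl fun i _ => by simp
  let y : (I → F) →ₗ[F] (I → F) := e.toLinearMap ∘ₗ J₀ ∘ₗ e.symm.toLinearMap
  have hyy : ∀ v, y (y v) = -v := fun v => by simp [y, hJJ]
  have hyQ : ∀ v, Q (y v) = Q v := fun v => by
    show Q (e (J₀ (e.symm v))) = Q v
    rw [he, hJM, ← he, e.apply_symm_apply]
  let g : H5.orth Q := ⟨LinearEquiv.ofInjectiveEndo y (fun a b h => by
    have := congrArg y h; rw [hyy, hyy] at this; exact neg_inj.1 this), hyQ⟩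
  have hg : ∀ v, (g : (I → F) ≃ₗ[F] (I → F)) v = y v := fun v => rfl
  have hgC : g ∈ commutator (H5.orth Q) := by
    refine (H5.mem_commutator_iff hQ (Or.inl (H5.natCard_ne_two h2))).2 ⟨?_, ?_⟩
    · have hfix : H5.fixer g = ⊥ := by
        rw [eq_bot_iff]
        intro v hv
        rw [H5.mem_fixer, hg] at hv
        have h1 := hyy v
        rw [hv, hv] at h1
        have : (2 : F) • v = 0 := by
          rw [two_smul]; nth_rw 2 [h1]; exact add_neg_cancel v
        exact (Submodule.mem_bot F).2 ((smul_eq_zero.1 this).resolve_left h2)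
      have h1 := H5.rk_add_finrank_fixer g
      rw [hfix, finrank_bot, add_zero, hV] at h1
      rw [H5.dick, h1, pow_mul, neg_one_sq, one_pow]
    · rw [spin_sq h2 d g ⊤ ⊥ (by rw [finrank_top, hV]) (nondegOn_top hQ) (by simp)
        (fun a _ b hb => by rw [(Submodule.mem_bot F).1 hb, polar_zero_right])
        (fun b hb => by rw [(Submodule.mem_bot F).1 hb, map_zero])
        (fun a _ => ⟨Submodule.mem_top, by rw [hg, hg, hyy]⟩)]
      rcases hspin with hd | hd
      · obtain ⟨k, rfl⟩ := hd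
        rw [pow_add, Int.units_mul_self]
      · rw [H5.sqc_eq_one_iff.2 hd, one_pow]
  refine ⟨H5.toGLHom Q rfl g, by rw [H5.omegaGL_eq_map Q rfl]; exact ⟨g, hgC, rfl⟩, fun v => ?_⟩
  rw [Matrix.toLin'_apply, Matrix.toLin'_apply, H5.toGLHom_mulVec, H5.toGLHom_mulVec, hg, hg, hyy]

/-- The criterion for elements with scalar square in even dimension and odd characteristic. -/
theorem two_odd_criterion (h2 : (2 : F) ≠ 0) {Q : QuadraticForm F (I → F)} (hQ : (polarBilin Q).Nondegenerate)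
    {d : ℕ} (hd : 0 < d) (hI : Fintype.card I = 2 * d) (C : Submodule F (I → F) → Prop) (G : Prop)
    (hinv : ∀ y : Module.End F (I → F), (∀ v, Q (y v) = Q v) → (∀ v, y (y v) = v) → ∃ W, C W ∧ W.map y ≤ W)
    (hsq : ∀ y : Module.End F (I → F), (∀ v, Q (y v) = Q v) → (∀ v, y (y v) = -v) →
      ((∃ W, C W ∧ W.map y ≤ W) ↔ G)) :
    (∀ x : GL I F, x ∈ Cfsg.Geo.omegaGL ⇑Q →
      (∃ z : F, ((x ^ 2 : GL I F) : Matrix I I F) = z • (1 : Matrix I I F)) →
      (∀ z : F, (x : Matrix I I F) ≠ z • (1 : Matrix I I F)) →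
      ∃ W, C W ∧ W.map (Matrix.toLin' (x : Matrix I I F)) ≤ W) ↔
    ((H67.HasSing Q d ↔ (IsSquare (-1 : F) ∨ Even d)) → (Even d ∨ IsSquare (2 : F)) → G) := by
  haveI : Nonempty I := Fintype.card_pos_iff.1 (by omega)
  constructor
  · intro H htype hspin
    obtain ⟨x, hx, hxx⟩ := exists_omega_sq h2 hQ hI htype hspin
    have hxQ := isometry_of_mem_omegaGL hx
    refine (hsq _ hxQ hxx).1 (H x hx ⟨-1, ?_⟩ fun z hz => ?_)
    · apply Matrix.toLin'.injective
      refine LinearMap.ext fun v => ?_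
      rw [pow_two, Units.val_mul, Matrix.toLin'_mul, LinearMap.comp_apply, hxx, map_smul, Matrix.toLin'_one]
      simp
    · have hzz : ∀ v : I → F, (z * z) • v = -v := fun v => by
        rw [← hxx v, hz, map_smul, Matrix.toLin'_one]
        simp [smul_smul]
      obtain ⟨v, hv⟩ : ∃ v, Q v ≠ 0 := by
        by_contra h
        push Not at h
        obtain ⟨i⟩ := ‹Nonempty I›
        have := hQ.1 (Pi.single i 1) fun v => by simp [polar, h]
        simpa using congrFun this i
      have h1 := hxQ v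
      rw [hz, map_smul, Matrix.toLin'_one, LinearMap.smul_apply, LinearMap.id_apply, QuadraticMap.map_smul,
        smul_eq_mul] at h1
      have h3 := hzz v
      rw [(mul_eq_right₀ hv).1 h1, one_smul] at h3
      have h4 : (2 : F) • v = 0 := by rw [two_smul]; nth_rw 2 [h3]; exact add_neg_cancel v
      exact hv (by rw [(smul_eq_zero.1 h4).resolve_left h2, map_zero])
  · rintro H x hx ⟨z, hz⟩ -
    rcases sq_cases hQ hx hz with hxx | hxx
    · exact hinv _ (isometry_of_mem_omegaGL hx) hxx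
    · refine (hsq _ (isometry_of_mem_omegaGL hx) hxx).2 (H ?_ (omega_sq_spin h2 hQ hI hx hxx))
      obtain ⟨k, hk, hkp⟩ := sq_inv_shape h2 (isometry_of_mem_omegaGL hx) hxx (P := ⊤) le_top (nondegOn_top hQ)
      rw [finrank_top, finrank_fintype_fun_eq_card, hI] at hk
      obtain rfl : k = d := by omega
      exact (plusOn_top Q (by rw [finrank_fintype_fun_eq_card, hI])).symm.trans hkp

/-- Fixed subspaces of given type for square roots of `-1`. -/
theorem sq_fix_type (h2 : (2 : F) ≠ 0) {Q : QuadraticForm F (I → F)} (hQ : (polarBilin Q).Nondegenerate)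
    {d a : ℕ} (hI : Fintype.card I = 2 * d) (had : a ≤ d) (τ : Prop)
    (y : Module.End F (I → F)) (hyQ : ∀ v, Q (y v) = Q v) (hy : ∀ v, y (y v) = -v) :
    (∃ W : Submodule F (I → F), (finrank F W = 2 * a ∧ NondegOn (polarBilin Q) W ∧ (PlusOn Q W ↔ τ)) ∧
      W.map y ≤ W) ↔ ((IsSquare (-1 : F) ∨ Even a) ↔ τ) := by
  constructor
  · rintro ⟨W, ⟨hWd, hWn, hWp⟩, hWy⟩
    obtain ⟨k, hk, hkp⟩ := sq_inv_shape h2 hyQ hy hWy hWn
    obtain rfl : k = a := by omega
    exact hkp.symm.trans hWp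
  · intro h
    obtain ⟨W, hWd, hWn, hWy, hWp⟩ := sq_exists h2 hQ hyQ hy (j := a)
      (by rw [finrank_fintype_fun_eq_card, hI]; omega)
    exact ⟨W, ⟨hWd, hWn, hWp.trans h⟩, hWy⟩

/-- No fixed subspaces of odd dimension for square roots of `-1`. -/
theorem sq_fix_odd (h2 : (2 : F) ≠ 0) {Q : QuadraticForm F (I → F)} {m : ℕ} (hm : Odd m)
    (P : Submodule F (I → F) → Prop) (y : Module.End F (I → F)) (hyQ : ∀ v, Q (y v) = Q v)
    (hy : ∀ v, y (y v) = -v) :
    (∃ W : Submodule F (I → F), (finrank F W = m ∧ NondegOn (polarBilin Q) W ∧ P W) ∧ W.map y ≤ W) ↔ False := by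
  refine iff_false_intro ?_
  rintro ⟨W, ⟨hWd, hWn, -⟩, hWy⟩
  obtain ⟨k, hk, -⟩ := sq_inv_shape h2 hyQ hy hWy hWn
  obtain ⟨j, hj⟩ := hm
  omega

theorem isSquare_neg_one_iff' {q : ℕ} (hq : Fintype.card F = q) : IsSquare (-1 : F) ↔ q % 4 ≠ 3 := by
  rw [FiniteField.isSquare_neg_one_iff, hq]

theorem isSquare_two_iff' {q : ℕ} (hq : Fintype.card F = q) : IsSquare (2 : F) ↔ q % 8 ≠ 3 ∧ q % 8 ≠ 5 := by
  rw [FiniteField.isSquare_two_iff, hq]

end Cfsg.Agent.H97
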