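import Cfsg.Agent.H97.OrthNondeg
import Cfsg.Agent.H97.OrthInvolution
import Cfsg.Agent.H5.OmegaGL

set_option autoImplicit false

/-!
# Involutions of orthogonal groups in characteristic two and non-degenerate subspaces
-/

universe u

namespace Cfsg.Agent.H97

open Module QuadraticMap

variable {F : Type u} [Field F] {V : Type u} [AddCommGroup V] [Module F V] [FiniteDimensional F V]

omit [FiniteDimensional F V] in
theorem polarBilin_isAlt_two [CharP F 2] (Q : QuadraticForm F V) : (polarBilin Q).IsAlt := fun v => by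
  rw [polarBilin_apply_apply, polar_self]
  simp [CharTwo.two_eq_zero]

/-- Contains a vector outside the singular part, or consists of fixed vectors. -/
def NiceOn (Q : QuadraticForm F V) (x : End F V) (P : Submodule F V) : Prop :=
  (∃ u ∈ P, Q (x u - u) ≠ 0) ∨ ∀ u ∈ P, x u = u

/-- The image of `x - 1` is totally singular. -/
def AltOn (Q : QuadraticForm F V) (x : End F V) (P : Submodule F V) : Prop :=
  ∀ u ∈ P, Q (x u - u) = 0

variable [CharP F 2]

omit [FiniteDimensional F V] in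
/-- Relations of an involution. -/
theorem inv_relations {Q : QuadraticForm F V} {x : End F V} (hxQ : ∀ v, Q (x v) = Q v) (hx : ∀ v, x (x v) = v)
    (u v : V) :
    x (x u - u) = x u - u ∧ polar Q (x u - u) v = polar Q u (x v - v) ∧ polar Q u (x u - u) = Q (x u - u) ∧
      polar Q (x u - u) (x v - v) = 0 := by
  have hself : ∀ w, polar Q w w = 0 := fun w => polarBilin_isAlt_two Q w
  have hneg : ∀ w : V, -w = w := fun w => by
    rw [← neg_one_smul F w, CharTwo.neg_eq (1 : F), one_smul]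
  have hfix : ∀ w, x (x w - w) = x w - w := fun w => by
    rw [map_sub, hx, ← neg_sub, hneg]
  have hadj : ∀ a b, polar Q (x a) b = polar Q a (x b) := fun a b => by
    have h := isometry_polarBilin hxQ a (x b)
    rwa [hx, polarBilin_apply_apply, polarBilin_apply_apply] at h
  refine ⟨hfix u, by rw [polar_sub_left, polar_sub_right, hadj], ?_, ?_⟩
  · rw [polar_sub_right, hself, sub_zero, sub_eq_add_neg, QuadraticMap.map_add (⇑Q), QuadraticMap.map_neg,
      polar_neg_right, hxQ, polar_comm Q (x u) u, CharTwo.neg_eq, CharTwo.add_self_eq_zero, zero_add]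
  · rw [polar_sub_left, hadj, hfix, sub_self]

/-- The plane of a vector moved out of the singular part. -/
theorem inv_plane {Q : QuadraticForm F V} {x : End F V} (hxQ : ∀ v, Q (x v) = Q v) (hx : ∀ v, x (x v) = v)
    {u : V} (hu : Q (x u - u) ≠ 0) {P : Submodule F V} (hPx : P.map x ≤ P) (huP : u ∈ P) :
    Submodule.span F {u, x u - u} ≤ P ∧ (Submodule.span F {u, x u - u}).map x ≤ Submodule.span F {u, x u - u} ∧
      NondegOn (polarBilin Q) (Submodule.span F {u, x u - u}) ∧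
      finrank F (Submodule.span F {u, x u - u}) = 2 := by
  obtain ⟨hfix, -, h3, -⟩ := inv_relations hxQ hx u u
  obtain ⟨h1, h2⟩ := plane_nondeg (polarBilin_isAlt_two Q) (u := u) (w := x u - u)
    (by rw [polarBilin_apply_apply, h3]; exact hu)
  refine ⟨Submodule.span_le.2 (Set.insert_subset huP (Set.singleton_subset_iff.2
    (P.sub_mem (hPx ⟨u, huP, rfl⟩) huP))), ?_, h1, h2⟩
  rintro _ ⟨y, hy, rfl⟩
  obtain ⟨a, b, rfl⟩ := mem_span_pair'.1 hy
  refine mem_span_pair'.2 ⟨a, a + b, ?_⟩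
  rw [map_add, map_smul, map_smul, hfix]
  module

omit [FiniteDimensional F V] [CharP F 2] in
/-- Membership in the orthogonal complement inside a subspace. -/
theorem mem_compl_of_perp {B : LinearMap.BilinForm F V} {P T R : Submodule F V} (hT : NondegOn B T)
    (hB : B.IsRefl) (hsum : T ⊔ R = P) (ho : ∀ t ∈ T, ∀ q ∈ R, B t q = 0) {z : V} (hz : z ∈ P)
    (hzT : ∀ t ∈ T, B t z = 0) : z ∈ R := by
  rw [← hsum] at hz
  obtain ⟨t, ht, q, hq, rfl⟩ := Submodule.mem_sup.1 hz
  have h0 : t = 0 := hT t ht fun w hw => hB _ _ (by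
    have := hzT w hw
    rwa [map_add, ho w hw q hq, add_zero] at this)
  rwa [h0, zero_add]

omit [FiniteDimensional F V] [CharP F 2] in
theorem involution_injective {x : End F V} (hx : ∀ v, x (x v) = v) : Function.Injective x :=
  Function.LeftInverse.injective (g := x) hx

/-- A moved plane with a nice complement. -/
theorem exists_moved_plane {Q : QuadraticForm F V} {x : End F V} (hxQ : ∀ v, Q (x v) = Q v) (hx : ∀ v, x (x v) = v)
    {P : Submodule F V} (hPx : P.map x ≤ P) (hP : NondegOn (polarBilin Q) P)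
    (hc : ∃ u ∈ P, Q (x u - u) ≠ 0) :
    ∃ u ∈ P, Q (x u - u) ≠ 0 ∧ ∃ R, R ≤ P ∧ R.map x ≤ R ∧ NondegOn (polarBilin Q) R ∧
      Submodule.span F {u, x u - u} ⊔ R = P ∧
      (∀ t ∈ Submodule.span F {u, x u - u}, ∀ q ∈ R, polar Q t q = 0) ∧ NiceOn Q x R := by
  obtain ⟨u, huP, hu⟩ := hc
  have hxB := isometry_polarBilin hxQ
  have hB := polarBilin_isRefl Q
  obtain ⟨hle, hTx, hT, hTd⟩ := inv_plane hxQ hx hu hPx huP
  obtain ⟨R, hRP, hRx, hR, hd, hsum, ho₀⟩ := nondegOn_split_inv hB hxB (involution_injective hx) hle hPx hTx hP hT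
  have ho : ∀ t ∈ Submodule.span F {u, x u - u}, ∀ q ∈ R, polar Q t q = 0 := ho₀
  by_cases hn : NiceOn Q x R
  · exact ⟨u, huP, hu, R, hRP, hRx, hR, hsum, ho, hn⟩
  simp only [NiceOn, not_or, not_exists, not_and, not_not, not_forall] at hn
  obtain ⟨halt, v, hvR, hv⟩ := hn
  have hNv : x v - v ∈ R := R.sub_mem (hRx ⟨v, hvR, rfl⟩) hvR
  obtain ⟨w, hw, hvw⟩ : ∃ w ∈ R, polar Q (x v - v) w ≠ 0 := by
    by_contra h
    push Not at h
    exact hv (sub_eq_zero.1 (hR _ hNv h))
  set b := Q (x u - u) with hb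
  set w' := (b / polar Q (x v - v) w) • w with hw'def
  have hw' : w' ∈ R := R.smul_mem _ hw
  have hvw' : polar Q (x v - v) w' = b := by
    rw [hw'def, polar_smul_right, smul_eq_mul, div_mul_cancel₀ _ hvw]
  clear_value w'
  have hNu : x u - u ∈ Submodule.span F {u, x u - u} := Submodule.mem_span_of_mem (by simp)
  have hu0 : u ∈ Submodule.span F {u, x u - u} := Submodule.mem_span_of_mem (by simp)
  set u' := u + v with hu'def
  have hNu' : x u' - u' = (x u - u) + (x v - v) := by rw [hu'def, map_add]; abel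
  have hu'P : u' ∈ P := P.add_mem huP (hRP hvR)
  have hQu' : Q (x u' - u') = b := by
    rw [hNu', QuadraticMap.map_add (⇑Q), halt v hvR, ho _ hNu _ hNv, add_zero, add_zero]
  have hu'0 : Q (x u' - u') ≠ 0 := by rw [hQu']; exact hu
  obtain ⟨hle', hTx', hT', hTd'⟩ := inv_plane hxQ hx hu'0 hPx hu'P
  obtain ⟨R', hRP', hRx', hR', hd', hsum', ho'⟩ :=
    nondegOn_split_inv hB hxB (involution_injective hx) hle' hPx hTx' hP hT'
  refine ⟨u', hu'P, hu'0, R', hRP', hRx', hR', hsum', ho', Or.inl ?_⟩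
  obtain ⟨hfix', -, h3, -⟩ := inv_relations hxQ hx u' u'
  set t := polar Q u' (u + w') / b with ht
  refine ⟨u + w' + t • (x u' - u'), mem_compl_of_perp hT' hB hsum' ho'
    (P.add_mem (P.add_mem huP (hRP hw')) (P.smul_mem _ (P.sub_mem (hPx ⟨u', hu'P, rfl⟩) hu'P))) ?_, ?_⟩
  · intro y hy
    obtain ⟨c, e, rfl⟩ := mem_span_pair'.1 hy
    obtain ⟨-, -, h5, -⟩ := inv_relations hxQ hx u u
    obtain ⟨-, -, -, h6⟩ := inv_relations hxQ hx u' u'
    have e1 : polar Q (x u' - u') (u + w') = 0 := by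
      rw [hNu', polar_add_left, polar_add_right, polar_add_right, polar_comm Q (x u - u) u, h5, ho _ hNu _ hw',
        polar_comm Q (x v - v) u, ho _ hu0 _ hNv, hvw', ← hb, add_zero, zero_add, CharTwo.add_self_eq_zero]
    have e2 : polar Q u' (u + w' + t • (x u' - u')) = 0 := by
      rw [polar_add_right, polar_smul_right, h3, hQu', smul_eq_mul, ht, div_mul_cancel₀ _ hu,
        CharTwo.add_self_eq_zero]
    have e3 : polar Q (x u' - u') (u + w' + t • (x u' - u')) = 0 := by
      rw [polar_add_right, e1, polar_smul_right, h6, smul_zero, add_zero]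
    rw [polarBilin_apply_apply, polar_add_left, polar_smul_left, polar_smul_left, e2, e3, smul_zero, smul_zero,
      add_zero]
  · rw [show x (u + w' + t • (x u' - u')) - (u + w' + t • (x u' - u')) = (x u - u) + (x w' - w') by
      rw [map_add, map_add, map_smul, hfix']; abel]
    rw [QuadraticMap.map_add (⇑Q), halt w' hw', ho _ hNu _ (R.sub_mem (hRx ⟨w', hw', rfl⟩) hw'), add_zero,
      add_zero]
    exact hu

/-- A plane with a nice complement. -/
theorem exists_nice_plane {Q : QuadraticForm F V} {x : End F V} (hxQ : ∀ v, Q (x v) = Q v)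
    (hx : ∀ v, x (x v) = v) {P : Submodule F V} (hPx : P.map x ≤ P) (hP : NondegOn (polarBilin Q) P)
    (hn : NiceOn Q x P) (h0 : P ≠ ⊥) :
    ∃ T R, T ≤ P ∧ R ≤ P ∧ T.map x ≤ T ∧ R.map x ≤ R ∧ NondegOn (polarBilin Q) T ∧ finrank F T = 2 ∧
      NondegOn (polarBilin Q) R ∧ T ⊔ R = P ∧ (∀ t ∈ T, ∀ q ∈ R, polar Q t q = 0) ∧ NiceOn Q x R := by
  rcases hn with hc | hfix
  · obtain ⟨u, huP, hu, R, h1, h2, h3, h4, h5, h6⟩ := exists_moved_plane hxQ hx hPx hP hc
    obtain ⟨g1, g2, g3, g4⟩ := inv_plane hxQ hx hu hPx huP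
    exact ⟨_, R, g1, h1, g2, h2, g3, g4, h3, h4, h5, h6⟩
  · obtain ⟨u, hu, hu0⟩ := (Submodule.ne_bot_iff P).1 h0
    obtain ⟨w, hw, hne⟩ : ∃ w ∈ P, polarBilin Q u w ≠ 0 := by
      by_contra h; push Not at h; exact hu0 (hP u hu h)
    obtain ⟨h1, h2⟩ := plane_nondeg (polarBilin_isAlt_two Q) hne
    have hle : Submodule.span F {u, w} ≤ P :=
      Submodule.span_le.2 (Set.insert_subset hu (Set.singleton_subset_iff.2 hw))
    obtain ⟨R, hRP, hRx, hR, -, hsum, ho⟩ := nondegOn_split_inv (polarBilin_isRefl Q) (isometry_polarBilin hxQ)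
      (involution_injective hx) hle hPx (map_le_of_fixed fun v hv => hfix v (hle hv)) hP h1
    exact ⟨_, R, hle, hRP, map_le_of_fixed fun v hv => hfix v (hle hv), hRx, h1, h2, hR, hsum, ho,
      Or.inr fun v hv => hfix v (hRP hv)⟩

/-- Invariant subspaces of every dimension with a nice complement. -/
theorem exists_nice_split {Q : QuadraticForm F V} {x : End F V} (hxQ : ∀ v, Q (x v) = Q v) (hx : ∀ v, x (x v) = v)
    (j : ℕ) {P : Submodule F V} (hPx : P.map x ≤ P) (hP : NondegOn (polarBilin Q) P)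
    (hn : NiceOn Q x P) (hj : 2 * j < finrank F P) :
    ∃ S R, S ≤ P ∧ R ≤ P ∧ S.map x ≤ S ∧ R.map x ≤ R ∧ NondegOn (polarBilin Q) S ∧ finrank F S = 2 * j ∧
      NondegOn (polarBilin Q) R ∧ S ⊔ R = P ∧ (∀ t ∈ S, ∀ q ∈ R, polar Q t q = 0) ∧ NiceOn Q x R := by
  induction j generalizing P with
  | zero =>
    exact ⟨⊥, P, bot_le, le_rfl, by simp, hPx, fun v hv _ => (Submodule.mem_bot F).1 hv, by simp, hP, by simp,
      fun t ht q _ => by rw [(Submodule.mem_bot F).1 ht, polar_zero_left], hn⟩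
  | succ j ih =>
    obtain ⟨T, P', hTP, hP'P, hTx, hP'x, hT, hTd, hP', hsum, ho, hn'⟩ :=
      exists_nice_plane hxQ hx hPx hP hn fun h => by rw [h, finrank_bot] at hj; omega
    have hdim := (hT.sup (polarBilin_isRefl Q) hP' ho).2
    rw [hsum, hTd] at hdim
    obtain ⟨S, R, hSP, hRP, hSx, hRx, hS, hSd, hR, hsum', ho', hnR⟩ := ih hP'x hP' hn' (by omega)
    have hoTS : ∀ t ∈ T, ∀ q ∈ S, polar Q t q = 0 := fun t ht q hq => ho t ht q (hSP hq)
    obtain ⟨g1, g2⟩ := hT.sup (polarBilin_isRefl Q) hS hoTS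
    refine ⟨T ⊔ S, R, sup_le hTP (hSP.trans hP'P), hRP.trans hP'P, map_sup_le hTx hSx, hRx, g1,
      by rw [g2, hTd, hSd]; ring, hR, by rw [sup_assoc, hsum', hsum], ?_, hnR⟩
    intro t ht q hq
    obtain ⟨t', ht', s, hs, rfl⟩ := Submodule.mem_sup.1 ht
    rw [polar_add_left, ho t' ht' q (hRP hq), ho' s hs q hq, add_zero]

variable [Fintype F]

/-- With a vector outside the singular part every dimension and type occurs. -/
theorem exists_inv_moved {Q : QuadraticForm F V} (hQ : (polarBilin Q).Nondegenerate) {x : End F V}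
    (hxQ : ∀ v, Q (x v) = Q v) (hx : ∀ v, x (x v) = v) (hc : ∃ u, Q (x u - u) ≠ 0) {d a : ℕ}
    (hV : finrank F V = 2 * d) (ha : 0 < a) (had : a < d) (τ : Prop) :
    ∃ W : Submodule F V, (finrank F W = 2 * a ∧ NondegOn (polarBilin Q) W ∧ (PlusOn Q W ↔ τ)) ∧ W.map x ≤ W := by
  classical
  obtain ⟨u₀, hu₀⟩ := hc
  have hB := polarBilin_isRefl Q
  obtain ⟨u, -, hu, P, -, hPx, hP, hsum, ho, hnP⟩ :=
    exists_moved_plane hxQ hx (P := ⊤) le_top (nondegOn_top hQ) ⟨u₀, Submodule.mem_top, hu₀⟩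
  obtain ⟨-, -, hT, hTd⟩ := inv_plane hxQ hx hu (P := ⊤) le_top Submodule.mem_top
  have hdim := (hT.sup hB hP ho).2
  rw [hsum, hTd, finrank_top, hV] at hdim
  obtain ⟨S, R, hSP, hRP, hSx, hRx, hS, hSd, hR, hsum', ho', hnR⟩ :=
    exists_nice_split hxQ hx (a - 1) hPx hP hnP (by omega)
  have hdim' := (hS.sup hB hR ho').2
  rw [hsum', hSd] at hdim'
  obtain ⟨w, hwR, hwfix, hQw⟩ : ∃ w ∈ R, x w = w ∧ Q w ≠ 0 := by
    rcases hnR with ⟨z, hz, hQz⟩ | hfix
    · exact ⟨x z - z, R.sub_mem (hRx ⟨z, hz, rfl⟩) hz, (inv_relations hxQ hx z z).1, hQz⟩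
    · obtain ⟨y, hy, hy0⟩ := (Submodule.ne_bot_iff R).1 fun h => by rw [h, finrank_bot] at hdim'; omega
      obtain ⟨w, hw, hQw⟩ : ∃ w ∈ R, Q w ≠ 0 := by
        by_contra h
        push Not at h
        exact hy0 (hR y hy fun z hz => H4.polar_eq_zero_of_singular h hy hz)
      exact ⟨w, hw, hfix w hw, hQw⟩
  set b := Q (x u - u) with hb
  have hu0 : u ∈ Submodule.span F {u, x u - u} := Submodule.mem_span_of_mem (by simp)
  have hNu : x u - u ∈ Submodule.span F {u, x u - u} := Submodule.mem_span_of_mem (by simp)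
  -- the type of the adjusted plane
  have key : ∀ c : F, ∃ u', Q u' = c ∧ x u' - u' = x u - u ∧ ∀ s ∈ S, polar Q u' s = 0 := fun c => by
    obtain ⟨t, ht⟩ := H4.exists_sq_eq (F := F) CharTwo.two_eq_zero ((c + Q u) / Q w)
    refine ⟨u + t • w, ?_, by rw [map_add, map_smul, hwfix]; abel, fun s hs => ?_⟩
    · rw [QuadraticMap.map_add (⇑Q), QuadraticMap.map_smul, polar_smul_right, ho _ hu0 _ (hRP hwR), smul_eq_mul,
        smul_eq_mul, mul_zero, add_zero, ← pow_two, ht, div_mul_cancel₀ _ hQw, add_comm c, ← add_assoc,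
        CharTwo.add_self_eq_zero, zero_add]
    · rw [polar_add_left, polar_smul_left, ho _ hu0 _ (hSP hs), polar_comm, ho' s hs w hwR, smul_zero, add_zero]
  have finish : ∀ u' : V, x u' - u' = x u - u → (∀ s ∈ S, polar Q u' s = 0) →
      (PlusOn Q (Submodule.span F {u', x u' - u'}) ↔ (τ ↔ PlusOn Q S)) →
      ∃ W : Submodule F V, (finrank F W = 2 * a ∧ NondegOn (polarBilin Q) W ∧ (PlusOn Q W ↔ τ)) ∧
        W.map x ≤ W := by
    intro u' hN hperp hp
    have hu' : Q (x u' - u') ≠ 0 := by rw [hN]; exact hu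
    obtain ⟨-, g2, g3, g4⟩ := inv_plane hxQ hx hu' (P := ⊤) le_top Submodule.mem_top
    have hoS : ∀ t ∈ Submodule.span F {u', x u' - u'}, ∀ s ∈ S, polar Q t s = 0 := fun t ht s hs => by
      obtain ⟨c, e, rfl⟩ := mem_span_pair'.1 ht
      rw [polar_add_left, polar_smul_left, polar_smul_left, hperp s hs, hN, ho _ hNu _ (hSP hs), smul_zero,
        smul_zero, add_zero]
    obtain ⟨h1, h2⟩ := g3.sup hB hS hoS
    refine ⟨_, ⟨by rw [h2, g4, hSd]; omega, h1, ?_⟩, map_sup_le g2 hSx⟩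
    rw [plusOn_sup g3 hS hoS (g4 ▸ even_two) (hSd ▸ even_two_mul _), hp]
    exact iff_cancel_right
  by_cases hσ : τ ↔ PlusOn Q S
  · obtain ⟨u', hQ', hN, hperp⟩ := key 0
    refine finish u' hN hperp (iff_of_true ?_ hσ)
    have hu'0 : u' ≠ 0 := fun h => hu (by
      rw [h, map_zero, sub_zero] at hN
      rw [hb, ← hN, map_zero])
    have hu' : Q (x u' - u') ≠ 0 := by rw [hN]; exact hu
    obtain ⟨-, -, -, g4⟩ := inv_plane hxQ hx hu' (P := ⊤) le_top Submodule.mem_top
    refine ⟨Submodule.span F {u'}, Submodule.span_mono (by simp), by rw [finrank_span_singleton hu'0, g4], ?_⟩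
    intro y hy
    obtain ⟨e, rfl⟩ := Submodule.mem_span_singleton.1 hy
    rw [QuadraticMap.map_smul, hQ', smul_zero]
  · obtain ⟨ζ, hζ⟩ := exists_no_root (F := F)
    obtain ⟨u', hQ', hN, hperp⟩ := key (ζ * b)
    refine finish u' hN hperp (iff_of_false ?_ hσ)
    have hu' : Q (x u' - u') ≠ 0 := by rw [hN]; exact hu
    obtain ⟨-, -, g3, g4⟩ := inv_plane hxQ hx hu' (P := ⊤) le_top Submodule.mem_top
    rintro ⟨U, hU, hUd, hUs⟩
    rw [g4] at hUd
    obtain ⟨y, hy, hy0⟩ := (Submodule.ne_bot_iff U).1 fun h => by rw [h, finrank_bot] at hUd; omega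
    obtain ⟨c, e, rfl⟩ := mem_span_pair'.1 (hU hy)
    have h := hUs _ hy
    obtain ⟨-, -, h3, -⟩ := inv_relations hxQ hx u' u'
    rw [QuadraticMap.map_add (⇑Q), QuadraticMap.map_smul, QuadraticMap.map_smul, polar_smul_left, polar_smul_right,
      h3, hN, ← hb, hQ', smul_eq_mul, smul_eq_mul, smul_eq_mul, smul_eq_mul] at h
    by_cases hc : c = 0
    · subst hc
      have he : e = 0 := by simpa [hu] using h
      exact hy0 (by simp [he])
    · refine hζ (e / c) ?_
      have h' : b * (e ^ 2 + e * c + ζ * c ^ 2) = 0 := by linear_combination h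
      have := (mul_eq_zero.1 h').resolve_left hu
      field_simp
      linear_combination this

/-- The structure of an invariant subspace with totally singular image of `x - 1`. -/
theorem alt_shape {Q : QuadraticForm F V} {x : End F V} (hxQ : ∀ v, Q (x v) = Q v) (hx : ∀ v, x (x v) = v)
    {P : Submodule F V} (hPx : P.map x ≤ P) (hP : NondegOn (polarBilin Q) P) (halt : AltOn Q x P) :
    ∃ (s f : ℕ) (F₀ : Submodule F V), finrank F P = 4 * s + 2 * f ∧ finrank F (P.map (x - 1)) = 2 * s ∧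
      F₀ ≤ P ∧ (∀ v ∈ F₀, x v = v) ∧ NondegOn (polarBilin Q) F₀ ∧ finrank F F₀ = 2 * f ∧
      (PlusOn Q P ↔ PlusOn Q F₀) ∧
      ∀ j ≤ s, ∃ T, T ≤ P ∧ T.map x ≤ T ∧ NondegOn (polarBilin Q) T ∧ finrank F T = 4 * j ∧ PlusOn Q T ∧
        ∀ t ∈ T, ∀ q ∈ F₀, polar Q t q = 0 := by
  induction hn : finrank F P using Nat.strong_induction_on generalizing P with
  | _ n ih =>
    subst hn
    by_cases hfix : ∀ v ∈ P, x v = v
    · obtain ⟨f, hf⟩ := hP.even_finrank (polarBilin_isAlt_two Q)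
      refine ⟨0, f, P, by omega, ?_, le_rfl, hfix, hP, by omega, Iff.rfl, fun j hj => ?_⟩
      · rw [mul_zero, Submodule.finrank_eq_zero, eq_bot_iff]
        rintro _ ⟨v, hv, rfl⟩
        simp [hfix v hv]
      · obtain rfl : j = 0 := by omega
        exact ⟨⊥, bot_le, by simp, fun v hv _ => (Submodule.mem_bot F).1 hv, by simp,
          ⟨⊥, le_rfl, by simp, by simp⟩, fun t ht q _ => by rw [(Submodule.mem_bot F).1 ht, polar_zero_left]⟩
    push Not at hfix
    obtain ⟨u, hu, hu0⟩ := hfix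
    have hNP : ∀ v ∈ P, x v - v ∈ P := fun v hv => P.sub_mem (hPx ⟨v, hv, rfl⟩) hv
    obtain ⟨w, hw, huw⟩ : ∃ w ∈ P, polar Q (x u - u) w ≠ 0 := by
      by_contra h
      push Not at h
      exact hu0 (sub_eq_zero.1 (hP _ (hNP u hu) h))
    set v := (polar Q (x u - u) w)⁻¹ • w with hvdef
    have hv : v ∈ P := P.smul_mem _ hw
    have huv : polar Q (x u - u) v = 1 := by rw [hvdef, polar_smul_right, smul_eq_mul, inv_mul_cancel₀ huw]
    clear_value v
    obtain ⟨hfu, e1, e2, e3⟩ := inv_relations hxQ hx u v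
    obtain ⟨hfv, e1', e2', e3'⟩ := inv_relations hxQ hx v u
    obtain ⟨-, -, -, e4⟩ := inv_relations hxQ hx u u
    obtain ⟨-, -, -, e5⟩ := inv_relations hxQ hx v v
    rw [halt u hu] at e2
    rw [halt v hv] at e2'
    rw [huv] at e1
    rw [polar_comm Q v (x u - u), huv] at e1'
    have hBil := polarBilin_isRefl Q
    let φ : (Fin 4 → F) →ₗ[F] V := Fintype.linearCombination F ![u, v, x u - u, x v - v]
    have hφ : ∀ c, φ c = c 0 • u + c 1 • v + c 2 • (x u - u) + c 3 • (x v - v) := fun c => by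
      simp [φ, Fintype.linearCombination_apply, Fin.sum_univ_four]
    have hcoef : ∀ c, (∀ i, polar Q (φ c) (![u, v, x u - u, x v - v] i) = 0) → c = 0 := fun c hc => by
      have h0 := hc 0
      have h1 := hc 1
      have h2 := hc 2
      have h3 := hc 3
      simp only [hφ, Matrix.cons_val_zero, Matrix.cons_val_one, Matrix.cons_val, polar_add_left,
        polar_smul_left, smul_eq_mul] at h0 h1 h2 h3
      rw [polar_comm Q v (x u - u), huv, e2, e4, polar_comm Q (x v - v) (x u - u), e3] at h2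
      rw [← e1, e2', e3, e5] at h3
      have c1 : c 1 = 0 := by linear_combination h2
      have c0 : c 0 = 0 := by linear_combination h3
      rw [c0, c1, polar_comm Q (x u - u) u, e2, polar_comm Q (x v - v) u, ← e1] at h0
      rw [c0, c1, huv, polar_comm Q (x v - v) v, e2'] at h1
      have c3 : c 3 = 0 := by linear_combination h0
      have c2 : c 2 = 0 := by linear_combination h1
      funext i; fin_cases i <;> assumption
    have hinj : Function.Injective φ := (injective_iff_map_eq_zero _).2 fun c hc =>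
      hcoef c fun i => by rw [hc, polar_zero_left]
    set T := LinearMap.range φ with hTdef
    have hbasis : ∀ i, (![u, v, x u - u, x v - v] i : V) ∈ T := fun i =>
      ⟨Pi.single i 1, by simp [φ, Fintype.linearCombination_apply_single]⟩
    have hTn : NondegOn (polarBilin Q) T := by
      rintro _ ⟨c, rfl⟩ h
      rw [hcoef c fun i => h _ (hbasis i), map_zero]
    have hTd : finrank F T = 4 := by rw [hTdef, LinearMap.finrank_range_of_inj hinj]; simp
    have hTP : T ≤ P := by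
      rintro _ ⟨c, rfl⟩
      rw [hφ]
      exact P.add_mem (P.add_mem (P.add_mem (P.smul_mem _ hu) (P.smul_mem _ hv)) (P.smul_mem _ (hNP u hu)))
        (P.smul_mem _ (hNP v hv))
    have hTx : T.map x ≤ T := by
      rintro _ ⟨_, ⟨c, rfl⟩, rfl⟩
      refine ⟨![c 0, c 1, c 0 + c 2, c 1 + c 3], ?_⟩
      rw [hφ, hφ, map_add, map_add, map_add, map_smul, map_smul, map_smul, map_smul, hfu, hfv]
      simp only [Matrix.cons_val_zero, Matrix.cons_val_one, Matrix.cons_val]
      module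
    have hTN : T.map (x - 1) = Submodule.span F {x u - u, x v - v} := by
      apply le_antisymm
      · rintro _ ⟨_, ⟨c, rfl⟩, rfl⟩
        rw [hφ]
        simp only [map_add, map_smul, LinearMap.sub_apply, Module.End.one_apply, hfu, hfv, sub_self, smul_zero,
          add_zero]
        exact mem_span_pair'.2 ⟨c 0, c 1, rfl⟩
      · rw [Submodule.span_le, Set.insert_subset_iff, Set.singleton_subset_iff]
        exact ⟨⟨u, hbasis 0, rfl⟩, ⟨v, hbasis 1, rfl⟩⟩
    have hTNd : finrank F (T.map (x - 1)) = 2 := by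
      rw [hTN, show ({x u - u, x v - v} : Set V) = Set.range ![x u - u, x v - v] by simp [Set.pair_comm],
        finrank_span_eq_card, Fintype.card_fin]
      refine LinearIndependent.pair_iff.2 fun a b hab => ?_
      have h := hcoef ![0, 0, a, b] fun i => by
        rw [hφ]; simp [hab]
      exact ⟨congrFun h 2, congrFun h 3⟩
    have hTplus : PlusOn Q T := by
      refine ⟨T.map (x - 1), ?_, by rw [hTNd, hTd], ?_⟩
      · rintro _ ⟨y, hy, rfl⟩
        exact T.sub_mem (hTx ⟨y, hy, rfl⟩) hy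
      · rintro _ ⟨y, hy, rfl⟩
        exact halt y (hTP hy)
    obtain ⟨R, hRP, hRx, hR, hd, hsum, ho⟩ :=
      nondegOn_split_inv hBil (isometry_polarBilin hxQ) (involution_injective hx) hTP hPx hTx hP hTn
    have hdim := (hTn.sup hBil hR ho).2
    rw [hsum, hTd] at hdim
    obtain ⟨s, f, F₀, hRd, hRN, hF₀R, hF₀fix, hF₀, hF₀d, hRplus, hblocks⟩ :=
      ih _ (by omega) hRx hR (fun y hy => halt y (hRP hy)) rfl
    refine ⟨s + 1, f, F₀, by omega, ?_, hF₀R.trans hRP, hF₀fix, hF₀, hF₀d, ?_, fun j hj => ?_⟩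
    · rw [← hsum, Submodule.map_sup]
      have h1 : T.map (x - 1) ≤ T := by
        rintro _ ⟨y, hy, rfl⟩; exact T.sub_mem (hTx ⟨y, hy, rfl⟩) hy
      have h2 : R.map (x - 1) ≤ R := by
        rintro _ ⟨y, hy, rfl⟩; exact R.sub_mem (hRx ⟨y, hy, rfl⟩) hy
      have h3 := Submodule.finrank_sup_add_finrank_inf_eq (T.map (x - 1)) (R.map (x - 1))
      rw [(hd.mono h1 h2).eq_bot, finrank_bot, add_zero, hTNd, hRN] at h3
      rw [h3]; ring
    · rw [← hsum, plusOn_sup hTn hR ho (hTd ▸ ⟨2, rfl⟩) (hRd ▸ ⟨2 * s + f, by ring⟩)]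
      exact (iff_iff_of_left hTplus).trans hRplus
    · rcases Nat.eq_zero_or_pos j with rfl | hj0
      · exact ⟨⊥, bot_le, by simp, fun v hv _ => (Submodule.mem_bot F).1 hv, by simp,
          ⟨⊥, le_rfl, by simp, by simp⟩, fun t ht q _ => by rw [(Submodule.mem_bot F).1 ht, polar_zero_left]⟩
      obtain ⟨T', hT'R, hT'x, hT', hT'd, hT'p, hT'o⟩ := hblocks (j - 1) (by omega)
      have hoT : ∀ t ∈ T, ∀ q ∈ T', polar Q t q = 0 := fun t ht q hq => ho t ht q (hT'R hq)
      obtain ⟨g1, g2⟩ := hTn.sup hBil hT' hoT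
      refine ⟨T ⊔ T', sup_le hTP (hT'R.trans hRP), map_sup_le hTx hT'x, g1, by omega, ?_, ?_⟩
      · rw [plusOn_sup hTn hT' hoT (hTd ▸ ⟨2, rfl⟩) (hT'd ▸ ⟨2 * (j - 1), by ring⟩)]
        exact iff_of_true hTplus hT'p
      · intro t ht q hq
        obtain ⟨t', ht', s', hs', rfl⟩ := Submodule.mem_sup.1 ht
        rw [polar_add_left, show polar Q t' q = 0 from ho t' ht' q (hF₀R hq), hT'o s' hs' q hq, add_zero]

/-- Involutions fix subspaces of the type of the space, and of plus type, when there is room. -/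
theorem exists_inv_two {Q : QuadraticForm F V} (hQ : (polarBilin Q).Nondegenerate) {x : End F V}
    (hxQ : ∀ v, Q (x v) = Q v) (hx : ∀ v, x (x v) = v) {d a : ℕ} (hV : finrank F V = 2 * d) (ha : 0 < a)
    (had : a < d) (τ : Prop) (hτ : τ ↔ H67.HasSing Q d)
    (hcond : (τ ∧ (Odd d ∨ Even a)) ∨ (¬ τ ∧ (Even d ∨ Odd a))) :
    ∃ W : Submodule F V, (finrank F W = 2 * a ∧ NondegOn (polarBilin Q) W ∧ (PlusOn Q W ↔ τ)) ∧ W.map x ≤ W := by
  classical
  by_cases hc : ∃ u, Q (x u - u) ≠ 0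
  · exact exists_inv_moved hQ hxQ hx hc hV ha had τ
  push Not at hc
  obtain ⟨s, f, F₀, hd, -, -, hfix, hF₀, hF₀d, hplus, hblocks⟩ :=
    alt_shape hxQ hx (P := ⊤) le_top (nondegOn_top hQ) fun u _ => hc u
  rw [finrank_top, hV] at hd
  rw [plusOn_top Q hV, ← hτ] at hplus
  by_cases hsimple : τ ∧ Even a ∧ a ≤ 2 * s
  · obtain ⟨hτ', ⟨j, hj⟩, hle⟩ := hsimple
    obtain ⟨T, -, hTx, hT, hTd, hTp, -⟩ := hblocks j (by omega)
    exact ⟨T, ⟨by omega, hT, iff_of_true hTp hτ'⟩, hTx⟩
  set j := min s ((a - 1) / 2) with hj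
  obtain ⟨T, -, hTx, hT, hTd, hTp, hTo⟩ := hblocks j (min_le_left _ _)
  set i := a - 2 * j with hi
  have hi1 : 1 ≤ i := by omega
  have hif : i ≤ f := by
    rcases Nat.lt_or_ge s ((a - 1) / 2) with h | h
    · omega
    · rcases hcond with ⟨h1, h2⟩ | ⟨h1, h2⟩
      · by_cases hae : Even a
        · have : 2 * s < a := not_le.1 fun hle => hsimple ⟨h1, hae, hle⟩
          omega
        · obtain ⟨e, he⟩ := Nat.not_even_iff_odd.1 hae
          have hd' : f ≠ 0 := fun hf0 => by
            rcases h2 with ⟨e', he'⟩ | h2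
            · omega
            · exact hae h2
          omega
      · have hf0 : f ≠ 0 := fun hf0 => by
          refine h1 (hplus.2 ?_)
          exact ⟨⊥, bot_le, by rw [finrank_bot, hF₀d, hf0], by simp⟩
        rcases h2 with ⟨e, he⟩ | ⟨e, he⟩
        · omega
        · omega
  obtain ⟨S, hSF, hS, hSd, hSp⟩ : ∃ S, S ≤ F₀ ∧ NondegOn (polarBilin Q) S ∧ finrank F S = 2 * i ∧
      (PlusOn Q S ↔ τ) := by
    rcases hif.lt_or_eq with hlt | heq
    · exact exists_sub_of_type hF₀ (Or.inr (hF₀d ▸ even_two_mul f)) (by omega) τ (fun h => absurd h (by omega))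
    · exact ⟨F₀, le_rfl, hF₀, heq ▸ hF₀d, hplus.symm⟩
  have hoTS : ∀ t ∈ T, ∀ q ∈ S, polar Q t q = 0 := fun t ht q hq => hTo t ht q (hSF hq)
  obtain ⟨g1, g2⟩ := hT.sup (polarBilin_isRefl Q) hS hoTS
  refine ⟨T ⊔ S, ⟨by omega, g1, ?_⟩, map_sup_le hTx (map_le_of_fixed fun v hv => hfix v (hSF hv))⟩
  rw [plusOn_sup hT hS hoTS (hTd ▸ ⟨2 * j, by ring⟩) (hSd ▸ even_two_mul i), hSp]
  exact iff_iff_of_left hTp

/-- Invariant subspaces of an involution with totally singular image of `x - 1` and image of dimension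
at least `d - 1`. -/
theorem alt_inv_type {Q : QuadraticForm F V} (hQ : (polarBilin Q).Nondegenerate) {x : End F V}
    (hxQ : ∀ v, Q (x v) = Q v) (hx : ∀ v, x (x v) = v) (halt : ∀ u, Q (x u - u) = 0) {d k : ℕ}
    (hV : finrank F V = 2 * d) (hN : finrank F (LinearMap.range (x - 1)) = 2 * k) (hk : d ≤ 2 * k + 1)
    {W : Submodule F V} (hWx : W.map x ≤ W) (hW : NondegOn (polarBilin Q) W) {a : ℕ}
    (hWd : finrank F W = 2 * a) :
    (d = 2 * k → Even a) ∧ (Even a → PlusOn Q W) ∧ (H67.HasSing Q d → PlusOn Q W) := by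
  have hB := polarBilin_isRefl Q
  obtain ⟨R, -, hRx, hR, hd, hsum, ho⟩ := nondegOn_split_inv hB (isometry_polarBilin hxQ)
    (involution_injective hx) le_top le_top hWx (nondegOn_top hQ) hW
  obtain ⟨s, f, F₀, hWd', hWN, -, -, -, hF₀d, hWp, -⟩ := alt_shape hxQ hx hWx hW fun u _ => halt u
  obtain ⟨s', f', F₁, hRd', hRN, -, -, -, hF₁d, hRp, -⟩ := alt_shape hxQ hx hRx hR fun u _ => halt u
  have hdim := (hW.sup hB hR ho).2
  rw [hsum, finrank_top, hV] at hdim
  have hsupN : W.map (x - 1) ⊔ R.map (x - 1) = LinearMap.range (x - 1) := by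
    rw [← Submodule.map_sup, hsum, Submodule.map_top]
  have h1 : W.map (x - 1) ≤ W := by
    rintro _ ⟨y, hy, rfl⟩; exact W.sub_mem (hWx ⟨y, hy, rfl⟩) hy
  have h2 : R.map (x - 1) ≤ R := by
    rintro _ ⟨y, hy, rfl⟩; exact R.sub_mem (hRx ⟨y, hy, rfl⟩) hy
  have h3 := Submodule.finrank_sup_add_finrank_inf_eq (W.map (x - 1)) (R.map (x - 1))
  rw [(hd.mono h1 h2).eq_bot, finrank_bot, add_zero, hsupN, hWN, hRN, hN] at h3
  have hW0 : f = 0 → PlusOn Q W := fun h => hWp.2 ⟨⊥, bot_le, by rw [finrank_bot, hF₀d, h], by simp⟩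
  have hR0 : f' = 0 → PlusOn Q R := fun h => hRp.2 ⟨⊥, bot_le, by rw [finrank_bot, hF₁d, h], by simp⟩
  refine ⟨fun h => ⟨s, by omega⟩, fun he => hW0 (by obtain ⟨e, he⟩ := he; omega), fun hplus => ?_⟩
  rcases Nat.eq_zero_or_pos f with hf | hf
  · exact hW0 hf
  rw [← plusOn_top Q hV, ← hsum, plusOn_sup hW hR ho (hWd ▸ even_two_mul a) (hRd' ▸ ⟨2 * s' + f', by ring⟩)]
    at hplus
  exact hplus.2 (hR0 (by omega))

/-- Involutions with totally singular image of `x - 1` in `Ω`. -/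
theorem exists_alt_element {I : Type} [Fintype I] [DecidableEq I] {Q : QuadraticForm F (I → F)}
    (hQ : (polarBilin Q).Nondegenerate) {d k : ℕ} (hI : Fintype.card I = 2 * d) (hk : 2 ≤ k) (hkd : 2 * k ≤ d)
    (heq : 2 * k = d → H67.HasSing Q d) :
    ∃ x : GL I F, x ∈ Cfsg.Geo.omegaGL ⇑Q ∧ x ^ 2 = 1 ∧
      (∀ z : F, (x : Matrix I I F) ≠ z • (1 : Matrix I I F)) ∧
      (∀ u, Q (Matrix.toLin' (x : Matrix I I F) u - u) = 0) ∧
      finrank F (LinearMap.range (Matrix.toLin' (x : Matrix I I F) - 1)) = 2 * k := by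
  classical
  let n := k + k
  let P := H4.qPlus n F
  have hP : (polarBilin P).Nondegenerate := H4.qPlus_nondegenerate n
  have hPd : finrank F (Fin n ⊕ Fin n → F) = 2 * n := by simp [finrank_fintype_fun_eq_card]; omega
  have hV : finrank F (I → F) = 2 * d := by rw [finrank_fintype_fun_eq_card, hI]
  obtain ⟨e, he, heQ⟩ : ∃ e : (Fin n ⊕ Fin n → F) →ₗ[F] (I → F), Function.Injective e ∧ ∀ z, Q (e z) = P z := by
    rcases hkd.lt_or_eq with h | h
    · exact exists_embed hQ hP (by omega) (Or.inr ⟨hPd ▸ even_two_mul n, hV ▸ even_two_mul d⟩)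
    · obtain ⟨g, hg⟩ := H67.isom_of_type hP hQ hPd (show finrank F (I → F) = 2 * n by omega)
        (iff_of_true (H67.hasSing_qPlus n) (by rw [show n = d by omega]; exact heq h))
      exact ⟨g.toLinearMap, g.injective, hg⟩
  set T := LinearMap.range e
  have hT : NondegOn (polarBilin Q) T := nondegOn_range hP e heQ
  obtain ⟨R, -, -, hR, hd, hsum, ho⟩ := nondegOn_split_inv (polarBilin_isRefl Q) (x := (1 : End F (I → F)))
    (fun a b => rfl) (fun a b h => h) le_top le_top (map_le_of_fixed fun v _ => rfl) (nondegOn_top hQ) hT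
  let E : ((Fin n ⊕ Fin n → F) × R) ≃ₗ[F] (I → F) :=
    ((LinearEquiv.ofInjective e he).prodCongr (LinearEquiv.refl F R)).trans
      (Submodule.prodEquivOfIsCompl T R ⟨hd, codisjoint_iff.2 hsum⟩)
  have hE : ∀ z, E z = e z.1 + (z.2 : I → F) := fun z => rfl
  have hEQ : ∀ z, Q (E z) = P z.1 + Q (z.2 : I → F) := fun z => by
    have h : polar Q (e z.1) (z.2 : I → F) = 0 := ho _ ⟨z.1, rfl⟩ _ z.2.2
    rw [hE, QuadraticMap.map_add (⇑Q), h, heQ, add_zero]
  let ext : H5.orth P →* H5.orth Q := MonoidHom.mk' (fun g =>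
    ⟨(E.symm.trans (g.1.prodCongr (LinearEquiv.refl F R))).trans E, fun v => by
      obtain ⟨z, rfl⟩ := E.surjective v
      simp [hEQ, g.2 z.1]⟩) (fun g g' => H5.orth_ext fun v => by
      obtain ⟨z, rfl⟩ := E.surjective v
      simp [H5.orth_mul_apply])
  have hmem : shearU (altStd k : Matrix (Fin n) (Fin n) F) ∈ Cfsg.Geo.omegaGL ⇑P := by
    rw [H4.coe_qPlus]
    exact shearU_sum_mem_omega (n := n) (by omega) Finset.univ _ _ fun s _ => by
      simp [Fin.ext_iff]; omega
  rw [H5.omegaGL_eq_map P rfl] at hmem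
  obtain ⟨g, hg, hgM⟩ := hmem
  have hgv : ∀ z, g.1 z =
      Sum.elim (z ∘ Sum.inl + (altStd k).mulVec (z ∘ Sum.inr)) (z ∘ Sum.inr) := fun z => by
    rw [← H5.toGLHom_mulVec P rfl, hgM, shearU_mulVec]
  have hG : ext g ∈ commutator (H5.orth Q) :=
    (Subgroup.map_commutator ⊤ ⊤ ext).trans_le (Subgroup.commutator_mono le_top le_top) ⟨g, hg, rfl⟩
  set x := H5.toGLHom Q rfl (ext g)
  have hxz : ∀ z, Matrix.toLin' (x : Matrix I I F) (E z) = E (g.1 z.1, z.2) := fun z => by
    rw [Matrix.toLin'_apply, H5.toGLHom_mulVec]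
    show E ((g.1.prodCongr (LinearEquiv.refl F R)) (E.symm (E z))) = _
    rw [E.symm_apply_apply]; rfl
  have hneg : ∀ w : I → F, w + w = 0 := fun w => by rw [← two_smul F w, CharTwo.two_eq_zero, zero_smul]
  have hsub : ∀ z, Matrix.toLin' (x : Matrix I I F) (E z) - E z =
      e (Sum.elim ((altStd k).mulVec (z.1 ∘ Sum.inr)) 0) := fun z => by
    rw [hxz, hE, hE, add_sub_add_right_eq_sub, ← map_sub, hgv]
    congr 1
    funext i; rcases i with i | i <;> simp
  refine ⟨x, by rw [H5.omegaGL_eq_map Q rfl]; exact ⟨_, hG, rfl⟩, ?_, fun z hz => ?_, fun u => ?_, ?_⟩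
  · refine Units.ext (Matrix.toLin'.injective (LinearMap.ext fun v => ?_))
    obtain ⟨z, rfl⟩ := E.surjective v
    rw [pow_two, Units.val_mul, Matrix.toLin'_mul, LinearMap.comp_apply, hxz, hxz, Units.val_one,
      Matrix.toLin'_one]
    show E _ = E z
    congr 1
    refine Prod.ext ?_ rfl
    show g.1 (g.1 z.1) = z.1
    rw [hgv, hgv]
    have hc : ∀ (w : Fin n → F), w + w = 0 := fun w => by rw [← two_smul F w, CharTwo.two_eq_zero, zero_smul]
    funext i; rcases i with i | i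
    · simp only [Sum.elim_inl, Sum.elim_comp_inl, Sum.elim_comp_inr, Pi.add_apply, Function.comp_apply,
        add_assoc, CharTwo.add_self_eq_zero, add_zero]
    · simp
  · -- scalar
    let z₁ : Fin n ⊕ Fin n → F := Sum.elim 0 (Pi.single ⟨0, by omega⟩ 1)
    have h1 := hsub (z₁, 0)
    rw [hz, map_smul, Matrix.toLin'_one, hE] at h1
    have h2 : e ((z - 1) • z₁) = e (Sum.elim ((altStd k).mulVec (z₁ ∘ Sum.inr)) 0) := by
      rw [map_smul, ← h1, sub_smul, one_smul]; simp
    have h3 := congrFun (he h2) (Sum.inr ⟨0, by omega⟩)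
    simp [z₁] at h3
    have h4 := he h2
    rw [h3, zero_smul] at h4
    have h5 := altStd_injective (F := F) k (z₁ ∘ Sum.inr) (by
      funext i; exact (congrFun h4 (Sum.inl i)).symm)
    simpa [z₁] using congrFun h5 ⟨0, by omega⟩
  · obtain ⟨z, rfl⟩ := E.surjective u
    rw [hsub, heQ, H4.coe_qPlus]
    simp [Cfsg.quadFormPlus]
  · have hinj : Function.Injective (Matrix.toLin' (altStd k : Matrix (Fin n) (Fin n) F)) :=
      (injective_iff_map_eq_zero _).2 fun v hv => altStd_injective k v (by rwa [← Matrix.toLin'_apply])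
    let L : (Fin n → F) →ₗ[F] (I → F) := e ∘ₗ
      { toFun := fun w => Sum.elim ((altStd k).mulVec w) 0
        map_add' := fun a b => funext fun i => by rcases i with i | i <;> simp [Matrix.mulVec_add]
        map_smul' := fun c a => funext fun i => by rcases i with i | i <;> simp [Matrix.mulVec_smul] }
    have hL : Function.Injective L := (injective_iff_map_eq_zero _).2 fun w hw => by
      have h := he (hw.trans (map_zero e).symm)
      exact hinj ((funext fun i => congrFun h (Sum.inl i)).trans (map_zero _).symm)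
    have hr : LinearMap.range (Matrix.toLin' (x : Matrix I I F) - 1) = LinearMap.range L := by
      apply le_antisymm
      · rintro _ ⟨v, rfl⟩
        obtain ⟨z, rfl⟩ := E.surjective v
        exact ⟨z.1 ∘ Sum.inr, (hsub z).symm⟩
      · rintro _ ⟨w, rfl⟩
        refine ⟨E (Sum.elim 0 w, 0), ?_⟩
        rw [LinearMap.sub_apply, Module.End.one_apply, hsub]
        rfl
    rw [hr, LinearMap.finrank_range_of_inj hL]
    simp [n]; omega

end Cfsg.Agent.H97
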