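import Cfsg.Agent.H97.SympSemisimple
import Cfsg.Agent.H67.OrthTypes
import Cfsg.Agent.H4.DiscClass

set_option autoImplicit false

/-!
# Types of non-degenerate subspaces of quadratic spaces over finite fields
-/

universe u v w

namespace Cfsg.Agent.H97

open Module QuadraticMap

variable {F : Type u} [Field F] {V : Type v} [AddCommGroup V] [Module F V]

/-- The type of `W`: a totally singular subspace of half dimension. -/
def PlusOn (Q : QuadraticForm F V) (W : Submodule F V) : Prop :=
  ∃ U : Submodule F V, U ≤ W ∧ 2 * finrank F U = finrank F W ∧ ∀ u ∈ U, Q u = 0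

theorem polar_comp {W : Type*} [AddCommGroup W] [Module F W] (Q : QuadraticForm F V) (f : W →ₗ[F] V) (a b : W) :
    polar (Q.comp f) a b = polar Q (f a) (f b) := by
  simp [polar]

theorem polarBilin_isRefl (Q : QuadraticForm F V) : (polarBilin Q).IsRefl := fun a b h => by
  rw [polarBilin_apply_apply] at h ⊢; rwa [polar_comm]

/-- Non-degenerate subspaces carry non-degenerate forms. -/
theorem restrictQ_nondegenerate {Q : QuadraticForm F V} {W : Submodule F V}
    (hW : NondegOn (polarBilin Q) W) : (polarBilin (Q.comp W.subtype)).Nondegenerate := by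
  have h : ∀ a : W, (∀ b : W, polar (Q.comp W.subtype) a b = 0) → a = 0 := fun a ha =>
    Subtype.ext (hW _ a.2 fun w hw => by simpa [polar_comp] using ha ⟨w, hw⟩)
  exact ⟨h, fun b hb => h b fun a => (polar_comm _ _ _).trans (hb a)⟩

theorem nondegOn_top {Q : QuadraticForm F V} (hQ : (polarBilin Q).Nondegenerate) :
    NondegOn (polarBilin Q) (⊤ : Submodule F V) :=
  fun v _ h => hQ.1 v fun w => h w Submodule.mem_top

/-- Ranges of isometric embeddings of non-degenerate spaces are non-degenerate. -/
theorem nondegOn_range {W : Type*} [AddCommGroup W] [Module F W] {Q : QuadraticForm F V}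
    {P : QuadraticForm F W} (hP : (polarBilin P).Nondegenerate) (f : W →ₗ[F] V) (hf : ∀ w, Q (f w) = P w) :
    NondegOn (polarBilin Q) (LinearMap.range f) := by
  rintro _ ⟨a, rfl⟩ h
  rw [H4.eq_zero_of_polar hP (x := a) fun b => ?_, map_zero]
  have := h _ ⟨b, rfl⟩
  simpa [polar, ← map_add, hf] using this

/-- The type of a subspace through `HasSing`. -/
theorem plusOn_iff_hasSing (Q : QuadraticForm F V) (W : Submodule F V) {j : ℕ} (hj : finrank F W = 2 * j) :
    PlusOn Q W ↔ H67.HasSing (Q.comp W.subtype) j := by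
  constructor
  · rintro ⟨U, hU, hd, hs⟩
    refine ⟨U.comap W.subtype, fun a ha => hs _ ha, ?_⟩
    rw [(Submodule.comapSubtypeEquivOfLe hU).finrank_eq]; omega
  · rintro ⟨U, hs, hd⟩
    refine ⟨U.map W.subtype, Submodule.map_subtype_le _ _, ?_, ?_⟩
    · rw [Submodule.finrank_map_subtype_eq]; omega
    · rintro _ ⟨a, ha, rfl⟩; exact hs a ha

/-- The type of the range of an isometric embedding. -/
theorem plusOn_range {W : Type*} [AddCommGroup W] [Module F W] [FiniteDimensional F W]
    {Q : QuadraticForm F V} {P : QuadraticForm F W} (f : W →ₗ[F] V) (hf : ∀ w, Q (f w) = P w)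
    (hinj : Function.Injective f) {j : ℕ} (hj : finrank F W = 2 * j) :
    finrank F (LinearMap.range f) = 2 * j ∧ (PlusOn Q (LinearMap.range f) ↔ H67.HasSing P j) := by
  have hd : finrank F (LinearMap.range f) = 2 * j := by rw [LinearMap.finrank_range_of_inj hinj, hj]
  refine ⟨hd, (plusOn_iff_hasSing Q _ hd).trans ⟨fun h => ?_, fun h => ?_⟩⟩
  · exact h.of_isom (LinearEquiv.ofInjective f hinj).symm fun v => by
      obtain ⟨a, rfl⟩ := (LinearEquiv.ofInjective f hinj).surjective v
      rw [LinearEquiv.symm_apply_apply, QuadraticMap.comp_apply]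
      exact (hf a).symm
  · exact h.of_isom (LinearEquiv.ofInjective f hinj) fun v => by
      rw [QuadraticMap.comp_apply]; exact hf v

theorem plusOn_top (Q : QuadraticForm F V) {j : ℕ} (hj : finrank F V = 2 * j) :
    PlusOn Q (⊤ : Submodule F V) ↔ H67.HasSing Q j := by
  rw [plusOn_iff_hasSing Q ⊤ (by rw [finrank_top, hj])]
  exact ⟨fun h => h.of_isom Submodule.topEquiv fun v => rfl,
    fun h => h.of_isom Submodule.topEquiv.symm fun v => rfl⟩

/-- An anisotropic binary form exists. -/
theorem exists_no_root [Finite F] : ∃ ζ : F, ∀ t : F, t ^ 2 + t + ζ ≠ 0 := by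
  by_contra h
  push Not at h
  have hs : Function.Surjective fun t : F => t ^ 2 + t := fun c => by
    obtain ⟨t, ht⟩ := h (-c)
    exact ⟨t, by linear_combination ht⟩
  have hi := Finite.injective_iff_surjective.2 hs
  have := @hi 0 (-1) (by simp)
  exact one_ne_zero (neg_eq_zero.1 this.symm)

section finite

variable [Fintype F]

/-- Types multiply. -/
theorem hasSing_prod_iff {X : Type v} {Y : Type w} [AddCommGroup X] [Module F X] [FiniteDimensional F X]
    [AddCommGroup Y] [Module F Y] [FiniteDimensional F Y] {P : QuadraticForm F X} {R : QuadraticForm F Y}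
    (hP : (polarBilin P).Nondegenerate) (hR : (polarBilin R).Nondegenerate) {a b : ℕ}
    (ha : finrank F X = 2 * a) (hb : finrank F Y = 2 * b) :
    H67.HasSing (P.prod R) (a + b) ↔ (H67.HasSing P a ↔ H67.HasSing R b) := by
  by_cases h2 : H67.HasSing R b
  · simp only [h2, iff_true]
    exact ⟨H67.hasSing_of_prod hP hR ha hb h2, fun h => H67.hasSing_prod h h2⟩
  simp only [h2, iff_false]
  by_cases h1 : H67.HasSing P a
  · refine iff_of_false (fun h => h2 ?_) (not_not.2 h1)
    refine H67.hasSing_of_prod hR hP hb ha h1 ?_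
    rw [add_comm]
    exact h.of_isom (LinearEquiv.prodComm F _ _) fun v => by
      rw [QuadraticMap.prod_apply, QuadraticMap.prod_apply]; exact add_comm _ _
  refine iff_of_true ?_ h1
  obtain ⟨hb1, ζ, hζ, g, hg⟩ := H67.exists_isom_qMinus hR hb h2
  obtain ⟨ha1, ζ', hζ', g', hg'⟩ := H67.exists_isom_qMinus hP ha h1
  obtain ⟨e, he⟩ := H67.qMinus_isom (F := F) (a - 1) hζ hζ'
  let N := -H4.qMinus (b - 1) F 1 ζ
  have hN : (polarBilin N).Nondegenerate := by
    have h0 : (polarBilin (H4.qMinus (b - 1) F 1 ζ)).Nondegenerate :=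
      H4.qMinus_nondegenerate (H4.disc_ne_zero_of_anisotropic (H67.aniso_of_one hζ)
        fun c h => H4.exists_sq_eq h c) _
    have h : ∀ x, (∀ y, polar N x y = 0) → x = 0 := fun x hx => h0.1 x fun y => by
      have := hx y
      simpa [N, polar_neg] using this
    exact ⟨h, fun y hy => h y fun x => (polar_comm _ _ _).trans (hy x)⟩
  have hdN : finrank F ((Fin (b - 1) ⊕ Fin (b - 1)) ⊕ Fin 2 → F) = 2 * b := by
    simp [finrank_fintype_fun_eq_card]; omega
  have hns : ¬ H67.HasSing N b := by
    rintro ⟨W, hW, hd⟩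
    refine H67.not_hasSing_qMinus (b - 1) (H67.aniso_of_one hζ) ⟨W, fun y hy => ?_, by omega⟩
    simpa [N] using hW y hy
  obtain ⟨k, hk⟩ := H67.isom_of_type hN hR hdN hb (iff_of_false hns h2)
  let f : (Fin (a - 1) ⊕ (Fin (b - 1) ⊕ Fin 2) → F) →ₗ[F] X × Y :=
    ((g'.symm.toLinearMap ∘ₗ e.symm.toLinearMap) ∘ₗ
      { toFun := fun z => Sum.elim (Sum.elim (fun i => z (.inl i)) 0) (fun j => z (.inr (.inr j)))
        map_add' := fun z y => funext fun i => by rcases i with (i | i) | i <;> simp
        map_smul' := fun c z => funext fun i => by rcases i with (i | i) | i <;> simp }).prod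
    (k.toLinearMap ∘ₗ
      { toFun := fun z => Sum.elim (Sum.elim (fun i => z (.inr (.inl i))) 0) (fun j => z (.inr (.inr j)))
        map_add' := fun z y => funext fun i => by rcases i with (i | i) | i <;> simp
        map_smul' := fun c z => funext fun i => by rcases i with (i | i) | i <;> simp })
  have := H67.hasSing_of_range (Q := P.prod R) f (fun z y h => by
      have h1 := congrArg (fun x => e (g' x.1)) h
      have h2 := congrArg (fun x => k.symm x.2) h
      simp only [f, LinearMap.prod_apply, LinearMap.comp_apply, LinearEquiv.coe_coe, Function.prod,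
        LinearEquiv.apply_symm_apply, LinearEquiv.symm_apply_apply, LinearMap.coe_mk, AddHom.coe_mk] at h1 h2
      funext i
      rcases i with i | i | i
      · exact congrFun h1 (.inl (.inl i))
      · exact congrFun h2 (.inl (.inl i))
      · exact congrFun h1 (.inr i))
    (fun z => by
      simp only [f, LinearMap.prod_apply, LinearMap.comp_apply, LinearEquiv.coe_coe, Function.prod,
        QuadraticMap.prod_apply, LinearMap.coe_mk, AddHom.coe_mk, hk]
      rw [← hg', g'.apply_symm_apply]
      have he' : ∀ v, H4.qMinus (a - 1) F 1 ζ' (e.symm v) = H4.qMinus (a - 1) F 1 ζ v := fun v => by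
        rw [← he, e.apply_symm_apply]
      rw [he', H4.coe_qMinus]
      simp only [N, neg_apply, H4.coe_qMinus]
      simp [Cfsg.quadFormMinus])
  have hd : finrank F (Fin (a - 1) ⊕ (Fin (b - 1) ⊕ Fin 2) → F) = a + b := by
    simp [finrank_fintype_fun_eq_card]; omega
  rwa [hd] at this

variable [FiniteDimensional F V]

/-- Types of orthogonal sums. -/
theorem plusOn_sup {Q : QuadraticForm F V} {W W' : Submodule F V} (hW : NondegOn (polarBilin Q) W)
    (hW' : NondegOn (polarBilin Q) W') (ho : ∀ a ∈ W, ∀ b ∈ W', polar Q a b = 0)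
    (he : Even (finrank F W)) (he' : Even (finrank F W')) :
    PlusOn Q (W ⊔ W') ↔ (PlusOn Q W ↔ PlusOn Q W') := by
  obtain ⟨a, ha⟩ := he
  obtain ⟨b, hb⟩ := he'
  rw [← two_mul] at ha hb
  have hR := restrictQ_nondegenerate hW
  have hR' := restrictQ_nondegenerate hW'
  let f : (W × W') →ₗ[F] V := W.subtype.coprod W'.subtype
  have hf : ∀ z, Q (f z) = ((Q.comp W.subtype).prod (Q.comp W'.subtype)) z := fun z => by
    have h := ho _ z.1.2 _ z.2.2
    rw [QuadraticMap.polar] at h
    simp only [f, LinearMap.coprod_apply, Submodule.subtype_apply, QuadraticMap.prod_apply,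
      QuadraticMap.comp_apply]
    linear_combination h
  have hinj : Function.Injective f := by
    rw [injective_iff_map_eq_zero]
    intro z hz
    refine H4.eq_zero_of_polar (H67.prod_nondegenerate hR hR') fun y => ?_
    simp only [polar, ← hf, map_add, hz, zero_add, map_zero, sub_zero, sub_self]
  have hrange : LinearMap.range f = W ⊔ W' := by
    rw [LinearMap.range_coprod, Submodule.range_subtype, Submodule.range_subtype]
  obtain ⟨-, h⟩ := plusOn_range f hf hinj (j := a + b) (by rw [finrank_prod, ha, hb]; ring)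
  rw [hrange, hasSing_prod_iff hR hR' ha hb] at h
  rw [h, plusOn_iff_hasSing Q W ha, plusOn_iff_hasSing Q W' hb]

/-- A non-degenerate space of larger dimension contains every non-degenerate space, the parities
agreeing in characteristic two. -/
theorem exists_embed {R : Type w} [AddCommGroup R] [Module F R] [FiniteDimensional F R]
    {Q : QuadraticForm F V} (hQ : (polarBilin Q).Nondegenerate) {P : QuadraticForm F R}
    (hP : (polarBilin P).Nondegenerate) (hlt : finrank F R < finrank F V)
    (hc : (2 : F) ≠ 0 ∨ (Even (finrank F R) ∧ Even (finrank F V))) :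
    ∃ f : R →ₗ[F] V, Function.Injective f ∧ ∀ a, Q (f a) = P a := by
  classical
  suffices h : ∃ (n : ℕ) (U : QuadraticForm F (Fin n → F)) (g : (R × (Fin n → F)) ≃ₗ[F] V),
      ∀ z, Q (g z) = (P.prod U) z by
    obtain ⟨n, U, g, hg⟩ := h
    refine ⟨g.toLinearMap ∘ₗ LinearMap.inl F R _, g.injective.comp LinearMap.inl_injective, fun a => ?_⟩
    show Q (g (a, 0)) = P a
    rw [hg, QuadraticMap.prod_apply, map_zero, add_zero]
  have even_case : Even (finrank F R) → Even (finrank F V) →
      ∃ (n : ℕ) (U : QuadraticForm F (Fin n → F)) (g : (R × (Fin n → F)) ≃ₗ[F] V),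
        ∀ z, Q (g z) = (P.prod U) z := by
    rintro ⟨a, ha⟩ ⟨d, hd⟩
    rw [← two_mul] at ha hd
    obtain ⟨e, rfl⟩ : ∃ e, d = a + e + 1 := ⟨d - a - 1, by omega⟩
    have key : ∀ {J : Type} [Fintype J] (T : QuadraticForm F (J → F)), (polarBilin T).Nondegenerate →
        Fintype.card J = 2 * (e + 1) → (H67.HasSing (P.prod T) (a + (e + 1)) ↔ H67.HasSing Q (a + e + 1)) →
        ∃ (n : ℕ) (U : QuadraticForm F (Fin n → F)) (g : (R × (Fin n → F)) ≃ₗ[F] V),
          ∀ z, Q (g z) = (P.prod U) z := by
      intro J _ T hT hJ hiff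
      obtain ⟨g, hg⟩ := H67.isom_of_type (H67.prod_nondegenerate hP hT) hQ (m := a + e + 1)
        (by rw [finrank_prod, finrank_fintype_fun_eq_card, ha, hJ]; ring) hd (by rwa [← add_assoc] at hiff)
      let e₀ := LinearEquiv.funCongrLeft F F (Fintype.equivFin J).symm
      refine ⟨Fintype.card J, T.comp e₀.symm.toLinearMap,
        (LinearEquiv.prodCongr (LinearEquiv.refl F R) e₀.symm).trans g, fun z => ?_⟩
      rw [LinearEquiv.trans_apply, hg, QuadraticMap.prod_apply, QuadraticMap.prod_apply]
      rfl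
    have hplus := (hasSing_prod_iff hP (H4.qPlus_nondegenerate (F := F) (e + 1)) ha
      (by simp [finrank_fintype_fun_eq_card]; omega)).trans (iff_true_right (H67.hasSing_qPlus _))
    by_cases hh : H67.HasSing P a ↔ H67.HasSing Q (a + e + 1)
    · exact key _ (H4.qPlus_nondegenerate (e + 1)) (by simp; omega) (hplus.trans hh)
    · obtain ⟨ζ, hζ⟩ := exists_no_root (F := F)
      have hab := H67.aniso_of_one hζ
      have hM : (polarBilin (H4.qMinus e F 1 ζ)).Nondegenerate :=
        H4.qMinus_nondegenerate (H4.disc_ne_zero_of_anisotropic hab fun c h => H4.exists_sq_eq h c) _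
      refine key _ hM (by simp; omega) ?_
      rw [hasSing_prod_iff hP hM ha (by simp [finrank_fintype_fun_eq_card]; omega),
        iff_false_right (H67.not_hasSing_qMinus e hab)]
      tauto
  rcases Classical.em ((2 : F) = 0) with h2 | h2
  · rcases hc with h | ⟨h, h'⟩
    · exact absurd h2 h
    · exact even_case h h'
  obtain ⟨n, hn⟩ : ∃ n, finrank F V = finrank F R + (n + 1) := ⟨finrank F V - finrank F R - 1, by omega⟩
  let bP := Module.finBasis F R
  let bQ := Module.finBasis F V
  have hP0 := H4.det_gram_ne_zero hP bP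
  set δ := (H4.gram P bP).det * 2 ^ (n + 1) * (H4.gram Q bQ).det with hδ
  have hδ0 : δ ≠ 0 := mul_ne_zero (mul_ne_zero hP0 (pow_ne_zero _ h2)) (H4.det_gram_ne_zero hQ bQ)
  let w : Fin (n + 1) → F := fun i => if i = Fin.last n then δ else 1
  let U := QuadraticMap.weightedSumSquares F w
  have hgram : H4.gram U (Pi.basisFun F _) = Matrix.diagonal fun i => 2 * w i := by
    funext i j
    have hpol : ∀ x y : Fin (n + 1) → F, polar U x y = ∑ k, 2 * w k * (x k * y k) := by
      intro x y
      simp only [QuadraticMap.polar, U, QuadraticMap.weightedSumSquares_apply, Pi.add_apply,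
        smul_eq_mul, ← Finset.sum_sub_distrib]
      exact Finset.sum_congr rfl fun k _ => by ring
    rcases eq_or_ne i j with rfl | hij
    · simp [H4.gram, hpol, Pi.single_apply]
    · simp [H4.gram, hpol, Pi.single_apply, hij, hij.symm]
  have hUd : (H4.gram U (Pi.basisFun F _)).det = 2 ^ (n + 1) * δ := by
    rw [hgram, Matrix.det_diagonal, Finset.prod_mul_distrib, Finset.prod_const, Finset.card_univ,
      Fintype.card_fin]
    simp [w]
  have hUn : (polarBilin U).Nondegenerate := by
    refine (LinearMap.BilinForm.nondegenerate_iff_det_ne_zero (B := polarBilin U) (Pi.basisFun F _)).2 ?_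
    rw [← H4.gram_eq_toMatrix, hUd]
    exact mul_ne_zero (pow_ne_zero _ h2) hδ0
  let b := bP.prod (Pi.basisFun F (Fin (n + 1)))
  have hb : H4.gram (P.prod U) b =
      Matrix.fromBlocks (H4.gram P bP) 0 0 (H4.gram U (Pi.basisFun F _)) := by
    ext i j
    rw [H4.gram, Matrix.of_apply, H67.polar_prod]
    rcases i with i | i <;> rcases j with j | j <;> simp [b, H4.gram]
  have hdet : (H4.gram (P.prod U) b).det = (H4.gram P bP).det * (2 ^ (n + 1) * δ) := by
    rw [hb, Matrix.det_fromBlocks_zero₁₂, hUd]
  obtain ⟨g, hg⟩ := H4.isom_of_disc h2 (H67.prod_nondegenerate hP hUn) hQ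
    (by rw [finrank_prod, finrank_fintype_fun_eq_card, Fintype.card_fin, hn]) b bQ
    (by rw [hdet, hδ]; exact ⟨(H4.gram P bP).det * 2 ^ (n + 1) * (H4.gram Q bQ).det, by ring⟩)
  exact ⟨n + 1, U, g, hg⟩

/-- Non-degenerate subspaces of every dimension and type. -/
theorem exists_sub_of_type {Q : QuadraticForm F V} {P : Submodule F V} (hP : NondegOn (polarBilin Q) P)
    {j : ℕ} (hc : (2 : F) ≠ 0 ∨ Even (finrank F P)) (hlt : 2 * j < finrank F P) (τ : Prop) (hτ : j = 0 → τ) :
    ∃ W : Submodule F V, W ≤ P ∧ NondegOn (polarBilin Q) W ∧ finrank F W = 2 * j ∧ (PlusOn Q W ↔ τ) := by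
  classical
  rcases j with _ | j
  · exact ⟨⊥, bot_le, fun v hv _ => (Submodule.mem_bot F).1 hv, by simp,
      iff_of_true ⟨⊥, le_rfl, by simp, by simp⟩ (hτ rfl)⟩
  have key : ∀ {J : Type} [Fintype J] (T : QuadraticForm F (J → F)), (polarBilin T).Nondegenerate →
      Fintype.card J = 2 * (j + 1) → (H67.HasSing T (j + 1) ↔ τ) →
      ∃ W : Submodule F V, W ≤ P ∧ NondegOn (polarBilin Q) W ∧ finrank F W = 2 * (j + 1) ∧
        (PlusOn Q W ↔ τ) := by
    intro J _ T hT hJ hiff
    have hJd : finrank F (J → F) = 2 * (j + 1) := by rw [finrank_fintype_fun_eq_card, hJ]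
    obtain ⟨f, hf, hfQ⟩ := exists_embed (restrictQ_nondegenerate hP) hT (by omega)
      (hc.imp id fun h => ⟨by rw [hJd]; exact even_two_mul _, h⟩)
    obtain ⟨hd, hplus⟩ := plusOn_range (Q := Q) (P.subtype ∘ₗ f) hfQ (P.subtype_injective.comp hf) hJd
    exact ⟨_, (LinearMap.range_comp_le_range f P.subtype).trans (by rw [Submodule.range_subtype]),
      nondegOn_range hT _ hfQ, hd, hplus.trans hiff⟩
  by_cases h : τ
  · exact key _ (H4.qPlus_nondegenerate (j + 1)) (by simp; omega) (iff_of_true (H67.hasSing_qPlus _) h)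
  · obtain ⟨ζ, hζ⟩ := exists_no_root (F := F)
    have hab := H67.aniso_of_one hζ
    exact key _ (H4.qMinus_nondegenerate
      (H4.disc_ne_zero_of_anisotropic hab fun c h => H4.exists_sq_eq h c) j) (by simp; omega)
      (iff_of_false (H67.not_hasSing_qMinus j hab) h)

end finite

end Cfsg.Agent.H97
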