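import Cfsg.Agent.H97.LinearElusive
import Cfsg.Agent.H97.Nilpotent

/-! Elements of order `p` of `PSL_n(q)`, `q` a power of `p`. -/

namespace Cfsg.Agent.H97

open Module

section
variable {F V : Type*} [Field F] [AddCommGroup V] [Module F V]

/-- An operator with block sizes at most `m` has `m`th power zero on their sum. -/
theorem Blocks.le_ker_pow {N : End F V} {P : Submodule F V} {μ : Multiset ℕ} (h : Blocks N P μ) {m : ℕ}
    (hm : ∀ a ∈ μ, a ≤ m) : P ≤ LinearMap.ker (N ^ m) := by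
  induction h with
  | bot => exact bot_le
  | @cons P μ v k hk htop hlast hd hB ih =>
    refine sup_le ?_ (ih fun a ha => hm a (Multiset.mem_cons_of_mem ha))
    rw [blockSpan, Submodule.span_le]
    rintro _ ⟨i, rfl⟩
    show (N ^ m) ((N ^ (i : ℕ)) v) = 0
    have := hm k (Multiset.mem_cons_self k μ)
    rw [← Module.End.mul_apply, ← pow_add, show m + (i : ℕ) = (m + i - k) + k by omega, pow_add,
      Module.End.mul_apply, htop, map_zero]

end

variable {F : Type*} [Field F] [Finite F] {p : ℕ} [Fact p.Prime] [CharP F p]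

/-- Elements of order `p` modulo scalars are scalar multiples of `1 + N` with `N ^ p = 0`. -/
theorem exists_unipotent_form {n : ℕ} (hn : 0 < n) (x : Matrix.SpecialLinearGroup (Fin n) F)
    (hx : ∃ c : F, ((x ^ p : Matrix.SpecialLinearGroup (Fin n) F) : Matrix (Fin n) (Fin n) F) =
      c • (1 : Matrix (Fin n) (Fin n) F)) :
    ∃ (w : F) (N : End F (Fin n → F)), w ≠ 0 ∧ N ^ p = 0 ∧
      (Matrix.toLin' (x : Matrix (Fin n) (Fin n) F) : End F (Fin n → F)) = w • (1 + N) := by
  obtain ⟨z, hz⟩ := hx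
  obtain ⟨hpow, hz0, -⟩ := SL_setup hn x hz
  obtain ⟨w, hw⟩ := (PerfectRing.bijective_frobenius (R := F) (p := p)).2 z
  simp only at hw
  subst hw
  have hw : w ≠ 0 := fun h => hz0 (by rw [h, zero_pow (Fact.out : p.Prime).ne_zero])
  haveI : Nonempty (Fin n) := ⟨⟨0, hn⟩⟩
  haveI : CharP (End F (Fin n → F)) p := charP_of_injective_algebraMap' F p
  have h1 := pow_smul_inv_eq_one _ hw hpow
  refine ⟨w, w⁻¹ • (Matrix.toLin' (x : Matrix (Fin n) (Fin n) F) : End F (Fin n → F)) - 1, hw, ?_, ?_⟩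
  · rw [sub_pow_char_of_commute (p := p) (Commute.one_right _), h1, one_pow, sub_self]
  · rw [add_sub_cancel, smul_smul, mul_inv_cancel₀ hw, one_smul]

omit [Finite F] [Fact p.Prime] [CharP F p] in
/-- Invariance under `w • (1 + N)` is invariance under `N`. -/
theorem map_le_unipotent_iff {V : Type*} [AddCommGroup V] [Module F V] (N : End F V) {w : F} (hw : w ≠ 0)
    (W : Submodule F V) : W.map (w • (1 + N)) ≤ W ↔ ∀ v ∈ W, N v ∈ W := by
  rw [map_le_smul_iff _ hw, Submodule.map_le_iff_le_comap]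
  refine forall₂_congr fun v hv => ?_
  exact W.add_mem_iff_right hv

/-- Every block type is realised by an element of order `p` of `SL_n(q)`. -/
theorem exists_SL_unipotent (μ : Multiset ℕ) (hμ : ∀ a ∈ μ, 0 < a ∧ a ≤ p) {n : ℕ} (hn : μ.sum = n)
    (hne : ∃ a ∈ μ, 1 < a) :
    ∃ (x : Matrix.SpecialLinearGroup (Fin n) F) (N : End F (Fin n → F)),
      (Matrix.toLin' (x : Matrix (Fin n) (Fin n) F) : End F (Fin n → F)) = 1 + N ∧ N ^ p = 0 ∧
      Blocks N ⊤ μ ∧
      (∃ c : F, ((x ^ p : Matrix.SpecialLinearGroup (Fin n) F) : Matrix (Fin n) (Fin n) F) =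
        c • (1 : Matrix (Fin n) (Fin n) F)) ∧
      (∀ c : F, (x : Matrix (Fin n) (Fin n) F) ≠ c • (1 : Matrix (Fin n) (Fin n) F)) := by
  subst hn
  obtain ⟨N, hN⟩ := exists_nilpotent_blocks F μ fun a ha => (hμ a ha).1
  have hNp : N ^ p = 0 := LinearMap.ker_eq_top.1 (top_le_iff.1 (hN.le_ker_pow fun a ha => (hμ a ha).2))
  obtain ⟨a, ha, ha1⟩ := hne
  have hpos : 0 < μ.sum := lt_of_lt_of_le (hμ a ha).1 (Multiset.le_sum_of_mem ha)
  haveI : Nonempty (Fin μ.sum) := ⟨⟨0, hpos⟩⟩
  haveI : CharP (End F (Fin μ.sum → F)) p := charP_of_injective_algebraMap' F p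
  have hpow : (1 + N) ^ p = (1 : F) • (1 : End F (Fin μ.sum → F)) := by
    rw [add_pow_char_of_commute (p := p) (Commute.one_left _), hNp, one_pow, add_zero, one_smul]
  have hdet : LinearMap.det (1 + N) = 1 := by
    apply (PerfectRing.bijective_frobenius (R := F) (p := p)).1
    show LinearMap.det (1 + N) ^ p = 1 ^ p
    rw [← map_pow, hpow, one_smul, map_one, one_pow]
  obtain ⟨x, hx, hxp⟩ := exists_SL (1 + N) hdet hpow
  refine ⟨x, N, hx, hNp, hN, ⟨1, hxp⟩, fun c hc => ?_⟩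
  have hN1 : N = (c - 1) • 1 := by
    have h2 : (1 + N) = c • (1 : End F (Fin μ.sum → F)) := by
      rw [← hx, hc, map_smul, Matrix.toLin'_one]; rfl
    refine (eq_sub_iff_add_eq'.2 h2).trans (LinearMap.ext fun v => ?_)
    simp [sub_smul]
  have hc1 : c - 1 = 0 := by
    rw [hN1, smul_pow, one_pow, smul_eq_zero] at hNp
    exact eq_zero_of_pow_eq_zero (hNp.resolve_right one_ne_zero)
  have := hN.le (m := 1) (by rw [pow_one, hN1, hc1, zero_smul]) a ha
  omega

/-- Derangement-freeness on complementary pairs at `r = p`. -/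
theorem elusive_pairs_char_iff {n m : ℕ} (hn : 0 < n) (hm : m ≤ n) :
    ElusiveFor p n (fun f : End F (Fin n → F) => ∃ U W : Submodule F (Fin n → F), IsCompl U W ∧
      finrank F U = m ∧ U.map f ≤ U ∧ W.map f ≤ W) ↔
    ∀ μ : Multiset ℕ, (∀ a ∈ μ, 0 < a ∧ a ≤ p) → μ.sum = n → ∃ ν : Multiset ℕ, ν ≤ μ ∧ ν.sum = m := by
  constructor
  · intro h μ hμ hsum
    by_cases hne : ∃ a ∈ μ, 1 < a
    · obtain ⟨x, N, hx, hNp, hN, hxc, hxs⟩ := exists_SL_unipotent (F := F) μ hμ hsum hne
      obtain ⟨U, W, hc, hUd, hU, hW⟩ := h x hxc hxs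
      rw [hx, ← one_smul F (1 + N), map_le_unipotent_iff N one_ne_zero] at hU hW
      obtain ⟨ν, hν, hνs⟩ := hN.exists_sub hNp hc hU hW
      exact ⟨ν, hν, hνs.trans hUd⟩
    · push Not at hne
      have hall : μ = Multiset.replicate μ.card 1 :=
        Multiset.eq_replicate_card.2 fun a ha => le_antisymm (hne a ha) (hμ a ha).1
      have hcard : μ.card = n := by rw [← hsum, congrArg Multiset.sum hall]; simp
      exact ⟨Multiset.replicate m 1, by rw [hall]; exact (Multiset.replicate_le_replicate 1).2 (hcard ▸ hm),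
        by simp⟩
  · intro h x hx _
    obtain ⟨w, N, hw, hNp, hxf⟩ := exists_unipotent_form hn x hx
    obtain ⟨μ, hμ⟩ := exists_blocks N hNp ⊤ fun _ _ => Submodule.mem_top
    have hsum : μ.sum = n := by rw [← hμ.finrank_eq, finrank_top, Module.finrank_fin_fun]
    obtain ⟨ν, hν, hνs⟩ := h μ (fun a ha => ⟨hμ.pos a ha, hμ.le hNp a ha⟩) hsum
    obtain ⟨U, W, hU, hW, hd, hs⟩ := hμ.exists_split ν hν
    refine ⟨U, W, ⟨hd, codisjoint_iff.2 hs⟩, hU.finrank_eq.trans hνs, ?_, ?_⟩
    · rw [hxf, map_le_unipotent_iff N hw]; exact fun v hv => hU.inv ⟨v, hv, rfl⟩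
    · rw [hxf, map_le_unipotent_iff N hw]; exact fun v hv => hW.inv ⟨v, hv, rfl⟩

/-- The partition condition for `p = 2`. -/
theorem partition_two_iff {n m : ℕ} (hmn : 2 * m < n) :
    (∀ μ : Multiset ℕ, (∀ a ∈ μ, 0 < a ∧ a ≤ 2) → μ.sum = n → ∃ ν : Multiset ℕ, ν ≤ μ ∧ ν.sum = m) ↔
      (Odd n ∨ Even m) := by
  constructor
  · intro h
    by_contra hne
    obtain ⟨⟨k, hk⟩, ⟨l, hl⟩⟩ : Even n ∧ Odd m := by
      rwa [not_or, Nat.not_odd_iff_even, Nat.not_even_iff_odd] at hne
    obtain ⟨ν, hν, hνs⟩ := h (Multiset.replicate k 2)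
      (fun a ha => by rw [Multiset.eq_of_mem_replicate ha]; decide) (by rw [Multiset.sum_replicate, smul_eq_mul]; omega)
    obtain ⟨j, -, rfl⟩ := Multiset.le_replicate_iff.1 hν
    rw [Multiset.sum_replicate, smul_eq_mul] at hνs
    omega
  · intro h μ hμ hsum
    obtain ⟨A, B, rfl⟩ : ∃ A B, μ = Multiset.replicate A 2 + Multiset.replicate B 1 := by
      refine ⟨μ.count 2, μ.count 1, ?_⟩
      ext a
      rw [Multiset.count_add, Multiset.count_replicate, Multiset.count_replicate]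
      by_cases ha : a ∈ μ
      · obtain ⟨h1, h2⟩ := hμ a ha
        interval_cases a <;> simp
      · rw [Multiset.count_eq_zero.2 ha]
        split_ifs with h1 h2 h2 <;> subst_vars <;> simp [Multiset.count_eq_zero.2 ha] <;> omega
    simp only [Multiset.sum_add, Multiset.sum_replicate, smul_eq_mul] at hsum
    have hB : m % 2 = 1 → 0 < B := fun hm => by
      rcases h with ⟨k, hk⟩ | ⟨k, hk⟩ <;> omega
    refine ⟨Multiset.replicate (min A (m / 2)) 2 + Multiset.replicate (m - 2 * min A (m / 2)) 1,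
      add_le_add ((Multiset.replicate_le_replicate 2).2 (min_le_left _ _))
        ((Multiset.replicate_le_replicate 1).2 ?_), ?_⟩
    · omega
    · simp only [Multiset.sum_add, Multiset.sum_replicate, smul_eq_mul]; omega

end Cfsg.Agent.H97
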