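import Cfsg.Agent.H97.SympUnipotent
import Cfsg.Agent.H97.SympNondegCriteria
import Cfsg.Agent.H97.Unipotent
import Cfsg.Agent.H4.DiscClass
import Cfsg.Agent.H4.StdForms
import Cfsg.Agent.H5.OmegaCriterion
import Cfsg.Prelude.Def_GeometricClasses

set_option autoImplicit false

/-! Unipotent isometries of symmetric forms: block types, models, and witnesses. -/

universe u v

namespace Cfsg.Agent.H97

open Module
open LinearMap (BilinForm)

section pieces

variable {F : Type u} {V : Type v} [Field F] [AddCommGroup V] [Module F V] [FiniteDimensional F V]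
variable {B : BilinForm F V} {N : End F V} {P : Submodule F V}

omit [FiniteDimensional F V] in
/-- The symmetry of the top pairing for symmetric forms. -/
theorem top_pair_orth (hS : ∀ a b, B a b = B b a) (hx : ∀ u v, B (u + N u) (v + N v) = B u v) {k : ℕ}
    (hk0 : 0 < k) (hk : ∀ v ∈ P, (N ^ k) v = 0) {a b : V} (ha : a ∈ P) (hb : b ∈ P) :
    B ((N ^ (k - 1)) b) a = (-1) ^ (k - 1) * B ((N ^ (k - 1)) a) b := by
  have h := pow_pair_top hx hk ha hb (k - 1) 0 (by omega)
  rw [pow_zero, Module.End.one_apply, hS] at h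
  exact h

/-- A nondegenerate piece of highest block size: one odd block or two even blocks. -/
theorem exists_piece_orth (h2 : (2 : F) ≠ 0) (hS : ∀ a b, B a b = B b a)
    (hx : ∀ u v, B (u + N u) (v + N v) = B u v) {m : ℕ} (hN : N ^ m = 0)
    (hPN : ∀ v ∈ P, N v ∈ P) (hP : NondegOn B P) (hP0 : P ≠ ⊥) :
    ∃ (T : Submodule F V) (τ : Multiset ℕ), T ≤ P ∧ T ≠ ⊥ ∧ Blocks N T τ ∧ NondegOn B T ∧
      ∀ a, Even a → Even (τ.count a) := by
  classical
  obtain ⟨v₀, hv₀, hv₀0⟩ := (Submodule.ne_bot_iff P).1 hP0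
  have hex : ∃ k, ∀ v ∈ P, (N ^ k) v = 0 := ⟨m, fun v _ => by rw [hN]; rfl⟩
  set k := Nat.find hex
  have hk : ∀ v ∈ P, (N ^ k) v = 0 := Nat.find_spec hex
  have hkpos : 0 < k := Nat.pos_of_ne_zero fun h => hv₀0 (by simpa [h] using hk v₀ hv₀)
  have hpowP : ∀ (i : ℕ), ∀ v ∈ P, (N ^ i) v ∈ P := by
    intro i
    induction i with
    | zero => exact fun v hv => hv
    | succ i ih => intro v hv; rw [pow_succ', Module.End.mul_apply]; exact hPN _ (ih v hv)
  obtain ⟨v, hv, hlast⟩ : ∃ v ∈ P, (N ^ (k - 1)) v ≠ 0 := by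
    have h := Nat.find_min hex (show k - 1 < k by omega)
    push Not at h; exact h
  obtain ⟨w, hw, hvw⟩ : ∃ w ∈ P, B ((N ^ (k - 1)) v) w ≠ 0 := by
    by_contra h; push Not at h; exact hlast (hP _ (hpowP _ v hv) h)
  have hlast' : ∀ a b, B ((N ^ (k - 1)) a) b ≠ 0 → (N ^ (k - 1)) a ≠ 0 := fun a b h h0 => h (by simp [h0])
  have hspanP : ∀ a ∈ P, blockSpan N a k ≤ P := fun a ha =>
    Submodule.span_le.2 (by rintro _ ⟨i, rfl⟩; exact hpowP _ a ha)
  rcases Nat.even_or_odd k with hke | hko
  · -- two blocks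
    have hodd : Odd (k - 1) := Nat.Even.sub_odd hkpos hke odd_one
    have hall : ∀ u ∈ P, B ((N ^ (k - 1)) u) u = 0 := fun u hu => by
      have := top_pair_orth hS hx hkpos hk hu hu
      rw [hodd.neg_one_pow] at this
      exact (mul_eq_zero.1 (show (2 : F) * B ((N ^ (k - 1)) u) u = 0 by linear_combination this)).resolve_left h2
    have hwv : B ((N ^ (k - 1)) w) v ≠ 0 := by
      rw [top_pair_orth hS hx hkpos hk hv hw]
      exact mul_ne_zero (pow_ne_zero _ (neg_ne_zero.2 one_ne_zero)) hvw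
    have hgram : ∀ c : Fin 2 → Fin k → F,
        (∀ y ∈ blockSpan N v k ⊔ blockSpan N w k,
          B (∑ i, c 0 i • (N ^ (i : ℕ)) v + ∑ i, c 1 i • (N ^ (i : ℕ)) w) y = 0) → c = 0 := by
      intro c hc
      have hg := gram_family hx hk ![v, w] (fun s => by fin_cases s <;> simpa)
        (fun d hd => by
          have h0 := hd 0
          have h1 := hd 1
          simp [Fin.sum_univ_two, hall v hv, hall w hw, hvw, hwv] at h0 h1
          funext s; fin_cases s <;> simp [h0, h1])
        (fun i s => c s i) (fun j t => by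
          have hmem : (N ^ j) (![v, w] t) ∈ blockSpan N v k ⊔ blockSpan N w k := by
            fin_cases t
            · exact Submodule.mem_sup_left (mem_blockSpan (hk v hv))
            · exact Submodule.mem_sup_right (mem_blockSpan (hk w hw))
          have := hc _ hmem
          simp only [Fin.sum_univ_two, Finset.sum_add_distrib] at this ⊢
          simpa using this)
      funext s i
      exact congr_fun (congr_fun hg i) s
    have hd : Disjoint (blockSpan N v k) (blockSpan N w k ⊔ ⊥) := by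
      rw [sup_bot_eq, Submodule.disjoint_def]
      intro y hy hy'
      obtain ⟨g, rfl⟩ := (Submodule.mem_span_range_iff_exists_fun F).1 hy
      obtain ⟨g', hg'⟩ := (Submodule.mem_span_range_iff_exists_fun F).1 hy'
      have h := hgram ![g, -g'] fun y _ => by simp [neg_smul, hg']
      exact Finset.sum_eq_zero fun i _ => by rw [show g i = 0 from congr_fun (congr_fun h 0) i, zero_smul]
    have hb := Blocks.cons v k hkpos (hk v hv) hlast hd
      (Blocks.cons w k hkpos (hk w hw) (hlast' w v hwv) disjoint_bot_right (Blocks.bot (N := N)))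
    rw [sup_bot_eq] at hb
    refine ⟨_, _, sup_le (hspanP v hv) (hspanP w hw), fun h0 => ?_, hb, fun y hy hy0 => ?_, fun a _ => ?_⟩
    · exact hlast ((Submodule.mem_bot F).1 (h0 ▸ Submodule.mem_sup_left (mem_blockSpan (hk v hv))))
    · obtain ⟨a, ha, b, hb', rfl⟩ := Submodule.mem_sup.1 hy
      obtain ⟨g, rfl⟩ := (Submodule.mem_span_range_iff_exists_fun F).1 ha
      obtain ⟨g', rfl⟩ := (Submodule.mem_span_range_iff_exists_fun F).1 hb'
      have h := hgram ![g, g'] fun y hy => by simpa using hy0 y hy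
      have h0 : g = 0 := congr_fun h 0
      have h1 : g' = 0 := congr_fun h 1
      simp [h0, h1]
    · by_cases hak : a = k <;> simp [hak]
  · -- one block
    have hev : Even (k - 1) := Nat.Odd.sub_odd hko odd_one
    obtain ⟨u, hu, hne⟩ : ∃ u ∈ P, B ((N ^ (k - 1)) u) u ≠ 0 := by
      by_contra h
      push Not at h
      have h' := h (v + w) (P.add_mem hv hw)
      simp only [map_add, LinearMap.add_apply, h v hv, h w hw] at h'
      rw [top_pair_orth hS hx hkpos hk hv hw, hev.neg_one_pow] at h'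
      exact hvw (mul_left_cancel₀ h2 (by linear_combination h'))
    have hb := Blocks.cons u k hkpos (hk u hu) (hlast' u u hne) disjoint_bot_right (Blocks.bot (N := N))
    rw [sup_bot_eq] at hb
    refine ⟨_, _, hspanP u hu, fun h0 => ?_, hb, fun y hy hy0 => ?_, fun a ha => ?_⟩
    · exact hlast' u u hne ((Submodule.mem_bot F).1 (h0 ▸ mem_blockSpan (hk u hu)))
    · obtain ⟨g, rfl⟩ := (Submodule.mem_span_range_iff_exists_fun F).1 hy
      have hg := gram_family hx hk (fun _ : Unit => u) (fun _ => hu)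
        (fun c hc => funext fun _ => by
          have := hc ()
          simp only [Finset.univ_unique, Finset.sum_singleton, mul_eq_zero, hne, or_false] at this
          exact this)
        (fun i _ => g i) (fun j _ => by
          simpa using hy0 _ (mem_blockSpan (i := j) (hk u hu)))
      exact Finset.sum_eq_zero fun i _ => by rw [show g i = 0 from congr_fun (congr_fun hg i) (), zero_smul]
    · rw [Multiset.count_eq_zero.2 (by
        simp only [Multiset.mem_cons, Multiset.notMem_zero, or_false]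
        rintro rfl
        exact Nat.not_even_iff_odd.2 hko ha)]
      exact Even.zero

/-- Unipotent isometries of symmetric forms have even parts with even multiplicity. -/
theorem exists_blocks_orth (h2 : (2 : F) ≠ 0) (hS : ∀ a b, B a b = B b a)
    (hx : ∀ u v, B (u + N u) (v + N v) = B u v) {m : ℕ} (hN : N ^ m = 0)
    (hPN : ∀ v ∈ P, N v ∈ P) (hP : NondegOn B P) :
    ∃ μ, Blocks N P μ ∧ ∀ a, Even a → Even (μ.count a) := by
  induction hn : finrank F P using Nat.strong_induction_on generalizing P with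
  | _ n ih =>
    subst hn
    by_cases hP0 : P = ⊥
    · exact ⟨0, hP0 ▸ .bot, by simp⟩
    obtain ⟨T, τ, hTP, hT0, hTb, hT, hτ⟩ := exists_piece_orth h2 hS hx hN hPN hP hP0
    have hinj : Function.Injective (1 + N : End F V) := by
      refine (injective_iff_map_eq_zero _).2 fun v hv => ?_
      have h1 : ∀ i, (N ^ i) v = ((-1 : F) ^ i) • v := fun i => by
        induction i with
        | zero => simp
        | succ i ih =>
          have h3 : N v = -v := eq_neg_of_add_eq_zero_right (hv : v + N v = 0)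
          rw [pow_succ, Module.End.mul_apply, h3, map_neg, ih, pow_succ]; simp
      have h3 := h1 m
      rw [hN, LinearMap.zero_apply] at h3
      exact (smul_eq_zero.1 h3.symm).resolve_left (pow_ne_zero _ (neg_ne_zero.2 one_ne_zero))
    have hinv : ∀ {A : Submodule F V}, (∀ v ∈ A, N v ∈ A) → A.map (1 + N : End F V) ≤ A := by
      rintro A hA' _ ⟨v, hv, rfl⟩; exact A.add_mem hv (hA' v hv)
    obtain ⟨Q, hQP, hQx, hQ, hd, hsum, -⟩ := nondegOn_split_inv (fun a b h => (hS b a).trans h) (x := 1 + N)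
      (fun u v => hx u v) hinj hTP (hinv hPN) (hinv fun v hv => hTb.inv ⟨v, hv, rfl⟩) hP hT
    have hQN : ∀ v ∈ Q, N v ∈ Q := fun v hv => by
      have := hQx ⟨v, hv, rfl⟩
      exact (Submodule.add_mem_iff_right Q hv).1 this
    have hlt : finrank F Q < finrank F P :=
      Submodule.finrank_lt_finrank_of_lt (lt_of_le_of_ne hQP fun he =>
        hT0 (le_bot_iff.1 (hd (le_refl T) (he ▸ hTP))))
    obtain ⟨μ, hμ, hμe⟩ := ih _ hlt hQN hQ rfl
    exact ⟨τ + μ, hsum ▸ hTb.sup hμ hd, fun a ha => by rw [Multiset.count_add]; exact (hτ a ha).add (hμe a ha)⟩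

end pieces

section models

variable {F : Type u} [Field F]

/-- Models of unipotent types in orthogonal groups. -/
def IsOrthModel {V : Type v} [AddCommGroup V] [Module F V] (B : BilinForm F V) (N : End F V)
    (μ : Multiset ℕ) : Prop :=
  B.Nondegenerate ∧ (∀ a b, B a b = B b a) ∧ (∀ a b, B (N a) b = -B a (N b)) ∧ Blocks N ⊤ μ

theorem IsOrthModel.congr {V : Type v} [AddCommGroup V] [Module F V] {W : Type*} [AddCommGroup W]
    [Module F W] {B : BilinForm F V} {N : End F V} {μ : Multiset ℕ} (h : IsOrthModel B N μ) (e : W ≃ₗ[F] V) :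
    IsOrthModel (B.compl₁₂ e.toLinearMap e.toLinearMap) (e.symm.conj N) μ := by
  obtain ⟨hB, hS, hs, hb⟩ := h
  refine ⟨⟨fun a ha => e.injective ?_, fun b hb' => e.injective ?_⟩, fun a b => hS _ _, fun a b => ?_, ?_⟩
  · rw [map_zero]; exact hB.1 _ fun v => by simpa using ha (e.symm v)
  · rw [map_zero]; exact hB.2 _ fun v => by simpa using hb' (e.symm v)
  · simpa [LinearEquiv.conj_apply] using hs (e a) (e b)
  · have h1 := hb.map (N' := e.symm.conj N) e.symm.toLinearMap e.symm.injective
      (fun x => by simp [LinearEquiv.conj_apply])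
    rwa [Submodule.map_top, LinearEquiv.range] at h1

theorem IsOrthModel.prod {V : Type v} [AddCommGroup V] [Module F V] [FiniteDimensional F V]
    {W : Type*} [AddCommGroup W] [Module F W] [FiniteDimensional F W]
    {B : BilinForm F V} {N : End F V} {μ : Multiset ℕ} {B' : BilinForm F W} {N' : End F W} {ν : Multiset ℕ}
    (h : IsOrthModel B N μ) (h' : IsOrthModel B' N' ν) :
    IsOrthModel (B.compl₁₂ (LinearMap.fst F V W) (LinearMap.fst F V W) +
        B'.compl₁₂ (LinearMap.snd F V W) (LinearMap.snd F V W)) (N.prodMap N') (μ + ν) := by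
  obtain ⟨hB, hS, hs, hb⟩ := h
  obtain ⟨hB', hS', hs', hb'⟩ := h'
  refine ⟨⟨fun a ha => ?_, fun b hz => ?_⟩, fun a b => by simp [hS a.1 b.1, hS' a.2 b.2],
    fun a b => by simp [hs, hs']; ring, ?_⟩
  · exact Prod.ext (hB.1 _ fun v => by simpa using ha (v, 0)) (hB'.1 _ fun w => by simpa using ha (0, w))
  · exact Prod.ext (hB.2 _ fun v => by simpa using hz (v, 0)) (hB'.2 _ fun w => by simpa using hz (0, w))
  · have h1 := hb.map (N' := N.prodMap N') (LinearMap.inl F V W) LinearMap.inl_injective (fun x => by simp)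
    have h2 := hb'.map (N' := N.prodMap N') (LinearMap.inr F V W) LinearMap.inr_injective (fun x => by simp)
    have h3 := h1.sup h2 (by
      rw [Submodule.map_top, Submodule.map_top]
      exact (LinearMap.isCompl_range_inl_inr).disjoint)
    rwa [Submodule.map_top, Submodule.map_top, LinearMap.isCompl_range_inl_inr.sup_eq_top] at h3

/-- The antidiagonal form on an odd block. -/
theorem isOrthModel_single {k : ℕ} (hk : Odd k) {c : F} (hc : c ≠ 0) :
    IsOrthModel (c • antiForm F k) (shiftEnd F k) {k} := by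
  obtain ⟨hs, hl, hr⟩ := antiForm_props F k
  refine ⟨⟨fun a ha => hl a fun b => ?_, fun b hb => hr b fun a => ?_⟩, fun a b => ?_, fun a b => ?_,
    shiftEnd_blocks F hk.pos⟩
  · simpa [hc] using ha b
  · simpa [hc] using hb a
  · simp only [LinearMap.smul_apply, antiForm, LinearMap.mk₂_apply]
    congr 1
    refine Fintype.sum_equiv Fin.revPerm _ _ fun i => ?_
    obtain ⟨l, hl⟩ := hk
    have : (-1 : F) ^ (i.rev : ℕ) = (-1) ^ (i : ℕ) := by
      have h1 : (-1 : F) ^ (i.rev : ℕ) * (-1) ^ (i : ℕ) = 1 := by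
        rw [← pow_add, Even.neg_one_pow ⟨l, by rw [Fin.val_rev]; omega⟩]
      have h2 : (-1 : F) ^ (i : ℕ) * (-1) ^ (i : ℕ) = 1 := by rw [← pow_add, Even.neg_one_pow ⟨i, rfl⟩]
      linear_combination (-1 : F) ^ (i : ℕ) * h1 - (-1 : F) ^ (i.rev : ℕ) * h2
    simp only [Fin.revPerm_apply, Fin.rev_rev, this]
    ring
  · simp [hs]

/-- Two equal blocks. -/
theorem isOrthModel_pair {k : ℕ} (hk : 0 < k) :
    IsOrthModel ((antiForm F k).compl₁₂ (LinearMap.fst F (Fin k → F) (Fin k → F)) (LinearMap.snd F _ _) +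
        ((antiForm F k).compl₁₂ (LinearMap.fst F (Fin k → F) (Fin k → F)) (LinearMap.snd F _ _)).flip)
      ((shiftEnd F k).prodMap (shiftEnd F k)) {k, k} := by
  obtain ⟨hs, hl, hr⟩ := antiForm_props F k
  refine ⟨⟨fun a ha => ?_, fun b hb => ?_⟩, fun a b => ?_, fun a b => ?_, ?_⟩
  · refine Prod.ext (hl _ fun w => ?_) (hr _ fun w => ?_)
    · simpa using ha (0, w)
    · simpa using ha (w, 0)
  · refine Prod.ext (hl _ fun w => ?_) (hr _ fun w => ?_)
    · simpa using hb (0, w)
    · simpa using hb (w, 0)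
  · simp; ring
  · simp only [LinearMap.add_apply, LinearMap.compl₁₂_apply, LinearMap.flip_apply, LinearMap.fst_apply,
      LinearMap.snd_apply, LinearMap.prodMap_apply]
    rw [hs a.1 b.2, ← neg_eq_iff_eq_neg.2 (hs b.1 a.2)]
    ring
  · have h1 := (shiftEnd_blocks F hk).map (N' := (shiftEnd F k).prodMap (shiftEnd F k))
      (LinearMap.inl F _ _) LinearMap.inl_injective (fun x => by simp)
    have h2 := (shiftEnd_blocks F hk).map (N' := (shiftEnd F k).prodMap (shiftEnd F k))
      (LinearMap.inr F _ _) LinearMap.inr_injective (fun x => by simp)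
    have h3 := h1.sup h2 (by
      rw [Submodule.map_top, Submodule.map_top]
      exact (LinearMap.isCompl_range_inl_inr).disjoint)
    rwa [Submodule.map_top, Submodule.map_top, LinearMap.isCompl_range_inl_inr.sup_eq_top] at h3

/-- Models of every admissible type. -/
theorem exists_orthModel (F : Type u) [Field F] :
    ∀ μ : Multiset ℕ, (∀ a ∈ μ, 0 < a) → (∀ a, Even a → Even (μ.count a)) →
      ∃ (B : BilinForm F (Fin μ.sum → F)) (N : End F (Fin μ.sum → F)), IsOrthModel B N μ := by
  intro μ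
  induction hc : μ.card using Nat.strong_induction_on generalizing μ with
  | _ n ih =>
    subst hc
    intro hpos hev
    rcases Multiset.empty_or_exists_mem μ with rfl | ⟨k, hk⟩
    · haveI : Subsingleton (Fin (Multiset.sum (0 : Multiset ℕ)) → F) :=
        ⟨fun a b => funext fun i => absurd i.2 (by simp)⟩
      refine ⟨0, 0, ⟨fun a _ => Subsingleton.elim _ _, fun a _ => Subsingleton.elim _ _⟩, fun a b => rfl,
        fun a b => (neg_zero).symm, ?_⟩
      rw [show (⊤ : Submodule F (Fin (Multiset.sum (0 : Multiset ℕ)) → F)) = ⊥ from Subsingleton.elim _ _]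
      exact .bot
    rcases Nat.even_or_odd k with hke | hko
    · have h2 : ({k, k} : Multiset ℕ) ≤ μ := by
        obtain ⟨j, hj⟩ := hev k hke
        have := Multiset.count_pos.2 hk
        refine Multiset.le_iff_count.2 fun a => ?_
        by_cases ha : a = k <;> simp [ha] <;> omega
      obtain ⟨μ', rfl⟩ := Multiset.le_iff_exists_add.1 h2
      obtain ⟨B, N, hm⟩ := ih μ'.card (by simp) μ' rfl (fun a ha => hpos a (Multiset.mem_add.2 (Or.inr ha)))
        (fun a ha => by
          have := hev a ha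
          rw [Multiset.count_add, Nat.even_add] at this
          refine this.1 ?_
          by_cases hak : a = k <;> simp [hak])
      have h := (isOrthModel_pair (F := F) (hpos k hk)).prod hm
      exact ⟨_, _, h.congr (LinearEquiv.ofFinrankEq (Fin (({k, k} : Multiset ℕ) + μ').sum → F) _
        (by simp [Module.finrank_prod]; omega))⟩
    · obtain ⟨μ', rfl⟩ := Multiset.exists_cons_of_mem hk
      obtain ⟨B, N, hm⟩ := ih μ'.card (by simp) μ' rfl (fun a ha => hpos a (Multiset.mem_cons_of_mem ha))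
        (fun a ha => by
          have := hev a ha
          rwa [Multiset.count_cons_of_ne (by rintro rfl; exact Nat.not_even_iff_odd.2 hko ha)] at this)
      have h := (isOrthModel_single hko (one_ne_zero (α := F))).prod hm
      rw [Multiset.singleton_add] at h
      exact ⟨_, _, h.congr (LinearEquiv.ofFinrankEq (Fin (k ::ₘ μ').sum → F) _ (by simp [Module.finrank_prod]))⟩

end models

section witness

variable {F : Type u} [Field F] [Fintype F] {p : ℕ} [Fact p.Prime] [CharP F p]
variable {I : Type} [Fintype I] [DecidableEq I]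

/-- A skew nilpotent operator of prescribed type for a given form, when some part is odd. -/
theorem exists_skew_blocks (h2 : (2 : F) ≠ 0) (Q : QuadraticForm F (I → F))
    (hQ : (QuadraticMap.polarBilin Q).Nondegenerate) (μ : Multiset ℕ) (hpos : ∀ a ∈ μ, 0 < a)
    (hev : ∀ a, Even a → Even (μ.count a)) {k : ℕ} (hk : k ∈ μ) (hko : Odd k)
    (hsum : μ.sum = Fintype.card I) :
    ∃ K : End F (I → F), Blocks K ⊤ μ ∧
      ∀ a b, QuadraticMap.polar Q (K a) b = -QuadraticMap.polar Q a (K b) := by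
  classical
  obtain ⟨μ', rfl⟩ := Multiset.exists_cons_of_mem hk
  obtain ⟨B', N', hm⟩ := exists_orthModel F μ' (fun a ha => hpos a (Multiset.mem_cons_of_mem ha))
    (fun a ha => by
      have := hev a ha
      rwa [Multiset.count_cons_of_ne (by rintro rfl; exact Nat.not_even_iff_odd.2 hko ha)] at this)
  let b := (Pi.basisFun F (Fin k)).prod (Pi.basisFun F (Fin μ'.sum))
  let BB : F → BilinForm F ((Fin k → F) × (Fin μ'.sum → F)) := fun c =>
    (c • antiForm F k).compl₁₂ (LinearMap.fst F _ _) (LinearMap.fst F _ _) +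
      B'.compl₁₂ (LinearMap.snd F _ _) (LinearMap.snd F _ _)
  let QB : F → QuadraticForm F ((Fin k → F) × (Fin μ'.sum → F)) := fun c => LinearMap.BilinMap.toQuadraticMap (BB c)
  have hpol : ∀ c, c ≠ 0 → ∀ x y, QuadraticMap.polar (QB c) x y = 2 * BB c x y := fun c hc x y => by
    have hsy : BB c y x = BB c x y := ((isOrthModel_single hko hc).prod hm).2.1 y x
    rw [LinearMap.BilinMap.polar_toQuadraticMap, hsy, two_mul]
  set DA := (Matrix.of fun i j => antiForm F k (Pi.single i 1) (Pi.single j 1)).det with hDA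
  set DB := (Matrix.of fun i j => (2 : F) * B' (Pi.single i 1) (Pi.single j 1)).det with hDB
  have hdet : ∀ c, c ≠ 0 → (H4.gram (QB c) b).det = (2 * c) ^ k * DA * DB := fun c hc => by
    have h : H4.gram (QB c) b = Matrix.fromBlocks
        ((2 * c) • Matrix.of fun i j => antiForm F k (Pi.single i 1) (Pi.single j 1)) 0 0
        (Matrix.of fun i j => (2 : F) * B' (Pi.single i 1) (Pi.single j 1)) := by
      ext i j
      rw [H4.gram, Matrix.of_apply, hpol c hc]
      rcases i with i | i <;> rcases j with j | j <;> simp [b, BB, mul_assoc]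
    rw [h, Matrix.det_fromBlocks_zero₁₂, Matrix.det_smul, Fintype.card_fin]
  set DQ := (H4.gram Q (Pi.basisFun F I)).det with hDQ
  obtain ⟨ν, hν⟩ := FiniteField.exists_nonsquare
    (F := F) (fun h => h2 (by haveI := ringChar.of_eq h; exact CharTwo.two_eq_zero))
  have hν0 : ν ≠ 0 := fun h => hν (h ▸ IsSquare.zero)
  obtain ⟨c, hc, hsq⟩ : ∃ c : F, c ≠ 0 ∧ IsSquare ((2 * c) ^ k * DA * DB * DQ) := by
    obtain ⟨l, hl⟩ := hko
    by_cases h : IsSquare ((2 * 1) ^ k * DA * DB * DQ)
    · exact ⟨1, one_ne_zero, h⟩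
    · refine ⟨ν, hν0, ?_⟩
      obtain ⟨s, hs⟩ := H4.isSquare_mul_of_not h hν
      exact ⟨ν ^ l * s, by
        rw [hl] at hs ⊢
        rw [pow_succ, pow_mul] at hs ⊢
        linear_combination ν ^ (2 * l) * hs⟩
  obtain ⟨hBn, hBs, hBskew, hBb⟩ := (isOrthModel_single hko hc).prod hm
  have hQBn : (QuadraticMap.polarBilin (QB c)).Nondegenerate := by
    refine ⟨fun a ha => hBn.1 a fun y => ?_, fun a ha => hBn.2 a fun y => ?_⟩
    · have := ha y
      rw [QuadraticMap.polarBilin_apply_apply, hpol c hc] at this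
      exact (mul_eq_zero.1 this).resolve_left h2
    · have := ha y
      rw [QuadraticMap.polarBilin_apply_apply, hpol c hc] at this
      exact (mul_eq_zero.1 this).resolve_left h2
  obtain ⟨g, hg⟩ := H4.isom_of_disc h2 hQBn hQ (by
    rw [Module.finrank_prod, Module.finrank_fin_fun, Module.finrank_fin_fun, finrank_fintype_fun_eq_card,
      ← hsum, Multiset.sum_cons]) b (Pi.basisFun F I) (by rw [hdet c hc]; exact hsq)
  have hgp : ∀ x y, QuadraticMap.polar Q (g x) (g y) = 2 * BB c x y := fun x y => by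
    rw [← hpol c hc, QuadraticMap.polar, QuadraticMap.polar, ← map_add, hg, hg, hg]
  refine ⟨g.conj ((shiftEnd F k).prodMap N'), ?_, fun x y => ?_⟩
  · have h1 := hBb.map (N' := g.conj ((shiftEnd F k).prodMap N')) g.toLinearMap g.injective
      (fun x => by simp [LinearEquiv.conj_apply])
    rwa [Submodule.map_top, LinearEquiv.range, Multiset.singleton_add] at h1
  · obtain ⟨x, rfl⟩ := g.surjective x
    obtain ⟨y, rfl⟩ := g.surjective y
    simp only [LinearEquiv.conj_apply_apply, LinearEquiv.symm_apply_apply, hgp]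
    rw [show BB c ((shiftEnd F k).prodMap N' x) y = -BB c x ((shiftEnd F k).prodMap N' y) from hBskew x y]
    ring

omit [Fintype F] in
/-- The Cayley transform of a skew nilpotent operator. -/
theorem cayley_unipotent {V : Type v} [AddCommGroup V] [Module F V] [FiniteDimensional F V] [Nontrivial V]
    (hp : p ≠ 2) (β : V → V → F) (hadd : ∀ a b c, β (a + b) c = β a c + β b c)
    (hadd' : ∀ a b c, β a (b + c) = β a b + β a c)
    (hsub : ∀ a b c, β (a - b) c = β a c - β b c) (hsub' : ∀ a b c, β a (b - c) = β a b - β a c)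
    {K : End F V} {μ : Multiset ℕ} (hKb : Blocks K ⊤ μ) (hμ : ∀ a ∈ μ, a ≤ p)
    (hKs : ∀ a b, β (K a) b = -β a (K b)) :
    ∃ f : End F V, (∀ u v, β (f u) (f v) = β u v) ∧ f ^ p = 1 ∧ Blocks (f - 1) ⊤ μ := by
  have h2 : (2 : F) ≠ 0 := fun h => hp (((Nat.prime_dvd_prime_iff_eq (Fact.out : p.Prime) Nat.prime_two).1
    ((CharP.cast_eq_zero_iff F p 2).1 (by exact_mod_cast h))))
  have hKp : K ^ p = 0 := by
    refine LinearMap.ker_eq_top.1 (eq_top_iff.2 ?_)
    exact hKb.le_ker_pow hμ
  set U : End F V := ∑ i ∈ Finset.range p, K ^ i with hU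
  have hU1 : (1 - K) * U = 1 := by rw [hU, mul_neg_geom_sum, hKp, sub_zero]
  have hU2 : U * (1 - K) = 1 := by rw [hU, geom_sum_mul_neg, hKp, sub_zero]
  have hcom : Commute (1 + K) U := by
    rw [hU]
    exact Commute.sum_right _ _ _ fun i _ => ((Commute.one_left _).add_left (Commute.refl K)).pow_right i
  haveI : CharP (End F V) p := charP_of_injective_algebraMap' F p
  have hUp : U ^ p = 1 := by
    have h1 : (1 - K) ^ p = 1 := by
      rw [sub_pow_char_of_commute (p := p) (Commute.one_left _), hKp, one_pow, sub_zero]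
    have h3 : ((1 - K) * U) ^ p = (1 - K) ^ p * U ^ p := (show Commute (1 - K) U from hU1.trans hU2.symm).mul_pow p
    rw [hU1, one_pow, h1, one_mul] at h3
    exact h3.symm
  refine ⟨(1 + K) * U, fun u v => ?_, ?_, ?_⟩
  · have hu : (1 - K) (U u) = u := by rw [← Module.End.mul_apply, hU1]; rfl
    have hv : (1 - K) (U v) = v := by rw [← Module.End.mul_apply, hU1]; rfl
    conv_rhs => rw [← hu, ← hv]
    simp only [Module.End.mul_apply, LinearMap.add_apply, LinearMap.sub_apply, Module.End.one_apply, hadd, hadd',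
      hsub, hsub']
    rw [hKs (U u) (U v)]
    ring
  · rw [hcom.mul_pow, hUp, mul_one, add_pow_char_of_commute (p := p) (Commute.one_left _), hKp, one_pow, add_zero]
  · have hM : (1 + K) * U - 1 = (2 : F) • (K * U) := by
      rw [show (1 + K) * U - 1 = (1 + K) * U - (1 - K) * U by rw [hU1], ← sub_mul,
        show (1 + K) - (1 - K) = K + K by abel, add_mul, two_smul]
    have hKU : Commute K U := by
      rw [hU]; exact Commute.sum_right _ _ _ fun i _ => (Commute.refl K).pow_right i
    have hMnil : ((1 + K) * U - 1) ^ p = 0 := by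
      rw [hM, smul_pow, hKU.mul_pow, hKp, zero_mul, smul_zero]
    obtain ⟨ν, hν⟩ := exists_blocks _ hMnil ⊤ fun _ _ => Submodule.mem_top
    have hUbij : Function.Bijective U :=
      ⟨Function.LeftInverse.injective (g := ((1 - K : End F V) : _ → _)) fun v => by
          rw [← Module.End.mul_apply, hU1]; rfl,
        Function.RightInverse.surjective (g := ((1 - K : End F V) : _ → _)) fun v => by
          rw [← Module.End.mul_apply, hU2]; rfl⟩
    have hlayer : ∀ j, kerLayer K ⊤ j = kerLayer ((1 + K) * U - 1) ⊤ j := by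
      intro j
      unfold kerLayer
      have hpow : ((1 + K) * U - 1) ^ j = (2 : F) ^ j • (K ^ j * U ^ j) := by rw [hM, smul_pow, hKU.mul_pow]
      have hr1 : Submodule.map (((1 + K) * U - 1) ^ j) ⊤ = Submodule.map (K ^ j) ⊤ := by
        rw [hpow, Submodule.map_smul _ _ _ (pow_ne_zero j h2), Module.End.mul_eq_comp, Submodule.map_comp]
        congr 1
        rw [Submodule.map_top, LinearMap.range_eq_top]
        rw [Module.End.coe_pow]
        exact hUbij.2.iterate j
      have hk1 : LinearMap.ker ((1 + K) * U - 1) = LinearMap.ker K := by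
        rw [hM, LinearMap.ker_smul _ _ h2, hKU.eq]
        ext v
        simp only [LinearMap.mem_ker, Module.End.mul_apply]
        exact ⟨fun h => hUbij.1 (h.trans (map_zero U).symm), fun h => by rw [h, map_zero]⟩
      rw [hr1, hk1]
    exact (hKb.unique_of_layers hν hlayer) ▸ hν

/-- A witness element of order `p`. -/
theorem exists_unipotent_witness (hp : p ≠ 2) (Q : QuadraticForm F (I → F))
    (hQ : (QuadraticMap.polarBilin Q).Nondegenerate) (hI : 2 ≤ Fintype.card I) (μ : Multiset ℕ)
    (hμ : ∀ a ∈ μ, 0 < a ∧ a ≤ p) (hev : ∀ a, Even a → Even (μ.count a)) {k : ℕ} (hk : k ∈ μ) (hko : Odd k)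
    (hne : ∃ a ∈ μ, a ≠ 1) (hsum : μ.sum = Fintype.card I) :
    ∃ x : GL I F, x ∈ Cfsg.Geo.omegaGL ⇑Q ∧ x ^ p = 1 ∧ orderOf x = p ∧
      (∀ c : F, (x : Matrix I I F) ≠ c • (1 : Matrix I I F)) ∧
      ∀ W : Submodule F (I → F), Cfsg.Geo.IsNondegenerateOn (QuadraticMap.polar ⇑Q) W →
        W.map (Matrix.toLin' (x : Matrix I I F)) ≤ W →
        ∃ ν : Multiset ℕ, ν ≤ μ ∧ ν.sum = finrank F W ∧ (∀ a, Even a → Even (ν.count a)) ∧
          ((∀ a ∈ ν, a = 2) → Cfsg.Geo.IsPlusTypeOn ⇑Q W) := by
  classical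
  haveI : Nonempty I := Fintype.card_pos_iff.1 (by omega)
  have h2 : (2 : F) ≠ 0 := fun h => hp (((Nat.prime_dvd_prime_iff_eq (Fact.out : p.Prime) Nat.prime_two).1
    ((CharP.cast_eq_zero_iff F p 2).1 (by exact_mod_cast h))))
  obtain ⟨K, hKb, hKs⟩ := exists_skew_blocks h2 Q hQ μ (fun a ha => (hμ a ha).1) hev hk hko hsum
  set β := QuadraticMap.polarBilin Q with hβ
  obtain ⟨f, hf, hfp, hfb⟩ := cayley_unipotent (p := p) hp (fun a b => β a b) (by simp) (by simp) (by simp) (by simp)
    hKb (fun a ha => (hμ a ha).2) hKs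
  have hfQ : ∀ v, Q (f v) = Q v := fun v => by
    have h := hf v v
    simp only [hβ, QuadraticMap.polarBilin_apply_apply, QuadraticMap.polar_self, smul_eq_mul] at h
    exact mul_left_cancel₀ h2 (by simpa using h)
  let M := LinearMap.toMatrixAlgEquiv' f
  have hMp : M ^ p = 1 := by rw [← map_pow, hfp, map_one]
  have hp1 : 1 ≤ p := (Fact.out : p.Prime).one_le
  let x : GL I F := ⟨M, M ^ (p - 1), by rw [← pow_succ', Nat.sub_add_cancel hp1, hMp],
    by rw [← pow_succ, Nat.sub_add_cancel hp1, hMp]⟩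
  have hxv : Matrix.toLin' (x : Matrix I I F) = f := Matrix.toLin'_toMatrix' f
  have hxp : x ^ p = 1 := Units.ext (by rw [Units.val_pow_eq_pow_val]; exact hMp)
  have hns : ∀ c : F, (x : Matrix I I F) ≠ c • (1 : Matrix I I F) := by
    intro c hc
    have hfc : f = c • 1 := by rw [← hxv, hc, map_smul, Matrix.toLin'_one]; rfl
    have hcp : c ^ p = 1 := by
      rw [hfc, smul_pow, one_pow] at hfp
      simpa using congrArg (fun g : End F (I → F) => g (fun _ => 1) (Classical.arbitrary I)) hfp
    have hc1 : c = 1 := frobenius_inj F p (by simpa [frobenius_def] using hcp)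
    obtain ⟨a, ha, ha1⟩ := hne
    have := hfb.le (m := 1) (by rw [pow_one, hfc, hc1, one_smul, sub_self]) a ha
    have := (hμ a ha).1
    omega
  have hxne : x ≠ 1 := fun h => hns 1 (by rw [h, one_smul]; rfl)
  have hxiso : x ∈ Cfsg.isometryGroup F ⇑Q := H5.mem_isometryGroup.2 fun v => by
    rw [← Matrix.toLin'_apply, hxv]; exact hfQ v
  refine ⟨x, ⟨⟨x, hxiso⟩, ?_, rfl⟩, hxp, orderOf_eq_prime hxp hxne, hns, fun W hW hWx => ?_⟩
  · show (⟨x, hxiso⟩ : Cfsg.isometryGroup F ⇑Q) ∈ commutator _
    set C := commutator ↥(Cfsg.isometryGroup F ⇑Q) with hC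
    have hidx : C.index = 4 := by
      show (Cfsg.Omega F ⇑Q).index = 4
      rw [H5.Omega_index Q rfl]
      exact H5.commutator_index_four h2 hQ (by rwa [finrank_fintype_fun_eq_card])
    rw [← QuotientGroup.eq_one_iff (N := C), ← orderOf_eq_one_iff]
    have h1 : orderOf ((⟨x, hxiso⟩ : Cfsg.isometryGroup F ⇑Q) :
        ↥(Cfsg.isometryGroup F ⇑Q) ⧸ C) ∣ 4 := by
      rw [← hidx, Subgroup.index]
      exact orderOf_dvd_natCard _
    have h3 : orderOf ((⟨x, hxiso⟩ : Cfsg.isometryGroup F ⇑Q) :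
        ↥(Cfsg.isometryGroup F ⇑Q) ⧸ C) ∣ p := by
      refine orderOf_dvd_of_pow_eq_one ?_
      rw [← QuotientGroup.mk_pow, show (⟨x, hxiso⟩ : Cfsg.isometryGroup F ⇑Q) ^ p = 1 from Subtype.ext hxp]
      rfl
    have hco : Nat.Coprime 4 p := by
      refine ((Fact.out : p.Prime).coprime_iff_not_dvd.2 fun h => hp ?_).symm
      exact (Nat.prime_dvd_prime_iff_eq Fact.out Nat.prime_two).1
        ((Fact.out : p.Prime).dvd_of_dvd_pow (show p ∣ 2 ^ 2 from h))
    exact Nat.eq_one_of_dvd_coprimes hco h1 h3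
  · rw [hxv] at hWx
    set N := f - 1 with hN
    have hfN : ∀ v, f v = v + N v := fun v => by simp [hN]
    have hNiso : ∀ u v, β (u + N u) (v + N v) = β u v := fun u v => by rw [← hfN, ← hfN]; exact hf u v
    have hNp : N ^ p = 0 := by
      haveI : CharP (End F (I → F)) p := charP_of_injective_algebraMap' F p
      rw [hN, sub_pow_char_of_commute (p := p) (Commute.one_right _), hfp, one_pow, sub_self]
    have hS : ∀ a b, β a b = β b a := fun a b => by
      simp [hβ, QuadraticMap.polar_comm]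
    have hWN : ∀ v ∈ W, N v ∈ W := fun v hv => W.sub_mem (hWx ⟨v, hv, rfl⟩) hv
    have hWnd : NondegOn β W := fun v hv h => by
      by_contra hv0
      obtain ⟨-, y, hy, hvy⟩ := hW v hv hv0
      exact hvy (by simpa [hβ] using h y hy)
    have hinj : Function.Injective f := Function.LeftInverse.injective (g := f ^ (p - 1)) fun v => by
      rw [← Module.End.mul_apply, ← pow_succ, Nat.sub_add_cancel hp1, hfp]; rfl
    obtain ⟨R, -, hRx, hR, hd', hsum', -⟩ := nondegOn_split_inv (fun a b h => (hS b a).trans h) hf hinj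
      le_top le_top hWx (fun v _ h => hQ.1 v fun w => h w trivial) hWnd
    have hRN : ∀ v ∈ R, N v ∈ R := fun v hv => R.sub_mem (hRx ⟨v, hv, rfl⟩) hv
    obtain ⟨ν, hν, hνe⟩ := exists_blocks_orth h2 hS hNiso hNp hWN hWnd
    obtain ⟨ρ, hρ⟩ := exists_blocks N hNp R hRN
    have huniq := hfb.unique (hsum' ▸ hν.sup hρ hd')
    refine ⟨ν, huniq ▸ Multiset.le_add_right _ _, hν.finrank_eq.symm, hνe, fun hall => ?_⟩
    have hNN : ∀ v ∈ W, N (N v) = 0 := fun v hv => by
      have := hν.le_ker_pow (m := 2) (fun a ha => (hall a ha).le) hv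
      rw [LinearMap.mem_ker, pow_two] at this
      exact this
    refine ⟨W.map N, fun y hy => ?_, fun y hy => ?_, ?_⟩
    · obtain ⟨v, hv, rfl⟩ := hy; exact hWN v hv
    · obtain ⟨v, hv, rfl⟩ := hy
      have h := iso_relation hNiso v (N v)
      rw [hNN v hv, map_zero, map_zero, add_zero, add_zero] at h
      have h' : β (N v) (N v) = 0 := h
      rw [hβ, QuadraticMap.polarBilin_apply_apply, QuadraticMap.polar_self] at h'
      exact (mul_eq_zero.1 (by simpa using h')).resolve_left h2
    · have h1 := hν.kerLayer_eq 1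
      rw [kerLayer, pow_one, inf_eq_left.2 (by
        rintro _ ⟨v, hv, rfl⟩; exact hNN v hv)] at h1
      rw [h1, Multiset.filter_eq_self.2 fun a ha => by rw [hall a ha]; norm_num, ← finrank_top (R := F) (M := W)]
      rw [finrank_top, hν.finrank_eq, Multiset.eq_replicate_card.2 hall]
      simp [mul_comm]

/-- All-even types reduce to types with odd parts. -/
theorem exists_odd_type {p : ℕ} (hp : Odd p) {μ : Multiset ℕ} (hμ : ∀ a ∈ μ, 0 < a ∧ a ≤ p)
    (hev : ∀ a, Even a → Even (μ.count a)) (hall : ∀ a ∈ μ, Even a) (hne : μ ≠ 0) {m : ℕ} (hm : Even m) :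
    ∃ μ' : Multiset ℕ, (∀ a ∈ μ', 0 < a ∧ a ≤ p) ∧ (∀ a, Even a → Even (μ'.count a)) ∧ μ'.sum = μ.sum ∧
      (∃ k ∈ μ', Odd k) ∧ (∃ k ∈ μ', k ≠ 1) ∧
      ((∃ ν : Multiset ℕ, ν ≤ μ' ∧ ν.sum = m ∧ ∀ a, Even a → Even (ν.count a)) →
        ∃ ν : Multiset ℕ, ν ≤ μ ∧ ν.sum = m ∧ ∀ a, Even a → Even (ν.count a)) := by
  classical
  obtain ⟨e, he⟩ := Multiset.exists_mem_of_ne_zero hne
  have heev := hall e he
  obtain ⟨he0, hep⟩ := hμ e he
  have hep' : e + 1 ≤ p := by obtain ⟨a, ha⟩ := hp; obtain ⟨b, hb⟩ := heev; omega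
  have he2 : 2 ≤ e := by obtain ⟨b, hb⟩ := heev; omega
  obtain ⟨μ', rfl⟩ : ∃ μ', μ = e ::ₘ e ::ₘ μ' := by
    obtain ⟨μ₁, rfl⟩ := Multiset.exists_cons_of_mem he
    have h1 := hev e heev
    rw [Multiset.count_cons_self] at h1
    have h2 : e ∈ μ₁ := Multiset.count_pos.1 (by obtain ⟨c, hc⟩ := h1; omega)
    obtain ⟨μ', rfl⟩ := Multiset.exists_cons_of_mem h2
    exact ⟨μ', rfl⟩
  have hodd1 : Odd (e + 1) := heev.add_one
  have hodd2 : Odd (e - 1) := Nat.Even.sub_odd (by omega) heev odd_one
  have hcount : ∀ a, Even a → (((e + 1) ::ₘ (e - 1) ::ₘ μ').count a = μ'.count a) := fun a ha => by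
    rw [Multiset.count_cons_of_ne (by rintro rfl; exact Nat.not_even_iff_odd.2 hodd1 ha),
      Multiset.count_cons_of_ne (by rintro rfl; exact Nat.not_even_iff_odd.2 hodd2 ha)]
  have hev' : ∀ a, Even a → Even (μ'.count a) := fun a ha => by
    have := hev a ha
    by_cases hae : a = e
    · subst hae
      rw [Multiset.count_cons_self, Multiset.count_cons_self] at this
      obtain ⟨c, hc⟩ := this; exact ⟨c - 1, by omega⟩
    · rwa [Multiset.count_cons_of_ne hae, Multiset.count_cons_of_ne hae] at this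
  refine ⟨(e + 1) ::ₘ (e - 1) ::ₘ μ', fun a ha => ?_, fun a ha => hcount a ha ▸ hev' a ha,
    by simp; omega, ⟨e + 1, Multiset.mem_cons_self _ _, hodd1⟩,
    ⟨e + 1, Multiset.mem_cons_self _ _, by omega⟩, ?_⟩
  · rcases Multiset.mem_cons.1 ha with rfl | ha
    · omega
    rcases Multiset.mem_cons.1 ha with rfl | ha
    · omega
    exact hμ a (by simp [ha])
  · rintro ⟨ν, hν, hνs, hνe⟩
    have hevs : ∀ ρ : Multiset ℕ, ρ ≤ μ' → Even ρ.sum := fun ρ hρ => by
      have : ∀ a ∈ ρ, Even a := fun a ha =>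
        hall a (by simp [Multiset.mem_of_le hρ ha])
      clear hρ
      induction ρ using Multiset.induction with
      | empty => simp
      | cons a ρ ih =>
        rw [Multiset.sum_cons]
        exact (this a (Multiset.mem_cons_self _ _)).add (ih fun b hb => this b (Multiset.mem_cons_of_mem hb))
    by_cases h1 : e + 1 ∈ ν
    · obtain ⟨ν₁, rfl⟩ := Multiset.exists_cons_of_mem h1
      have hν₁ := (Multiset.cons_le_cons_iff _).1 hν
      by_cases h2 : e - 1 ∈ ν₁
      · obtain ⟨ν₂, rfl⟩ := Multiset.exists_cons_of_mem h2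
        have hν₂ := (Multiset.cons_le_cons_iff _).1 hν₁
        refine ⟨e ::ₘ e ::ₘ ν₂, Multiset.cons_le_cons _ (Multiset.cons_le_cons _ hν₂), ?_, fun a ha => ?_⟩
        · simp at hνs ⊢; omega
        · have := hνe a ha
          rw [Multiset.count_cons_of_ne (by rintro rfl; exact Nat.not_even_iff_odd.2 hodd1 ha),
            Multiset.count_cons_of_ne (by rintro rfl; exact Nat.not_even_iff_odd.2 hodd2 ha)] at this
          by_cases hae : a = e
          · subst hae; rw [Multiset.count_cons_self, Multiset.count_cons_self]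
            obtain ⟨c, hc⟩ := this; exact ⟨c + 1, by omega⟩
          · rwa [Multiset.count_cons_of_ne hae, Multiset.count_cons_of_ne hae]
      · exfalso
        have h := hevs ν₁ ((Multiset.le_cons_of_notMem h2).1 hν₁)
        rw [Multiset.sum_cons] at hνs
        rw [← hνs, Nat.even_add] at hm
        exact Nat.not_even_iff_odd.2 hodd1 (hm.2 h)
    · have hν₁ := (Multiset.le_cons_of_notMem h1).1 hν
      by_cases h2 : e - 1 ∈ ν
      · exfalso
        obtain ⟨ν₂, rfl⟩ := Multiset.exists_cons_of_mem h2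
        have h := hevs ν₂ ((Multiset.cons_le_cons_iff _).1 hν₁)
        rw [Multiset.sum_cons] at hνs
        rw [← hνs, Nat.even_add] at hm
        exact Nat.not_even_iff_odd.2 hodd2 (hm.2 h)
      · exact ⟨ν, ((Multiset.le_cons_of_notMem h2).1 hν₁).trans
          ((Multiset.le_cons_self _ _).trans (Multiset.le_cons_self _ _)), hνs, hνe⟩

/-- The reduction of the partition condition to the existence of witnesses. -/
theorem partition_cond (hp : p ≠ 2) (Q : QuadraticForm F (I → F))
    (hQ : (QuadraticMap.polarBilin Q).Nondegenerate) (hI : 2 ≤ Fintype.card I) {m : ℕ} (hme : Even m)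
    (hmI : m ≤ Fintype.card I)
    (h : ∀ x : GL I F, x ∈ Cfsg.Geo.omegaGL ⇑Q → x ^ p = 1 → orderOf x = p →
      (∀ c : F, (x : Matrix I I F) ≠ c • (1 : Matrix I I F)) →
      ∃ W : Submodule F (I → F), finrank F W = m ∧ Cfsg.Geo.IsNondegenerateOn (QuadraticMap.polar ⇑Q) W ∧
        W.map (Matrix.toLin' (x : Matrix I I F)) ≤ W)
    (μ : Multiset ℕ) (hμ : ∀ a ∈ μ, 0 < a ∧ a ≤ p) (hev : ∀ a, Even a → Even (μ.count a))
    (hsum : μ.sum = Fintype.card I) :
    ∃ ν : Multiset ℕ, ν ≤ μ ∧ ν.sum = m ∧ ∀ a, Even a → Even (ν.count a) := by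
  classical
  have hodd : Odd p := (Fact.out : p.Prime).odd_of_ne_two hp
  have main : ∀ μ : Multiset ℕ, (∀ a ∈ μ, 0 < a ∧ a ≤ p) → (∀ a, Even a → Even (μ.count a)) →
      μ.sum = Fintype.card I → (∃ k ∈ μ, Odd k) → (∃ k ∈ μ, k ≠ 1) →
      ∃ ν : Multiset ℕ, ν ≤ μ ∧ ν.sum = m ∧ ∀ a, Even a → Even (ν.count a) := by
    intro μ hμ hev hsum ⟨k, hk, hko⟩ hne
    obtain ⟨x, hx, hxp, hxo, hns, hW⟩ := exists_unipotent_witness hp Q hQ hI μ hμ hev hk hko hne hsum
    obtain ⟨W, hWd, hWn, hWx⟩ := h x hx hxp hxo hns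
    obtain ⟨ν, hν, hνs, hνe, -⟩ := hW W hWn hWx
    exact ⟨ν, hν, hνs.trans hWd, hνe⟩
  by_cases hne : ∀ a ∈ μ, a = 1
  · have hμ1 : μ = Multiset.replicate μ.card 1 := Multiset.eq_replicate_card.2 hne
    have hcard : μ.card = Fintype.card I := by rw [← hsum, congrArg Multiset.sum hμ1]; simp
    refine ⟨Multiset.replicate m 1, by rw [hμ1]; exact (Multiset.replicate_le_replicate 1).2 (hcard ▸ hmI),
      by simp, fun a ha => ?_⟩
    rw [Multiset.count_eq_zero.2 fun h => Nat.not_even_one (by rw [Multiset.eq_of_mem_replicate h] at ha; exact ha)]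
    exact Even.zero
  push Not at hne
  by_cases hall : ∀ a ∈ μ, Even a
  · have hμ0 : μ ≠ 0 := fun h0 => by rw [h0, Multiset.sum_zero] at hsum; omega
    obtain ⟨μ', h1, h2, h3, h4, h5, h6⟩ := exists_odd_type hodd hμ hev hall hμ0 hme
    exact h6 (main μ' h1 h2 (h3.trans hsum) h4 h5)
  · push Not at hall
    obtain ⟨k, hk, hk'⟩ := hall
    exact main μ hμ hev hsum ⟨k, hk, Nat.not_even_iff_odd.1 hk'⟩ hne

end witness

end Cfsg.Agent.H97
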