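import Cfsg.Agent.H97.SubfieldConj
import Cfsg.Agent.H97.Nilpotent

set_option autoImplicit false

/-!
# Unipotent elements and subfield groups
-/

namespace Cfsg.Agent.H97

open Module Matrix

variable {F : Type*} [Field F] {n : ℕ}

/-- A basis in which a nilpotent operator permutes vectors partially. -/
theorem Blocks.exists_chain {V : Type*} [AddCommGroup V] [Module F V] [FiniteDimensional F V]
    {N : End F V} {P : Submodule F V} {μ : Multiset ℕ} (h : Blocks N P μ) :
    ∃ (t : ℕ) (e : Fin t → V), LinearIndependent F e ∧ Submodule.span F (Set.range e) = P ∧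
      ∀ i, N (e i) = 0 ∨ ∃ j, N (e i) = e j := by
  induction h with
  | bot => exact ⟨0, Fin.elim0, linearIndependent_empty_type, by simp, fun i => i.elim0⟩
  | @cons P μ v k hk htop hlast hd _ ih =>
    obtain ⟨t, e, he, hspan, hN⟩ := ih
    let e' : Fin k ⊕ Fin t → V := Sum.elim (fun i => (N ^ (i : ℕ)) v) e
    refine ⟨k + t, e' ∘ finSumFinEquiv.symm, ?_, ?_, fun i => ?_⟩
    · refine (LinearIndependent.sum_type (blockSpan_linearIndependent htop hlast) he ?_).comp _
        finSumFinEquiv.symm.injective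
      rw [hspan]
      exact hd
    · rw [Set.range_comp, finSumFinEquiv.symm.surjective.range_eq, Set.image_univ, Set.Sum.elim_range,
        Submodule.span_union, hspan, blockSpan]
    · obtain ⟨i, rfl⟩ := finSumFinEquiv.surjective i
      simp only [Function.comp_apply, Equiv.symm_apply_apply]
      rcases i with i | i
      · by_cases hi : (i : ℕ) + 1 < k
        · refine Or.inr ⟨finSumFinEquiv (.inl ⟨i + 1, hi⟩), ?_⟩
          simp only [e', Equiv.symm_apply_apply, Sum.elim_inl]
          rw [pow_succ', Module.End.mul_apply]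
        · refine Or.inl ?_
          simp only [e', Sum.elim_inl]
          rw [← Module.End.mul_apply, ← pow_succ', show (i : ℕ) + 1 = k by omega, htop]
      · rcases hN i with h0 | ⟨j, hj⟩
        · exact Or.inl (by simpa [e'] using h0)
        · exact Or.inr ⟨finSumFinEquiv (.inr j), by simpa [e'] using hj⟩

/-- An operator commuting with `N` scaling one block. -/
theorem Blocks.exists_det_pow {V : Type*} [AddCommGroup V] [Module F V] [FiniteDimensional F V]
    {N : End F V} {μ : Multiset ℕ} (h : Blocks N ⊤ μ) {k : ℕ} (hk : k ∈ μ) (ε : F) :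
    ∃ u : End F V, N * u = u * N ∧ LinearMap.det u = ε ^ k := by
  obtain ⟨U, W, hU, hW, hd, hsum⟩ := h.exists_split {k} (Multiset.singleton_le.2 hk)
  have hc : IsCompl U W := ⟨hd, codisjoint_iff.2 hsum⟩
  let e := Submodule.prodEquivOfIsCompl U W hc
  refine ⟨e.conj (LinearMap.prodMap (ε • LinearMap.id) LinearMap.id), LinearMap.ext fun v => ?_, ?_⟩
  · obtain ⟨⟨a, b⟩, rfl⟩ := e.surjective v
    have ha : N a ∈ U := hU.inv ⟨a, a.2, rfl⟩
    have hb : N b ∈ W := hW.inv ⟨b, b.2, rfl⟩
    have h1 : N (e (a, b)) = e (⟨N a, ha⟩, ⟨N b, hb⟩) := by simp [e, map_add]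
    rw [Module.End.mul_apply, Module.End.mul_apply, h1, LinearEquiv.conj_apply_apply,
      LinearEquiv.conj_apply_apply, LinearEquiv.symm_apply_apply, LinearEquiv.symm_apply_apply]
    simp [e, map_smul]
  · rw [LinearEquiv.conj_apply, LinearMap.comp_assoc, LinearMap.det_conj _ e, LinearMap.det_prodMap,
      LinearMap.det_smul, LinearMap.det_id, LinearMap.det_id, mul_one, mul_one, hU.finrank_eq,
      Multiset.sum_singleton]

/-- As `exists_conj_subfield`, with a twist by a scalar of the subfield allowed. -/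
theorem exists_conj_subfield_twist [NeZero n] {F₀ : Subfield F} (x : Matrix.SpecialLinearGroup (Fin n) F)
    (B : Basis (Fin n) F (Fin n → F)) {c : F} (hc : c ≠ 0)
    (hb : ∀ i j, c * B.repr ((x : Matrix (Fin n) (Fin n) F) *ᵥ B j) i ∈ F₀)
    (hdets : ∀ μ : F, μ ≠ 0 → ∃ (u : End F (Fin n → F)) (ε : F), ε ∈ F₀ ∧ ε ≠ 0 ∧
      Matrix.toLin' (x : Matrix (Fin n) (Fin n) F) * u = u * Matrix.toLin' (x : Matrix (Fin n) (Fin n) F) ∧
        LinearMap.det u = μ * ε) :
    ∃ P : Matrix.SpecialLinearGroup (Fin n) F, P⁻¹ * x * P ∈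
      (Cfsg.Geo.subfieldSubgroup F₀ 1).comap
        (Matrix.SpecialLinearGroup.toGL : Matrix.SpecialLinearGroup (Fin n) F →* GL (Fin n) F) := by
  classical
  set g : (Fin n → F) ≃ₗ[F] (Fin n → F) := B.equivFun
  have hgd : LinearMap.det g.toLinearMap ≠ 0 := (LinearEquiv.isUnit_det' g).ne_zero
  obtain ⟨u, ε, hε, hε0, hu, hud⟩ := hdets (LinearMap.det g.toLinearMap)⁻¹ (inv_ne_zero hgd)
  let i0 : Fin n := 0
  let dv : Fin n → F := Function.update 1 i0 ε⁻¹
  have hdv : ∀ i, dv i ∈ F₀ ∧ dv i ≠ 0 := fun i => by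
    by_cases h : i = i0
    · subst h; simp [dv, hε0, inv_mem hε]
    · simp [dv, Function.update_of_ne h, one_mem]
  set D : End F (Fin n → F) := Matrix.toLin' (diagonal dv)
  set G : End F (Fin n → F) := D ∘ₗ (g.toLinearMap ∘ₗ u) with hG
  have hGd : LinearMap.det G = 1 := by
    rw [hG, LinearMap.det_comp, LinearMap.det_comp, hud, LinearMap.det_toLin', det_diagonal,
      Finset.prod_update_of_mem (Finset.mem_univ _)]
    simp only [Pi.one_apply, Finset.prod_const_one, mul_one]
    field_simp
  let R : Matrix.SpecialLinearGroup (Fin n) F :=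
    ⟨LinearMap.toMatrix' G, by rw [LinearMap.det_toMatrix', hGd]⟩
  refine ⟨R⁻¹, (comap_subfield_mem _).2 ⟨c, hc, fun a a' => ?_⟩⟩
  rw [inv_inv]
  have hcol : ((R * x * R⁻¹ : Matrix.SpecialLinearGroup (Fin n) F) : Matrix (Fin n) (Fin n) F) *ᵥ
      Pi.single a' 1 = D (g ((dv a')⁻¹ • ((x : Matrix (Fin n) (Fin n) F) *ᵥ B a'))) := by
    set w := ((R⁻¹ : Matrix.SpecialLinearGroup (Fin n) F) : Matrix (Fin n) (Fin n) F) *ᵥ Pi.single a' 1
    have hw : D (g (u w)) = Pi.single a' 1 := by
      have : (R : Matrix (Fin n) (Fin n) F) *ᵥ w = Pi.single a' 1 := by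
        rw [Matrix.mulVec_mulVec, ← Matrix.SpecialLinearGroup.coe_mul, mul_inv_cancel,
          Matrix.SpecialLinearGroup.coe_one, Matrix.one_mulVec]
      rwa [show (R : Matrix (Fin n) (Fin n) F) *ᵥ w = G w from LinearMap.toMatrix'_mulVec G w] at this
    have huw : u w = (dv a')⁻¹ • B a' := g.injective (by
      funext i
      have h := congrFun hw i
      rw [Matrix.toLin'_apply, mulVec_diagonal] at h
      rw [map_smul, show g (B a') = Pi.single a' 1 by
        funext j; simp [g, Basis.equivFun_self, Pi.single_apply, eq_comm]]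
      by_cases hi : i = a'
      · subst hi
        rw [Pi.single_eq_same] at h
        rw [Pi.smul_apply, Pi.single_eq_same, smul_eq_mul, mul_one]
        exact eq_inv_of_mul_eq_one_right h
      · rw [Pi.single_eq_of_ne hi] at h
        rw [Pi.smul_apply, Pi.single_eq_of_ne hi, smul_zero]
        exact (mul_eq_zero.1 h).resolve_left (hdv i).2)
    rw [Matrix.SpecialLinearGroup.coe_mul, Matrix.SpecialLinearGroup.coe_mul, ← Matrix.mulVec_mulVec,
      ← Matrix.mulVec_mulVec]
    rw [show (R : Matrix (Fin n) (Fin n) F) *ᵥ ((x : Matrix (Fin n) (Fin n) F) *ᵥ w) =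
      G ((x : Matrix (Fin n) (Fin n) F) *ᵥ w) from LinearMap.toMatrix'_mulVec G _]
    show D (g (u ((x : Matrix (Fin n) (Fin n) F) *ᵥ w))) = _
    refine congrArg (fun t => D (g t)) ?_
    rw [show u ((x : Matrix (Fin n) (Fin n) F) *ᵥ w) = (x : Matrix (Fin n) (Fin n) F) *ᵥ u w by
      simpa [Matrix.toLin'_apply] using (LinearMap.congr_fun hu w).symm, huw, Matrix.mulVec_smul]
  have := congrFun hcol a
  rw [Matrix.mulVec_single_one] at this
  simp only [Matrix.col_apply] at this
  rw [this, Matrix.toLin'_apply, mulVec_diagonal, map_smul, Pi.smul_apply, smul_eq_mul,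
    show c * (dv a * ((dv a')⁻¹ * g ((x : Matrix (Fin n) (Fin n) F) *ᵥ B a') a)) =
      dv a * (dv a')⁻¹ * (c * g ((x : Matrix (Fin n) (Fin n) F) *ᵥ B a') a) by ring]
  exact mul_mem (mul_mem (hdv a).1 (inv_mem (hdv a').1)) (hb a a')

/-- A square-zero operator whose kernel is its range, in standard coordinates. -/
theorem exists_pair_basis {V : Type*} [AddCommGroup V] [Module F V] [FiniteDimensional F V]
    (N : End F V) (hN : ∀ v, N (N v) = 0) (hker : ∀ v, N v = 0 → v ∈ LinearMap.range N)
    {l : ℕ} (hV : finrank F V = l + l) :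
    ∃ b : Basis (Fin l ⊕ Fin l) F V, ∀ i, N (b (.inl i)) = b (.inr i) := by
  obtain ⟨C, hC⟩ := (LinearMap.ker N).exists_isCompl
  have hrk : LinearMap.range N = LinearMap.ker N :=
    le_antisymm (by rintro _ ⟨v, rfl⟩; exact hN v) fun v hv => hker v hv
  have hl : finrank F C = l := by
    have h1 := LinearMap.finrank_range_add_finrank_ker N
    have h2 := Submodule.finrank_add_eq_of_isCompl hC
    rw [hrk] at h1
    omega
  let bC := Module.finBasisOfFinrankEq F C hl
  let e : Fin l ⊕ Fin l → V := Sum.elim (fun i => (bC i : V)) (fun i => N (bC i))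
  have hC1 : LinearIndependent F fun i => (bC i : V) :=
    bC.linearIndependent.map' C.subtype (Submodule.ker_subtype _)
  have hspan : Submodule.span F (Set.range fun i => (bC i : V)) = C := by
    have := congrArg (Submodule.map C.subtype) bC.span_eq
    rw [Submodule.map_span, Submodule.map_top, Submodule.range_subtype, ← Set.range_comp] at this
    exact this
  have hli : LinearIndependent F e := by
    refine LinearIndependent.sum_type hC1 (hC1.map (f := N) ?_) ?_
    · rw [hspan]; exact hC.symm.disjoint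
    · rw [hspan]
      refine hC.symm.disjoint.mono_right (Submodule.span_le.2 ?_)
      rintro _ ⟨i, rfl⟩
      exact hN _
  refine ⟨basisOfLinearIndependentOfCardEqFinrank' e hli (by simp [hV]), fun i => ?_⟩
  simp [e]

end Cfsg.Agent.H97
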