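import Cfsg.Agent.H97.Unipotent
import Cfsg.Agent.H97.Decompositions

/-! Elements of order `p` permuting the parts of a decomposition. -/

namespace Cfsg.Agent.H97

open Module

variable {F : Type*} [Field F] [Finite F] {p : ℕ} [Fact p.Prime] [CharP F p]
variable {V : Type*} [AddCommGroup V] [Module F V] [FiniteDimensional F V]

omit [Finite F] [FiniteDimensional F V] in
/-- In characteristic `p` the orbit sum of `1 + N` is `N ^ (p - 1)`. -/
theorem orbitSum_unipotent (N : End F V) : orbitSum (1 + N) p = N ^ (p - 1) := by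
  have h : (∑ i ∈ Finset.range p, (Polynomial.X : Polynomial F) ^ i) = (Polynomial.X - 1) ^ (p - 1) := by
    refine mul_right_cancel₀ (Polynomial.X_sub_C_ne_zero (1 : F)) ?_
    rw [Polynomial.C_1, geom_sum_mul, ← pow_succ, Nat.sub_add_cancel (Fact.out : p.Prime).one_le, sub_pow_char,
      one_pow]
  have := congrArg (Polynomial.aeval (1 + N)) h
  simpa [orbitSum] using this

omit [Finite F] [CharP F p] in
/-- A moved part gives rank at least its dimension to the orbit sum. -/
theorem rank_orbitSum_of_moved {x : End F V} {a t : ℕ} {D : Fin t → Submodule F V} {σ : Equiv.Perm (Fin t)}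
    (hx : x ^ p = 1) (hd : ∀ j, finrank F (D j) = a) (ha : 0 < a) (hind : iSupIndep D)
    (hσ : ∀ j, (D j).map x = D (σ j)) {j : Fin t} (hj : σ j ≠ j) :
    a ≤ finrank F (LinearMap.range (orbitSum x p)) := by
  have hσr := perm_pow_eq_one hx hd ha hind hσ
  have hinj : ∀ v ∈ D j, orbitSum x p v = 0 → v = 0 := by
    intro v hv hker
    refine Submodule.disjoint_def.1 (hind j) v hv ?_
    have h0 : ∑ i ∈ Finset.range p, (x ^ i) v = 0 := by simpa [orbitSum, LinearMap.sum_apply] using hker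
    rw [← Finset.add_sum_erase _ _ (Finset.mem_range.2 (Fact.out : p.Prime).pos),
      add_eq_zero_iff_eq_neg, pow_zero, Module.End.one_apply] at h0
    rw [h0]
    refine Submodule.neg_mem _ (Submodule.sum_mem _ fun i hi => ?_)
    rw [Finset.mem_erase, Finset.mem_range] at hi
    exact Submodule.mem_iSup_of_mem ((σ ^ i) j) (Submodule.mem_iSup_of_mem
      (pow_apply_ne hσr hj (Nat.pos_of_ne_zero hi.1) hi.2)
      (by rw [← parts_map_pow hσ]; exact Submodule.mem_map_of_mem hv))
  have h1 := LinearMap.finrank_range_add_finrank_ker ((orbitSum x p).domRestrict (D j))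
  rw [LinearMap.ker_eq_bot'.2 fun v hv => Subtype.ext (hinj v v.2 hv), finrank_bot, add_zero,
    LinearMap.range_domRestrict, hd] at h1
  rw [← h1]
  exact Submodule.finrank_mono LinearMap.map_le_range

omit [Finite F] [CharP F p] in
/-- The rank of `N ^ (p - 1)` counts the blocks of size `p`. -/
theorem Blocks.rank_pow_pred {N : End F V} {μ : Multiset ℕ} (h : Blocks N ⊤ μ) (hN : N ^ p = 0) :
    finrank F (LinearMap.range (N ^ (p - 1))) = μ.count p := by
  have h1 := h.kerLayer_eq (p - 1)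
  unfold kerLayer at h1
  have hle : LinearMap.range (N ^ (p - 1)) ≤ LinearMap.ker N := by
    rintro _ ⟨v, rfl⟩
    show N ((N ^ (p - 1)) v) = 0
    rw [← Module.End.mul_apply, ← pow_succ', Nat.sub_add_cancel (Fact.out : p.Prime).one_le, hN]; rfl
  rw [Submodule.map_top, inf_eq_left.2 hle] at h1
  rw [h1, Multiset.count_eq_card_filter_eq]
  refine congrArg Multiset.card (Multiset.filter_congr fun b hb => ?_)
  have := h.le hN b hb
  have := (Fact.out : p.Prime).one_le
  omega

/-- The necessary condition for permuting the parts of a decomposition at `r = p`. -/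
theorem decomp_char_necessary {n a t : ℕ} (ha : 1 ≤ a) (ht : 0 < t)
    (h : ElusiveFor p n (fun f : End F (Fin n → F) => ∃ D, PermutesParts f a t D))
    (μ : Multiset ℕ) (hμ : ∀ b ∈ μ, 0 < b ∧ b ≤ p) (hsum : μ.sum = n) (hne : ∃ b ∈ μ, 1 < b)
    (hcount : μ.count p < a) : ∃ ν : Multiset ℕ, ν ≤ μ ∧ ν.sum = a := by
  obtain ⟨x, N, hx, hNp, hN, hxc, hxs⟩ := exists_SL_unipotent (F := F) μ hμ hsum hne
  obtain ⟨D, hD1, hD2, hD3, σ, hσ⟩ := h x hxc hxs
  rw [hx] at hσ
  have hσ1 : ∀ j, σ j = j := by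
    by_contra hne
    push Not at hne
    obtain ⟨j, hj⟩ := hne
    obtain ⟨b, hb, -⟩ := ‹∃ b ∈ μ, 1 < b›
    haveI : Nonempty (Fin n) := ⟨⟨0, lt_of_lt_of_le (hμ b hb).1 (hsum ▸ Multiset.le_sum_of_mem hb)⟩⟩
    haveI : CharP (End F (Fin n → F)) p := charP_of_injective_algebraMap' F p
    have hpow : (1 + N) ^ p = 1 := by
      rw [add_pow_char_of_commute (p := p) (Commute.one_left _), hNp, one_pow, add_zero]
    have := rank_orbitSum_of_moved hpow hD1 (by omega) hD2 hσ hj
    rw [orbitSum_unipotent, hN.rank_pow_pred hNp] at this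
    omega
  let j₀ : Fin t := ⟨0, ht⟩
  have hc : IsCompl (D j₀) (⨆ (k) (_ : k ≠ j₀), D k) :=
    ⟨hD2 j₀, codisjoint_iff.2 (eq_top_iff.2 (hD3 ▸ iSup_le fun k => by
      by_cases hk : k = j₀
      · exact hk ▸ le_sup_left
      · exact le_sup_of_le_right (le_iSup₂_of_le k hk le_rfl)))⟩
  have hinv : ∀ k, ∀ v ∈ D k, N v ∈ D k := fun k => by
    have h1 : (D k).map ((1 : F) • (1 + N)) ≤ D k := by rw [one_smul, hσ, hσ1]
    exact (map_le_unipotent_iff N one_ne_zero (D k)).1 h1
  obtain ⟨ν, hν, hνs⟩ := hN.exists_sub hNp hc (hinv j₀) (fun v hv => by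
    have h2 : (⨆ (k) (_ : k ≠ j₀), D k).map N ≤ ⨆ (k) (_ : k ≠ j₀), D k := by
      simp only [Submodule.map_iSup]
      refine iSup₂_le fun k hk => le_trans ?_ (le_iSup₂_of_le k hk le_rfl)
      rintro _ ⟨w, hw, rfl⟩; exact hinv k w hw
    exact h2 ⟨v, hv, rfl⟩)
  exact ⟨ν, hν, hνs.trans (hD1 j₀)⟩

end Cfsg.Agent.H97
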