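import Cfsg.Agent.H97.SympNondegCriteria
import Cfsg.Agent.H97.UnipotentDecomp
import Cfsg.Agent.H97.DecompCount

/-! Elements of odd prime order of `PSp_n(q)` permuting the parts of an orthogonal decomposition. -/

namespace Cfsg.Agent.H97

open Module

variable {F : Type*} [Field F] [Finite F] {V : Type*} [AddCommGroup V] [Module F V] [FiniteDimensional F V]
variable {r : ℕ} [Fact r.Prime]

/-- Existence of invariant nondegenerate subspaces inside an invariant nondegenerate subspace. -/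
theorem exists_nondeg_inv_le (hr : (r : F) ≠ 0) (hr2 : r ≠ 2) {B : LinearMap.BilinForm F V} (hA : B.IsAlt)
    {x : End F V} (hxB : ∀ u v, B (x u) (x v) = B u v) (hx : x ^ r = 1)
    {P : Submodule F V} (hPx : P.map x ≤ P) (hP : NondegOn B P)
    {m : ℕ} (hme : Even m) (hcm : Nat.lcm 2 (orderOf (Nat.card F : ZMod r)) ≤ m) (hmP : m ≤ finrank F P)
    (hmod : m % Nat.lcm 2 (orderOf (Nat.card F : ZMod r)) ≤ finrank F P % Nat.lcm 2 (orderOf (Nat.card F : ZMod r))) :
    ∃ W : Submodule F V, W ≤ P ∧ finrank F W = m ∧ NondegOn B W ∧ W.map x ≤ W := by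
  have hinj := injective_of_pow_eq_one hx
  obtain ⟨hF, hM, hsum⟩ := nondegOn_parts hr hA hxB hx hPx hP
  obtain ⟨L, hL⟩ := dvd_finrank_nondeg_moved hr hA hx (map_inf_le hPx (movedSpace_inv x)) hM inf_le_right
  have hc2 : 2 ∣ Nat.lcm 2 (orderOf (Nat.card F : ZMod r)) := Nat.dvd_lcm_left _ _
  have hip := orderOf_pos_zmod (F := F) (r := r) hr
  have hcpos : 0 < Nat.lcm 2 (orderOf (Nat.card F : ZMod r)) := Nat.lcm_pos two_pos hip
  generalize hc : Nat.lcm 2 (orderOf (Nat.card F : ZMod r)) = c at *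
  set a := min L (m / c) with hadef
  have hac : c * a ≤ m := (Nat.mul_le_mul_left c (min_le_right _ _)).trans (Nat.mul_div_le m c)
  have hem : m - c * a ≤ finrank F ↥(P ⊓ fixedSpace x) := by
    rcases le_total L (m / c) with h | h
    · rw [hadef, min_eq_left h]; omega
    · rw [hadef, min_eq_right h]
      have h1 := Nat.div_add_mod m c
      have h2 : finrank F P % c = finrank F ↥(P ⊓ fixedSpace x) % c := by
        rw [← hsum, hL, Nat.add_mul_mod_self_left]
      have h3 := Nat.mod_le (finrank F ↥(P ⊓ fixedSpace x)) c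
      omega
  obtain ⟨e, he⟩ : 2 ∣ m - c * a := Nat.dvd_sub hme.two_dvd (hc2.mul_right a)
  obtain ⟨T, hTM, hTx, hT, hTd⟩ := exists_nondeg_mul hA.isRefl hxB hinj (c := c)
    (map_inf_le hPx (movedSpace_inv x)) hM
    (fun Q hQ hQx hQn hQ0 => hc ▸ exists_nondeg_piece hr hr2 hA hxB hx hQx hQn (hQ.trans inf_le_right) hQ0) a
    (hL ▸ Nat.mul_le_mul_left c (min_le_left _ _))
  obtain ⟨S, hSF, hSx, hS, hSd⟩ := exists_nondeg_fixed hA hxB hinj inf_le_right hF e (by omega)
  obtain ⟨h1, h2⟩ := hS.sup hA.isRefl hT fun s hs t ht => fixed_orth_moved B x hxB s (hSF hs).2 t (hTM ht).2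
  exact ⟨S ⊔ T, sup_le (hSF.trans inf_le_left) (hTM.trans inf_le_left), by rw [h2, hSd, hTd]; omega, h1,
    map_sup_le hSx hTx⟩

/-- Invariant orthogonal parts of dimension `a`. -/
theorem exists_nondeg_parts (hr : (r : F) ≠ 0) (hr2 : r ≠ 2) {B : LinearMap.BilinForm F V} (hA : B.IsAlt)
    {x : End F V} (hxB : ∀ u v, B (x u) (x v) = B u v) (hx : x ^ r = 1) {a : ℕ} (hae : Even a)
    (hca : Nat.lcm 2 (orderOf (Nat.card F : ZMod r)) ≤ a) :
    ∀ (s : ℕ) (P : Submodule F V), P.map x ≤ P → NondegOn B P → finrank F P = a * s →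
      s * (a % Nat.lcm 2 (orderOf (Nat.card F : ZMod r))) < Nat.lcm 2 (orderOf (Nat.card F : ZMod r)) →
      ∃ D : Fin s → Submodule F V, iSup D = P ∧
        (∀ j, finrank F (D j) = a ∧ NondegOn B (D j) ∧ (D j).map x ≤ D j) ∧
        ∀ j j', j ≠ j' → ∀ u ∈ D j, ∀ v ∈ D j', B u v = 0 := by
  intro s
  induction s with
  | zero =>
    intro P _ _ hPd _
    refine ⟨Fin.elim0, ?_, fun j => j.elim0, fun j => j.elim0⟩
    rw [iSup_of_empty, eq_comm, ← Submodule.finrank_eq_zero, hPd, Nat.mul_zero]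
  | succ s ih =>
    intro P hPx hP hPd hlt
    generalize hc : Nat.lcm 2 (orderOf (Nat.card F : ZMod r)) = c at *
    have hmod : finrank F P % c = (s + 1) * (a % c) := by
      rw [hPd, mul_comm a, ← Nat.mul_mod_mod, Nat.mod_eq_of_lt hlt]
    obtain ⟨W, hWP, hWd, hW, hWx⟩ := exists_nondeg_inv_le hr hr2 hA hxB hx hPx hP hae (hc ▸ hca)
      (by rw [hPd]; exact Nat.le_mul_of_pos_right a (Nat.succ_pos s))
      (by rw [hc, hmod]; exact Nat.le_mul_of_pos_left _ (Nat.succ_pos s))
    obtain ⟨Q, hQP, hQx, hQ, -, hsum, ho⟩ := nondegOn_split_inv hA.isRefl hxB (injective_of_pow_eq_one hx)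
      hWP hPx hWx hP hW
    have hQd := (hW.sup hA.isRefl hQ ho).2
    rw [hsum, hPd, hWd, Nat.mul_succ] at hQd
    obtain ⟨D, hD, hD1, hD2⟩ := ih Q hQx hQ (by omega)
      (lt_of_le_of_lt (Nat.mul_le_mul_right _ (Nat.le_succ s)) hlt)
    have hDQ : ∀ j, D j ≤ Q := fun j => hD ▸ le_iSup D j
    refine ⟨Fin.cons W D, ?_, ?_, ?_⟩
    · refine le_antisymm (iSup_le fun j => ?_) ?_
      · refine Fin.cases ?_ (fun k => ?_) j
        · simpa using hWP
        · simpa using (hDQ k).trans hQP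
      · rw [← hsum]
        refine sup_le (le_iSup_of_le 0 (by simp)) ?_
        rw [← hD]
        exact iSup_le fun k => le_iSup_of_le k.succ (by simp)
    · intro j
      refine Fin.cases ?_ (fun k => ?_) j
      · exact ⟨hWd, hW, hWx⟩
      · exact hD1 k
    · intro j
      refine Fin.cases ?_ (fun k => ?_) j <;> intro j' <;> refine Fin.cases ?_ (fun k' => ?_) j' <;> intro hjj u hu v hv <;>
        simp only [Fin.cons_zero, Fin.cons_succ] at hu hv
      · exact absurd rfl hjj
      · exact ho u hu v (hDQ k' hv)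
      · exact hA.isRefl _ _ (ho v hv u (hDQ k hu))
      · exact hD2 k k' (fun h => hjj (by rw [h])) u hu v hv

omit [Finite F] [FiniteDimensional F V] in
/-- Pairwise orthogonal nondegenerate subspaces are independent. -/
theorem indep_of_orth {B : LinearMap.BilinForm F V} (hA : B.IsAlt) {ι : Type*} {D : ι → Submodule F V}
    (hn : ∀ j, NondegOn B (D j)) (ho : ∀ j j', j ≠ j' → ∀ u ∈ D j, ∀ v ∈ D j', B u v = 0) : iSupIndep D := by
  intro j
  rw [Submodule.disjoint_def]
  intro v hv hv'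
  refine hn j v hv fun y hy => hA.isRefl _ _ ?_
  refine Submodule.iSup_induction _ (motive := fun z => B y z = 0) hv' (fun j' z hz => ?_) (by simp)
    (fun a b ha hb => by simp [ha, hb])
  by_cases hne : j' = j
  · simp only [hne, ne_eq, not_true_eq_false, iSup_false, Submodule.mem_bot] at hz
    simp [hz]
  · rw [iSup_pos hne] at hz
    exact ho j j' (Ne.symm hne) y hy z hz

omit [Fact r.Prime] in
/-- The number of orthogonal decompositions divides the order of the isometry group. -/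
theorem card_orthDecomp_dvd {B : LinearMap.BilinForm F V} (hB : B.Nondegenerate) (hA : B.IsAlt) (t a : ℕ) :
    Nonempty {D : Fin t → Submodule F V // (∀ j, finrank F (D j) = a ∧ NondegOn B (D j)) ∧ iSup D = ⊤ ∧
        ∀ j j', j ≠ j' → ∀ u ∈ D j, ∀ v ∈ D j', B u v = 0} →
    Nat.card {D : Fin t → Submodule F V // (∀ j, finrank F (D j) = a ∧ NondegOn B (D j)) ∧ iSup D = ⊤ ∧
        ∀ j j', j ≠ j' → ∀ u ∈ D j, ∀ v ∈ D j', B u v = 0} ∣
      Nat.card (H2.isometries B) := by
  classical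
  haveI : Finite V := Module.finite_of_finite F
  haveI : Finite (V ≃ₗ[F] V) := Finite.of_injective _ DFunLike.coe_injective
  haveI : Finite (Submodule F V) := Finite.of_injective _ SetLike.coe_injective
  let T := {D : Fin t → Submodule F V // (∀ j, finrank F (D j) = a ∧ NondegOn B (D j)) ∧ iSup D = ⊤ ∧
        ∀ j j', j ≠ j' → ∀ u ∈ D j, ∀ v ∈ D j', B u v = 0}
  intro ⟨(D₀ : T)⟩
  let act : H2.isometries B → T → T := fun g D => ⟨fun j => (D.1 j).map ((g : V ≃ₗ[F] V) : V →ₗ[F] V), fun j =>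
    ⟨(LinearEquiv.finrank_map_eq _ _).trans (D.2.1 j).1, by
      rintro _ ⟨v, hv, rfl⟩ h0
      have : v = 0 := (D.2.1 j).2 v hv fun w hw => by
        rw [← g.2 v w]; exact h0 _ ⟨w, hw, rfl⟩
      simp [this]⟩, by
      rw [← Submodule.map_iSup, D.2.2.1, Submodule.map_top, LinearEquiv.range], by
      rintro j j' hjj _ ⟨u, hu, rfl⟩ _ ⟨v, hv, rfl⟩
      exact (g.2 u v).trans (D.2.2.2 j j' hjj u hu v hv)⟩
  letI : MulAction (H2.isometries B) T :=
    { smul := act
      one_smul := fun D => Subtype.ext (funext fun j => Submodule.map_id _)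
      mul_smul := fun g h D => Subtype.ext (funext fun j => Submodule.map_comp _ _ _) }
  have htrans : MulAction.orbit (H2.isometries B) D₀ = Set.univ := by
    refine Set.eq_univ_of_forall fun D => ?_
    have hint : ∀ E : T, DirectSum.IsInternal E.1 := fun E =>
      DirectSum.isInternal_submodule_of_iSupIndep_of_iSup_eq_top
        (indep_of_orth hA (fun j => (E.2.1 j).2) E.2.2.2) E.2.2.1
    have hiso : ∀ j, ∃ e : D₀.1 j ≃ₗ[F] D.1 j, ∀ u v : D₀.1 j, B (e u : V) (e v : V) = B (u : V) v := by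
      intro j
      obtain ⟨m1, e1, hd1, he1⟩ := H2.exists_equiv_std (B.restrict (D₀.1 j)) ((D₀.2.1 j).2.restrict hA) fun v => hA (v : V)
      obtain ⟨m2, e2, hd2, he2⟩ := H2.exists_equiv_std (B.restrict (D.1 j)) ((D.2.1 j).2.restrict hA) fun v => hA (v : V)
      obtain rfl : m1 = m2 := by have := (D₀.2.1 j).1; have := (D.2.1 j).1; omega
      refine ⟨e1.trans e2.symm, fun u v => ?_⟩
      show B.restrict (D.1 j) (e2.symm (e1 u)) (e2.symm (e1 v)) = B.restrict (D₀.1 j) u v
      rw [← he2, e2.apply_symm_apply, e2.apply_symm_apply, he1]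
    choose e he using hiso
    let b0 := fun j => Module.finBasisOfFinrankEq F (D₀.1 j) (D₀.2.1 j).1
    let b := (hint D₀).collectedBasis b0
    let b' := (hint D).collectedBasis fun j => (b0 j).map (e j)
    let L : V ≃ₗ[F] V := b.equiv b' (Equiv.refl _)
    have hL : ∀ s, L (b s) = b' s := fun s => b.equiv_apply s b' (Equiv.refl _)
    have hb : ∀ s, b s = (b0 s.1 s.2 : V) := fun s => congr_fun ((hint D₀).collectedBasis_coe b0) s
    have hb' : ∀ s, b' s = (e s.1 (b0 s.1 s.2) : V) := fun s => by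
      rw [show b' s = ((b0 s.1).map (e s.1) s.2 : V) from congr_fun ((hint D).collectedBasis_coe _) s]
      simp
    have hLiso : B.compl₁₂ (L : V →ₗ[F] V) (L : V →ₗ[F] V) = B := by
      refine LinearMap.ext_basis b b fun s s' => ?_
      show B (L (b s)) (L (b s')) = B (b s) (b s')
      rw [hL, hL, hb, hb, hb', hb']
      obtain ⟨j, i⟩ := s
      obtain ⟨j', i'⟩ := s'
      by_cases hjj : j = j'
      · subst hjj; exact he j _ _
      · rw [D.2.2.2 j j' hjj _ (Subtype.coe_prop _) _ (Subtype.coe_prop _),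
          D₀.2.2.2 j j' hjj _ (Subtype.coe_prop _) _ (Subtype.coe_prop _)]
    refine ⟨⟨L, fun u v => LinearMap.congr_fun (LinearMap.congr_fun hLiso u) v⟩, Subtype.ext (funext fun j => ?_)⟩
    show (D₀.1 j).map (L : V →ₗ[F] V) = D.1 j
    refine Submodule.eq_of_le_of_finrank_eq ?_
      ((LinearEquiv.finrank_map_eq _ _).trans ((D₀.2.1 j).1.trans (D.2.1 j).1.symm))
    rw [← Submodule.map_subtype_top (D₀.1 j), ← (b0 j).span_eq, Submodule.map_span, Submodule.map_span,
      Submodule.span_le]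
    rintro _ ⟨_, ⟨_, ⟨i, rfl⟩, rfl⟩, rfl⟩
    have := hL ⟨j, i⟩
    rw [hb, hb'] at this
    show L ((b0 j i : D₀.1 j) : V) ∈ D.1 j
    rw [this]
    exact Subtype.coe_prop _
  have h := H2.card_eq_orbit_mul_stabilizer (G := H2.isometries B) D₀
  rw [htrans, Nat.card_coe_set_eq, Set.ncard_univ] at h
  exact Dvd.intro _ h.symm

omit [Fact r.Prime] in
/-- Orthogonal decompositions into parts of any even dimension exist. -/
theorem exists_orth_parts {B : LinearMap.BilinForm F V} (hA : B.IsAlt) {a : ℕ} (hae : Even a) :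
    ∀ (s : ℕ) (P : Submodule F V), NondegOn B P → finrank F P = a * s →
      ∃ D : Fin s → Submodule F V, iSup D = P ∧ (∀ j, finrank F (D j) = a ∧ NondegOn B (D j)) ∧
        ∀ j j', j ≠ j' → ∀ u ∈ D j, ∀ v ∈ D j', B u v = 0 := by
  intro s
  induction s with
  | zero =>
    intro P _ hPd
    refine ⟨Fin.elim0, ?_, fun j => j.elim0, fun j => j.elim0⟩
    rw [iSup_of_empty, eq_comm, ← Submodule.finrank_eq_zero, hPd, Nat.mul_zero]
  | succ s ih =>
    intro P hP hPd
    have hfix : fixedSpace (1 : End F V) = ⊤ := by simp [fixedSpace]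
    obtain ⟨e, he⟩ := hae
    have hmap : ∀ Q : Submodule F V, Q.map (1 : End F V) ≤ Q := fun Q => by rintro _ ⟨v, hv, rfl⟩; exact hv
    obtain ⟨W, hWP, -, hW, hWd⟩ := exists_nondeg_fixed hA (x := (1 : End F V)) (fun u v => rfl)
      (fun u v h => h) (P := P) (hfix ▸ le_top) hP e (by rw [hPd, Nat.mul_succ]; omega)
    obtain ⟨Q, hQP, -, hQ, -, hsum, ho⟩ := nondegOn_split_inv hA.isRefl (x := (1 : End F V)) (fun u v => rfl)
      (fun u v h => h) hWP (hmap P) (hmap W) hP hW
    have hQd := (hW.sup hA.isRefl hQ ho).2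
    rw [hsum, hPd, hWd, Nat.mul_succ] at hQd
    obtain ⟨D, hD, hD1, hD2⟩ := ih Q hQ (by omega)
    have hDQ : ∀ j, D j ≤ Q := fun j => hD ▸ le_iSup D j
    refine ⟨Fin.cons W D, ?_, ?_, ?_⟩
    · refine le_antisymm (iSup_le fun j => ?_) ?_
      · refine Fin.cases ?_ (fun k => ?_) j
        · simpa using hWP
        · simpa using (hDQ k).trans hQP
      · rw [← hsum]
        refine sup_le (le_iSup_of_le 0 (by simp)) ?_
        rw [← hD]
        exact iSup_le fun k => le_iSup_of_le k.succ (by simp)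
    · intro j
      refine Fin.cases ?_ (fun k => ?_) j
      · exact ⟨show finrank F W = a by omega, hW⟩
      · exact hD1 k
    · intro j
      refine Fin.cases ?_ (fun k => ?_) j <;> intro j' <;> refine Fin.cases ?_ (fun k' => ?_) j' <;> intro hjj u hu v hv <;>
        simp only [Fin.cons_zero, Fin.cons_succ] at hu hv
      · exact absurd rfl hjj
      · exact ho u hu v (hDQ k' hv)
      · exact hA.isRefl _ _ (ho v hv u (hDQ k hu))
      · exact hD2 k k' (fun h => hjj (by rw [h])) u hu v hv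

/-- The criterion for orthogonal decompositions. -/
theorem sp_elusive_decomp_iff (hr : (r : F) ≠ 0) (hr2 : r ≠ 2) {d a t : ℕ} (hd : 1 ≤ d) (hat : 2 * d = a * t)
    (ha : 2 ≤ a) (hae : Even a) (ht : 2 ≤ t)
    (hdvd : r ∣ Nat.card (H2.isometries (H2.sympBilin d F))) :
    SpElusiveFor r d (fun f : End F (Fin d ⊕ Fin d → F) => ∃ D : Fin t → Submodule F (Fin d ⊕ Fin d → F),
        ((∀ j, finrank F (D j) = a ∧ NondegOn (H2.sympBilin d F) (D j)) ∧ iSup D = ⊤ ∧
          ∀ j j', j ≠ j' → ∀ u ∈ D j, ∀ v ∈ D j', H2.sympBilin d F u v = 0) ∧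
        ∃ σ : Equiv.Perm (Fin t), ∀ j, (D j).map f = D (σ j)) ↔
      (Nat.lcm 2 (orderOf (Nat.card F : ZMod r)) ≤ a ∧
        (2 * d) % Nat.lcm 2 (orderOf (Nat.card F : ZMod r)) = t * (a % Nat.lcm 2 (orderOf (Nat.card F : ZMod r)))) := by
  have hA := H2.sympBilin_isAlt d F
  have hodd := (Fact.out : r.Prime).odd_of_ne_two hr2
  have hip := orderOf_pos_zmod (F := F) (r := r) hr
  have hcpos : 0 < Nat.lcm 2 (orderOf (Nat.card F : ZMod r)) := Nat.lcm_pos two_pos hip
  have hV := finrank_symp (F := F) (d := d)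
  -- `c ≤ r - 1`
  have hcr : Nat.lcm 2 (orderOf (Nat.card F : ZMod r)) ≤ r - 1 := by
    have h1 := (ZMod.orderOf_dvd_card_sub_one (natCard_ne_zero_zmod (F := F) (r := r) hr))
    obtain ⟨k, hk⟩ := hodd
    exact Nat.le_of_dvd (by have := (Fact.out : r.Prime).two_le; omega) (Nat.lcm_dvd ⟨k, by omega⟩ h1)
  -- `c ≤ 2d`
  have hcn : Nat.lcm 2 (orderOf (Nat.card F : ZMod r)) ≤ 2 * d := by
    obtain ⟨iso⟩ := H2.isometries_equiv_sp (H2.sympBilin d F) (H2.sympBilin_nondegenerate d F) hA hV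
    rw [Nat.card_congr iso.toEquiv, H2.card_sp] at hdvd
    rcases (Fact.out : r.Prime).dvd_mul.1 hdvd with h3 | h3
    · exact absurd ((ZMod.natCast_eq_zero_iff _ _).2 ((Fact.out : r.Prime).dvd_of_dvd_pow h3)) (natCard_ne_zero_zmod hr)
    obtain ⟨l, hl, hdl⟩ := (Fact.out : r.Prime).prime.exists_mem_finset_dvd h3
    rw [Finset.mem_range] at hl
    refine (Nat.le_of_dvd (by omega) (Nat.lcm_dvd (dvd_mul_right 2 (l + 1))
      (orderOf_dvd_of_modEq ((Nat.modEq_iff_dvd' (Nat.one_le_pow _ _ Nat.card_pos)).2 hdl).symm))).trans (by omega)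
  constructor
  · intro h
    have get : ∀ l : ℕ, 0 < l → Nat.lcm 2 (orderOf (Nat.card F : ZMod r)) * l ≤ 2 * d →
        ∃ (f : End F (Fin d ⊕ Fin d → F)) (D : Fin t → Submodule F (Fin d ⊕ Fin d → F)) (σ : Equiv.Perm (Fin t)),
          f ^ r = 1 ∧ (∀ u v, H2.sympBilin d F (f u) (f v) = H2.sympBilin d F u v) ∧
          (∀ c : F, c ^ r = 1 → c • (1 : End F (Fin d ⊕ Fin d → F)) ≠ f) ∧
          finrank F (movedSpace f) = Nat.lcm 2 (orderOf (Nat.card F : ZMod r)) * l ∧
          finrank F (fixedSpace f) = 2 * d - Nat.lcm 2 (orderOf (Nat.card F : ZMod r)) * l ∧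
          (∀ j, finrank F (D j) = a) ∧ (∀ j, NondegOn (H2.sympBilin d F) (D j)) ∧ iSupIndep D ∧
          ∀ j, (D j).map f = D (σ j) := by
      intro l hl hle
      obtain ⟨f, hfB, hfr, hfd⟩ := exists_isometry_moved (r := r) hr l (Fin d ⊕ Fin d → F) (H2.sympBilin d F)
        (H2.sympBilin_nondegenerate d F) hA (by rw [hV]; exact hle)
      have hne : f ≠ 1 := fun h1 => by
        rw [h1, movedSpace, sub_self, LinearMap.range_zero, finrank_bot] at hfd
        have := Nat.mul_pos hcpos hl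
        omega
      obtain ⟨x, hxf, hxz⟩ := exists_sp_of_isometry f hfB hfr
      obtain ⟨D, ⟨hD1, hD2, hD3⟩, σ, hσ⟩ := h x hxz fun c hc => nonscalar_of_isometry hd hodd hfB hfr hne c (by
        rw [← hxf, hc, map_smul, Matrix.toLin'_one]; rfl)
      rw [hxf] at hσ
      have hsum := Submodule.finrank_add_eq_of_isCompl (isCompl_fixed_moved hr f hfr)
      rw [hV, hfd] at hsum
      exact ⟨f, D, σ, hfr, hfB, fun c _ hc => nonscalar_of_isometry hd hodd hfB hfr hne c hc.symm, hfd, by omega,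
        fun j => (hD1 j).1, fun j => (hD1 j).2, indep_of_orth hA (fun j => (hD1 j).2) hD3, hσ⟩
    have bound : ∀ {f : End F (Fin d ⊕ Fin d → F)} {D : Fin t → Submodule F (Fin d ⊕ Fin d → F)},
        f ^ r = 1 → (∀ u v, H2.sympBilin d F (f u) (f v) = H2.sympBilin d F u v) →
        (∀ j, finrank F (D j) = a) → (∀ j, NondegOn (H2.sympBilin d F) (D j)) → iSupIndep D →
        (∀ j, (D j).map f = D j) →
        t * (a % Nat.lcm 2 (orderOf (Nat.card F : ZMod r))) ≤ finrank F (fixedSpace f) ∧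
          (a < Nat.lcm 2 (orderOf (Nat.card F : ZMod r)) → t * a ≤ finrank F (fixedSpace f)) := by
      intro f D hfr hfB hd1 hn hind hinv
      have h1 : ∀ j, a % Nat.lcm 2 (orderOf (Nat.card F : ZMod r)) ≤ finrank F ↥(D j ⊓ fixedSpace f) ∧
          (a < Nat.lcm 2 (orderOf (Nat.card F : ZMod r)) → a ≤ finrank F ↥(D j ⊓ fixedSpace f)) := fun j => by
        obtain ⟨-, h2, hdim⟩ := nondegOn_parts hr hA hfB hfr (hinv j).le (hn j)
        obtain ⟨l, hl⟩ := dvd_finrank_nondeg_moved hr hA hfr (W := D j ⊓ movedSpace f)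
          (map_inf_le (hinv j).le (movedSpace_inv f)) h2 inf_le_right
        rw [hl, hd1] at hdim
        refine ⟨?_, fun hlt => ?_⟩
        · rw [← hdim, Nat.add_mul_mod_self_left]; exact Nat.mod_le _ _
        · rcases Nat.eq_zero_or_pos l with rfl | hl0
          · omega
          · have := Nat.le_mul_of_pos_right (Nat.lcm 2 (orderOf (Nat.card F : ZMod r))) hl0
            omega
      have h2 := finrank_sup_of_indep (hind.mono fun j => (inf_le_left : D j ⊓ fixedSpace f ≤ D j)) Finset.univ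
      have h3 : finrank F ↥(Finset.univ.sup fun j => D j ⊓ fixedSpace f) ≤ finrank F (fixedSpace f) :=
        Submodule.finrank_mono (Finset.sup_le fun j _ => inf_le_right)
      rw [h2] at h3
      refine ⟨le_trans ?_ h3, fun hlt => le_trans ?_ h3⟩
      · have h4 := Finset.sum_le_sum (s := (Finset.univ : Finset (Fin t))) fun j _ => (h1 j).1
        rwa [Finset.sum_const, Finset.card_univ, Fintype.card_fin, smul_eq_mul] at h4
      · have h4 := Finset.sum_le_sum (s := (Finset.univ : Finset (Fin t))) fun j _ => (h1 j).2 hlt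
        rwa [Finset.sum_const, Finset.card_univ, Fintype.card_fin, smul_eq_mul] at h4
    -- a single block gives `c ≤ a`
    obtain ⟨f, D, σ, hfr, hfB, -, hfm, hff, hd1, hn, hind, hσ⟩ := get 1 one_pos (by rwa [mul_one])
    have hca : Nat.lcm 2 (orderOf (Nat.card F : ZMod r)) ≤ a := by
      by_cases hσ1 : ∀ j, σ j = j
      · by_contra hlt
        have h1 := (bound hfr hfB hd1 hn hind fun j => by rw [hσ, hσ1]).2 (by omega)
        rw [mul_comm, ← hat, hff] at h1
        omega
      · push Not at hσ1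
        obtain ⟨j, hj⟩ := hσ1
        have hb := moved_part_bound hr hfr hd1 (by omega) hind hσ hj
        rw [hfm, mul_one] at hb
        have : 2 * (r - 1) ≤ a * (r - 1) := Nat.mul_le_mul_right _ ha
        have := (Fact.out : r.Prime).two_le
        omega
    refine ⟨hca, ?_⟩
    -- the minimal fixed space
    obtain ⟨f, D, σ, hfr, hfB, hscal, hfm, hff, hd1, hn, hind, hσ⟩ :=
      get (2 * d / Nat.lcm 2 (orderOf (Nat.card F : ZMod r))) (Nat.div_pos hcn hcpos) (Nat.mul_div_le _ _)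
    have hmod := Nat.mod_add_div (2 * d) (Nat.lcm 2 (orderOf (Nat.card F : ZMod r)))
    have hlt := Nat.mod_lt (2 * d) hcpos
    have hfix : finrank F (fixedSpace f) = (2 * d) % Nat.lcm 2 (orderOf (Nat.card F : ZMod r)) := by omega
    by_cases hσ1 : ∀ j, σ j = j
    · have h1 := (bound hfr hfB hd1 hn hind fun j => by rw [hσ, hσ1]).1
      rw [hfix] at h1
      generalize Nat.lcm 2 (orderOf (Nat.card F : ZMod r)) = c at *
      have h2 : t * (a % c) % c = (2 * d) % c := by rw [hat, mul_comm a t, Nat.mul_mod t a, Nat.mul_mod t (a % c), Nat.mod_mod]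
      rw [Nat.mod_eq_of_lt (by omega)] at h2
      exact h2.symm
    · exfalso
      push Not at hσ1
      obtain ⟨j, hj⟩ := hσ1
      have h1 := rank_orbitSum_of_moved hfr hd1 (by omega) hind hσ hj
      rw [(ker_orbitSum hr hfr).2] at h1
      omega
  · intro hc x hx _
    obtain ⟨w, f, hw, hfr, hfB, hxf⟩ := sp_setup hd (Or.inl hodd) x hx
    obtain ⟨D, hD, hD1, hD2⟩ := exists_nondeg_parts hr hr2 hA hfB hfr hae hc.1 t ⊤ le_top sympBilin_nondegOn_top
      (by rw [finrank_top, hV, hat]) (by rw [← hc.2]; exact Nat.mod_lt _ hcpos)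
    refine ⟨D, ⟨fun j => ⟨(hD1 j).1, (hD1 j).2.1⟩, hD, hD2⟩, 1, fun j => ?_⟩
    rw [hxf, Submodule.map_smul _ _ _ hw]
    exact Submodule.eq_of_le_of_finrank_eq (hD1 j).2.2
      (Submodule.equivMapOfInjective f (injective_of_pow_eq_one hfr) _).finrank_eq.symm

end Cfsg.Agent.H97
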