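import Mathlib

/-! Alternating spaces with an isometry whose square is scalar: decomposition into invariant pieces. -/

namespace Cfsg.Agent.H97

open Module

variable {F V : Type*} [Field F] [AddCommGroup V] [Module F V] [FiniteDimensional F V]

/-- `P` is nondegenerate for `B`. -/
def NondegOn (B : LinearMap.BilinForm F V) (P : Submodule F V) : Prop :=
  ∀ v ∈ P, (∀ w ∈ P, B v w = 0) → v = 0

/-- Splitting of a nondegenerate invariant subspace along a nondegenerate invariant piece. -/
theorem nondegOn_split {B : LinearMap.BilinForm F V} (hB : B.IsRefl) {x : V →ₗ[F] V}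
    (hxB : ∀ u v, B (x u) (x v) = B u v) {z : F} (hz : z ≠ 0) (hx : ∀ v, x (x v) = z • v)
    {P T : Submodule F V} (hTP : T ≤ P) (hPx : ∀ v ∈ P, x v ∈ P) (hTx : ∀ v ∈ T, x v ∈ T)
    (hP : NondegOn B P) (hT : NondegOn B T) :
    ∃ Q : Submodule F V, Q ≤ P ∧ (∀ v ∈ Q, x v ∈ Q) ∧ NondegOn B Q ∧ Disjoint T Q ∧ T ⊔ Q = P ∧
      ∀ t ∈ T, ∀ q ∈ Q, B t q = 0 := by
  have hd : Disjoint T (B.orthogonal T) := by
    rw [Submodule.disjoint_def]
    exact fun v hv ho => hT v hv fun w hw => hB _ _ (ho w hw)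
  have hc := (B.isCompl_orthogonal_iff_disjoint hB).2 hd
  have hsum : T ⊔ (P ⊓ B.orthogonal T) = P := by
    rw [inf_comm, ← sup_inf_assoc_of_le _ hTP, hc.sup_eq_top, top_inf_eq]
  refine ⟨P ⊓ B.orthogonal T, inf_le_left, ?_, ?_, hd.mono_right inf_le_right, hsum,
    fun t ht q hq => hq.2 t ht⟩
  · rintro v ⟨h1, h2⟩
    refine ⟨hPx v h1, fun t ht => ?_⟩
    have : t = x (z⁻¹ • x t) := by rw [map_smul, hx, smul_smul, inv_mul_cancel₀ hz, one_smul]
    rw [this, hxB]
    exact h2 _ (T.smul_mem _ (hTx t ht))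
  · rintro v ⟨h1, h2⟩ hv
    refine hP v h1 fun w hw => ?_
    rw [← hsum] at hw
    obtain ⟨t, ht, q, hq, rfl⟩ := Submodule.mem_sup.1 hw
    rw [map_add, hB _ _ (h2 t ht), hv q hq, add_zero]

/-- Membership in the span of two vectors. -/
theorem mem_span_pair' {u w y : V} :
    y ∈ Submodule.span F {u, w} ↔ ∃ a b : F, a • u + b • w = y := Submodule.mem_span_pair

/-- Induction over invariant nondegenerate subspaces for an isometry of an alternating form with scalar
square: pieces are scalar planes, cyclic planes and swapped pairs of planes. -/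
theorem sympSquare_induction (B : LinearMap.BilinForm F V) (hB : B.IsAlt) (x : V →ₗ[F] V)
    (hxB : ∀ u v, B (x u) (x v) = B u v) (z : F) (hz : z ≠ 0) (hx : ∀ v, x (x v) = z • v)
    (C : Submodule F V → Prop) (hC0 : C ⊥)
    (hScal : ∀ (u w : V) (c : F), B u w = 1 → x u = c • u → x w = c • w → C (Submodule.span F {u, w}))
    (hCyc : ∀ v : V, B v (x v) ≠ 0 → C (Submodule.span F {v, x v}))
    (hPair : ∀ u w : V, B u w = 1 → B u (x u) = 0 → B u (x w) = 0 → B w (x u) = 0 → B w (x w) = 0 → z = 1 →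
      C (Submodule.span F {u, w} ⊔ Submodule.span F {x u, x w}))
    (hSup : ∀ P Q, C P → C Q → Disjoint P Q → (∀ p ∈ P, ∀ q ∈ Q, B p q = 0) → C (P ⊔ Q)) :
    ∀ P : Submodule F V, (∀ v ∈ P, x v ∈ P) → NondegOn B P → C P := by
  intro P
  induction hn : finrank F P using Nat.strong_induction_on generalizing P with
  | _ n ih =>
    subst hn
    intro hPx hP
    by_cases hP0 : P = ⊥
    · exact hP0 ▸ hC0
    -- reduction to finding a single piece
    suffices h : ∃ T, C T ∧ T ≤ P ∧ T ≠ ⊥ ∧ (∀ v ∈ T, x v ∈ T) ∧ NondegOn B T by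
      obtain ⟨T, hCT, hTP, hT0, hTx, hT⟩ := h
      obtain ⟨Q, hQP, hQx, hQ, hd, hsum, ho⟩ := nondegOn_split hB.isRefl hxB hz hx hTP hPx hTx hP hT
      rw [← hsum]
      refine hSup T Q hCT (ih _ (Submodule.finrank_lt_finrank_of_lt (lt_of_le_of_ne hQP fun he => ?_))
        Q rfl hQx hQ) hd ho
      exact hT0 (le_bot_iff.1 (hd (le_refl T) (he ▸ hTP)))
    by_cases hcyc : ∃ v ∈ P, B v (x v) ≠ 0
    · obtain ⟨v, hv, hne⟩ := hcyc
      refine ⟨_, hCyc v hne, Submodule.span_le.2 (Set.insert_subset hv (Set.singleton_subset_iff.2 (hPx v hv))),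
        fun h0 => ?_, ?_, ?_⟩
      · have := (Submodule.mem_bot F).1 (h0 ▸ Submodule.mem_span_of_mem (show v ∈ ({v, x v} : Set V) by simp))
        simp [this] at hne
      · intro y hy
        obtain ⟨a, b, rfl⟩ := mem_span_pair'.1 hy
        exact mem_span_pair'.2 ⟨b * z, a, by simp [hx, smul_smul, add_comm]⟩
      · intro y hy h0
        obtain ⟨a, b, rfl⟩ := mem_span_pair'.1 hy
        have h1 := h0 v (Submodule.mem_span_of_mem (by simp))
        have h2 := h0 (x v) (Submodule.mem_span_of_mem (by simp))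
        simp only [map_add, map_smul, LinearMap.add_apply, LinearMap.smul_apply, smul_eq_mul, hB v,
          hB (x v), mul_zero, add_zero, zero_add, mul_eq_zero, hne, or_false,
          ← hB.neg_eq v (x v), neg_eq_zero] at h1 h2
        simp [h1, h2]
    push Not at hcyc
    have hpol : ∀ u ∈ P, ∀ w ∈ P, B u (x w) = -B w (x u) := fun u hu w hw => by
      have := hcyc (u + w) (P.add_mem hu hw)
      simp only [map_add, LinearMap.add_apply, hcyc u hu, hcyc w hw] at this
      linear_combination this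
    have hiso : ∀ u w, B u (x w) = z * B (x u) w := fun u w => by
      rw [← hxB u (x w), hx, map_smul, smul_eq_mul]
    obtain ⟨u₀, hu₀, hu₀0⟩ := (Submodule.ne_bot_iff P).1 hP0
    have hz1 : z = 1 := by
      have hxu : x u₀ ≠ 0 := fun h => hu₀0 (by
        have := hx u₀; rw [h, map_zero, eq_comm, smul_eq_zero] at this; exact this.resolve_left hz)
      have hex : ∃ w ∈ P, B (x u₀) w ≠ 0 := by
        by_contra hne; push Not at hne; exact hxu (hP _ (hPx _ hu₀) hne)
      obtain ⟨w, hw, hne⟩ := hex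
      have := hpol u₀ hu₀ w hw
      rw [hiso, ← hB.neg_eq (x u₀) w, neg_neg] at this
      exact mul_right_cancel₀ hne (by rw [this, one_mul])
    by_cases heig : ∀ v ∈ P, ∃ c : F, x v = c • v
    · have hex : ∃ w ∈ P, B u₀ w ≠ 0 := by
        by_contra hne; push Not at hne; exact hu₀0 (hP _ hu₀ hne)
      obtain ⟨w, hw, hne⟩ := hex
      set w' := (B u₀ w)⁻¹ • w
      have hw' : w' ∈ P := P.smul_mem _ hw
      have h1 : B u₀ w' = 1 := by simp [w', hne]
      obtain ⟨c, hc⟩ := heig u₀ hu₀
      obtain ⟨d, hd⟩ := heig w' hw'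
      obtain ⟨e, he⟩ := heig (u₀ + w') (P.add_mem hu₀ hw')
      have key := he
      rw [map_add, hc, hd, smul_add] at key
      have hce : c = e := by
        have := congrArg (fun y => B y w') key
        simpa [h1, hB w'] using this
      have hde : d = e := by
        have := congrArg (fun y => B u₀ y) key
        simpa [h1, hB u₀] using this
      refine ⟨_, hScal u₀ w' e h1 (hce ▸ hc) (hde ▸ hd),
        Submodule.span_le.2 (Set.insert_subset hu₀ (Set.singleton_subset_iff.2 hw')), fun h0 => ?_, ?_, ?_⟩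
      · exact hu₀0 ((Submodule.mem_bot F).1 (h0 ▸ Submodule.mem_span_of_mem (by simp)))
      · intro y hy
        obtain ⟨a, b, rfl⟩ := mem_span_pair'.1 hy
        exact mem_span_pair'.2 ⟨a * c, b * d, by simp [hc, hd, smul_smul]⟩
      · intro y hy h0
        obtain ⟨a, b, rfl⟩ := mem_span_pair'.1 hy
        have g1 := h0 u₀ (Submodule.mem_span_of_mem (by simp))
        have g2 := h0 w' (Submodule.mem_span_of_mem (by simp))
        simp only [map_add, map_smul, LinearMap.add_apply, LinearMap.smul_apply, smul_eq_mul, hB u₀,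
          hB w', h1, ← hB.neg_eq u₀ w', mul_zero, add_zero, zero_add, mul_neg, mul_one,
          neg_eq_zero] at g1 g2
        simp [g1, g2]
    push Not at heig
    obtain ⟨u, hu, hux⟩ := heig
    obtain ⟨w, hw, hw1, hw2⟩ : ∃ w ∈ P, B u w = 1 ∧ B (x u) w = 0 := by
      by_contra hne
      push Not at hne
      have hxu0 : x u ≠ 0 := fun h => hux 0 (by rw [h, zero_smul])
      have hex : ∃ w ∈ P, B (x u) w ≠ 0 := by
        by_contra h; push Not at h; exact hxu0 (hP _ (hPx _ hu) h)
      obtain ⟨w1, hw1, hw1n⟩ := hex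
      set a := B u w1 / B (x u) w1 with ha
      have hall : ∀ y ∈ P, B (u - a • x u) y = 0 := by
        intro y hy
        set y' := y - (B (x u) y / B (x u) w1) • w1
        have hy' : y' ∈ P := P.sub_mem hy (P.smul_mem _ hw1)
        have hy0 : B (x u) y' = 0 := by simp [y', div_mul_cancel₀ _ hw1n]
        have hy1 : B u y' = 0 := by
          by_contra h
          exact hne ((B u y')⁻¹ • y') (P.smul_mem _ hy') (by simp [h]) (by simp [hy0])
        simp only [y', map_sub, map_smul, smul_eq_mul, sub_eq_zero] at hy1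
        simp only [map_sub, map_smul, LinearMap.sub_apply, LinearMap.smul_apply, smul_eq_mul, hy1, ha]
        field_simp
        ring
      have h0 : u = a • x u :=
        sub_eq_zero.1 (hP _ (P.sub_mem hu (P.smul_mem _ (hPx _ hu))) hall)
      have h1 := congrArg x h0
      rw [map_smul, hx, hz1, one_smul] at h1
      exact hux a h1
    have a1 : B u (x u) = 0 := hcyc u hu
    have a2 : B u (x w) = 0 := by rw [hiso, hw2, mul_zero]
    have a3 : B w (x u) = 0 := by rw [← hB.neg_eq (x u) w, hw2, neg_zero]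
    have a4 : B w (x w) = 0 := hcyc w hw
    refine ⟨_, hPair u w hw1 a1 a2 a3 a4 hz1, sup_le
      (Submodule.span_le.2 (Set.insert_subset hu (Set.singleton_subset_iff.2 hw)))
      (Submodule.span_le.2 (Set.insert_subset (hPx u hu) (Set.singleton_subset_iff.2 (hPx w hw)))),
      fun h0 => ?_, ?_, ?_⟩
    · have : u = 0 := (Submodule.mem_bot F).1
        (h0 ▸ Submodule.mem_sup_left (Submodule.mem_span_of_mem (by simp)))
      simp [this] at hw1
    · intro y hy
      obtain ⟨p, hp, q, hq, rfl⟩ := Submodule.mem_sup.1 hy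
      obtain ⟨a, b, rfl⟩ := mem_span_pair'.1 hp
      obtain ⟨c, d, rfl⟩ := mem_span_pair'.1 hq
      refine Submodule.mem_sup.2 ⟨_, mem_span_pair'.2 ⟨c, d, rfl⟩, _, mem_span_pair'.2 ⟨a, b, rfl⟩, ?_⟩
      simp [hx, hz1]
      abel
    · intro y hy h0
      obtain ⟨p, hp, q, hq, rfl⟩ := Submodule.mem_sup.1 hy
      obtain ⟨a, b, rfl⟩ := mem_span_pair'.1 hp
      obtain ⟨c, d, rfl⟩ := mem_span_pair'.1 hq
      have g1 := h0 u (Submodule.mem_sup_left (Submodule.mem_span_of_mem (by simp)))
      have g2 := h0 w (Submodule.mem_sup_left (Submodule.mem_span_of_mem (by simp)))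
      have g3 := h0 (x u) (Submodule.mem_sup_right (Submodule.mem_span_of_mem (by simp)))
      have g4 := h0 (x w) (Submodule.mem_sup_right (Submodule.mem_span_of_mem (by simp)))
      simp only [map_add, map_smul, LinearMap.add_apply, LinearMap.smul_apply, smul_eq_mul, hxB, hB u,
        hB w, hw1, a1, a2, a3, a4, ← hB.neg_eq u w, ← hB.neg_eq u (x u), ← hB.neg_eq u (x w),
        ← hB.neg_eq w (x u), ← hB.neg_eq w (x w), mul_zero, add_zero, zero_add, mul_neg, mul_one,
        neg_zero, neg_eq_zero] at g1 g2 g3 g4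
      simp [g1, g2, g3, g4]

end Cfsg.Agent.H97
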