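import Cfsg.Agent.H97.Elements
import Cfsg.Agent.H97.SympInvolution
import Cfsg.Agent.H2.Card

/-! Symplectic elements of prime order with prescribed moved space. -/

namespace Cfsg.Agent.H97

open Module

variable {F : Type*} [Field F] [Finite F] {r : ℕ} [Fact r.Prime]

omit [Finite F] [Fact r.Prime] in
/-- Fixed and moved spaces of an isometry are orthogonal. -/
theorem fixed_orth_moved {V : Type*} [AddCommGroup V] [Module F V] (B : LinearMap.BilinForm F V) (x : End F V)
    (hx : ∀ u v, B (x u) (x v) = B u v) : ∀ e ∈ fixedSpace x, ∀ m ∈ movedSpace x, B e m = 0 := by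
  rintro e he _ ⟨w, rfl⟩
  have h := hx e w
  rw [mem_fixedSpace.1 he] at h
  simp [h]

omit [Finite F] in
/-- Fixed and moved spaces of an isometry of order `r` are nondegenerate. -/
theorem nondegOn_fixed_moved {V : Type*} [AddCommGroup V] [Module F V] [FiniteDimensional F V]
    (B : LinearMap.BilinForm F V) (hB : B.IsRefl) (hnd : NondegOn B (⊤ : Submodule F V))
    (hr : (r : F) ≠ 0) (x : End F V) (hx : x ^ r = 1) (hxB : ∀ u v, B (x u) (x v) = B u v) :
    NondegOn B (fixedSpace x) ∧ NondegOn B (movedSpace x) := by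
  have hc := isCompl_fixed_moved hr x hx
  have ho := fixed_orth_moved B x hxB
  constructor <;> intro v hv h0 <;> refine hnd v Submodule.mem_top fun w _ => ?_
  all_goals
    obtain ⟨a, ha, b, hb, rfl⟩ := Submodule.mem_sup.1 (hc.sup_eq_top ▸ Submodule.mem_top : w ∈ fixedSpace x ⊔ movedSpace x)
    rw [map_add]
  · rw [h0 a ha, ho v hv b hb, add_zero]
  · rw [h0 b hb, hB _ _ (ho a ha v hv), add_zero]

omit [Fact r.Prime] in
/-- An element of order `r` in `Sp_{2j}` for `r ∣ q ^ (2j) - 1`. -/
theorem dvd_card_sp {j : ℕ} (hj : 0 < j) (h : r ∣ Nat.card F ^ (2 * j) - 1) :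
    r ∣ Nat.card (Matrix.symplecticGroup (Fin j) F) := by
  rw [H2.card_sp]
  refine Dvd.dvd.mul_left (h.trans ?_) _
  have h1 : 2 * j = 2 * ((j - 1) + 1) := by omega
  rw [h1]
  exact Finset.dvd_prod_of_mem (fun i => Nat.card F ^ (2 * (i + 1)) - 1) (Finset.mem_range.2 (show j - 1 < j by omega))

/-- A symplectic element of order `r` whose moved space has dimension `ord_r q = 2j ≤ 2d`. -/
theorem exists_sp_element (hr : (r : F) ≠ 0) {d j : ℕ} (hj : 2 * j = orderOf (Nat.card F : ZMod r))
    (hjd : j ≤ d) :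
    ∃ x : ↥(Matrix.symplecticGroup (Fin d) F), x ^ r = 1 ∧
      finrank F (movedSpace (Matrix.toLin' (x : Matrix (Fin d ⊕ Fin d) (Fin d ⊕ Fin d) F) :
        End F (Fin d ⊕ Fin d → F))) = 2 * j := by
  classical
  haveI : Fintype F := Fintype.ofFinite F
  have hip := orderOf_pos_zmod (F := F) (r := r) hr
  have hdvd : r ∣ Nat.card (Matrix.symplecticGroup (Fin j) F) := by
    refine dvd_card_sp (by omega) ?_
    rw [hj]
    refine (Nat.modEq_iff_dvd' (Nat.one_le_pow _ _ Nat.card_pos)).1 ?_
    refine ((ZMod.natCast_eq_natCast_iff _ _ _).1 ?_).symm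
    rw [Nat.cast_pow, Nat.cast_one]; exact pow_orderOf_eq_one _
  haveI : Finite (Matrix.symplecticGroup (Fin j) F) := Finite.of_injective _ Subtype.val_injective
  obtain ⟨g, hg⟩ := exists_prime_orderOf_dvd_card' r hdvd
  let gl : End F (Fin j ⊕ Fin j → F) := H2.spRho j F g
  have hgl : gl ^ r = 1 := by rw [← map_pow, ← hg, pow_orderOf_eq_one, map_one]
  -- inclusion and restriction of coordinates
  let c : Fin j ⊕ Fin j → Fin d ⊕ Fin d := Sum.map (Fin.castLE hjd) (Fin.castLE hjd)
  have hc : Function.Injective c := Sum.map_injective.2 ⟨Fin.castLE_injective _, Fin.castLE_injective _⟩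
  let π : (Fin d ⊕ Fin d → F) →ₗ[F] (Fin j ⊕ Fin j → F) := LinearMap.funLeft F F c
  let ι : (Fin j ⊕ Fin j → F) →ₗ[F] (Fin d ⊕ Fin d → F) :=
    { toFun := fun a => Function.extend c a 0
      map_add' := fun a b => funext fun k => by
        by_cases hk : ∃ l, c l = k
        · obtain ⟨l, rfl⟩ := hk; simp [hc.extend_apply]
        · simp [Function.extend_apply' _ _ _ hk]
      map_smul' := fun s a => funext fun k => by
        by_cases hk : ∃ l, c l = k
        · obtain ⟨l, rfl⟩ := hk; simp [hc.extend_apply]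
        · simp [Function.extend_apply' _ _ _ hk] }
  have hπι : ∀ a, π (ι a) = a := fun a => funext fun l => hc.extend_apply a 0 l
  have hιB : ∀ a v, Cfsg.sympForm d F (ι a) v = Cfsg.sympForm j F a (π v) := by
    intro a v
    rw [H2.sympForm_apply, H2.sympForm_apply]
    symm
    refine Fintype.sum_of_injective (Fin.castLE hjd) (Fin.castLE_injective _) _ _ (fun i hi => ?_) (fun i => ?_)
    · have h1 : ∀ s : Fin d ⊕ Fin d, (s = Sum.inl i ∨ s = Sum.inr i) → ι a s = 0 := fun s hs =>
        Function.extend_apply' _ _ _ fun ⟨l, hl⟩ => hi (by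
          rcases l with l | l <;> rcases hs with rfl | rfl <;> simp [c] at hl <;> exact ⟨l, hl⟩)
      rw [h1 _ (Or.inr rfl), h1 _ (Or.inl rfl)]; ring
    · have h1 : ∀ s, ι a (c s) = a s := fun s => hc.extend_apply a 0 s
      show a (Sum.inr i) * v (c (Sum.inl i)) - a (Sum.inl i) * v (c (Sum.inr i)) = _
      rw [← h1 (Sum.inr i), ← h1 (Sum.inl i)]
      rfl
  let f : End F (Fin d ⊕ Fin d → F) := 1 + ι ∘ₗ (gl - 1) ∘ₗ π
  have hf : ∀ v, f v = v + ι (gl (π v) - π v) := fun v => rfl
  have hBB : ∀ u v, Cfsg.sympForm d F u (ι v) = Cfsg.sympForm j F (π u) v := fun u v => by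
    rw [H2.sympForm_swap (ι v) u, hιB, H2.sympForm_swap v (π u)]
  have hiso : ∀ u v, H2.sympBilin d F (f u) (f v) = H2.sympBilin d F u v := by
    intro u v
    simp only [hf, map_add, LinearMap.add_apply, H2.sympBilin_apply]
    rw [hιB, hBB u, hιB, hπι]
    have hg2 : Cfsg.sympForm j F (gl (π u)) (gl (π v)) = Cfsg.sympForm j F (π u) (π v) := by
      simp [gl]
    simp only [← H2.sympBilin_apply, map_sub, LinearMap.sub_apply] at hg2 ⊢
    linear_combination hg2
  have hfk : ∀ (k : ℕ) v, (f ^ k) v = v + ι ((gl ^ k) (π v) - π v) := by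
    intro k
    induction k with
    | zero => intro v; simp
    | succ k ih =>
      intro v
      rw [pow_succ', Module.End.mul_apply, ih, hf, map_add π, hπι, pow_succ' gl, Module.End.mul_apply]
      simp only [map_sub, map_add]
      abel
  have hfr : f ^ r = 1 := LinearMap.ext fun v => by simp [hfk, hgl]
  have hmat : LinearMap.toMatrix' f ∈ Matrix.symplecticGroup (Fin d) F := by
    rw [H2.mem_symplecticGroup_iff]
    intro u v
    rw [← Matrix.toLin'_apply, ← Matrix.toLin'_apply, Matrix.toLin'_toMatrix']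
    simpa using hiso u v
  let x : ↥(Matrix.symplecticGroup (Fin d) F) := ⟨LinearMap.toMatrix' f, hmat⟩
  have hxf : H2.spRho d F x = f := Matrix.toLin'_toMatrix' f
  refine ⟨x, ?_, ?_⟩
  · have h1 : H2.spRho d F (x ^ r) = H2.spRho d F 1 := by rw [map_pow, map_one, hxf, hfr]
    exact Subtype.ext (Matrix.toLin'.injective h1)
  show finrank F (movedSpace (H2.spRho d F x)) = 2 * j
  rw [hxf]
  have hM : movedSpace f = (LinearMap.range (gl - 1)).map ι := by
    ext y
    constructor
    · rintro ⟨v, rfl⟩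
      exact ⟨gl (π v) - π v, ⟨π v, rfl⟩, by simp [hf]⟩
    · rintro ⟨_, ⟨a, rfl⟩, rfl⟩
      exact ⟨ι a, by simp [hf, hπι]⟩
  have hιinj : Function.Injective ι := Function.LeftInverse.injective hπι
  rw [hM, ← (Submodule.equivMapOfInjective ι hιinj _).finrank_eq]
  have hne : LinearMap.range (gl - 1) ≠ ⊥ := fun h => by
    have h1 : H2.spRho j F g = H2.spRho j F 1 := by
      rw [map_one]; exact sub_eq_zero.1 (LinearMap.range_eq_bot.1 h)
    have h2 : g = 1 := Subtype.ext (Matrix.toLin'.injective h1)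
    rw [h2, orderOf_one] at hg
    exact (Fact.out : r.Prime).one_lt.ne hg
  have hd := dvd_finrank_fpf hr gl hgl _ (movedSpace_inv gl) (disjoint_fixed_moved hr gl hgl).symm
  rw [← hj] at hd
  have hle := Submodule.finrank_le (movedSpace gl)
  rw [Module.finrank_fintype_fun_eq_card, Fintype.card_sum, Fintype.card_fin] at hle
  have hpos : 0 < finrank F (movedSpace gl) := Nat.pos_of_ne_zero fun h => hne (Submodule.finrank_eq_zero.1 h)
  have := Nat.le_of_dvd hpos hd
  show finrank F (movedSpace gl) = 2 * j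
  omega

end Cfsg.Agent.H97
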