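import Cfsg.Agent.H97.LinearCriteria
import Cfsg.Agent.H97.Elements
import Cfsg.Agent.H2.Card
import Cfsg.Agent.H2.Basis
import Cfsg.Agent.H2.Form
import Cfsg.Agent.H1.Orders
import Cfsg.Prelude.Def_GeometricClasses

set_option autoImplicit false

/-!
# Operators preserving no alternating form
-/

namespace Cfsg.Agent.H97

open Module
open LinearMap (BilinForm)

variable {F : Type*} [Field F] {V : Type*} [AddCommGroup V] [Module F V]

/-- A matrix with nonzero determinant has a nowhere zero transversal. -/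
theorem exists_perm_of_det_ne_zero {ι : Type*} [Fintype ι] [DecidableEq ι] {G : Matrix ι ι F}
    (h : G.det ≠ 0) : ∃ σ : Equiv.Perm ι, ∀ s, G (σ s) s ≠ 0 := by
  by_contra hcon
  push Not at hcon
  refine h ?_
  rw [Matrix.det_apply]
  refine Finset.sum_eq_zero fun σ _ => ?_
  obtain ⟨s, hs⟩ := hcon σ
  rw [show (∏ i, G (σ i) i) = 0 from Finset.prod_eq_zero (Finset.mem_univ s) hs, smul_zero]

/-- Eigenvalues of a similitude come in pairs. -/
theorem card_eigen_symm {ι : Type*} [Fintype ι] [DecidableEq F] (b : Basis ι F V) (a : ι → F)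
    (T : End F V) (hT : ∀ i, T (b i) = a i • b i) {B : BilinForm F V} (hB : B.Nondegenerate) {c : F}
    (h : ∀ u v, B (T u) (T v) = c * B u v) {v w : F} (hv : v ≠ 0) (hvw : v * w = c) :
    (Finset.univ.filter fun i => a i = v).card ≤ (Finset.univ.filter fun i => a i = w).card := by
  classical
  obtain ⟨σ, hσ⟩ := exists_perm_of_det_ne_zero
    ((BilinForm.nondegenerate_iff_det_ne_zero b).1 hB)
  refine Finset.card_le_card_of_injOn σ (fun s hs => ?_) σ.injective.injOn
  simp only [Finset.coe_filter, Finset.mem_univ, true_and, Set.mem_setOf_eq] at hs ⊢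
  have h1 := h (b (σ s)) (b s)
  have h2 : B (b (σ s)) (b s) ≠ 0 := by
    have := hσ s
    rwa [BilinForm.toMatrix_apply] at this
  rw [hT, hT, hs] at h1
  simp only [map_smul, LinearMap.smul_apply, smul_eq_mul, ← mul_assoc] at h1
  have h3 := mul_right_cancel₀ h2 h1
  rw [← hvw] at h3
  exact mul_left_cancel₀ hv h3

/-- The factor of a similitude of finite order is a root of unity. -/
theorem factor_pow_eq_one {T : End F V} {r : ℕ} (hT : T ^ r = 1) {B : BilinForm F V}
    (hB : B.Nondegenerate) {c : F} (h : ∀ u v, B (T u) (T v) = c * B u v) [Nontrivial V] : c ^ r = 1 := by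
  have hk : ∀ k u v, B ((T ^ k) u) ((T ^ k) v) = c ^ k * B u v := by
    intro k
    induction k with
    | zero => intro u v; simp
    | succ k ih => intro u v; rw [pow_succ', Module.End.mul_apply, Module.End.mul_apply, h, ih, pow_succ']; ring
  obtain ⟨u, hu⟩ := exists_ne (0 : V)
  obtain ⟨v, hv⟩ : ∃ v, B u v ≠ 0 := by
    by_contra hc
    push Not at hc
    exact hu (hB.1 u hc)
  have h1 := hk r u v
  rw [hT, Module.End.one_apply, Module.End.one_apply] at h1
  exact mul_right_cancel₀ hv (h1.symm.trans (one_mul _).symm)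

/-- The fixed space of a semisimple isometry of an alternating form has even dimension. -/
theorem even_finrank_fixed_of_isometry [FiniteDimensional F V] {r : ℕ} [Fact r.Prime] (hr : (r : F) ≠ 0) {T : End F V}
    (hT : T ^ r = 1) {B : BilinForm F V} (hB : B.Nondegenerate) (hA : B.IsAlt)
    (h : ∀ u v, B (T u) (T v) = B u v) : Even (finrank F (fixedSpace T)) := by
  have hperp : ∀ u ∈ fixedSpace T, ∀ v ∈ movedSpace T, B u v = 0 := by
    rintro u hu _ ⟨y, rfl⟩
    rw [LinearMap.sub_apply, Module.End.one_apply, map_sub]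
    conv_lhs => arg 2; rw [← h u y]
    rw [mem_fixedSpace.1 hu, sub_self]
  have hc := isCompl_fixed_moved hr T hT
  have hnd : (B.restrict (fixedSpace T)).Nondegenerate := by
    refine Agent.H2.restrict_nondegenerate (hA := hA) (hW := fun u hu h0 => hB.1 u fun v => ?_)
    obtain ⟨a, ha, b, hb, rfl⟩ := Submodule.mem_sup.1 (hc.sup_eq_top ▸ Submodule.mem_top (x := v))
    rw [map_add, h0 a ha, hperp u hu b hb, add_zero]
  obtain ⟨m, e, hm, -⟩ := Agent.H2.exists_equiv_std (B.restrict (fixedSpace T)) hnd fun u => hA _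
  exact ⟨m, by omega⟩

/-- A regular block of size three together with fixed vectors preserves no alternating form. -/
theorem no_isometry_of_block_three {ι : Type*} (b : Basis ι F V) (T : End F V) {i0 i1 i2 : ι}
    (h0 : T (b i0) = b i0 + b i1) (h1 : T (b i1) = b i1 + b i2) (h2 : T (b i2) = b i2)
    (hrest : ∀ i, i ≠ i0 → i ≠ i1 → T (b i) = b i) {B : BilinForm F V} (hB : B.Nondegenerate)
    (hA : B.IsAlt) (h : ∀ u v, B (T u) (T v) = B u v) : False := by
  have hfix : ∀ i, T (b i) = b i → B (b i2) (b i) = 0 := fun i hi => by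
    have := h (b i1) (b i)
    rw [h1, hi, map_add, LinearMap.add_apply] at this
    exact add_eq_left.1 this
  have e12 : B (b i1) (b i2) = 0 := by
    have := h (b i0) (b i2)
    rw [h0, h2, map_add, LinearMap.add_apply] at this
    exact add_eq_left.1 this
  have e21 : B (b i2) (b i1) = 0 := by rw [← hA.neg_eq (b i1), e12, neg_zero]
  have e20 : B (b i2) (b i0) = 0 := by
    have := h (b i1) (b i0)
    rw [h0, h1] at this
    simp only [map_add, LinearMap.add_apply, hA.self_eq_zero, e21, add_zero] at this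
    exact add_eq_left.1 this
  refine b.ne_zero i2 (hB.1 _ fun v => ?_)
  have : B (b i2) = 0 := b.ext fun i => by
    by_cases hi0 : i = i0
    · rw [hi0, e20]; rfl
    by_cases hi1 : i = i1
    · rw [hi1, e21]; rfl
    rw [hfix i (hrest i hi0 hi1)]; rfl
  rw [this]; rfl

/-- Primes dividing the index of a symplectic group in `SL`. -/
theorem exists_odd_dvd_of_dvd_index [Fintype F] {n m r : ℕ} [Fact r.Prime] (hnm : n = 2 * m) (hm : 0 < m)
    (hrq : ¬ r ∣ Fintype.card F)
    (f : (Fin n → F) → (Fin n → F) → F) (hf : Cfsg.Geo.IsSymplecticForm f)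
    (hΩ : r ∣ ((Cfsg.Geo.similarityGroup f).comap (Matrix.SpecialLinearGroup.toGL :
      Matrix.SpecialLinearGroup (Fin n) F →* GL (Fin n) F)).index) :
    ∃ i < m, r ∣ Fintype.card F ^ (2 * i + 1) - 1 := by
  classical
  set q := Fintype.card F with hq
  have hq2 : 2 ≤ q := Fintype.one_lt_card
  let Bf : BilinForm F (Fin n → F) := LinearMap.mk₂ F f hf.bilinear.add_left
    hf.bilinear.smul_left hf.bilinear.add_right hf.bilinear.smul_right
  have hBfN : Bf.Nondegenerate := by
    refine ⟨fun u hu => ?_, fun v hv => ?_⟩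
    · by_contra h
      obtain ⟨-, w, hw⟩ := hf.nondegenerate u h
      exact hw (hu w)
    · by_contra h
      obtain ⟨⟨w, hw⟩, -⟩ := hf.nondegenerate v h
      exact hw (hv w)
  obtain ⟨m', e, hm', he⟩ := Agent.H2.exists_equiv_std Bf hBfN hf.alternating
  obtain rfl : m = m' := by rw [Module.finrank_fin_fun] at hm'; omega
  let Φ : Matrix (Fin m ⊕ Fin m) (Fin m ⊕ Fin m) F ≃ₐ[F] Matrix (Fin n) (Fin n) F :=
    (Matrix.toLinAlgEquiv'.trans (e.symm.conjAlgEquiv F)).trans LinearMap.toMatrixAlgEquiv'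
  have hΦ : ∀ A v, (Φ A).mulVec v = e.symm (A.mulVec (e v)) := fun A v => by
    rw [← Matrix.toLinAlgEquiv'_apply]
    simp [Φ, Matrix.toLinAlgEquiv'_apply]
  have hdet : ∀ A : Matrix.symplecticGroup (Fin m) F, (Φ A).det = 1 := fun A => by
    show (LinearMap.toMatrix' (e.symm.conj (Matrix.toLin' (A : Matrix (Fin m ⊕ Fin m) (Fin m ⊕ Fin m) F)))).det = 1
    rw [LinearMap.det_toMatrix', LinearEquiv.conj_apply, LinearMap.comp_assoc,
      LinearMap.det_conj (Matrix.toLin' (A : Matrix (Fin m ⊕ Fin m) (Fin m ⊕ Fin m) F)) e.symm,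
      LinearMap.det_toLin']
    exact SymplecticGroup.det_eq_one A.2
  let φ : Matrix.symplecticGroup (Fin m) F →* Matrix.SpecialLinearGroup (Fin n) F :=
    { toFun := fun A => ⟨Φ A, hdet A⟩
      map_one' := Subtype.ext (map_one Φ)
      map_mul' := fun A B => Subtype.ext (map_mul Φ (A : Matrix (Fin m ⊕ Fin m) (Fin m ⊕ Fin m) F) B) }
  have hφ : Function.Injective φ := fun A B h =>
    Subtype.ext (Φ.injective (congrArg Subtype.val h))
  have hle : φ.range ≤ (Cfsg.Geo.similarityGroup f).comap Matrix.SpecialLinearGroup.toGL := by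
    rintro _ ⟨A, rfl⟩
    refine ⟨1, fun u v => ?_⟩
    show f ((Φ A).mulVec u) ((Φ A).mulVec v) = _
    rw [hΦ, hΦ, Units.val_one, one_mul]
    show Bf _ _ = Bf u v
    rw [← he, ← he, e.apply_symm_apply, e.apply_symm_apply, Agent.H2.sympForm_mulVec]
  have hX : r ∣ φ.range.index := hΩ.trans (Subgroup.index_dvd_of_le hle)
  have hcard := φ.range.card_mul_index
  rw [← Nat.card_congr (MonoidHom.ofInjective hφ).toEquiv, Agent.H2.card_sp,
    Nat.card_eq_fintype_card (α := F), ← hq] at hcard
  have hSL := Agent.H1.sub_one_mul_card_SL (F := F) hq.symm n (by omega)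
  rw [← hcard, Fin.prod_univ_eq_prod_range (fun i => q ^ n - q ^ i),
    Finset.prod_congr rfl (fun i hi => show q ^ n - q ^ i = q ^ i * (q ^ (n - i) - 1) by
      rw [Nat.mul_sub, mul_one, ← pow_add, Nat.add_sub_cancel' (Finset.mem_range.1 hi).le]),
    Finset.prod_mul_distrib, ← Finset.prod_range_reflect (fun i => q ^ (n - i) - 1) n] at hSL
  have href : ∀ k, ∏ j ∈ Finset.range (2 * k), (q ^ (j + 1) - 1) =
      (∏ i ∈ Finset.range k, (q ^ (2 * (i + 1)) - 1)) * ∏ i ∈ Finset.range k, (q ^ (2 * i + 1) - 1) := by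
    intro k
    induction k with
    | zero => simp
    | succ k ih =>
      rw [show 2 * (k + 1) = 2 * k + 1 + 1 by ring, Finset.prod_range_succ, Finset.prod_range_succ, ih,
        Finset.prod_range_succ, Finset.prod_range_succ, show 2 * (k + 1) = 2 * k + 1 + 1 by ring]
      ring
  rw [Finset.prod_congr rfl (fun j hj => show q ^ (n - (n - 1 - j)) - 1 = q ^ (j + 1) - 1 by
    rw [show n - (n - 1 - j) = j + 1 by have := Finset.mem_range.1 hj; omega])] at hSL
  generalize φ.range.index = X at hX hSL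
  subst hnm
  rw [href] at hSL
  set A := ∏ i ∈ Finset.range m, (q ^ (2 * (i + 1)) - 1)
  set B := ∏ i ∈ Finset.range m, (q ^ (2 * i + 1) - 1)
  set Q := ∏ i ∈ Finset.range (2 * m), q ^ i
  have hA : 0 < A := Finset.prod_pos fun i _ => by
    have : 1 < q ^ (2 * (i + 1)) := Nat.one_lt_pow (by omega) (by omega)
    omega
  have h2 : Q * B = X * ((q - 1) * q ^ m ^ 2) :=
    Nat.eq_of_mul_eq_mul_left hA (by linarith)
  have h3 : r ∣ Q * B := by rw [h2]; exact hX.mul_right _
  have hp : Prime r := Nat.prime_iff.1 Fact.out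
  rcases hp.dvd_mul.1 h3 with h4 | h4
  · obtain ⟨i, -, hi⟩ := hp.exists_mem_finset_dvd h4
    exact absurd (hp.dvd_of_dvd_pow hi) hrq
  · obtain ⟨i, hi, hri⟩ := hp.exists_mem_finset_dvd h4
    exact ⟨i, Finset.mem_range.1 hi, hri⟩

end Cfsg.Agent.H97
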